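import Mathlib

set_option autoImplicit false

/-! Dual polynomials. -/

namespace Cfsg.Agent.H17

open Polynomial Matrix

section dag

variable {K : Type*} [Field K]

/-- the dual polynomial -/
noncomputable def dagP (σ : K →+* K) (f : K[X]) : K[X] := C (σ (f.coeff 0))⁻¹ * (f.map σ).reverse

variable {σ : K →+* K}

theorem dagP_mul (f g : K[X]) : dagP σ (f * g) = dagP σ f * dagP σ g := by
  unfold dagP
  rw [mul_coeff_zero, map_mul, mul_inv, C_mul, Polynomial.map_mul, reverse_mul_of_domain]
  ring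

theorem natDegree_dagP {f : K[X]} (h0 : f.coeff 0 ≠ 0) : (dagP σ f).natDegree = f.natDegree := by
  unfold dagP
  have h1 : σ (f.coeff 0) ≠ 0 := (map_ne_zero σ).mpr h0
  rw [natDegree_C_mul (inv_ne_zero h1), reverse_natDegree, natDegree_map]
  have h3 : (f.map σ).natTrailingDegree = 0 := by
    apply Nat.eq_zero_of_le_zero
    apply natTrailingDegree_le_of_ne_zero
    rw [coeff_map]; exact h1
  rw [h3, Nat.sub_zero]

theorem dagP_monic {f : K[X]} (h0 : f.coeff 0 ≠ 0) : (dagP σ f).Monic := by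
  have h1 : σ (f.coeff 0) ≠ 0 := (map_ne_zero σ).mpr h0
  have h3 : (f.map σ).natTrailingDegree = 0 := by
    apply Nat.eq_zero_of_le_zero
    apply natTrailingDegree_le_of_ne_zero
    rw [coeff_map]; exact h1
  show (dagP σ f).leadingCoeff = 1
  unfold dagP
  rw [leadingCoeff_mul, leadingCoeff_C, reverse_leadingCoeff, trailingCoeff, h3, coeff_map, inv_mul_cancel₀ h1]

theorem coeff_dagP {f : K[X]} (hf : f.Monic) : (dagP σ f).coeff 0 = (σ (f.coeff 0))⁻¹ := by
  unfold dagP
  rw [coeff_C_mul, coeff_zero_reverse, (hf.map σ).leadingCoeff, mul_one]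

theorem dagP_dagP (hσ2 : ∀ x, σ (σ x) = x) {f : K[X]} (hf : f.Monic) (h0 : f.coeff 0 ≠ 0) : dagP σ (dagP σ f) = f := by
  have h1 : σ (f.coeff 0) ≠ 0 := (map_ne_zero σ).mpr h0
  have e0 : dagP σ (dagP σ f) = C (σ ((dagP σ f).coeff 0))⁻¹ * ((dagP σ f).map σ).reverse := rfl
  have e1 : (σ ((σ (f.coeff 0))⁻¹))⁻¹ = f.coeff 0 := by rw [map_inv₀ σ, hσ2, inv_inv]
  rw [e0, coeff_dagP hf, e1]
  unfold dagP
  rw [Polynomial.map_mul, map_C, reverse_mul_of_domain, reverse_C, map_inv₀, hσ2]
  have h3 : ((f.map σ).reverse.map σ).reverse = f := by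
    have h5 : (f.map σ).reverse.map σ = ((f.map σ).map σ).reverse := by
      apply Polynomial.ext
      intro n
      rw [coeff_map, coeff_reverse, coeff_reverse, natDegree_map, natDegree_map, natDegree_map, coeff_map, coeff_map, coeff_map]
    rw [h5]
    have h6 : (f.map σ).map σ = f := by
      apply Polynomial.ext
      intro n
      rw [coeff_map, coeff_map, hσ2]
    rw [h6]
    apply Polynomial.ext
    intro n
    have h7 : f.reverse.natDegree = f.natDegree := by
      rw [reverse_natDegree]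
      have : f.natTrailingDegree = 0 := Nat.eq_zero_of_le_zero (natTrailingDegree_le_of_ne_zero h0)
      rw [this, Nat.sub_zero]
    rw [coeff_reverse, coeff_reverse, h7, revAt_invol]
  rw [h3, ← mul_assoc, ← C_mul, mul_inv_cancel₀ h0, C_1, one_mul]

theorem dagP_irreducible (hσ2 : ∀ x, σ (σ x) = x) {f : K[X]} (hf : f.Monic) (h0 : f.coeff 0 ≠ 0) (hi : Irreducible f) : Irreducible (dagP σ f) := by
  have hd := natDegree_dagP (σ := σ) h0
  have hm := dagP_monic (σ := σ) h0
  rw [hm.irreducible_iff_natDegree']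
  refine ⟨?_, ?_⟩
  · intro h
    have := hi.natDegree_pos
    rw [h, natDegree_one] at hd
    omega
  · intro a b ha hb hab hmem
    rw [Finset.mem_Ioc] at hmem
    have h1 : a.coeff 0 ≠ 0 ∧ b.coeff 0 ≠ 0 := by
      have h3 : (a * b).coeff 0 ≠ 0 := by
        rw [hab, coeff_dagP hf]
        exact inv_ne_zero ((map_ne_zero σ).mpr h0)
      rw [mul_coeff_zero] at h3
      exact ⟨left_ne_zero_of_mul h3, right_ne_zero_of_mul h3⟩
    have h3 : f = dagP σ a * dagP σ b := by rw [← dagP_mul, hab, dagP_dagP hσ2 hf h0]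
    have h5 := hi.isUnit_or_isUnit h3
    have hda := natDegree_dagP (σ := σ) h1.1
    have hdb := natDegree_dagP (σ := σ) h1.2
    have hdab : (dagP σ f).natDegree = a.natDegree + b.natDegree := by rw [← hab, ha.natDegree_mul hb]
    rcases h5 with h | h
    · have := natDegree_eq_zero_of_isUnit h
      rw [hda] at this
      omega
    · have := natDegree_eq_zero_of_isUnit h
      rw [hdb] at this
      omega

theorem dagP_one : dagP σ (1 : K[X]) = 1 := by
  unfold dagP
  have : (1 : K[X]) = C 1 := C_1.symm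
  rw [this, coeff_C_zero, map_C, reverse_C, map_one, inv_one, ← C_mul, one_mul]

theorem dagP_dvd {f g : K[X]} (h : f ∣ g) : dagP σ f ∣ dagP σ g := by
  obtain ⟨k, rfl⟩ := h
  exact ⟨dagP σ k, dagP_mul f k⟩

theorem dagP_prod {ι : Type*} (s : Finset ι) (f : ι → K[X]) : dagP σ (∏ i ∈ s, f i) = ∏ i ∈ s, dagP σ (f i) := by
  classical
  induction s using Finset.induction_on with
  | empty =>
    rw [Finset.prod_empty, Finset.prod_empty]
    exact dagP_one
  | insert x s hx ih => rw [Finset.prod_insert hx, Finset.prod_insert hx, dagP_mul, ih]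

theorem dagP_pow (f : K[X]) (k : ℕ) : dagP σ (f ^ k) = dagP σ f ^ k := by
  induction k with
  | zero =>
    rw [pow_zero, pow_zero]
    exact dagP_one
  | succ k ih => rw [pow_succ, pow_succ, dagP_mul, ih]

theorem dagP_X_sub_one : dagP σ (X - 1 : K[X]) = X - 1 := by
  have h1 : (X - 1 : K[X]) = X - C 1 := by rw [C_1]
  apply Polynomial.ext
  intro n
  unfold dagP
  rw [coeff_C_mul, coeff_reverse, natDegree_map, h1, natDegree_X_sub_C, coeff_map]
  have h0 : (X - C (1 : K)).coeff 0 = -1 := by simp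
  rw [h0, map_neg, map_one]
  rcases n with _ | _ | n
  · have : revAt 1 0 = 1 := by rw [revAt_le (by norm_num)]
    rw [this]; simp [coeff_one]
  · have : revAt 1 (0 + 1) = 0 := by rw [revAt_le (by norm_num)]
    rw [this]; simp [coeff_one]
  · have : revAt 1 (n + 1 + 1) = n + 1 + 1 := by rw [revAt_eq_self_of_lt (by omega)]
    rw [this]
    simp [coeff_X, coeff_one]

/-- characteristic polynomial of the dual matrix -/
theorem charpoly_dual {n : Type*} [Fintype n] [DecidableEq n] (M : Matrix n n K) (hM : IsUnit M) :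
    (((M.map σ)ᵀ)⁻¹).charpoly = dagP σ M.charpoly := by
  have hdet : M.det ≠ 0 := by
    have := (Matrix.isUnit_iff_isUnit_det M).mp hM
    exact this.ne_zero
  have hd2 : ((M.map σ)ᵀ).det = σ M.det := by
    rw [det_transpose]
    exact (RingHom.map_det σ M).symm
  have hu : IsUnit ((M.map σ)ᵀ) := by
    rw [Matrix.isUnit_iff_isUnit_det, hd2]
    exact isUnit_iff_ne_zero.mpr ((map_ne_zero σ).mpr hdet)
  rw [charpoly_inv _ hu, ← reverse_charpoly, charpoly_transpose, hd2]
  have hc : (M.map σ).charpoly = M.charpoly.map σ := charpoly_map M σ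
  rw [hc]
  unfold dagP
  congr 1
  have h3 : σ (M.charpoly.coeff 0) = (-1) ^ Fintype.card n * σ M.det := by
    have := Matrix.det_eq_sign_charpoly_coeff M
    rw [this, map_mul, map_pow, map_neg, map_one, ← mul_assoc, ← mul_pow]
    simp
  rw [h3, mul_inv, Ring.inverse_eq_inv', C_mul]
  congr 1
  have h5 : ((-1 : K) ^ Fintype.card n)⁻¹ = (-1) ^ Fintype.card n := by
    rw [← inv_pow, inv_neg, inv_one]
  rw [h5]
  simp

end dag

end Cfsg.Agent.H17
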