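import Mathlib
import Cfsg.Agent.H16.PrOrd
import Cfsg.Agent.H17.CcA

set_option autoImplicit false

/-! Counting symmetric tuples. -/

namespace Cfsg.Agent.H17

open Cfsg.Agent.H16.PrOrd

section count

variable {P : Type*} [Fintype P] {ι : P → P}

theorem card_sym_id (hι : ∀ x, ι x = x) {b n : ℕ} (hb : 0 < b) :
    Nat.card {c : P → ℕ // (∀ x, c (ι x) = c x) ∧ c ≠ 0 ∧ b * ∑ x, c x ≤ n} = (n / b + Fintype.card P).choose (Fintype.card P) - 1 := by
  rw [← card_le_sum_ne]
  apply Nat.card_congr
  apply Equiv.subtypeEquivRight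
  intro c
  rw [Nat.le_div_iff_mul_le hb, mul_comm b]
  constructor
  · rintro ⟨_, h1, h2⟩; exact ⟨h1, h2⟩
  · rintro ⟨h1, h2⟩; exact ⟨fun x => by rw [hι], h1, h2⟩

theorem card_sym_free (hι2 : ∀ x, ι (ι x) = x) (hι : ∀ x, ι x ≠ x) {b n : ℕ} (hb : 0 < b) :
    Nat.card {c : P → ℕ // (∀ x, c (ι x) = c x) ∧ c ≠ 0 ∧ b * ∑ x, c x ≤ n} = (n / (2 * b) + Fintype.card P / 2).choose (Fintype.card P / 2) - 1 := by
  classical
  let e := Fintype.equivFin P
  let R : Finset P := Finset.univ.filter (fun x => e x < e (ι x))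
  have hR : ∀ x, x ∈ R ↔ e x < e (ι x) := fun x => by simp [R]
  have hR' : ∀ x, ι x ∈ R ↔ x ∉ R := by
    intro x
    rw [hR, hR, hι2, not_lt]
    constructor
    · exact fun h => h.le
    · intro h
      exact lt_of_le_of_ne h (fun h1 => hι x (e.injective h1))
  have hsum : ∀ c : P → ℕ, (∀ x, c (ι x) = c x) → ∑ x, c x = 2 * ∑ x ∈ R, c x := by
    intro c hc
    have h1 : ∑ x, c x = ∑ x ∈ R, c x + ∑ x ∈ Rᶜ, c x := (Finset.sum_add_sum_compl R c).symm
    have h3 : ∑ x ∈ Rᶜ, c x = ∑ x ∈ R, c x := by
      apply Finset.sum_bij' (fun x _ => ι x) (fun x _ => ι x)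
      · intro x hx
        rw [Finset.mem_compl] at hx
        exact (hR' x).mpr hx
      · intro x hx
        rw [Finset.mem_compl]
        intro h
        exact ((hR' x).mp h) hx
      · intro x _; exact hι2 x
      · intro x _; exact hι2 x
      · intro x _; exact (hc x).symm
    rw [h1, h3, two_mul]
  have hcard : Fintype.card P / 2 = Fintype.card R := by
    have h1 := hsum (fun _ => 1) (fun _ => rfl)
    rw [Finset.sum_const, Finset.sum_const, Finset.card_univ, smul_eq_mul, smul_eq_mul, mul_one, mul_one] at h1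
    rw [h1, Fintype.card_coe]
    omega
  rw [hcard, ← card_le_sum_ne]
  apply Nat.card_congr
  have hsR : ∀ c : P → ℕ, ∑ x ∈ R, c x = ∑ x : R, c x := fun c => (Finset.sum_coe_sort R c).symm
  exact
    { toFun := fun c => ⟨fun x => c.1 x, by
        obtain ⟨c, hc, hc0, hcn⟩ := c
        refine ⟨?_, ?_⟩
        · intro h
          apply hc0
          funext x
          by_cases hx : x ∈ R
          · exact congrFun h ⟨x, hx⟩
          · rw [← hc]
            exact congrFun h ⟨ι x, (hR' x).mpr hx⟩
        · show ∑ x : R, c x ≤ n / (2 * b)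
          rw [Nat.le_div_iff_mul_le (by omega), ← hsR]
          rw [hsum c hc] at hcn
          calc (∑ x ∈ R, c x) * (2 * b) = b * (2 * ∑ x ∈ R, c x) := by ring
            _ ≤ n := hcn⟩
      invFun := fun c => ⟨fun x => if hx : x ∈ R then c.1 ⟨x, hx⟩ else c.1 ⟨ι x, (hR' x).mpr hx⟩, by
        have key : ∀ x, (fun x => if hx : x ∈ R then c.1 ⟨x, hx⟩ else c.1 ⟨ι x, (hR' x).mpr hx⟩) (ι x) = (fun x => if hx : x ∈ R then c.1 ⟨x, hx⟩ else c.1 ⟨ι x, (hR' x).mpr hx⟩) x := by
          intro x
          by_cases hx : x ∈ R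
          · have h1 : ι x ∉ R := fun h => ((hR' x).mp h) hx
            simp only [dif_pos hx, dif_neg h1]
            exact congrArg c.1 (Subtype.ext (hι2 x))
          · have h1 : ι x ∈ R := (hR' x).mpr hx
            simp only [dif_neg hx, dif_pos h1]
        refine ⟨key, ?_, ?_⟩
        · intro h
          apply c.2.1
          funext x
          have := congrFun h x
          simp only [dif_pos x.2] at this
          exact this
        · rw [hsum _ key, hsR]
          have h1 : ∑ x : R, (fun x => if hx : x ∈ R then c.1 ⟨x, hx⟩ else c.1 ⟨ι x, (hR' x).mpr hx⟩) (x : P) = ∑ x, c.1 x := by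
            apply Finset.sum_congr rfl
            intro x _
            simp only [dif_pos x.2]
          rw [h1]
          have h3 := c.2.2
          rw [Nat.le_div_iff_mul_le (by omega)] at h3
          calc b * (2 * ∑ x, c.1 x) = (∑ x, c.1 x) * (2 * b) := by ring
            _ ≤ n := h3⟩
      left_inv := fun c => by
        apply Subtype.ext
        funext x
        by_cases hx : x ∈ R
        · simp only [dif_pos hx]
        · simp only [dif_neg hx]
          exact c.2.1 x
      right_inv := fun c => by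
        apply Subtype.ext
        funext x
        simp only [dif_pos x.2] }

end count

end Cfsg.Agent.H17
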