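import Mathlib
import Cfsg.Agent.H17.CcB

set_option autoImplicit false

/-! Factors of cyclotomic polynomials over finite fields and duality. -/

namespace Cfsg.Agent.H17

open Polynomial UniqueFactorizationMonoid Cfsg.Agent.H16.PrOrd Cfsg.Agent.H16

section cyc

variable {F : Type*} [Field F]

open Classical in
/-- irreducible factors of the cyclotomic polynomial -/
noncomputable def cycP (F : Type*) [Field F] (r : ℕ) : Finset F[X] := (normalizedFactors (cyclotomic r F)).toFinset

structure CycF (F : Type*) [Field F] (r i t : ℕ) : Prop where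
  card : (cycP F r).card = t
  deg : ∀ π ∈ cycP F r, π.natDegree = i
  mi : ∀ π ∈ cycP F r, π.Monic ∧ Irreducible π
  dvd : ∀ π ∈ cycP F r, π ∣ cyclotomic r F
  one : (X - 1 : F[X]) ∉ cycP F r
  cyc : (X ^ r - 1 : F[X]) = (X - 1) * cyclotomic r F
  sq : Squarefree (X ^ r - 1 : F[X])
  fac : ∀ π : F[X], π.Monic → Irreducible π → π ∣ X ^ r - 1 → π = X - 1 ∨ π ∈ cycP F r
  rF : (r : F) ≠ 0
  i0 : 0 < i

theorem cycF [Fintype F] {p q : ℕ} [Fact p.Prime] [CharP F p] (hF : Fintype.card F = q) (r i t : ℕ) (hr : r.Prime) (hrp : r ≠ p)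
    (hi : i = orderOf (q : ZMod r)) (ht : t * i = r - 1) : CycF F r i t := by
  classical
  haveI : Fact r.Prime := ⟨hr⟩
  have hrF : (r : F) ≠ 0 := by
    intro h
    rw [CharP.cast_eq_zero_iff F p] at h
    exact hrp ((Nat.prime_dvd_prime_iff_eq Fact.out hr).1 h).symm
  obtain ⟨e, hpp, hq⟩ := FiniteField.card F p
  have hcop : p.Coprime r := (Nat.coprime_primes hpp hr).2 hrp.symm
  obtain ⟨P, hPdef⟩ : ∃ P : Finset F[X], P = (normalizedFactors (cyclotomic r F)).toFinset := ⟨_, rfl⟩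
  have hPP : cycP F r = P := by
    rw [hPdef]
    unfold cycP
    ext x
    rw [Multiset.mem_toFinset]
  have hord : orderOf (ZMod.unitOfCoprime _ (hcop.pow_left (e : ℕ))) = i := by
    rw [hi, ← orderOf_units, ZMod.coe_unitOfCoprime, ← hF, hq]
  have hi0 : 0 < i := by rw [← hord]; exact orderOf_pos _
  have hPc : P.card = t := by
    rw [hPdef, normalizedFactors_cyclotomic_card hq hcop, hord, Nat.totient_prime hr, ← ht, Nat.mul_div_cancel _ hi0]
  have hPd : ∀ π ∈ P, π.natDegree = i := by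
    intro π hπ
    rw [hPdef, Multiset.mem_toFinset] at hπ
    rw [natDegree_of_mem_normalizedFactors_cyclotomic hq hcop hπ, hord]
  have hP : ∀ π ∈ P, π.Monic ∧ Irreducible π := by
    intro π hπ
    rw [hPdef, Multiset.mem_toFinset] at hπ
    have hirr := irreducible_of_normalized_factor π hπ
    refine ⟨?_, hirr⟩
    rw [← normalize_normalized_factor π hπ]
    exact monic_normalize hirr.ne_zero
  have hPdvd : ∀ π ∈ P, π ∣ cyclotomic r F := by
    intro π hπ
    rw [hPdef, Multiset.mem_toFinset] at hπ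
    exact dvd_of_mem_normalizedFactors hπ
  have h1P : (X - 1 : F[X]) ∉ P := by
    intro h
    have h2 := hPdvd _ h
    have h3 : (cyclotomic r F).IsRoot 1 := by
      rw [← dvd_iff_isRoot]; exact h2
    rw [IsRoot, eval_one_cyclotomic_prime] at h3
    exact hrF h3
  have hcyc : (X ^ r - 1 : F[X]) = (X - 1) * cyclotomic r F := by
    rw [← prod_cyclotomic_eq_X_pow_sub_one hr.pos, hr.divisors, Finset.prod_insert (by rw [Finset.mem_singleton]; exact hr.one_lt.ne), Finset.prod_singleton, cyclotomic_one]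
  have hsq : Squarefree (X ^ r - 1 : F[X]) := SSim.squarefree_of_pow hrF
  have hfac : ∀ π : F[X], π.Monic → Irreducible π → π ∣ X ^ r - 1 → π = X - 1 ∨ π ∈ P := by
    intro π hm hirr hd
    rw [hcyc] at hd
    rcases hirr.prime.dvd_or_dvd hd with h | h
    · left
      exact eq_of_monic_of_associated hm (monic_X_sub_C 1) (hirr.associated_of_dvd (irreducible_X_sub_C 1) h)
    · right
      rw [hPdef, Multiset.mem_toFinset, mem_normalizedFactors_iff' (cyclotomic_ne_zero r F)]
      exact ⟨hirr, hm.normalize_eq_self, h⟩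
  rw [← hPP] at hPc hPd hP hPdvd h1P hfac
  exact ⟨hPc, hPd, hP, hPdvd, h1P, hcyc, hsq, hfac, hrF, hi0⟩

variable {r i t : ℕ}

namespace CycF

theorem coeff0 (H : CycF F r i t) (hr : r.Prime) {π : F[X]} (hπ : π ∈ cycP F r) : π.coeff 0 ≠ 0 := by
  intro h
  have h1 : X ∣ (X ^ r - 1 : F[X]) := by
    rw [H.cyc]
    exact (X_dvd_iff.mpr h).trans ((H.dvd π hπ).mul_left _)
  rw [X_dvd_iff, coeff_sub, coeff_X_pow, coeff_one, if_neg hr.ne_zero.symm, if_pos rfl, zero_sub, neg_eq_zero] at h1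
  exact one_ne_zero h1

theorem root (H : CycF F r i t) (hr : r.Prime) {L : Type*} [Field L] [Algebra F L] {π : F[X]} (hπ : π ∈ cycP F r) {ζ : L} (hζ : aeval ζ π = 0) : orderOf ζ = r := by
  haveI : Fact r.Prime := ⟨hr⟩
  have h1 : aeval ζ (cyclotomic r F) = 0 := by
    obtain ⟨g, hg⟩ := H.dvd π hπ
    rw [hg, map_mul, hζ, zero_mul]
  apply orderOf_eq_prime
  · have h3 : aeval ζ (X ^ r - 1 : F[X]) = 0 := by rw [H.cyc, map_mul, h1, mul_zero]
    rw [map_sub, map_pow, aeval_X, map_one, sub_eq_zero] at h3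
    exact h3
  · rintro rfl
    rw [aeval_def, eval₂_one_cyclotomic_prime] at h1
    apply H.rF
    apply (algebraMap F L).injective
    rw [map_natCast, map_zero]
    exact h1

variable [Fintype F]

theorem root_frob {L : Type*} [Field L] [Algebra F L] {π : F[X]} {ζ : L} (hζ : aeval ζ π = 0) (j : ℕ) : aeval (ζ ^ (Fintype.card F ^ j)) π = 0 := by
  induction j with
  | zero => rwa [pow_zero, pow_one]
  | succ j ih =>
    rw [pow_succ, pow_mul, ← expand_aeval, FiniteField.expand_card, map_pow, ih, zero_pow Fintype.card_pos.ne']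

theorem roots_eq (H : CycF F r i t) (hr : r.Prime) (hi : i = orderOf (Fintype.card F : ZMod r)) {L : Type*} [Field L] [Algebra F L] {π : F[X]}
    (hπ : π ∈ cycP F r) {ζ η : L} (hζ : aeval ζ π = 0) (hη : aeval η π = 0) : ∃ j : ℕ, η = ζ ^ (Fintype.card F ^ j) := by
  classical
  haveI : Fact r.Prime := ⟨hr⟩
  have hord := H.root hr hπ hζ
  have hπ0 : π ≠ 0 := (H.mi π hπ).1.ne_zero
  have hm0 : π.map (algebraMap F L) ≠ 0 := (Polynomial.map_ne_zero_iff (algebraMap F L).injective).mpr hπ0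
  let S : Finset L := (Finset.range i).image (fun j => ζ ^ (Fintype.card F ^ j))
  have hS : S ⊆ (π.map (algebraMap F L)).roots.toFinset := by
    intro x hx
    obtain ⟨j, _, rfl⟩ := Finset.mem_image.mp hx
    rw [Multiset.mem_toFinset, mem_roots hm0, IsRoot, eval_map_algebraMap]
    exact root_frob hζ j
  have hSc : S.card = i := by
    rw [Finset.card_image_of_injOn, Finset.card_range]
    intro a ha b hb hab
    have hζ0 : ζ ≠ 0 := by
      rintro rfl
      rw [orderOf_zero] at hord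
      exact hr.ne_zero hord.symm
    have hab' : (Units.mk0 ζ hζ0) ^ (Fintype.card F ^ a) = (Units.mk0 ζ hζ0) ^ (Fintype.card F ^ b) := Units.ext hab
    rw [pow_eq_pow_iff_modEq, ← orderOf_units, Units.val_mk0, hord, ← ZMod.natCast_eq_natCast_iff, Nat.cast_pow, Nat.cast_pow] at hab'
    have ha' : a < i := Finset.mem_range.mp ha
    have hb' : b < i := Finset.mem_range.mp hb
    rw [hi] at ha' hb'
    exact pow_injOn_Iio_orderOf ha' hb' hab'
  have hle : (π.map (algebraMap F L)).roots.toFinset.card ≤ i := by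
    refine (Multiset.toFinset_card_le _).trans ((card_roots' _).trans ?_)
    rw [natDegree_map, H.deg π hπ]
  have heq : S = (π.map (algebraMap F L)).roots.toFinset := Finset.eq_of_subset_of_card_le hS (by rw [hSc]; exact hle)
  have h1 : η ∈ S := by
    rw [heq, Multiset.mem_toFinset, mem_roots hm0, IsRoot, eval_map_algebraMap]
    exact hη
  obtain ⟨j, _, hj⟩ := Finset.mem_image.mp h1
  exact ⟨j, hj.symm⟩

end CycF

theorem dagP_root {σ : F →+* F} {L : Type*} [Field L] [Algebra F L] (τ : L →+* L) (hτ : ∀ x, τ (algebraMap F L x) = algebraMap F L (σ x))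
    {π : F[X]} {ζ : L} (hζ0 : ζ ≠ 0) (hζ : aeval ζ π = 0) : aeval (τ ζ)⁻¹ (dagP σ π) = 0 := by
  unfold dagP
  rw [map_mul]
  have h1 : τ ζ ≠ 0 := (map_ne_zero τ).mpr hζ0
  letI : Invertible (τ ζ) := invertibleOfNonzero h1
  have h3 : eval₂ (algebraMap F L) (⅟(τ ζ)) ((π.map σ).reverse) = 0 := by
    rw [eval₂_reverse_eq_zero_iff, eval₂_map]
    have h5 : (algebraMap F L).comp σ = τ.comp (algebraMap F L) := RingHom.ext fun x => (hτ x).symm
    rw [h5]
    have h7 := congrArg τ hζ
    rw [aeval_def, hom_eval₂, map_zero] at h7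
    exact h7
  rw [invOf_eq_inv] at h3
  have h5 : aeval (τ ζ)⁻¹ ((π.map σ).reverse) = 0 := h3
  rw [h5, mul_zero]

variable [Fintype F] {r i t : ℕ} {σ : F →+* F}

theorem CycF.dag_mem (H : CycF F r i t) (hr : r.Prime) (hσ2 : ∀ x, σ (σ x) = x) {π : F[X]} (hπ : π ∈ cycP F r) : dagP σ π ∈ cycP F r := by
  have h0 := H.coeff0 hr hπ
  obtain ⟨hm, hirr⟩ := H.mi π hπ
  rcases H.fac (dagP σ π) (dagP_monic h0) (dagP_irreducible hσ2 hm h0 hirr) (by
    have h1 : dagP σ π ∣ dagP σ (X ^ r - 1) := dagP_dvd (by rw [H.cyc]; exact (H.dvd π hπ).mul_left _)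
    refine h1.trans ?_
    have h3 : (X ^ r - 1 : F[X]).coeff 0 = -1 := by
      rw [coeff_sub, coeff_X_pow, coeff_one, if_neg hr.ne_zero.symm, if_pos rfl, zero_sub]
    have h5 : dagP σ (X ^ r - 1 : F[X]) = X ^ r - 1 := by
      apply Polynomial.ext
      intro n
      unfold dagP
      have h1 : (X ^ r - 1 : F[X]) = X ^ r - C 1 := by rw [C_1]
      rw [coeff_C_mul, coeff_reverse, natDegree_map, h3, h1, natDegree_X_pow_sub_C, coeff_map, coeff_sub, coeff_sub, coeff_X_pow, coeff_X_pow,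
        coeff_C, coeff_C, map_neg, map_one]
      by_cases hn : n = 0
      · subst hn
        rw [revAt_le (Nat.zero_le _), Nat.sub_zero, if_pos rfl, if_neg hr.ne_zero, if_neg hr.ne_zero.symm, if_pos rfl]
        simp
      · by_cases hnr : n = r
        · subst hnr
          rw [revAt_le le_rfl, Nat.sub_self, if_neg hr.ne_zero.symm, if_pos rfl, if_pos rfl, if_neg hn]
          simp
        · have h6 : revAt r n ≠ r := by
            intro h
            by_cases hle : n ≤ r
            · rw [revAt_le hle] at h; omega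
            · rw [revAt_eq_self_of_lt (by omega)] at h; exact hnr h
          have h7 : revAt r n ≠ 0 := by
            intro h
            by_cases hle : n ≤ r
            · rw [revAt_le hle] at h; omega
            · rw [revAt_eq_self_of_lt (by omega)] at h; exact hn h
          rw [if_neg h6, if_neg h7, if_neg hnr, if_neg hn]
          simp
    rw [h5]) with h | h
  · exfalso
    apply H.one
    have h1 := congrArg (dagP σ) h
    rw [dagP_dagP hσ2 hm h0, dagP_X_sub_one] at h1
    rw [← h1]; exact hπ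
  · exact h

/-- the involution on the set of factors -/
noncomputable def CycF.io (H : CycF F r i t) (hr : r.Prime) (hσ2 : ∀ x, σ (σ x) = x) (π : cycP F r) : cycP F r := ⟨dagP σ π, H.dag_mem hr hσ2 π.2⟩

theorem CycF.io_io (H : CycF F r i t) (hr : r.Prime) (hσ2 : ∀ x, σ (σ x) = x) (π : cycP F r) : H.io hr hσ2 (H.io hr hσ2 π) = π :=
  Subtype.ext (dagP_dagP hσ2 (H.mi π π.2).1 (H.coeff0 hr π.2))

theorem CycF.io_fix (H : CycF F r i t) (hr : r.Prime) (hi : i = orderOf (Fintype.card F : ZMod r)) (hσ2 : ∀ x, σ (σ x) = x)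
    {q' : ℕ} (hσ : ∀ x, σ x = x ^ q') (τ : AlgebraicClosure F →+* AlgebraicClosure F) (hτ : ∀ x, τ x = x ^ q') (π : cycP F r) :
    H.io hr hσ2 π = π ↔ ∃ j : ℕ, (Fintype.card F : ZMod r) ^ j = -(q' : ZMod r) := by
  haveI : Fact r.Prime := ⟨hr⟩
  obtain ⟨hm, hirr⟩ := H.mi π π.2
  have h0 := H.coeff0 hr π.2
  obtain ⟨ζ, hζ⟩ := IsAlgClosed.exists_aeval_eq_zero (AlgebraicClosure F) (π : F[X]) (degree_pos_of_irreducible hirr).ne'
  have hord := H.root hr π.2 hζ
  have hζ0 : ζ ≠ 0 := by
    rintro rfl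
    rw [orderOf_zero] at hord
    exact hr.ne_zero hord.symm
  have hroot : aeval (τ ζ)⁻¹ (dagP σ (π : F[X])) = 0 := dagP_root τ (fun x => by rw [hτ, hσ, map_pow]) hζ0 hζ
  rw [hτ] at hroot
  have hkey : ∀ j : ℕ, (Fintype.card F : ZMod r) ^ j = -(q' : ZMod r) ↔ (ζ ^ q')⁻¹ = ζ ^ (Fintype.card F ^ j) := by
    intro j
    have e1 : (ζ ^ q')⁻¹ = ζ ^ (Fintype.card F ^ j) ↔ ζ ^ (Fintype.card F ^ j + q') = 1 := by
      rw [pow_add]
      constructor
      · intro h; rw [← h, inv_mul_cancel₀ (pow_ne_zero _ hζ0)]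
      · intro h; exact (eq_inv_of_mul_eq_one_left h).symm
    rw [e1, ← orderOf_dvd_iff_pow_eq_one, hord, ← add_eq_zero_iff_eq_neg, ← Nat.cast_pow, ← Nat.cast_add, ZMod.natCast_eq_zero_iff]
  constructor
  · intro h
    have h1 : dagP σ (π : F[X]) = π := congrArg Subtype.val h
    rw [h1] at hroot
    obtain ⟨j, hj⟩ := H.roots_eq hr hi π.2 hζ hroot
    exact ⟨j, (hkey j).mpr hj⟩
  · rintro ⟨j, hj⟩
    apply Subtype.ext
    show dagP σ (π : F[X]) = π
    rw [hkey] at hj
    have h3 := CycF.root_frob hζ j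
    rw [← hj] at h3
    exact (minpoly.eq_of_irreducible_of_monic (dagP_irreducible hσ2 hm h0 hirr) hroot (dagP_monic h0)).trans
      (minpoly.eq_of_irreducible_of_monic hirr h3 hm).symm

end cyc

end Cfsg.Agent.H17
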