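import Mathlib
import Cfsg.Agent.H17.CcC

set_option autoImplicit false

/-! Counting classes of elements of prime order in groups of isometries. -/

namespace Cfsg.Agent.H17

open Polynomial Matrix UniqueFactorizationMonoid Cfsg.Agent.H16.PrOrd Cfsg.Agent.H16

section main

variable {F : Type*} [Field F] {r i t : ℕ} {σ : F →+* F}

theorem dagP_pl [Fintype F] (H : CycF F r i t) (hr : r.Prime) (hσ2 : ∀ x, σ (σ x) = x) (a : ℕ) (c : cycP F r → ℕ) :
    dagP σ (pl (cycP F r) a c) = pl (cycP F r) a (fun π => c (H.io hr hσ2 π)) := by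
  unfold pl
  rw [dagP_mul, dagP_pow, dagP_X_sub_one, dagP_prod]
  congr 1
  have hinv : Function.Involutive (H.io hr hσ2) := H.io_io hr hσ2
  apply Fintype.prod_equiv hinv.toPerm
  intro π
  rw [dagP_pow]
  show dagP σ (π : F[X]) ^ c π = ((H.io hr hσ2 π : cycP F r) : F[X]) ^ c (H.io hr hσ2 (H.io hr hσ2 π))
  rw [H.io_io]
  rfl

open Classical in
theorem count_main [Fintype F] (H : CycF F r i t) (hr : r.Prime) (hσ2 : ∀ x, σ (σ x) = x) {n : ℕ} {G : Type*} [Group G]
    (φ : G →* GL (Fin n) F)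
    (H1 : ∀ A B : G, A ^ r = 1 → B ^ r = 1 → (∃ P : GL (Fin n) F, P * φ A = φ B * P) → IsConj A B)
    (H2 : ∀ A : G, ((φ A : GL (Fin n) F) : Matrix (Fin n) (Fin n) F).charpoly = dagP σ ((φ A : GL (Fin n) F) : Matrix (Fin n) (Fin n) F).charpoly)
    (H3 : ∀ g : GL (Fin n) F, g ^ r = 1 → ∀ c : cycP F r → ℕ, (∀ x, c (H.io hr hσ2 x) = c x) → c ≠ 0 → i * ∑ x, c x ≤ n →
      (g : Matrix (Fin n) (Fin n) F).charpoly = pl (cycP F r) (n - i * ∑ x, c x) c →
      (g : Matrix (Fin n) (Fin n) F).charpoly = dagP σ (g : Matrix (Fin n) (Fin n) F).charpoly →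
      ∃ A : G, A ^ r = 1 ∧ ((φ A : GL (Fin n) F) : Matrix (Fin n) (Fin n) F).charpoly = (g : Matrix (Fin n) (Fin n) F).charpoly) :
    Nat.card {C : ConjClasses G // ∃ g : G, ConjClasses.mk g = C ∧ orderOf g = r} =
      Nat.card {c : cycP F r → ℕ // (∀ x, c (H.io hr hσ2 x) = c x) ∧ c ≠ 0 ∧ i * ∑ x, c x ≤ n} := by
  haveI : Fact r.Prime := ⟨hr⟩
  have hex : ∀ c : {c : cycP F r → ℕ // (∀ x, c (H.io hr hσ2 x) = c x) ∧ c ≠ 0 ∧ i * ∑ x, c x ≤ n}, ∃ A : G, A ^ r = 1 ∧
      ((φ A : GL (Fin n) F) : Matrix (Fin n) (Fin n) F).charpoly = pl (cycP F r) (n - i * ∑ x, c.1 x) c.1 := by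
    rintro ⟨c, hcι, hc0, hc⟩
    have hdeg : (pl (cycP F r) (n - i * ∑ x, c x) c).natDegree = n := by
      rw [pl_natDegree H.mi H.deg]; omega
    obtain ⟨g, hg1, hg2⟩ := exists_pow_one (n := n) hr.pos (pl_monic H.mi (n - i * ∑ x, c x) c) hdeg (by
      unfold pl
      have h5 : (∏ π : cycP F r, (π : F[X]) ^ c π) ∣ (∏ π : cycP F r, (cyclotomic r F) ^ c π) :=
        Finset.prod_dvd_prod_of_dvd _ _ (fun π _ => pow_dvd_pow_of_dvd (H.dvd _ π.2) _)
      rw [Finset.prod_pow_eq_pow_sum] at h5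
      have h6 : ∑ x, c x ≤ i * ∑ x, c x := Nat.le_mul_of_pos_left _ H.i0
      rw [H.cyc, mul_pow]
      exact mul_dvd_mul (pow_dvd_pow _ (by omega)) (h5.trans (pow_dvd_pow _ (by omega))))
    obtain ⟨A, hA1, hA2⟩ := H3 g hg1 c hcι hc0 hc hg2 (by
      rw [hg2, dagP_pl H hr hσ2]
      congr 1
      funext x
      exact (hcι x).symm)
    exact ⟨A, hA1, hA2.trans hg2⟩
  choose J hJ1 hJ2 using hex
  have hone : ((1 : GL (Fin n) F) : Matrix (Fin n) (Fin n) F).charpoly = pl (cycP F r) n 0 := by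
    rw [Units.val_one, Matrix.charpoly_one, Fintype.card_fin]; simp [pl]
  apply InvP.card_classes' (fun x : G => orderOf x = r) J
  · intro c
    apply orderOf_eq_prime (hJ1 c)
    intro h
    have h2 := hJ2 c
    rw [h, map_one, hone] at h2
    apply c.2.2.1
    funext π
    have h3 := count_pl H.mi H.one n 0 π
    rw [h2, count_pl H.mi H.one] at h3
    exact h3
  · intro A hA
    have hAr : A ^ r = 1 := by rw [← hA]; exact pow_orderOf_eq_one A
    obtain ⟨g, hg⟩ : ∃ g, g = φ A := ⟨_, rfl⟩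
    have hgr : g ^ r = 1 := by rw [hg, ← map_pow, hAr, map_one]
    have hE : (toLin' (g : Matrix (Fin n) (Fin n) F)) ^ r = 1 := by
      rw [← toLin'_pow, ← Units.val_pow_eq_pow_val, hgr]; simp; rfl
    have hmem := charpoly_mem H.sq (g := toLin' (g : Matrix (Fin n) (Fin n) F)) (by rw [map_sub, map_pow, aeval_X, hE, map_one, sub_self])
    rw [Matrix.charpoly_toLin'] at hmem
    obtain ⟨a, c, hac⟩ := pl_of_mem H.fac hmem
    have hdeg := congrArg natDegree hac
    rw [pl_natDegree H.mi H.deg, Matrix.charpoly_natDegree_eq_dim, Fintype.card_fin] at hdeg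
    have hcι : ∀ x, c (H.io hr hσ2 x) = c x := by
      intro π
      have h1 := H2 A
      rw [← hg, hac, dagP_pl H hr hσ2] at h1
      have h3 := count_pl H.mi H.one a c π
      rw [h1, count_pl H.mi H.one] at h3
      exact h3
    have hc0 : c ≠ 0 := by
      rintro rfl
      simp only [Pi.zero_apply, Finset.sum_const_zero, mul_zero, add_zero] at hdeg
      subst hdeg
      have h5 : IsConj A 1 := by
        apply H1 _ _ hAr (one_pow r)
        rw [← hg, map_one]
        exact SSim.gl_conj_of_charpoly (h := 1) H.rF H.rF hgr (one_pow r) (hac.trans hone.symm)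
      rw [isConj_one_left] at h5
      rw [h5, orderOf_one] at hA
      exact hr.one_lt.ne hA
    have hle : i * ∑ x, c x ≤ n := by omega
    refine ⟨⟨c, hcι, hc0, hle⟩, ?_⟩
    have ha : a = n - i * ∑ x, c x := by omega
    apply H1 _ _ (hJ1 _) hAr
    rw [← hg]
    exact SSim.gl_conj_of_charpoly H.rF H.rF (by rw [← map_pow, hJ1, map_one]) hgr (by
      rw [hJ2]; exact ((congrArg (fun a => pl (cycP F r) a c) ha).symm.trans hac.symm))
  · intro c d h
    obtain ⟨Q, hQ⟩ := isConj_iff.1 h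
    have h1 : ((φ (J d) : GL (Fin n) F) : Matrix (Fin n) (Fin n) F).charpoly = ((φ (J c) : GL (Fin n) F) : Matrix (Fin n) (Fin n) F).charpoly := by
      rw [← hQ, map_mul, map_mul, map_inv, Units.val_mul, Units.val_mul, Matrix.coe_units_inv, charpoly_units_conj]
    rw [hJ2, hJ2] at h1
    apply Subtype.ext
    funext π
    rw [← count_pl H.mi H.one (n - i * ∑ x, c.1 x) c.1 π, ← h1, count_pl H.mi H.one]

end main

end Cfsg.Agent.H17
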