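import Mathlib
import Cfsg.Agent.H17.CcD
import Cfsg.Agent.H17.GUConj

set_option autoImplicit false

/-! Classes of elements of odd prime order in unitary groups. -/

namespace Cfsg.Agent.H17

open Polynomial Matrix Cfsg.Agent.H16.PrOrd Cfsg.Agent.H16

theorem exists_tau (K : Type*) [Field K] {p : ℕ} [Fact p.Prime] [CharP K p] (e : ℕ) :
    ∃ τ : AlgebraicClosure K →+* AlgebraicClosure K, ∀ x, τ x = x ^ (p ^ e) := by
  haveI : CharP (AlgebraicClosure K) p := charP_of_injective_algebraMap (algebraMap K (AlgebraicClosure K)).injective p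
  exact ⟨iterateFrobenius (AlgebraicClosure K) p e, fun x => iterateFrobenius_def (R := AlgebraicClosure K) p e x⟩

theorem neg_one_of_order {r i : ℕ} (hr : r.Prime) {u : ZMod r} (hi : i = orderOf u) (he : Even i) (hi0 : 0 < i) : u ^ (i / 2) = -1 := by
  haveI : Fact r.Prime := ⟨hr⟩
  have h1 : (u ^ (i / 2)) * (u ^ (i / 2)) = 1 := by
    rw [← pow_add]
    have : i / 2 + i / 2 = i := by obtain ⟨k, hk⟩ := he; omega
    rw [this, hi, pow_orderOf_eq_one]
  rcases mul_self_eq_one_iff.mp h1 with h | h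
  · exfalso
    have := orderOf_dvd_of_pow_eq_one h
    rw [← hi] at this
    obtain ⟨k, hk⟩ := he
    have h3 := Nat.le_of_dvd (by omega) this
    omega
  · exact h

theorem exists_pow_iff_one {r i : ℕ} (hr : r.Prime) (hr2 : r ≠ 2) {u : ZMod r} (hi : i = orderOf u) (hi0 : 0 < i) :
    (∃ j : ℕ, u ^ j = -((1 : ℕ) : ZMod r)) ↔ Even i := by
  haveI : Fact r.Prime := ⟨hr⟩
  constructor
  · rintro ⟨j, hj⟩
    by_contra ho
    rw [Nat.not_even_iff_odd] at ho
    have h1 : (u ^ j) ^ i = 1 := by rw [← pow_mul, mul_comm, pow_mul, hi, pow_orderOf_eq_one, one_pow]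
    rw [hj, Nat.cast_one, ho.neg_one_pow] at h1
    haveI : Fact (2 < r) := ⟨lt_of_le_of_ne hr.two_le hr2.symm⟩
    exact ZMod.neg_one_ne_one h1
  · intro he
    exact ⟨i / 2, by rw [neg_one_of_order hr hi he hi0, Nat.cast_one]⟩

theorem exists_pow_iff_four {r i q : ℕ} (hr : r.Prime) (hr2 : r ≠ 2) (hi : i = orderOf (q : ZMod r)) (hi0 : 0 < i) :
    (∃ j : ℕ, ((q ^ 2 : ℕ) : ZMod r) ^ j = -(q : ZMod r)) ↔ i % 4 = 2 := by
  haveI : Fact r.Prime := ⟨hr⟩
  haveI : Fact (2 < r) := ⟨lt_of_le_of_ne hr.two_le hr2.symm⟩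
  obtain ⟨u, hu⟩ : ∃ u, u = (q : ZMod r) := ⟨_, rfl⟩
  rw [← hu] at hi
  have hui : u ^ i = 1 := by rw [hi, pow_orderOf_eq_one]
  have hu0 : u ≠ 0 := by
    intro h
    rw [h, zero_pow hi0.ne'] at hui
    exact zero_ne_one hui
  rw [Nat.cast_pow, ← hu]
  constructor
  · rintro ⟨j, hj⟩
    have h1 : u ^ (2 * (j + i) - 1) = -1 := by
      have h3 : u ^ (2 * (j + i) - 1) * u = -1 * u := by
        rw [← pow_succ, show 2 * (j + i) - 1 + 1 = 2 * j + i * 2 by omega, pow_add, pow_mul, pow_mul, hui, one_pow, mul_one, hj]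
        ring
      exact mul_right_cancel₀ hu0 h3
    have h3 : u ^ (2 * (2 * (j + i) - 1)) = 1 := by
      rw [mul_comm, pow_mul, h1]; ring
    have hdv : ∀ k, i ∣ k ↔ u ^ k = 1 := fun k => by rw [hi]; exact orderOf_dvd_iff_pow_eq_one
    have h5 : i ∣ 2 * (2 * (j + i) - 1) := (hdv _).mpr h3
    have h7 : ¬ i ∣ 2 * (j + i) - 1 := by
      intro h
      rw [(hdv _).mp h] at h1
      exact ZMod.neg_one_ne_one h1.symm
    rcases Nat.even_or_odd i with he | ho
    · obtain ⟨k, hk⟩ := he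
      have h9 : k ∣ 2 * (j + i) - 1 := by
        rw [show i = 2 * k by omega] at h5
        rw [show i = 2 * k by omega]
        exact Nat.dvd_of_mul_dvd_mul_left (by norm_num) h5
      have h10 : Odd k := Odd.of_dvd_nat ⟨j + i - 1, by omega⟩ h9
      obtain ⟨l, hl⟩ := h10
      omega
    · exfalso
      apply h7
      exact (Nat.Coprime.dvd_of_dvd_mul_left (Nat.Coprime.symm (Nat.coprime_two_left.mpr ho)) h5)
  · intro h
    have he : Even i := ⟨i / 2, by omega⟩
    have h1 := neg_one_of_order hr hi he hi0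
    refine ⟨(i / 2 + 1) / 2, ?_⟩
    rw [← pow_mul, show 2 * ((i / 2 + 1) / 2) = i / 2 + 1 by omega, pow_succ, h1]
    ring

theorem count_gu {K : Type*} [Field K] [Fintype K] {p q n r i b s : ℕ} [Fact p.Prime] [CharP K p] (hK : Fintype.card K = q ^ 2) (hr : r.Prime) (hr2 : r ≠ 2) (hrp : r ≠ p)
    (hi : i = orderOf (q : ZMod r)) (hb : b = if Odd i then i else i / 2) (hs : s * b = r - 1) :
    Nat.card {C : ConjClasses ↥(Cfsg.GU n K q) // ∃ g : ↥(Cfsg.GU n K q), ConjClasses.mk g = C ∧ orderOf g = r} =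
      if i % 4 = 2 then Nat.choose (2 * n / i + s) s - 1 else Nat.choose (n / (2 * b) + s / 2) (s / 2) - 1 := by
  classical
  haveI : Fact r.Prime := ⟨hr⟩
  obtain ⟨σ, hσ, hσ2, hσ1⟩ := H5.exists_frob hK
  have HS := sT_AI (n := n) hσ2
  have hqp : ∃ e, q = p ^ e := by
    obtain ⟨k, hpp, hk⟩ := FiniteField.card K p
    rw [hK] at hk
    have : q ∣ p ^ (k : ℕ) := ⟨q, by rw [← hk, sq]⟩
    obtain ⟨e, _, he⟩ := (Nat.dvd_prime_pow hpp).mp this
    exact ⟨e, he⟩
  obtain ⟨e, he⟩ := hqp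
  obtain ⟨τ, hτ⟩ := exists_tau K (p := p) e
  rw [← he] at hτ
  have hqu : (q : ZMod r) ≠ 0 := by
    intro h
    rw [ZMod.natCast_eq_zero_iff, he] at h
    exact hrp ((Nat.prime_dvd_prime_iff_eq hr Fact.out).mp (hr.dvd_of_dvd_pow h))
  have hi0 : 0 < i := by
    rw [hi]
    have : (q : ZMod r) = ((Units.mk0 (q : ZMod r) hqu : (ZMod r)ˣ) : ZMod r) := rfl
    rw [this, orderOf_units]
    exact orderOf_pos _
  have hbo : b = orderOf ((Fintype.card K : ℕ) : ZMod r) := by
    rw [hK, Nat.cast_pow, orderOf_pow' _ (by norm_num : (2 : ℕ) ≠ 0), ← hi, hb]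
    split_ifs with ho
    · rw [Nat.Coprime.gcd_eq_one (Nat.coprime_two_right.mpr ho), Nat.div_one]
    · rw [Nat.not_odd_iff_even] at ho
      obtain ⟨k, hk⟩ := ho
      rw [Nat.gcd_eq_right ⟨k, by omega⟩]
  have H := cycF (F := K) rfl r b s hr hrp hbo hs
  have hmem : ∀ A : ↥(Cfsg.GU n K q), sT n σ (A : GL (Fin n) K) * (A : GL (Fin n) K) = 1 := fun A => (mem_GU_sT hσ hσ2 (A : GL (Fin n) K)).mp A.2
  have hcnt := count_main (σ := σ) H hr hσ2 (Cfsg.GU n K q).subtype
    (by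
      rintro A B hA hB ⟨P, hP⟩
      rw [gu_conj hK, isConj_iff]
      exact ⟨P, by rw [show P * (A : GL (Fin n) K) = B * P from hP, mul_inv_cancel_right]⟩)
    (by
      intro A
      rw [← charpoly_dual _ (Units.isUnit _)]
      congr 1
      have h1 := hmem A
      exact (Matrix.inv_eq_right_inv h1).symm)
    (by
      intro g hg c _ _ _ _ hd
      have hpow : ∀ k : ℕ, sT n σ ((g : Matrix (Fin n) (Fin n) K) ^ k) = (sT n σ g) ^ k := by
        intro k
        induction k with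
        | zero => rw [pow_zero, pow_zero, HS.one]
        | succ k ih => rw [pow_succ, HS.mul, ih, pow_succ']
      have h1 : ((HS.u g)⁻¹) ^ r = 1 := by
        rw [inv_pow, inv_eq_one]
        apply Units.ext
        rw [Units.val_pow_eq_pow_val, HS.u_val, ← hpow, ← Units.val_pow_eq_pow_val, hg, Units.val_one, HS.one]
      have h3 : (((HS.u g)⁻¹ : GL (Fin n) K) : Matrix (Fin n) (Fin n) K) = (((g : Matrix (Fin n) (Fin n) K).map σ)ᵀ)⁻¹ := by
        rw [Matrix.coe_units_inv]; rfl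
      obtain ⟨P, hP⟩ := SSim.gl_conj_of_charpoly H.rF H.rF hg h1 (by
        rw [h3, charpoly_dual _ (Units.isUnit _)]
        exact hd)
      have h5 : IsConj (g : Matrix (Fin n) (Fin n) K) (((g : Matrix (Fin n) (Fin n) K).map (fun x : K => x ^ q)).transpose)⁻¹ := by
        have e0 : (g : Matrix (Fin n) (Fin n) K).map (fun x : K => x ^ q) = (g : Matrix (Fin n) (Fin n) K).map σ := by
          congr 1
          funext x
          exact (hσ x).symm
        rw [e0, ← h3]
        exact ⟨P, congrArg (fun x : GL (Fin n) K => (x : Matrix (Fin n) (Fin n) K)) hP⟩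
      obtain ⟨B, hB⟩ := (gu_similar hK g).mpr h5
      obtain ⟨Q, hQ⟩ := isConj_iff.mp hB
      refine ⟨B, ?_, ?_⟩
      · apply Subtype.ext
        rw [Subgroup.coe_pow, ← hQ, conj_pow, hg, mul_one, mul_inv_cancel]; rfl
      · show ((B : GL (Fin n) K) : Matrix (Fin n) (Fin n) K).charpoly = _
        rw [← hQ, Units.val_mul, Units.val_mul, Matrix.coe_units_inv, charpoly_units_conj])
  rw [hcnt]
  have hPc : Fintype.card (cycP K r) = s := by rw [Fintype.card_coe, H.card]
  have hfix := H.io_fix hr hbo hσ2 hσ τ hτ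
  rw [hK, exists_pow_iff_four hr hr2 hi hi0] at hfix
  split_ifs with h4
  · rw [card_sym_id (fun x => (hfix x).mpr h4) H.i0, hPc]
    have : n / b = 2 * n / i := by
      have h1 : i = 2 * b := by
        rw [hb, if_neg (by rw [Nat.not_odd_iff_even]; exact ⟨i / 2, by omega⟩)]
        omega
      rw [h1, Nat.mul_div_mul_left _ _ (by norm_num)]
    rw [this]
  · rw [card_sym_free (H.io_io hr hσ2) (fun x h => h4 ((hfix x).mp h)) H.i0, hPc]

end Cfsg.Agent.H17
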