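import Mathlib
import Cfsg.Agent.H17.CcE

set_option autoImplicit false

/-! Invariant symmetric forms for semisimple elements with self dual characteristic polynomial. -/

namespace Cfsg.Agent.H17

open Polynomial Matrix Cfsg.Agent.H16.PrOrd Cfsg.Agent.H16

section gen

variable {F : Type*} [Field F]

theorem charpoly_self_dual {n : Type*} [Fintype n] [DecidableEq n] {A G : Matrix n n F} (hA : IsUnit A) (hG : IsUnit G) (h : Aᵀ * G * A = G) :
    A.charpoly = dagP (RingHom.id F) A.charpoly := by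
  rw [← charpoly_dual A hA]
  have e0 : (A.map (RingHom.id F))ᵀ = Aᵀ := by
    congr 1
  rw [e0]
  obtain ⟨g, rfl⟩ := hG
  have hT : IsUnit Aᵀ := by
    rw [Matrix.isUnit_iff_isUnit_det, det_transpose, ← Matrix.isUnit_iff_isUnit_det]
    exact hA
  obtain ⟨u, hu⟩ := hT
  have h1 : (Aᵀ)⁻¹ = (g : Matrix n n F) * A * ((g⁻¹ : (Matrix n n F)ˣ) : Matrix n n F) := by
    rw [← hu, ← Matrix.coe_units_inv]
    rw [← hu] at h
    calc ((u⁻¹ : (Matrix n n F)ˣ) : Matrix n n F) = ((u⁻¹ : (Matrix n n F)ˣ) : Matrix n n F) * (g * ((g⁻¹ : (Matrix n n F)ˣ) : Matrix n n F)) := by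
          rw [Units.mul_inv, mul_one]
      _ = ((u⁻¹ : (Matrix n n F)ˣ) : Matrix n n F) * ((u : Matrix n n F) * g * A * ((g⁻¹ : (Matrix n n F)ˣ) : Matrix n n F)) := by rw [h]
      _ = (((u⁻¹ : (Matrix n n F)ˣ) : Matrix n n F) * (u : Matrix n n F)) * (g * A * ((g⁻¹ : (Matrix n n F)ˣ) : Matrix n n F)) := by simp only [mul_assoc]
      _ = _ := by rw [Units.inv_mul, one_mul]
  rw [h1, Matrix.coe_units_inv]
  exact (charpoly_units_conj g A).symm

variable [Finite F] {k : ℕ}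

theorem exists_symm_inv {h : GL (Fin k) F} {r : ℕ} (hr : (r : F) ≠ 0) (hh : h ^ r = 1)
    (hd : (h : Matrix (Fin k) (Fin k) F).charpoly = dagP (RingHom.id F) (h : Matrix (Fin k) (Fin k) F).charpoly)
    (hu : IsUnit ((h : Matrix (Fin k) (Fin k) F) - ((h⁻¹ : GL (Fin k) F) : Matrix (Fin k) (Fin k) F))) :
    ∃ S : GL (Fin k) F, (S : Matrix (Fin k) (Fin k) F)ᵀ = S ∧ (h : Matrix (Fin k) (Fin k) F)ᵀ * S * h = S := by
  classical
  haveI := Fintype.ofFinite F
  have HS : AI (fun X : Matrix (Fin k) (Fin k) F => Xᵀ) :=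
    { add := fun x y => Matrix.transpose_add x y
      mul := fun x y => Matrix.transpose_mul x y
      inv := fun x => Matrix.transpose_transpose x
      one := Matrix.transpose_one }
  have hpow : ∀ j : ℕ, ((h : Matrix (Fin k) (Fin k) F) ^ j)ᵀ = (h : Matrix (Fin k) (Fin k) F)ᵀ ^ j := fun j => Matrix.transpose_pow _ j
  have h1 : ((HS.u h)⁻¹) ^ r = 1 := by
    rw [inv_pow, inv_eq_one]
    apply Units.ext
    rw [Units.val_pow_eq_pow_val, HS.u_val, ← hpow, ← Units.val_pow_eq_pow_val, hh, Units.val_one, Matrix.transpose_one]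
  have h3 : (((HS.u h)⁻¹ : GL (Fin k) F) : Matrix (Fin k) (Fin k) F) = (((h : Matrix (Fin k) (Fin k) F).map (RingHom.id F))ᵀ)⁻¹ := by
    rw [Matrix.coe_units_inv]; rfl
  obtain ⟨P, hP⟩ := SSim.gl_conj_of_charpoly hr hr hh h1 (by
    rw [h3, charpoly_dual _ (Units.isUnit _)]
    exact hd)
  have hA : (h : Matrix (Fin k) (Fin k) F)ᵀ * P * h = P := by
    have hP' : (P : Matrix (Fin k) (Fin k) F) * h = (((HS.u h)⁻¹ : GL (Fin k) F) : Matrix (Fin k) (Fin k) F) * P := by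
      have := congrArg (fun x : GL (Fin k) F => (x : Matrix (Fin k) (Fin k) F)) hP
      simpa only [Units.val_mul] using this
    have h5 : (h : Matrix (Fin k) (Fin k) F)ᵀ * (((HS.u h)⁻¹ : GL (Fin k) F) : Matrix (Fin k) (Fin k) F) = 1 := Units.mul_inv (HS.u h)
    rw [mul_assoc, hP', ← mul_assoc, h5, one_mul]
  obtain ⟨-, x, hx1, hx2⟩ := HS.sum_main P h hA (c := 1) (by rw [one_mul, mul_one]) (by rw [one_mul, mul_one])
    (by rw [Matrix.transpose_one, one_mul, mul_one]) (z := (h : Matrix (Fin k) (Fin k) F)) (fun y hy _ _ => hy.symm) (by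
      have h5 : ((P⁻¹ : GL (Fin k) F) : Matrix (Fin k) (Fin k) F) * (h : Matrix (Fin k) (Fin k) F)ᵀ * P = ((h⁻¹ : GL (Fin k) F) : Matrix (Fin k) (Fin k) F) := by
        calc ((P⁻¹ : GL (Fin k) F) : Matrix (Fin k) (Fin k) F) * (h : Matrix (Fin k) (Fin k) F)ᵀ * P =
            ((P⁻¹ : GL (Fin k) F) : Matrix (Fin k) (Fin k) F) * ((h : Matrix (Fin k) (Fin k) F)ᵀ * P * (h * ((h⁻¹ : GL (Fin k) F) : Matrix (Fin k) (Fin k) F))) := by
              rw [Units.mul_inv, mul_one, mul_assoc]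
          _ = ((P⁻¹ : GL (Fin k) F) : Matrix (Fin k) (Fin k) F) * ((h : Matrix (Fin k) (Fin k) F)ᵀ * P * h) * ((h⁻¹ : GL (Fin k) F) : Matrix (Fin k) (Fin k) F) := by
              simp only [mul_assoc]
          _ = _ := by rw [hA, Units.inv_mul, one_mul]
      rw [h5]
      exact hu)
  refine ⟨P * x, ?_, ?_⟩
  · rw [Units.val_mul, Matrix.transpose_mul]
    exact hx2
  · rw [Units.val_mul]
    calc (h : Matrix (Fin k) (Fin k) F)ᵀ * (P * x) * h = (h : Matrix (Fin k) (Fin k) F)ᵀ * P * (x * h) := by simp only [mul_assoc]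
      _ = ((h : Matrix (Fin k) (Fin k) F)ᵀ * P * h) * x := by rw [hx1]; simp only [mul_assoc]
      _ = _ := by rw [hA]

end gen

section cyc

variable {F : Type*} [Field F] [Fintype F] {r i t : ℕ}

open Classical in
/-- elements without fixed points with an invariant symmetric form -/
theorem exists_block (H : CycF F r i t) (hr : r.Prime) (hr2 : r ≠ 2) (c : cycP F r → ℕ)
    (hc : ∀ x, c (H.io hr (σ := RingHom.id F) (fun _ => rfl) x) = c x) {k : ℕ} (hk : k = i * ∑ x, c x) :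
    ∃ h : GL (Fin k) F, h ^ r = 1 ∧ (h : Matrix (Fin k) (Fin k) F).charpoly = pl (cycP F r) 0 c ∧
      (∀ v, (h : Matrix (Fin k) (Fin k) F) *ᵥ v = ((h⁻¹ : GL (Fin k) F) : Matrix (Fin k) (Fin k) F) *ᵥ v → v = 0) ∧
      ∃ S : GL (Fin k) F, (S : Matrix (Fin k) (Fin k) F)ᵀ = S ∧ (h : Matrix (Fin k) (Fin k) F)ᵀ * S * h = S := by
  have hdeg : (pl (cycP F r) 0 c).natDegree = k := by
    rw [pl_natDegree H.mi H.deg, hk]; omega
  obtain ⟨h, hh1, hh2⟩ := exists_pow_one (n := k) hr.pos (pl_monic H.mi 0 c) hdeg (by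
    unfold pl
    have h5 : (∏ π : cycP F r, (π : F[X]) ^ c π) ∣ (∏ π : cycP F r, (cyclotomic r F) ^ c π) :=
      Finset.prod_dvd_prod_of_dvd _ _ (fun π _ => pow_dvd_pow_of_dvd (H.dvd _ π.2) _)
    rw [Finset.prod_pow_eq_pow_sum] at h5
    have h6 : ∑ x, c x ≤ i * ∑ x, c x := Nat.le_mul_of_pos_left _ H.i0
    rw [H.cyc, mul_pow]
    exact mul_dvd_mul (pow_dvd_pow _ (by omega)) (h5.trans (pow_dvd_pow _ (by omega))))
  -- no fixed vectors
  have hfix : ∀ v, (h : Matrix (Fin k) (Fin k) F) *ᵥ v = v → v = 0 := by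
    intro v hv
    by_contra hv0
    have h1 : ((1 : Matrix (Fin k) (Fin k) F) - h).det = 0 := Matrix.exists_mulVec_eq_zero_iff.mp ⟨v, hv0, by
      rw [Matrix.sub_mulVec, Matrix.one_mulVec, hv, sub_self]⟩
    have h3 : (h : Matrix (Fin k) (Fin k) F).charpoly.eval 1 = 0 := by
      rw [Matrix.eval_charpoly]
      have : (Matrix.scalar (Fin k)) (1 : F) = 1 := map_one _
      rw [this]; exact h1
    rw [hh2] at h3
    unfold pl at h3
    rw [pow_zero, one_mul, eval_prod, Finset.prod_eq_zero_iff] at h3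
    obtain ⟨π, _, h5⟩ := h3
    rw [eval_pow] at h5
    have h7 := eq_zero_of_pow_eq_zero h5
    have h9 : (X - C 1 : F[X]) ∣ π := dvd_iff_isRoot.mpr h7
    obtain ⟨hm, hirr⟩ := H.mi π π.2
    have h11 := eq_of_monic_of_associated (monic_X_sub_C 1) hm ((irreducible_X_sub_C 1).associated_of_dvd hirr h9)
    apply H.one
    rw [← C_1, h11]
    exact π.2
  have hodd : Odd r := hr.odd_of_ne_two hr2
  have hinv : ∀ v, (h : Matrix (Fin k) (Fin k) F) *ᵥ v = ((h⁻¹ : GL (Fin k) F) : Matrix (Fin k) (Fin k) F) *ᵥ v → v = 0 := by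
    intro v hv
    apply hfix
    have h1 : ((h * h : GL (Fin k) F) : Matrix (Fin k) (Fin k) F) *ᵥ v = v := by
      rw [Units.val_mul, ← Matrix.mulVec_mulVec, hv, Matrix.mulVec_mulVec, Units.mul_inv, Matrix.one_mulVec]
    have h3 : ∀ j : ℕ, (((h * h) ^ j : GL (Fin k) F) : Matrix (Fin k) (Fin k) F) *ᵥ v = v := by
      intro j
      induction j with
      | zero => rw [pow_zero, Units.val_one, Matrix.one_mulVec]
      | succ j ih => rw [pow_succ, Units.val_mul, ← Matrix.mulVec_mulVec, h1, ih]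
    obtain ⟨j, hj⟩ := hodd
    have h5 : (h * h) ^ (j + 1) = h := by
      rw [← pow_two, ← pow_mul, show 2 * (j + 1) = r + 1 by omega, pow_succ, hh1, one_mul]
    have h7 := h3 (j + 1)
    rwa [h5] at h7
  refine ⟨h, hh1, hh2, hinv, exists_symm_inv H.rF hh1 ?_ ?_⟩
  · rw [hh2, dagP_pl H hr (fun _ => rfl)]
    congr 1
    funext x
    exact (hc x).symm
  · rw [Matrix.isUnit_iff_isUnit_det, isUnit_iff_ne_zero]
    intro h0
    obtain ⟨v, hv, hv2⟩ := Matrix.exists_mulVec_eq_zero_iff.mpr h0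
    rw [Matrix.sub_mulVec, sub_eq_zero] at hv2
    exact hv (hinv v hv2)

theorem sum_even_of_free {P : Type*} [Fintype P] {ι : P → P} (hι2 : ∀ x, ι (ι x) = x) (hι : ∀ x, ι x ≠ x) {c : P → ℕ} (hc : ∀ x, c (ι x) = c x) :
    Even (∑ x, c x) := by
  classical
  let e := Fintype.equivFin P
  let R : Finset P := Finset.univ.filter (fun x => e x < e (ι x))
  have hR : ∀ x, x ∈ R ↔ e x < e (ι x) := fun x => by simp [R]
  have hR' : ∀ x, ι x ∈ R ↔ x ∉ R := by
    intro x
    rw [hR, hR, hι2, not_lt]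
    constructor
    · exact fun h => h.le
    · intro h
      exact lt_of_le_of_ne h (fun h1 => hι x (e.injective h1))
  have h1 : ∑ x, c x = ∑ x ∈ R, c x + ∑ x ∈ Rᶜ, c x := (Finset.sum_add_sum_compl R c).symm
  have h3 : ∑ x ∈ Rᶜ, c x = ∑ x ∈ R, c x := by
    apply Finset.sum_bij' (fun x _ => ι x) (fun x _ => ι x)
    · intro x hx
      rw [Finset.mem_compl] at hx
      exact (hR' x).mpr hx
    · intro x hx
      rw [Finset.mem_compl]
      intro h
      exact ((hR' x).mp h) hx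
    · intro x _; exact hι2 x
    · intro x _; exact hι2 x
    · intro x _; exact (hc x).symm
  rw [h1, h3]
  exact ⟨_, rfl⟩

end cyc

end Cfsg.Agent.H17
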