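import Mathlib
import Cfsg.Agent.H17.FormIso
import Cfsg.Agent.H5.Sp

set_option autoImplicit false

/-! Semisimple elements of symplectic groups conjugate in the linear group are conjugate. -/

namespace Cfsg.Agent.H17

open Cfsg Cfsg.Agent.H5 Module
open scoped MatrixGroups Matrix

section sp

variable {F : Type*} [Field F] [Finite F] {m : ℕ}

theorem sp_conj_of_lin (A B : Matrix.symplecticGroup (Fin m) F) {N : ℕ} (hN : (N : F) ≠ 0) (hAN : A ^ N = 1)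
    (c : GL (Fin m ⊕ Fin m) F) (hc : (c : Matrix (Fin m ⊕ Fin m) (Fin m ⊕ Fin m) F) * A = B * c) :
    ∃ h : Matrix.symplecticGroup (Fin m) F, h * A = B * h := by
  classical
  let MA : (Fin m ⊕ Fin m → F) →ₗ[F] (Fin m ⊕ Fin m → F) := Matrix.toLin' (A : Matrix (Fin m ⊕ Fin m) (Fin m ⊕ Fin m) F)
  have hMA : ∀ x, MA x = (A : Matrix (Fin m ⊕ Fin m) (Fin m ⊕ Fin m) F) *ᵥ x := fun x => Matrix.toLin'_apply _ _
  let Mc : (Fin m ⊕ Fin m → F) →ₗ[F] (Fin m ⊕ Fin m → F) := Matrix.toLin' (c : Matrix (Fin m ⊕ Fin m) (Fin m ⊕ Fin m) F)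
  have hMc : ∀ x, Mc x = (c : Matrix (Fin m ⊕ Fin m) (Fin m ⊕ Fin m) F) *ᵥ x := fun x => Matrix.toLin'_apply _ _
  let J₂ : LinearMap.BilinForm F (Fin m ⊕ Fin m → F) := (sympB m F).comp Mc Mc
  have hJ₂ : ∀ x y, J₂ x y = sympB m F (Mc x) (Mc y) := fun _ _ => rfl
  have hcsurj : ∀ y, ∃ x, Mc x = y := fun y => ⟨((c⁻¹ : GL (Fin m ⊕ Fin m) F) : Matrix (Fin m ⊕ Fin m) (Fin m ⊕ Fin m) F) *ᵥ y, by
    rw [hMc, Matrix.mulVec_mulVec, ← Units.val_mul, mul_inv_cancel, Units.val_one, Matrix.one_mulVec]⟩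
  have hcinj : ∀ x, Mc x = 0 → x = 0 := fun x hx => by
    rw [hMc] at hx
    have := congrArg (fun y => ((c⁻¹ : GL (Fin m ⊕ Fin m) F) : Matrix (Fin m ⊕ Fin m) (Fin m ⊕ Fin m) F) *ᵥ y) hx
    simp only [Matrix.mulVec_mulVec, Matrix.mulVec_zero] at this
    rwa [← Units.val_mul, inv_mul_cancel, Units.val_one, Matrix.one_mulVec] at this
  have H₁ : Dat (sympB m F) (-1) MA :=
    { sym := fun x y => by rw [sympB_neg y x, neg_one_mul]
      nd := sympB_nondegenerate.1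
      isom := fun x y => by rw [hMA, hMA]; exact mem_Sp_iff.mp A.2 x y }
  have H₂ : Dat J₂ (-1) MA :=
    { sym := fun x y => by rw [hJ₂, hJ₂, sympB_neg (Mc y) (Mc x), neg_one_mul]
      nd := fun x hx => hcinj x (sympB_nondegenerate.1 _ fun y => by
        obtain ⟨z, rfl⟩ := hcsurj y
        exact hx z)
      isom := fun x y => by
        rw [hJ₂, hJ₂, hMA, hMA, hMc, hMc, Matrix.mulVec_mulVec, Matrix.mulVec_mulVec, hc, ← Matrix.mulVec_mulVec, ← Matrix.mulVec_mulVec,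
          mem_Sp_iff.mp B.2, hMc, hMc] }
  have a2 : J₂.IsAlt := fun x => sympB_isAlt (Mc x)
  have hMAN : MA ^ N = 1 := by
    have h1 : (A : Matrix (Fin m ⊕ Fin m) (Fin m ⊕ Fin m) F) ^ N = 1 := by
      have := congrArg (fun g : Matrix.symplecticGroup (Fin m) F => (g : Matrix (Fin m ⊕ Fin m) (Fin m ⊕ Fin m) F)) hAN
      simpa using this
    show (Matrix.toLin' _) ^ N = 1
    rw [← Matrix.toLin'_pow, h1, Matrix.toLin'_one]; rfl
  obtain ⟨x, hx1, hx2⟩ := good_alt hN hMAN sympB_isAlt a2 H₁ H₂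
  have hxinj : ∀ u, x u = 0 → u = 0 := fun u hu => H₂.nd u fun v => by rw [← hx1, hu, map_zero, LinearMap.zero_apply]
  let X : Matrix (Fin m ⊕ Fin m) (Fin m ⊕ Fin m) F := LinearMap.toMatrix' x
  have hX : ∀ u, X *ᵥ u = x u := fun u => by
    rw [← Matrix.toLin'_apply, Matrix.toLin'_toMatrix']
  have hXdet : X.det ≠ 0 := by
    intro h0
    obtain ⟨v, hv, hv2⟩ := Matrix.exists_mulVec_eq_zero_iff.mpr h0
    exact hv (hxinj v (by rw [← hX]; exact hv2))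
  let x' : GL (Fin m ⊕ Fin m) F := Matrix.GeneralLinearGroup.mkOfDetNeZero X hXdet
  have hx' : (x' : Matrix (Fin m ⊕ Fin m) (Fin m ⊕ Fin m) F) = X := rfl
  have hxA : (x' : Matrix (Fin m ⊕ Fin m) (Fin m ⊕ Fin m) F) * A = A * x' := by
    apply Matrix.toLin'.injective
    apply LinearMap.ext
    intro u
    rw [Matrix.toLin'_apply, Matrix.toLin'_apply, ← Matrix.mulVec_mulVec, ← Matrix.mulVec_mulVec, hx', hX, hX, ← hMA, ← hMA, hx2]
  have hh : ((c * x'⁻¹ : GL (Fin m ⊕ Fin m) F) : Matrix (Fin m ⊕ Fin m) (Fin m ⊕ Fin m) F) ∈ Matrix.symplecticGroup (Fin m) F := by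
    rw [mem_Sp_iff]
    intro u v
    have e : ∀ u : Fin m ⊕ Fin m → F, x (((x'⁻¹ : GL (Fin m ⊕ Fin m) F) : Matrix (Fin m ⊕ Fin m) (Fin m ⊕ Fin m) F) *ᵥ u) = u := fun u => by
      rw [← hX, ← hx', Matrix.mulVec_mulVec, ← Units.val_mul, mul_inv_cancel, Units.val_one, Matrix.one_mulVec]
    have h1 := hx1 (((x'⁻¹ : GL (Fin m ⊕ Fin m) F) : Matrix (Fin m ⊕ Fin m) (Fin m ⊕ Fin m) F) *ᵥ u) (((x'⁻¹ : GL (Fin m ⊕ Fin m) F) : Matrix (Fin m ⊕ Fin m) (Fin m ⊕ Fin m) F) *ᵥ v)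
    rw [e, e, hJ₂, hMc, hMc] at h1
    rw [Units.val_mul, ← Matrix.mulVec_mulVec, ← Matrix.mulVec_mulVec]
    exact h1.symm
  refine ⟨⟨_, hh⟩, Subtype.ext ?_⟩
  show ((c * x'⁻¹ : GL (Fin m ⊕ Fin m) F) : Matrix (Fin m ⊕ Fin m) (Fin m ⊕ Fin m) F) * A = B * ((c * x'⁻¹ : GL (Fin m ⊕ Fin m) F) : Matrix (Fin m ⊕ Fin m) (Fin m ⊕ Fin m) F)
  have h3 : ((x'⁻¹ : GL (Fin m ⊕ Fin m) F) : Matrix (Fin m ⊕ Fin m) (Fin m ⊕ Fin m) F) * (A : Matrix (Fin m ⊕ Fin m) (Fin m ⊕ Fin m) F) =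
      A * ((x'⁻¹ : GL (Fin m ⊕ Fin m) F) : Matrix (Fin m ⊕ Fin m) (Fin m ⊕ Fin m) F) := by
    exact ((comm_inv_iff x' (A : Matrix (Fin m ⊕ Fin m) (Fin m ⊕ Fin m) F)).mpr hxA.symm).symm
  rw [Units.val_mul, Matrix.mul_assoc, h3, ← Matrix.mul_assoc, hc, Matrix.mul_assoc]

theorem sp_conj_iff {F : Type*} [Field F] [Fintype F] {p : ℕ} [Fact p.Prime] [CharP F p] {m : ℕ} (A B : Matrix.symplecticGroup (Fin m) F) (hA : (orderOf A).Coprime p) :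
    IsConj A B ↔ IsConj (A : Matrix (Fin m ⊕ Fin m) (Fin m ⊕ Fin m) F) (B : Matrix (Fin m ⊕ Fin m) (Fin m ⊕ Fin m) F) := by
  constructor
  · intro h
    exact (Submonoid.subtype (Matrix.symplecticGroup (Fin m) F)).map_isConj h
  · rintro ⟨c, hc⟩
    have hN : ((orderOf A : ℕ) : F) ≠ 0 := by
      intro h
      rw [CharP.cast_eq_zero_iff F p] at h
      exact (Fact.out : p.Prime).one_lt.ne' (hA.symm.eq_one_of_dvd h)
    obtain ⟨h, hh⟩ := sp_conj_of_lin A B hN (pow_orderOf_eq_one A) c hc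
    rw [isConj_iff]
    exact ⟨h, by rw [hh, mul_inv_cancel_right]⟩

end sp

end Cfsg.Agent.H17
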