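import Mathlib
import Cfsg.Agent.H17.CcF
import Cfsg.Agent.H17.SpOrdA
import Cfsg.Agent.H17.SpConj

set_option autoImplicit false

/-! Classes of elements of odd prime order in symplectic groups. -/

namespace Cfsg.Agent.H17

open Polynomial Matrix Cfsg.Agent.H16.PrOrd Cfsg.Agent.H16 Cfsg.Agent.H5 Module

section sp

variable {F : Type*} [Field F]

theorem to_sp' {V : Type*} [AddCommGroup V] [Module F V] [FiniteDimensional F V] {n : ℕ} (B : LinearMap.BilinForm F V) (hB : B.IsAlt) (hnd : ∀ u, (∀ v, B u v = 0) → u = 0)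
    (hfr : finrank F V = 2 * n) : ∃ e : V ≃ₗ[F] (Fin n ⊕ Fin n → F), ∀ u v, sympB n F (e u) (e v) = B u v := by
  have hfr' : finrank F (Fin n ⊕ Fin n → F) = finrank F V := by
    rw [Module.finrank_fintype_fun_eq_card, hfr]; simp; ring
  obtain ⟨θ⟩ : Nonempty ((Fin n ⊕ Fin n → F) ≃ₗ[F] V) := ⟨LinearEquiv.ofFinrankEq _ _ hfr'⟩
  obtain ⟨c, hc⟩ := alt_equiv (B.compl₁₂ θ.toLinearMap θ.toLinearMap) (fun x => hB (θ x)) (fun u hu => by
    have h1 := hnd (θ u) (fun v => by
      have := hu (θ.symm v)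
      rwa [LinearMap.compl₁₂_apply, LinearEquiv.coe_coe, LinearEquiv.apply_symm_apply] at this)
    exact θ.injective (h1.trans (map_zero θ).symm))
  let C : (Fin n ⊕ Fin n → F) ≃ₗ[F] (Fin n ⊕ Fin n → F) := Matrix.toLinearEquiv' (c : Matrix (Fin n ⊕ Fin n) (Fin n ⊕ Fin n) F) (by infer_instance)
  refine ⟨θ.symm.trans C, ?_⟩
  intro u v
  have h1 := hc (θ.symm u) (θ.symm v)
  rw [LinearMap.compl₁₂_apply, LinearEquiv.coe_coe, LinearEquiv.apply_symm_apply, LinearEquiv.apply_symm_apply] at h1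
  exact h1

/-- the symplectic group in the general linear group -/
noncomputable def spφ (m : ℕ) (F : Type*) [Field F] : Matrix.symplecticGroup (Fin m) F →* GL (Fin (m + m)) F :=
  MonoidHom.toHomUnits (((Matrix.reindexAlgEquiv F F (finSumFinEquiv (m := m) (n := m))).toAlgHom : _ →* _).comp (Submonoid.subtype (Matrix.symplecticGroup (Fin m) F)))

theorem spφ_coe {m : ℕ} (A : Matrix.symplecticGroup (Fin m) F) :
    ((spφ m F A : GL (Fin (m + m)) F) : Matrix (Fin (m + m)) (Fin (m + m)) F) = Matrix.reindex finSumFinEquiv finSumFinEquiv (A : Matrix (Fin m ⊕ Fin m) (Fin m ⊕ Fin m) F) := rfl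

theorem sp_block {m l k r : ℕ} (hlk : 2 * l + k = 2 * m) (h : GL (Fin k) F) (hh1 : h ^ r = 1)
    (hinv : ∀ v, (h : Matrix (Fin k) (Fin k) F) *ᵥ v = ((h⁻¹ : GL (Fin k) F) : Matrix (Fin k) (Fin k) F) *ᵥ v → v = 0)
    (S : GL (Fin k) F) (hS1 : (S : Matrix (Fin k) (Fin k) F)ᵀ = S) (hS2 : (h : Matrix (Fin k) (Fin k) F)ᵀ * S * h = S) :
    ∃ A : Matrix.symplecticGroup (Fin m) F, A ^ r = 1 ∧ (A : Matrix (Fin m ⊕ Fin m) (Fin m ⊕ Fin m) F).charpoly =
      (X - 1) ^ (2 * l) * (h : Matrix (Fin k) (Fin k) F).charpoly := by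
  classical
  obtain ⟨T, hT⟩ : ∃ T : Matrix (Fin k) (Fin k) F, T = S * ((h : Matrix (Fin k) (Fin k) F) - ((h⁻¹ : GL (Fin k) F) : Matrix (Fin k) (Fin k) F)) := ⟨_, rfl⟩
  let B₂ : LinearMap.BilinForm F (Fin k → F) := Matrix.toBilin' T
  have hB₂ : ∀ x y, B₂ x y = x ⬝ᵥ T *ᵥ y := fun x y => Matrix.toBilin'_apply' T x y
  have hSh : (S : Matrix (Fin k) (Fin k) F) * ((h⁻¹ : GL (Fin k) F) : Matrix (Fin k) (Fin k) F) = (h : Matrix (Fin k) (Fin k) F)ᵀ * S := by
    nth_rewrite 1 [← hS2]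
    rw [mul_assoc, Units.mul_inv, mul_one]
  have halt : ∀ x, B₂ x x = 0 := by
    intro x
    rw [hB₂, hT, mul_sub, hSh, Matrix.sub_mulVec, dotProduct_sub, sub_eq_zero]
    rw [← Matrix.mulVec_mulVec, ← Matrix.mulVec_mulVec]
    rw [Matrix.dotProduct_mulVec x (h : Matrix (Fin k) (Fin k) F)ᵀ, Matrix.vecMul_transpose]
    rw [Matrix.dotProduct_mulVec ((h : Matrix (Fin k) (Fin k) F) *ᵥ x), dotProduct_comm _ x]
    congr 1
    rw [← Matrix.mulVec_transpose, hS1]
  have hiso : ∀ x y, B₂ ((h : Matrix (Fin k) (Fin k) F) *ᵥ x) ((h : Matrix (Fin k) (Fin k) F) *ᵥ y) = B₂ x y := by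
    intro x y
    rw [hB₂, hB₂, ← Matrix.vecMul_transpose (h : Matrix (Fin k) (Fin k) F) x, ← Matrix.dotProduct_mulVec]
    congr 1
    rw [Matrix.mulVec_mulVec, Matrix.mulVec_mulVec, hT]
    congr 1
    calc (h : Matrix (Fin k) (Fin k) F)ᵀ * ((S : Matrix (Fin k) (Fin k) F) * ((h : Matrix (Fin k) (Fin k) F) - ((h⁻¹ : GL (Fin k) F) : Matrix (Fin k) (Fin k) F))) * h =
        (h : Matrix (Fin k) (Fin k) F)ᵀ * (S * h * h) - (h : Matrix (Fin k) (Fin k) F)ᵀ * (S * (((h⁻¹ : GL (Fin k) F) : Matrix (Fin k) (Fin k) F) * h)) := by noncomm_ring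
      _ = ((h : Matrix (Fin k) (Fin k) F)ᵀ * S * h) * h - (h : Matrix (Fin k) (Fin k) F)ᵀ * S := by rw [Units.inv_mul, mul_one]; simp only [mul_assoc]
      _ = _ := by rw [hS2, ← hSh, mul_sub]
  have hnd₂ : ∀ u, (∀ v, B₂ u v = 0) → u = 0 := by
    intro u hu
    have hneg : ∀ x y, B₂ x y = - B₂ y x := fun x y => (LinearMap.BilinForm.IsAlt.neg_eq (B₁ := B₂) halt y x).symm
    have h1 : T *ᵥ u = 0 := by
      funext j
      have h3 := hu (Pi.single j 1)
      rw [hneg, neg_eq_zero, hB₂, single_one_dotProduct] at h3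
      exact h3
    rw [hT, ← Matrix.mulVec_mulVec] at h1
    have h3 : ((h : Matrix (Fin k) (Fin k) F) - ((h⁻¹ : GL (Fin k) F) : Matrix (Fin k) (Fin k) F)) *ᵥ u = 0 := by
      have h5 := congrArg (fun w => ((S⁻¹ : GL (Fin k) F) : Matrix (Fin k) (Fin k) F) *ᵥ w) h1
      simp only [Matrix.mulVec_zero] at h5
      rwa [Matrix.mulVec_mulVec, Units.inv_mul, Matrix.one_mulVec] at h5
    rw [Matrix.sub_mulVec, sub_eq_zero] at h3
    exact hinv u h3
  let B : LinearMap.BilinForm F ((Fin l ⊕ Fin l → F) × (Fin k → F)) :=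
    (sympB l F).compl₁₂ (LinearMap.fst F _ _) (LinearMap.fst F _ _) + B₂.compl₁₂ (LinearMap.snd F _ _) (LinearMap.snd F _ _)
  have hB : ∀ u v, B u v = sympB l F u.1 v.1 + B₂ u.2 v.2 := fun u v => rfl
  obtain ⟨e, he⟩ := to_sp' (n := m) B (fun u => by rw [hB, sympB_isAlt, halt, add_zero]) (fun u hu => by
    apply Prod.ext
    · apply sympB_nondegenerate.1
      intro v
      have := hu (v, 0)
      rwa [hB, map_zero, add_zero] at this
    · apply hnd₂
      intro v
      have := hu (0, v)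
      rwa [hB, map_zero, zero_add] at this) (by
    rw [Module.finrank_prod, Module.finrank_fintype_fun_eq_card, Module.finrank_fintype_fun_eq_card]; simp; omega)
  let f : Module.End F ((Fin l ⊕ Fin l → F) × (Fin k → F)) := (Matrix.toLin' (1 : Matrix (Fin l ⊕ Fin l) (Fin l ⊕ Fin l) F)).prodMap (Matrix.toLin' (h : Matrix (Fin k) (Fin k) F))
  have hf : ∀ u, f u = (u.1, (h : Matrix (Fin k) (Fin k) F) *ᵥ u.2) := fun u => by
    show ((1 : Matrix (Fin l ⊕ Fin l) (Fin l ⊕ Fin l) F) *ᵥ u.1, (h : Matrix (Fin k) (Fin k) F) *ᵥ u.2) = _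
    rw [Matrix.one_mulVec]
  have hfr : f ^ r = 1 := by
    have hp : ∀ j : ℕ, f ^ j = (Matrix.toLin' (1 : Matrix (Fin l ⊕ Fin l) (Fin l ⊕ Fin l) F)).prodMap (Matrix.toLin' ((h : Matrix (Fin k) (Fin k) F) ^ j)) := by
      intro j
      induction j with
      | zero => rw [pow_zero, pow_zero, Matrix.toLin'_one, Matrix.toLin'_one]; rfl
      | succ j ih =>
        rw [pow_succ, ih, pow_succ, Matrix.toLin'_mul]
        apply LinearMap.ext
        intro u
        rw [Module.End.mul_apply, hf]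
        rfl
    rw [hp, ← Units.val_pow_eq_pow_val, hh1, Units.val_one, Matrix.toLin'_one, Matrix.toLin'_one]; rfl
  let ψ := (LinearEquiv.conjAlgEquiv F e).trans (LinearMap.toMatrixAlgEquiv' (R := F) (n := Fin m ⊕ Fin m))
  have hψ : ∀ w, (ψ f) *ᵥ w = e (f (e.symm w)) := by
    intro w
    show (LinearMap.toMatrix' (LinearEquiv.conjAlgEquiv F e f)) *ᵥ w = _
    rw [LinearMap.toMatrix'_mulVec]
    rfl
  have hmem : ψ f ∈ Matrix.symplecticGroup (Fin m) F := by
    rw [mem_Sp_iff]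
    intro u v
    rw [hψ, hψ, he, hf, hf, hB]
    show sympB l F (e.symm u).1 (e.symm v).1 + B₂ ((h : Matrix (Fin k) (Fin k) F) *ᵥ (e.symm u).2) ((h : Matrix (Fin k) (Fin k) F) *ᵥ (e.symm v).2) = _
    rw [hiso, ← hB, ← he, LinearEquiv.apply_symm_apply, LinearEquiv.apply_symm_apply]
  refine ⟨⟨ψ f, hmem⟩, ?_, ?_⟩
  · apply Subtype.ext
    show (ψ f) ^ r = 1
    rw [← map_pow, hfr, map_one]
  · show (LinearMap.toMatrix' (LinearEquiv.conjAlgEquiv F e f)).charpoly = _
    have h1 : (LinearMap.toMatrix' (LinearEquiv.conjAlgEquiv F e f)).charpoly = (LinearEquiv.conjAlgEquiv F e f).charpoly := by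
      rw [← LinearMap.toMatrix_eq_toMatrix', LinearMap.charpoly_toMatrix]
    have h3 : LinearEquiv.conjAlgEquiv F e f = e.conj f := rfl
    rw [h1, h3, LinearEquiv.charpoly_conj, LinearMap.charpoly_prodMap, Matrix.charpoly_toLin', Matrix.charpoly_toLin', Matrix.charpoly_one]
    congr 2
    simp; ring

variable [Fintype F]

theorem count_sp {p q : ℕ} [Fact p.Prime] [CharP F p] (hF : Fintype.card F = q) (m r i t : ℕ) (hr : r.Prime) (hr2 : r ≠ 2) (hrp : r ≠ p)
    (hi : i = orderOf (q : ZMod r)) (ht : t * i = r - 1) :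
    Nat.card {C : ConjClasses ↥(Matrix.symplecticGroup (Fin m) F) // ∃ g : Matrix.symplecticGroup (Fin m) F, ConjClasses.mk g = C ∧ orderOf g = r} =
      if Odd i then Nat.choose (m / i + t / 2) (t / 2) - 1 else Nat.choose (2 * m / i + t) t - 1 := by
  classical
  haveI : Fact r.Prime := ⟨hr⟩
  have H := cycF (F := F) hF r i t hr hrp hi ht
  have hi' : i = orderOf ((Fintype.card F : ℕ) : ZMod r) := by rw [hF]; exact hi
  obtain ⟨τ, hτ⟩ := exists_tau F (p := p) 0
  rw [pow_zero] at hτ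
  have hfix := H.io_fix hr hi' (σ := RingHom.id F) (fun _ => rfl) (q' := 1) (fun x => (pow_one x).symm) τ hτ
  rw [exists_pow_iff_one hr hr2 hi' H.i0] at hfix
  have hcnt := count_main (σ := RingHom.id F) H hr (fun _ => rfl) (spφ m F)
    (by
      rintro A B hA hB ⟨P, hP⟩
      let c : GL (Fin m ⊕ Fin m) F := Units.mapEquiv (Matrix.reindexAlgEquiv F F (finSumFinEquiv (m := m) (n := m)).symm).toMulEquiv P
      obtain ⟨h, hh⟩ := sp_conj_of_lin A B H.rF hA c (by
        have h1 := congrArg (fun x : GL (Fin (m + m)) F => Matrix.reindexAlgEquiv F F (finSumFinEquiv (m := m) (n := m)).symm (x : Matrix (Fin (m + m)) (Fin (m + m)) F)) hP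
        simp only [Units.val_mul, map_mul, spφ_coe] at h1
        have h3 : ∀ X : Matrix (Fin m ⊕ Fin m) (Fin m ⊕ Fin m) F, Matrix.reindexAlgEquiv F F (finSumFinEquiv (m := m) (n := m)).symm (Matrix.reindex finSumFinEquiv finSumFinEquiv X) = X := by
          intro X
          ext i j
          simp
        rw [h3, h3] at h1
        exact h1)
      rw [isConj_iff]
      exact ⟨h, by rw [hh, mul_inv_cancel_right]⟩)
    (by
      intro A
      rw [spφ_coe, charpoly_reindex]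
      have h1 := SymplecticGroup.mem_iff'.mp A.2
      have hJ : IsUnit (Matrix.J (Fin m) F) := by
        rw [Matrix.isUnit_iff_isUnit_det]
        exact Matrix.isUnit_det_J (Fin m) F
      have hA : IsUnit (A : Matrix (Fin m ⊕ Fin m) (Fin m ⊕ Fin m) F) := by
        rw [Matrix.isUnit_iff_isUnit_det]
        exact SymplecticGroup.symplectic_det A.2
      exact charpoly_self_dual hA hJ h1)
    (by
      intro g hg c hc hc0 hcn hgc _
      obtain ⟨k, hk⟩ : ∃ k, k = i * ∑ x, c x := ⟨_, rfl⟩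
      rw [← hk] at hcn hgc
      have hke : Even k := by
        rw [hk]
        rcases Nat.even_or_odd i with he | ho
        · exact he.mul_right _
        · exact (sum_even_of_free (H.io_io hr (fun _ => rfl)) (fun x hx => (Nat.not_even_iff_odd.mpr ho) ((hfix x).mp hx)) hc).mul_left _
      obtain ⟨l, hl⟩ : ∃ l, l = (m + m - k) / 2 := ⟨_, rfl⟩
      have hlk : 2 * l + k = 2 * m := by
        obtain ⟨w, hw⟩ := hke
        omega
      obtain ⟨h, hh1, hh2, hinv, S, hS1, hS2⟩ := exists_block H hr hr2 c hc hk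
      obtain ⟨A, hA1, hA2⟩ := sp_block hlk h hh1 hinv S hS1 hS2
      refine ⟨A, hA1, ?_⟩
      rw [spφ_coe, charpoly_reindex, hA2, hh2, hgc]
      unfold pl
      rw [pow_zero, one_mul, show m + m - k = 2 * l by omega])
  rw [hcnt]
  have hPc : Fintype.card (cycP F r) = t := by rw [Fintype.card_coe, H.card]
  split_ifs with ho
  · rw [card_sym_free (H.io_io hr (fun _ => rfl)) (fun x h => (Nat.not_even_iff_odd.mpr ho) ((hfix x).mp h)) H.i0, hPc, ← two_mul,
      Nat.mul_div_mul_left _ _ (by norm_num)]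
  · rw [Nat.not_odd_iff_even] at ho
    rw [card_sym_id (fun x => (hfix x).mpr ho) H.i0, hPc, ← two_mul]

end sp

end Cfsg.Agent.H17
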