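import Mathlib
import Cfsg.Agent.H17.FormIso
import Cfsg.Agent.H17.Spin5

set_option autoImplicit false

/-! Semisimple elements of odd order of orthogonal groups conjugate in the linear group are conjugate. -/

namespace Cfsg.Agent.H17

open Cfsg Cfsg.Agent.H5 Module
open scoped MatrixGroups Matrix

section og

variable {F : Type*} [Field F] [Finite F] {V : Type*} [AddCommGroup V] [Module F V] [FiniteDimensional F V] {Q : QuadraticForm F V}

theorem og_conj_of_lin (hnd : ND Q) (a b : OG Q) {N : ℕ} (hN : (N : F) ≠ 0) (hodd : Odd N) (haN : a ^ N = 1)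
    (c : V ≃ₗ[F] V) (hc : ∀ x, c (a x) = b (c x)) : ∃ h : OG Q, h * a = b * h := by
  classical
  let A : V →ₗ[F] V := a.1.toLinearMap
  have hA : ∀ x, A x = a x := fun _ => rfl
  have hAN : A ^ N = 1 := by
    have h1 : ∀ (k : ℕ) x, (A ^ k) x = (a ^ k : OG Q) x := by
      intro k
      induction k with
      | zero => intro x; rfl
      | succ k ih => intro x; rw [pow_succ, pow_succ, Module.End.mul_apply, ih, og_mul]; rfl
    apply LinearMap.ext
    intro x
    rw [h1, haN]; rfl
  set f : V →ₗ[F] V := A - 1 with hf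
  have hfx : ∀ x, f x = a x - x := fun x => rfl
  have hff : ∀ y, f (f y) = 0 → f y = 0 := by
    intro y hy
    apply ker_inf_range (B := A) hN hAN (y := y)
    · rw [hfx (f y), sub_eq_zero] at hy
      exact hy
    · rfl
  have hC := isCompl_of_inf hff
  have hAf : ∀ x, f (a x) = a (f x) := fun x => by rw [hfx, hfx, og_sub]
  have hAY : ∀ x ∈ LinearMap.range f, A x ∈ LinearMap.range f := by
    rintro _ ⟨x, rfl⟩
    exact ⟨a x, hAf x⟩
  let J₂ : LinearMap.BilinForm F V := (pB Q).comp c.toLinearMap c.toLinearMap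
  have hJ₂ : ∀ x y, J₂ x y = pB Q (c x) (c y) := fun _ _ => rfl
  have H₁ : Dat (pB Q) 1 A :=
    { sym := fun x y => by rw [pB_symm, one_mul]
      nd := hnd
      isom := fun x y => og_p a x y }
  have H₂ : Dat J₂ 1 A :=
    { sym := fun x y => by rw [hJ₂, hJ₂, pB_symm, one_mul]
      nd := fun x hx => by
        have : c x = 0 := hnd _ fun y => by
          obtain ⟨z, rfl⟩ := c.surjective y
          exact hx z
        exact (map_eq_zero_iff c c.injective).mp this
      isom := fun x y => by rw [hJ₂, hJ₂, hA, hA, hc, hc, og_p] }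
  have orth : ∀ (J : LinearMap.BilinForm F V), Dat J 1 A → ∀ x, a x = x → ∀ y ∈ LinearMap.range f, J x y = 0 ∧ J y x = 0 := by
    intro J H x hx y hy
    obtain ⟨w, rfl⟩ := hy
    have h4 : J x (f w) = 0 := by
      rw [hfx, map_sub]
      nth_rewrite 1 [← hx]
      rw [← hA, ← hA, H.isom, sub_self]
    exact ⟨h4, by rw [H.sym x (f w), h4, mul_zero]⟩
  have hker : ∀ x, x ∈ LinearMap.ker f ↔ a x = x := fun x => by
    rw [LinearMap.mem_ker, hfx, sub_eq_zero]
  have D₁ := H₁.restrict hC.symm hAY (fun x hx y hy => (orth _ H₁ y ((hker y).mp hy) x hx).2)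
  have D₂ := H₂.restrict hC.symm hAY (fun x hx y hy => (orth _ H₂ y ((hker y).mp hy) x hx).2)
  set W := LinearMap.range f with hW
  have hW0 : ∀ w ∈ W, a w = w → w = 0 := by
    rintro _ ⟨y, rfl⟩ h
    exact hff y (by rw [hfx (f y), h, sub_self])
  have haa : ∀ x, a (a x) = x → a x = x := by
    intro x hx
    obtain ⟨k, hk⟩ := hodd
    have h1 : ∀ k : ℕ, (a ^ (2 * k) : OG Q) x = x := by
      intro k
      induction k with
      | zero => rfl
      | succ k ih => rw [show 2 * (k + 1) = 2 * k + 2 by ring, pow_add, sq, og_mul, og_mul, hx, ih]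
    have h2 : (a ^ N : OG Q) x = x := by rw [haN]; rfl
    rw [hk, pow_succ', og_mul, h1] at h2
    exact h2
  obtain ⟨x, hx1, hx2⟩ := good_W (by ring) D₁ D₂ (by
    intro w hw
    apply Subtype.ext
    apply hW0 _ w.2
    exact haa _ (congrArg Subtype.val hw))
  have hx1' : ∀ u v : W, pB Q (x u : V) (x v : V) = pB Q (c (u : V)) (c (v : V)) := hx1
  have hx2' : ∀ u : W, (x ⟨a u, hAY u u.2⟩ : V) = a (x u : V) := fun u => congrArg Subtype.val (hx2 u)
  have hxinj : Function.Injective x := by
    rw [injective_iff_map_eq_zero]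
    intro u hu
    exact D₂.nd u fun v => by rw [← hx1, hu, map_zero, LinearMap.zero_apply]
  -- quadratic form
  have hq : ∀ w : W, Q (x w : V) = Q (c (w : V)) := by
    let δ : W → F := fun w => Q (x w : V) - Q (c (w : V))
    have hadd : ∀ u v : W, δ (u + v) = δ u + δ v := by
      intro u v
      show Q (x (u + v) : V) - Q (c ((u + v : W) : V)) = Q (x u : V) - Q (c (u : V)) + (Q (x v : V) - Q (c (v : V)))
      rw [map_add x, Submodule.coe_add, Submodule.coe_add, map_add c, q_add, q_add, hx1']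
      ring
    have hinv : ∀ u : W, δ ⟨a u, hAY u u.2⟩ = δ u := by
      intro u
      show Q (x ⟨a u, hAY u u.2⟩ : V) - Q (c (a (u : V))) = Q (x u : V) - Q (c (u : V))
      rw [hx2', hc, og_q, og_q]
    have hz : δ 0 = 0 := by
      have := hadd 0 0
      rw [add_zero] at this
      exact left_eq_add.mp this
    have hsurj : Function.Surjective (f.restrict (p := W) (q := W) (fun x _ => ⟨x, rfl⟩)) := by
      apply LinearMap.injective_iff_surjective.mp
      rw [injective_iff_map_eq_zero]
      intro w hw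
      apply Subtype.ext
      apply hW0 _ w.2
      have : f (w : V) = 0 := congrArg Subtype.val hw
      rwa [hfx, sub_eq_zero] at this
    intro w
    obtain ⟨w', hw'⟩ := hsurj w
    have e1 : (⟨a w', hAY w' w'.2⟩ : W) = w + w' := by
      rw [← hw']
      apply Subtype.ext
      show a (w' : V) = (a w' - w') + w'
      abel
    have h1 := hinv w'
    rw [e1, hadd] at h1
    have h2 : δ w = 0 := by linear_combination h1
    exact sub_eq_zero.mp h2
  let xe : W ≃ₗ[F] W := LinearEquiv.ofInjectiveEndo x hxinj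
  have hxe : ∀ u, xe u = x u := fun u => rfl
  let ce : W ≃ₗ[F] W.map c.toLinearMap := c.submoduleMap W
  have hce : ∀ u : W, (ce u : V) = c u := fun u => rfl
  obtain ⟨g, hg⟩ := witt_sub hnd (ce.symm.trans xe) (fun u => by
    obtain ⟨w, rfl⟩ := ce.surjective u
    rw [LinearEquiv.trans_apply, LinearEquiv.symm_apply_apply, hxe, hq, hce])
  have hg' : ∀ w : W, g (c w) = x w := by
    intro w
    have := hg (ce w)
    rw [LinearEquiv.trans_apply, LinearEquiv.symm_apply_apply, hxe, hce] at this
    exact this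
  have key : ∀ v, g (b v) = a (g v) := by
    intro v
    obtain ⟨u, rfl⟩ := c.surjective v
    have : u ∈ LinearMap.ker f ⊔ W := by rw [hC.sup_eq_top]; trivial
    obtain ⟨k, hk, w, hw, rfl⟩ := Submodule.mem_sup.mp this
    have hk' := (hker k).mp hk
    have e0 : c (a (k + w)) = c k + c (a w) := by rw [og_add, hk', map_add]
    have e0' : c (k + w) = c k + c w := map_add c k w
    rw [← hc, e0, e0', og_add, og_add, og_add]
    have h1 : g (c (a w)) = a (g (c w)) := by
      have e1 := hg' ⟨a w, hAY w hw⟩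
      have e2 := hg' ⟨w, hw⟩
      have e3 := hx2' ⟨w, hw⟩
      rw [e1, e2, e3]
    have h2 : a (g (c k)) = g (c k) := by
      -- orthogonal to W
      have h3 : ∀ y ∈ W, pB Q (g (c k)) y = 0 := by
        intro y hy
        obtain ⟨w', hw'⟩ := LinearMap.injective_iff_surjective.mp hxinj ⟨y, hy⟩
        have e1 : y = g (c w') := by rw [hg', hw']
        rw [e1, og_p, ← hJ₂]
        exact (orth J₂ H₂ k hk' _ w'.2).1
      rw [← sub_eq_zero]
      apply hnd
      intro z
      have h4 := h3 _ ⟨(a⁻¹ : OG Q) z, rfl⟩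
      rw [hfx, og_inv', pr_sub] at h4
      rw [pl_sub]
      have h5 : pB Q (a (g (c k))) z = pB Q (g (c k)) ((a⁻¹ : OG Q) z) := by
        conv_rhs => rw [← og_p a, og_inv']
      rw [h5]
      linear_combination -h4
    rw [h1, h2]
  refine ⟨g⁻¹, og_ext fun v => ?_⟩
  rw [og_mul, og_mul]
  apply g.1.injective
  show g ((g⁻¹ : OG Q) (a v)) = g (b ((g⁻¹ : OG Q) v))
  rw [og_inv', key, og_inv']

end og

theorem iso_conj_iff {F : Type*} [Field F] [Fintype F] {p : ℕ} [Fact p.Prime] [CharP F p] {n : ℕ} (Q : QuadraticForm F (Fin n → F)) (hQ : (QuadraticMap.polarBilin Q).Nondegenerate)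
    (A B : ↥(Cfsg.isometryGroup F ⇑Q)) (hodd : Odd (orderOf A)) (hA : (orderOf A).Coprime p) :
    IsConj A B ↔ IsConj ((A : Matrix.GeneralLinearGroup (Fin n) F) : Matrix (Fin n) (Fin n) F) ((B : Matrix.GeneralLinearGroup (Fin n) F) : Matrix (Fin n) (Fin n) F) := by
  classical
  constructor
  · intro h
    have h1 := (Subgroup.subtype (Cfsg.isometryGroup F ⇑Q)).map_isConj h
    exact (Units.coeHom (Matrix (Fin n) (Fin n) F)).map_isConj h1
  · rintro ⟨c, hc⟩
    have hN : ((orderOf A : ℕ) : F) ≠ 0 := by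
      intro h
      rw [CharP.cast_eq_zero_iff F p] at h
      exact (Fact.out : p.Prime).one_lt.ne' (hA.symm.eq_one_of_dvd h)
    have hc' : (c : Matrix (Fin n) (Fin n) F) * ((A : Matrix.GeneralLinearGroup (Fin n) F) : Matrix (Fin n) (Fin n) F) = ((B : Matrix.GeneralLinearGroup (Fin n) F) : Matrix (Fin n) (Fin n) F) * c := hc
    let cL : (Fin n → F) ≃ₗ[F] (Fin n → F) := Matrix.toLinearEquiv' (c : Matrix (Fin n) (Fin n) F) (Units.invertible c)
    have hcL : ∀ x, cL x = (c : Matrix (Fin n) (Fin n) F) *ᵥ x := fun x => rfl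
    have hog : ∀ (g : ↥(Cfsg.isometryGroup F ⇑Q)) x, ogEquiv Q g x = ((g : Matrix.GeneralLinearGroup (Fin n) F) : Matrix (Fin n) (Fin n) F) *ᵥ x := fun g x => rfl
    obtain ⟨h, hh⟩ := og_conj_of_lin (nd_of hQ) (ogEquiv Q A) (ogEquiv Q B) hN hodd (by rw [← map_pow, pow_orderOf_eq_one, map_one]) cL (by
      intro x
      rw [hcL, hog, hog, hcL, Matrix.mulVec_mulVec, Matrix.mulVec_mulVec, hc'])
    rw [isConj_iff]
    refine ⟨(ogEquiv Q).symm h, ?_⟩
    apply (ogEquiv Q).injective
    rw [map_mul, map_mul, map_inv, MulEquiv.apply_symm_apply, hh, mul_inv_cancel_right]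

end Cfsg.Agent.H17
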