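import Mathlib
import Cfsg.Agent.H17.CcF
import Cfsg.Agent.H17.OGConj
import Cfsg.Agent.H17.BlockIso
import Cfsg.Agent.H17.OField3
import Cfsg.Agent.H17.QClass2

set_option autoImplicit false

/-! Classes of elements of odd prime order in orthogonal groups: general part. -/

namespace Cfsg.Agent.H17

open Cfsg Polynomial Matrix Cfsg.Agent.H16.PrOrd Cfsg.Agent.H16 Cfsg.Agent.H5 Module

section og

variable {F : Type*} [Field F] {ι : Type} [Fintype ι] [DecidableEq ι]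

theorem pB_gram (Q : QuadraticForm F (ι → F)) (x y : ι → F) : x ⬝ᵥ gramB Q *ᵥ y = pB Q x y := by
  rw [Matrix.dotProduct_mulVec]
  conv_rhs => rw [pi_eq_sum y]
  rw [map_sum]
  apply Finset.sum_congr rfl
  intro k _
  rw [pr_smul, gramB_vec, mul_comm]

theorem iso_self_dual {Q : QuadraticForm F (ι → F)} (hnd : ND Q) (A : isometryGroup F ⇑Q) :
    ((A : GL ι F) : Matrix ι ι F).charpoly = dagP (RingHom.id F) ((A : GL ι F) : Matrix ι ι F).charpoly := by
  apply charpoly_self_dual (Units.isUnit _) (G := gramB Q)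
  · rw [Matrix.isUnit_iff_isUnit_det]
    exact isUnit_iff_ne_zero.mpr ((nd_iff_det Q).mp hnd)
  · apply Matrix.ext
    intro i j
    have h1 : ∀ M : Matrix ι ι F, M i j = (Pi.single i 1) ⬝ᵥ M *ᵥ (Pi.single j 1) := by
      intro M
      rw [Matrix.mulVec_single_one, single_one_dotProduct]; rfl
    rw [h1 (((A : GL ι F) : Matrix ι ι F)ᵀ * gramB Q * ((A : GL ι F) : Matrix ι ι F)), h1 (gramB Q), pB_gram, ← Matrix.mulVec_mulVec, ← Matrix.mulVec_mulVec, Matrix.dotProduct_mulVec _ (((A : GL ι F) : Matrix ι ι F))ᵀ,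
      Matrix.vecMul_transpose, pB_gram]
    exact og_p (ogEquiv Q A) _ _

/-- the isometry group in the general linear group with standard indices -/
noncomputable def isoφ {n : ℕ} (Q : QuadraticForm F (ι → F)) (e : ι ≃ Fin n) : isometryGroup F ⇑Q →* GL (Fin n) F :=
  (Units.map ((Matrix.reindexAlgEquiv F F e).toAlgHom : Matrix ι ι F →* Matrix (Fin n) (Fin n) F)).comp (isometryGroup F ⇑Q).subtype

theorem isoφ_coe {n : ℕ} (Q : QuadraticForm F (ι → F)) (e : ι ≃ Fin n) (A : isometryGroup F ⇑Q) :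
    ((isoφ Q e A : GL (Fin n) F) : Matrix (Fin n) (Fin n) F) = Matrix.reindex e e ((A : GL ι F) : Matrix ι ι F) := rfl

theorem iso_H1 [Finite F] {n r : ℕ} {Q : QuadraticForm F (ι → F)} (hnd : ND Q) (e : ι ≃ Fin n) (hrF : (r : F) ≠ 0) (hr : Odd r)
    (A B : isometryGroup F ⇑Q) (hA : A ^ r = 1) (_ : B ^ r = 1) (h : ∃ P : GL (Fin n) F, P * isoφ Q e A = isoφ Q e B * P) : IsConj A B := by
  classical
  obtain ⟨P, hP⟩ := h
  let c : GL ι F := Units.mapEquiv (Matrix.reindexAlgEquiv F F e.symm).toMulEquiv P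
  have hc : (c : Matrix ι ι F) * ((A : GL ι F) : Matrix ι ι F) = ((B : GL ι F) : Matrix ι ι F) * c := by
    have h1 := congrArg (fun x : GL (Fin n) F => Matrix.reindexAlgEquiv F F e.symm (x : Matrix (Fin n) (Fin n) F)) hP
    simp only [Units.val_mul, map_mul, isoφ_coe] at h1
    have h3 : ∀ X : Matrix ι ι F, Matrix.reindexAlgEquiv F F e.symm (Matrix.reindex e e X) = X := by
      intro X
      ext i j
      simp
    rw [h3, h3] at h1
    exact h1
  let cL : (ι → F) ≃ₗ[F] (ι → F) := Matrix.toLinearEquiv' (c : Matrix ι ι F) (Units.invertible c)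
  have hcL : ∀ x, cL x = (c : Matrix ι ι F) *ᵥ x := fun x => rfl
  have hog : ∀ (g : ↥(Cfsg.isometryGroup F ⇑Q)) x, ogEquiv Q g x = ((g : Matrix.GeneralLinearGroup ι F) : Matrix ι ι F) *ᵥ x := fun g x => rfl
  obtain ⟨h, hh⟩ := og_conj_of_lin hnd (ogEquiv Q A) (ogEquiv Q B) hrF hr (by rw [← map_pow, hA, map_one]) cL (by
    intro x
    rw [hcL, hog, hog, hcL, Matrix.mulVec_mulVec, Matrix.mulVec_mulVec, hc])
  rw [isConj_iff]
  refine ⟨(ogEquiv Q).symm h, ?_⟩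
  apply (ogEquiv Q).injective
  rw [map_mul, map_mul, map_inv, MulEquiv.apply_symm_apply, hh, mul_inv_cancel_right]

/-- transporting block isometries -/
theorem og_block {Q : QuadraticForm F (ι → F)} {a k r : ℕ} {Q₁ : QuadraticForm F (Fin a → F)} {Q₂ : QuadraticForm F (Fin k → F)} {d : F}
    (ψ : ((Fin a → F) × (Fin k → F)) ≃ₗ[F] (ι → F)) (hψ : ∀ u, Q (ψ u) = d * (Q₁ u.1 + Q₂ u.2)) (h : GL (Fin k) F) (hr : r ≠ 0) (hh1 : h ^ r = 1)
    (hQ₂ : ∀ x, Q₂ ((h : Matrix (Fin k) (Fin k) F) *ᵥ x) = Q₂ x) :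
    ∃ A : isometryGroup F ⇑Q, A ^ r = 1 ∧ ((A : GL ι F) : Matrix ι ι F).charpoly = (X - 1) ^ a * (h : Matrix (Fin k) (Fin k) F).charpoly := by
  classical
  let f : Module.End F ((Fin a → F) × (Fin k → F)) := (Matrix.toLin' (1 : Matrix (Fin a) (Fin a) F)).prodMap (Matrix.toLin' (h : Matrix (Fin k) (Fin k) F))
  have hf : ∀ u, f u = (u.1, (h : Matrix (Fin k) (Fin k) F) *ᵥ u.2) := fun u => by
    show ((1 : Matrix (Fin a) (Fin a) F) *ᵥ u.1, (h : Matrix (Fin k) (Fin k) F) *ᵥ u.2) = _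
    rw [Matrix.one_mulVec]
  have hfr : f ^ r = 1 := by
    have hp : ∀ j : ℕ, f ^ j = (Matrix.toLin' (1 : Matrix (Fin a) (Fin a) F)).prodMap (Matrix.toLin' ((h : Matrix (Fin k) (Fin k) F) ^ j)) := by
      intro j
      induction j with
      | zero => rw [pow_zero, pow_zero, Matrix.toLin'_one, Matrix.toLin'_one]; rfl
      | succ j ih =>
        rw [pow_succ, ih, pow_succ, Matrix.toLin'_mul]
        apply LinearMap.ext
        intro u
        rw [Module.End.mul_apply, hf]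
        rfl
    rw [hp, ← Units.val_pow_eq_pow_val, hh1, Units.val_one, Matrix.toLin'_one, Matrix.toLin'_one]; rfl
  let θ := (LinearEquiv.conjAlgEquiv F ψ).trans (LinearMap.toMatrixAlgEquiv' (R := F) (n := ι))
  have hθ : ∀ w, (θ f) *ᵥ w = ψ (f (ψ.symm w)) := by
    intro w
    show (LinearMap.toMatrix' (LinearEquiv.conjAlgEquiv F ψ f)) *ᵥ w = _
    rw [LinearMap.toMatrix'_mulVec]
    rfl
  have hθr : (θ f) ^ r = 1 := by rw [← map_pow, hfr, map_one]
  let A : GL ι F := Units.ofPowEqOne (θ f) r hθr hr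
  have hA : (A : Matrix ι ι F) = θ f := rfl
  have hmem : A ∈ isometryGroup F ⇑Q := by
    rw [mem_isometryGroup]
    intro w
    rw [hA, hθ, hψ, hf]
    show d * (Q₁ (ψ.symm w).1 + Q₂ ((h : Matrix (Fin k) (Fin k) F) *ᵥ (ψ.symm w).2)) = _
    rw [hQ₂, ← hψ, LinearEquiv.apply_symm_apply]
  refine ⟨⟨A, hmem⟩, ?_, ?_⟩
  · apply Subtype.ext
    apply Units.ext
    show ((A ^ r : GL ι F) : Matrix ι ι F) = 1
    rw [Units.val_pow_eq_pow_val, hA, hθr]
  · show (LinearMap.toMatrix' (LinearEquiv.conjAlgEquiv F ψ f)).charpoly = _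
    have h1 : (LinearMap.toMatrix' (LinearEquiv.conjAlgEquiv F ψ f)).charpoly = (LinearEquiv.conjAlgEquiv F ψ f).charpoly := by
      rw [← LinearMap.toMatrix_eq_toMatrix', LinearMap.charpoly_toMatrix]
    have h3 : LinearEquiv.conjAlgEquiv F ψ f = ψ.conj f := rfl
    rw [h1, h3, LinearEquiv.charpoly_conj, LinearMap.charpoly_prodMap, Matrix.charpoly_toLin', Matrix.charpoly_toLin', Matrix.charpoly_one]
    congr 2
    simp

/-- the invariant quadratic form -/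
theorem exists_Q2 [Finite F] {k r : ℕ} (hr : Odd r) {h : GL (Fin k) F} (hh1 : h ^ r = 1)
    (hinv : ∀ v, (h : Matrix (Fin k) (Fin k) F) *ᵥ v = ((h⁻¹ : GL (Fin k) F) : Matrix (Fin k) (Fin k) F) *ᵥ v → v = 0)
    (S : GL (Fin k) F) (hS1 : (S : Matrix (Fin k) (Fin k) F)ᵀ = S) (hS2 : (h : Matrix (Fin k) (Fin k) F)ᵀ * S * h = S) :
    ∃ Q₂ : QuadraticForm F (Fin k → F), ND Q₂ ∧ ∀ x, Q₂ ((h : Matrix (Fin k) (Fin k) F) *ᵥ x) = Q₂ x := by
  obtain ⟨T, hT⟩ : ∃ T : Matrix (Fin k) (Fin k) F, T = S * (h : Matrix (Fin k) (Fin k) F) := ⟨_, rfl⟩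
  let Q₂ : QuadraticForm F (Fin k → F) := LinearMap.BilinMap.toQuadraticMap (Matrix.toBilin' T)
  have hQ₂ : ∀ x, Q₂ x = x ⬝ᵥ T *ᵥ x := fun x => by
    show Matrix.toBilin' T x x = _
    rw [Matrix.toBilin'_apply']
  have hSh : (S : Matrix (Fin k) (Fin k) F) * ((h⁻¹ : GL (Fin k) F) : Matrix (Fin k) (Fin k) F) = (h : Matrix (Fin k) (Fin k) F)ᵀ * S := by
    nth_rewrite 1 [← hS2]
    rw [mul_assoc, Units.mul_inv, mul_one]
  have hTt : Tᵀ = S * ((h⁻¹ : GL (Fin k) F) : Matrix (Fin k) (Fin k) F) := by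
    rw [hT, Matrix.transpose_mul, hS1, hSh]
  have hpB : ∀ x y, pB Q₂ x y = x ⬝ᵥ ((S : Matrix (Fin k) (Fin k) F) * ((h : Matrix (Fin k) (Fin k) F) + ((h⁻¹ : GL (Fin k) F) : Matrix (Fin k) (Fin k) F))) *ᵥ y := by
    intro x y
    rw [pB_apply, QuadraticMap.polar, hQ₂, hQ₂, hQ₂, mul_add, ← hTt, ← hT, Matrix.add_mulVec, dotProduct_add, Matrix.mulVec_add, add_dotProduct,
      dotProduct_add, dotProduct_add]
    have h1 : y ⬝ᵥ T *ᵥ x = x ⬝ᵥ Tᵀ *ᵥ y := by
      rw [Matrix.dotProduct_mulVec x Tᵀ, Matrix.vecMul_transpose, dotProduct_comm]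
    rw [h1]; ring
  refine ⟨Q₂, ?_, ?_⟩
  · intro x hx
    have h1 : ∀ y, pB Q₂ y x = 0 := fun y => by rw [pB_symm]; exact hx y
    have h3 : ((S : Matrix (Fin k) (Fin k) F) * ((h : Matrix (Fin k) (Fin k) F) + ((h⁻¹ : GL (Fin k) F) : Matrix (Fin k) (Fin k) F))) *ᵥ x = 0 := by
      funext j
      have h5 := h1 (Pi.single j 1)
      rw [hpB, single_one_dotProduct] at h5
      exact h5
    rw [← Matrix.mulVec_mulVec] at h3
    have h5 : ((h : Matrix (Fin k) (Fin k) F) + ((h⁻¹ : GL (Fin k) F) : Matrix (Fin k) (Fin k) F)) *ᵥ x = 0 := by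
      have h5 := congrArg (fun w => ((S⁻¹ : GL (Fin k) F) : Matrix (Fin k) (Fin k) F) *ᵥ w) h3
      simp only [Matrix.mulVec_zero] at h5
      rwa [Matrix.mulVec_mulVec, Units.inv_mul, Matrix.one_mulVec] at h5
    rw [Matrix.add_mulVec] at h5
    have h7 : (h : Matrix (Fin k) (Fin k) F) *ᵥ x = -(((h⁻¹ : GL (Fin k) F) : Matrix (Fin k) (Fin k) F) *ᵥ x) := eq_neg_of_add_eq_zero_left h5
    -- `h² x = -x`
    have h9 : ((h * h : GL (Fin k) F) : Matrix (Fin k) (Fin k) F) *ᵥ x = -x := by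
      rw [Units.val_mul, ← Matrix.mulVec_mulVec, h7, Matrix.mulVec_neg, Matrix.mulVec_mulVec, Units.mul_inv, Matrix.one_mulVec]
    have h11 : ∀ j : ℕ, (((h * h) ^ j : GL (Fin k) F) : Matrix (Fin k) (Fin k) F) *ᵥ x = (-1 : F) ^ j • x := by
      intro j
      induction j with
      | zero => rw [pow_zero, Units.val_one, Matrix.one_mulVec, pow_zero, one_smul]
      | succ j ih => rw [pow_succ, Units.val_mul, ← Matrix.mulVec_mulVec, h9, Matrix.mulVec_neg, ih, pow_succ, mul_neg_one, neg_smul]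
    have h13 := h11 r
    rw [show (h * h) ^ r = 1 by rw [← pow_two, ← pow_mul, mul_comm, pow_mul, hh1, one_pow], Units.val_one, Matrix.one_mulVec, hr.neg_one_pow,
      neg_one_smul] at h13
    apply hinv
    rw [h7]
    have : ((h⁻¹ : GL (Fin k) F) : Matrix (Fin k) (Fin k) F) *ᵥ x = ((h⁻¹ : GL (Fin k) F) : Matrix (Fin k) (Fin k) F) *ᵥ (-x) := by rw [← h13]
    rw [Matrix.mulVec_neg] at this
    exact this.symm
  · have hg : ∀ x y, ((h : Matrix (Fin k) (Fin k) F) *ᵥ x) ⬝ᵥ T *ᵥ ((h : Matrix (Fin k) (Fin k) F) *ᵥ y) = x ⬝ᵥ T *ᵥ y := by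
      intro x y
      rw [← Matrix.vecMul_transpose (h : Matrix (Fin k) (Fin k) F) x, ← Matrix.dotProduct_mulVec]
      congr 1
      rw [Matrix.mulVec_mulVec, Matrix.mulVec_mulVec, hT]
      congr 1
      calc (h : Matrix (Fin k) (Fin k) F)ᵀ * (S * (h : Matrix (Fin k) (Fin k) F)) * (h : Matrix (Fin k) (Fin k) F) =
          ((h : Matrix (Fin k) (Fin k) F)ᵀ * S * (h : Matrix (Fin k) (Fin k) F)) * (h : Matrix (Fin k) (Fin k) F) := by simp only [mul_assoc]
        _ = _ := by rw [hS2]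
    intro x
    rw [hQ₂, hQ₂, hg]

end og

end Cfsg.Agent.H17
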