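import Mathlib
import Cfsg.Agent.H17.CcH
import Cfsg.Agent.H17.OddTwo

set_option autoImplicit false

/-! Classes of elements of odd prime order in odd dimensional orthogonal groups. -/

namespace Cfsg.Agent.H17

open Cfsg Polynomial Matrix Cfsg.Agent.H16.PrOrd Cfsg.Agent.H16 Cfsg.Agent.H5 Module

section og

variable {F : Type*} [Field F]

theorem nd_prod {V W : Type*} [AddCommGroup V] [Module F V] [AddCommGroup W] [Module F W] {Q₁ : QuadraticForm F V} {Q₂ : QuadraticForm F W}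
    (h1 : ND Q₁) (h2 : ND Q₂) : ND (QuadraticMap.prod Q₁ Q₂) := by
  have hpB : ∀ x y : V × W, pB (QuadraticMap.prod Q₁ Q₂) x y = pB Q₁ x.1 y.1 + pB Q₂ x.2 y.2 := by
    intro x y
    rw [pB_apply, pB_apply, pB_apply, QuadraticMap.polar, QuadraticMap.polar, QuadraticMap.polar, QuadraticMap.prod_apply, QuadraticMap.prod_apply,
      QuadraticMap.prod_apply, Prod.fst_add, Prod.snd_add]
    ring
  intro x hx
  apply Prod.ext
  · apply h1
    intro y
    have := hx (y, 0)
    rwa [hpB, map_zero, add_zero] at this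
  · apply h2
    intro y
    have := hx (0, y)
    rwa [hpB, map_zero, zero_add] at this

theorem exists_nd (h2 : (2 : F) ≠ 0) (a : ℕ) : ∃ Q₁ : QuadraticForm F (Fin a → F), ND Q₁ := by
  let Q₁ : QuadraticForm F (Fin a → F) := LinearMap.BilinMap.toQuadraticMap (Matrix.toBilin' (1 : Matrix (Fin a) (Fin a) F))
  have hQ₁ : ∀ x, Q₁ x = x ⬝ᵥ x := fun x => by
    show Matrix.toBilin' 1 x x = _
    rw [Matrix.toBilin'_apply', Matrix.one_mulVec]
  have hpB : ∀ x y, pB Q₁ x y = 2 * (x ⬝ᵥ y) := by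
    intro x y
    rw [pB_apply, QuadraticMap.polar, hQ₁, hQ₁, hQ₁, dotProduct_add, add_dotProduct, add_dotProduct, dotProduct_comm y x]
    ring
  refine ⟨Q₁, fun x hx => ?_⟩
  funext j
  have h1 := hx (Pi.single j 1)
  rw [hpB, dotProduct_single_one] at h1
  exact (mul_eq_zero.mp h1).resolve_left h2

variable [Fintype F]

theorem cyc_even {p q : ℕ} [Fact p.Prime] [CharP F p] (hF : Fintype.card F = q) {r i t : ℕ} (hr : r.Prime) (hr2 : r ≠ 2)
    (hi : i = orderOf (q : ZMod r)) (H : CycF F r i t) (π : cycP F r) : H.io hr (σ := RingHom.id F) (fun _ => rfl) π = π ↔ Even i := by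
  have hi' : i = orderOf ((Fintype.card F : ℕ) : ZMod r) := by rw [hF]; exact hi
  obtain ⟨τ, hτ⟩ := exists_tau F (p := p) 0
  rw [pow_zero] at hτ
  have hfix := H.io_fix hr hi' (σ := RingHom.id F) (fun _ => rfl) (q' := 1) (fun x => (pow_one x).symm) τ hτ π
  rwa [exists_pow_iff_one hr hr2 hi' H.i0] at hfix

theorem dim_even {r i t : ℕ} (hr : r.Prime) (H : CycF F r i t) (hfix : ∀ π, H.io hr (σ := RingHom.id F) (fun _ => rfl) π = π ↔ Even i)
    {c : cycP F r → ℕ} (hc : ∀ x, c (H.io hr (σ := RingHom.id F) (fun _ => rfl) x) = c x) : Even (i * ∑ x, c x) := by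
  rcases Nat.even_or_odd i with he | ho
  · exact he.mul_right _
  · exact (sum_even_of_free (H.io_io hr (fun _ => rfl)) (fun x hx => (Nat.not_even_iff_odd.mpr ho) ((hfix x).mp hx)) hc).mul_left _

theorem count_oodd {p q : ℕ} [Fact p.Prime] [CharP F p] (hF : Fintype.card F = q) (hq : Odd q) (m r i t : ℕ) (hr : r.Prime) (hr2 : r ≠ 2) (hrp : r ≠ p)
    (hi : i = orderOf (q : ZMod r)) (ht : t * i = r - 1) :
    Nat.card {C : ConjClasses ↥(isometryGroup F ⇑(qOdd m F)) // ∃ g : ↥(isometryGroup F ⇑(qOdd m F)), ConjClasses.mk g = C ∧ orderOf g = r} =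
      if Odd i then Nat.choose (m / i + t / 2) (t / 2) - 1 else Nat.choose ((2 * m + 1) / i + t) t - 1 := by
  classical
  haveI : Fact r.Prime := ⟨hr⟩
  have h2 : (2 : F) ≠ 0 := two_ne_of_odd (by rw [hF]; exact hq)
  have hnd : ND (qOdd m F) := nd_odd h2
  have H := cycF (F := F) hF r i t hr hrp hi ht
  have hfix := cyc_even hF hr hr2 hi H
  let e : (Unit ⊕ (Fin m ⊕ Fin m)) ≃ Fin (2 * m + 1) := Fintype.equivFinOfCardEq (card_odd_ι m)
  have hodd := hr.odd_of_ne_two hr2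
  have hcnt := count_main (σ := RingHom.id F) H hr (fun _ => rfl) (isoφ (qOdd m F) e) (fun A B hA hB hP => iso_H1 hnd e H.rF hodd A B hA hB hP)
    (fun A => by rw [isoφ_coe, charpoly_reindex]; exact iso_self_dual hnd A)
    (by
      intro g hg c hc hc0 hcn hgc _
      obtain ⟨k, hk⟩ : ∃ k, k = i * ∑ x, c x := ⟨_, rfl⟩
      have hke := dim_even hr H hfix hc
      rw [← hk] at hcn hgc hke
      obtain ⟨a, ha⟩ : ∃ a, a = 2 * m + 1 - k := ⟨_, rfl⟩
      obtain ⟨h, hh1, hh2, hinv, S, hS1, hS2⟩ := exists_block H hr hr2 c hc hk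
      obtain ⟨Q₂, hQ₂, hQ₂h⟩ := exists_Q2 hodd hh1 hinv S hS1 hS2
      obtain ⟨Q₁, hQ₁⟩ := exists_nd h2 a
      have hfr : finrank F ((Fin a → F) × (Fin k → F)) = 2 * m + 1 := by
        rw [Module.finrank_prod, Module.finrank_fintype_fun_eq_card, Module.finrank_fintype_fun_eq_card, Fintype.card_fin, Fintype.card_fin]; omega
      obtain ⟨d, hd, φ, hφ⟩ := class_odd h2 m (nd_prod hQ₁ hQ₂) hnd hfr (fr_odd F m)
      obtain ⟨ψ, hψ⟩ := exists_simEquiv hd hφ (nd_prod hQ₁ hQ₂) (hfr.trans (fr_odd F m).symm)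
      obtain ⟨A, hA1, hA2⟩ := og_block ψ (fun u => by rw [hψ, QuadraticMap.prod_apply]) h hr.ne_zero hh1 hQ₂h
      refine ⟨A, hA1, ?_⟩
      rw [isoφ_coe, charpoly_reindex, hA2, hh2, hgc]
      unfold pl
      rw [pow_zero, one_mul, ← ha])
  rw [hcnt]
  have hPc : Fintype.card (cycP F r) = t := by rw [Fintype.card_coe, H.card]
  split_ifs with ho
  · rw [card_sym_free (H.io_io hr (fun _ => rfl)) (fun x h => (Nat.not_even_iff_odd.mpr ho) ((hfix x).mp h)) H.i0, hPc]
    have : (2 * m + 1) / (2 * i) = m / i := by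
      rw [← Nat.div_div_eq_div_mul]
      congr 1
      omega
    rw [this]
  · rw [Nat.not_odd_iff_even] at ho
    rw [card_sym_id (fun x => (hfix x).mpr ho) H.i0, hPc]

end og

end Cfsg.Agent.H17
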