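import Mathlib
import Cfsg.Agent.H17.CcD

set_option autoImplicit false

/-! Counting classes of elements of prime order with a restriction on the multiplicities. -/

namespace Cfsg.Agent.H17

open Polynomial Matrix UniqueFactorizationMonoid Cfsg.Agent.H16.PrOrd Cfsg.Agent.H16

section main

variable {F : Type*} [Field F] {r i t : ℕ} {σ : F →+* F}

open Classical in
theorem count_adm [Fintype F] (H : CycF F r i t) (hr : r.Prime) (hσ2 : ∀ x, σ (σ x) = x) {n : ℕ} {G : Type*} [Group G]
    (φ : G →* GL (Fin n) F) (Adm : (cycP F r → ℕ) → Prop)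
    (H1 : ∀ A B : G, A ^ r = 1 → B ^ r = 1 → (∃ P : GL (Fin n) F, P * φ A = φ B * P) → IsConj A B)
    (H2 : ∀ A : G, ((φ A : GL (Fin n) F) : Matrix (Fin n) (Fin n) F).charpoly = dagP σ ((φ A : GL (Fin n) F) : Matrix (Fin n) (Fin n) F).charpoly)
    (H4 : ∀ A : G, A ^ r = 1 → ∀ a c, ((φ A : GL (Fin n) F) : Matrix (Fin n) (Fin n) F).charpoly = pl (cycP F r) a c →
      (∀ x, c (H.io hr hσ2 x) = c x) → c ≠ 0 → a + i * ∑ x, c x = n → Adm c)
    (H3 : ∀ g : GL (Fin n) F, g ^ r = 1 → ∀ c : cycP F r → ℕ, (∀ x, c (H.io hr hσ2 x) = c x) → c ≠ 0 → i * ∑ x, c x ≤ n → Adm c →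
      (g : Matrix (Fin n) (Fin n) F).charpoly = pl (cycP F r) (n - i * ∑ x, c x) c →
      (g : Matrix (Fin n) (Fin n) F).charpoly = dagP σ (g : Matrix (Fin n) (Fin n) F).charpoly →
      ∃ A : G, A ^ r = 1 ∧ ((φ A : GL (Fin n) F) : Matrix (Fin n) (Fin n) F).charpoly = (g : Matrix (Fin n) (Fin n) F).charpoly) :
    Nat.card {C : ConjClasses G // ∃ g : G, ConjClasses.mk g = C ∧ orderOf g = r} =
      Nat.card {c : cycP F r → ℕ // (∀ x, c (H.io hr hσ2 x) = c x) ∧ c ≠ 0 ∧ i * ∑ x, c x ≤ n ∧ Adm c} := by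
  haveI : Fact r.Prime := ⟨hr⟩
  have hex : ∀ c : {c : cycP F r → ℕ // (∀ x, c (H.io hr hσ2 x) = c x) ∧ c ≠ 0 ∧ i * ∑ x, c x ≤ n ∧ Adm c}, ∃ A : G, A ^ r = 1 ∧
      ((φ A : GL (Fin n) F) : Matrix (Fin n) (Fin n) F).charpoly = pl (cycP F r) (n - i * ∑ x, c.1 x) c.1 := by
    rintro ⟨c, hcι, hc0, hc, hadm⟩
    have hdeg : (pl (cycP F r) (n - i * ∑ x, c x) c).natDegree = n := by
      rw [pl_natDegree H.mi H.deg]; omega
    obtain ⟨g, hg1, hg2⟩ := exists_pow_one (n := n) hr.pos (pl_monic H.mi (n - i * ∑ x, c x) c) hdeg (by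
      unfold pl
      have h5 : (∏ π : cycP F r, (π : F[X]) ^ c π) ∣ (∏ π : cycP F r, (cyclotomic r F) ^ c π) :=
        Finset.prod_dvd_prod_of_dvd _ _ (fun π _ => pow_dvd_pow_of_dvd (H.dvd _ π.2) _)
      rw [Finset.prod_pow_eq_pow_sum] at h5
      have h6 : ∑ x, c x ≤ i * ∑ x, c x := Nat.le_mul_of_pos_left _ H.i0
      rw [H.cyc, mul_pow]
      exact mul_dvd_mul (pow_dvd_pow _ (by omega)) (h5.trans (pow_dvd_pow _ (by omega))))
    obtain ⟨A, hA1, hA2⟩ := H3 g hg1 c hcι hc0 hc hadm hg2 (by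
      rw [hg2, dagP_pl H hr hσ2]
      congr 1
      funext x
      exact (hcι x).symm)
    exact ⟨A, hA1, hA2.trans hg2⟩
  choose J hJ1 hJ2 using hex
  have hone : ((1 : GL (Fin n) F) : Matrix (Fin n) (Fin n) F).charpoly = pl (cycP F r) n 0 := by
    rw [Units.val_one, Matrix.charpoly_one, Fintype.card_fin]; simp [pl]
  apply InvP.card_classes' (fun x : G => orderOf x = r) J
  · intro c
    apply orderOf_eq_prime (hJ1 c)
    intro h
    have h2 := hJ2 c
    rw [h, map_one, hone] at h2
    apply c.2.2.1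
    funext π
    have h3 := count_pl H.mi H.one n 0 π
    rw [h2, count_pl H.mi H.one] at h3
    exact h3
  · intro A hA
    have hAr : A ^ r = 1 := by rw [← hA]; exact pow_orderOf_eq_one A
    obtain ⟨g, hg⟩ : ∃ g, g = φ A := ⟨_, rfl⟩
    have hgr : g ^ r = 1 := by rw [hg, ← map_pow, hAr, map_one]
    have hE : (toLin' (g : Matrix (Fin n) (Fin n) F)) ^ r = 1 := by
      rw [← toLin'_pow, ← Units.val_pow_eq_pow_val, hgr]; simp; rfl
    have hmem := charpoly_mem H.sq (g := toLin' (g : Matrix (Fin n) (Fin n) F)) (by rw [map_sub, map_pow, aeval_X, hE, map_one, sub_self])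
    rw [Matrix.charpoly_toLin'] at hmem
    obtain ⟨a, c, hac⟩ := pl_of_mem H.fac hmem
    have hdeg := congrArg natDegree hac
    rw [pl_natDegree H.mi H.deg, Matrix.charpoly_natDegree_eq_dim, Fintype.card_fin] at hdeg
    have hcι : ∀ x, c (H.io hr hσ2 x) = c x := by
      intro π
      have h1 := H2 A
      rw [← hg, hac, dagP_pl H hr hσ2] at h1
      have h3 := count_pl H.mi H.one a c π
      rw [h1, count_pl H.mi H.one] at h3
      exact h3
    have hc0 : c ≠ 0 := by
      rintro rfl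
      simp only [Pi.zero_apply, Finset.sum_const_zero, mul_zero, add_zero] at hdeg
      subst hdeg
      have h5 : IsConj A 1 := by
        apply H1 _ _ hAr (one_pow r)
        rw [← hg, map_one]
        exact SSim.gl_conj_of_charpoly (h := 1) H.rF H.rF hgr (one_pow r) (hac.trans hone.symm)
      rw [isConj_one_left] at h5
      rw [h5, orderOf_one] at hA
      exact hr.one_lt.ne hA
    have hle : i * ∑ x, c x ≤ n := by omega
    have hadm : Adm c := H4 A hAr a c (by rw [← hg]; exact hac) hcι hc0 (by omega)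
    refine ⟨⟨c, hcι, hc0, hle, hadm⟩, ?_⟩
    have ha : a = n - i * ∑ x, c x := by omega
    apply H1 _ _ (hJ1 _) hAr
    rw [← hg]
    exact SSim.gl_conj_of_charpoly H.rF H.rF (by rw [← map_pow, hJ1, map_one]) hgr (by
      rw [hJ2]; exact ((congrArg (fun a => pl (cycP F r) a c) ha).symm.trans hac.symm))
  · intro c d h
    obtain ⟨Q, hQ⟩ := isConj_iff.1 h
    have h1 : ((φ (J d) : GL (Fin n) F) : Matrix (Fin n) (Fin n) F).charpoly = ((φ (J c) : GL (Fin n) F) : Matrix (Fin n) (Fin n) F).charpoly := by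
      rw [← hQ, map_mul, map_mul, map_inv, Units.val_mul, Units.val_mul, Matrix.coe_units_inv, charpoly_units_conj]
    rw [hJ2, hJ2] at h1
    apply Subtype.ext
    funext π
    rw [← count_pl H.mi H.one (n - i * ∑ x, c.1 x) c.1 π, ← h1, count_pl H.mi H.one]

end main

section tuples

variable {P : Type*} [Fintype P] {ι : P → P}

theorem card_eq_sum (P : Type*) [Fintype P] (hP : 0 < Fintype.card P) (N : ℕ) :
    Nat.card {c : P → ℕ // ∑ x, c x = N} = (N + Fintype.card P - 1).choose (Fintype.card P - 1) := by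
  classical
  rw [Nat.card_congr (Sym.equivNatSumOfFintype P N).symm, Nat.card_eq_fintype_card, Sym.card_sym_eq_choose,
    show Fintype.card P + N - 1 = N + (Fintype.card P - 1) by omega, show N + Fintype.card P - 1 = N + (Fintype.card P - 1) by omega]
  exact Nat.choose_symm_add

theorem finite_le (P : Type*) [Fintype P] (N : ℕ) (p : (P → ℕ) → Prop) (hp : ∀ c, p c → ∑ x, c x ≤ N) : Finite {c : P → ℕ // p c} := by
  apply Finite.of_injective (fun c : {c : P → ℕ // p c} => fun x => (⟨c.1 x, by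
    have h1 := hp c.1 c.2
    have h2 : c.1 x ≤ ∑ x, c.1 x := Finset.single_le_sum (fun _ _ => Nat.zero_le _) (Finset.mem_univ x)
    omega⟩ : Fin (N + 1)))
  intro a b h
  apply Subtype.ext; funext x
  have := congrFun h x
  simpa using this

theorem card_sub_bad {α : Type*} (p bad : α → Prop) [Finite {c : α // p c}] (hb : ∀ c, bad c → p c) :
    Nat.card {c : α // p c ∧ ¬ bad c} = Nat.card {c : α // p c} - Nat.card {c : α // bad c} := by
  classical
  have e1 := Equiv.sumCompl (fun c : {c : α // p c} => bad c.1)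
  have e2 : {c : {c : α // p c} // bad c.1} ≃ {c : α // bad c} :=
    (Equiv.subtypeSubtypeEquivSubtypeInter p bad).trans (Equiv.subtypeEquivRight fun c => ⟨fun h => h.2, fun h => ⟨hb c h, h⟩⟩)
  have e3 : {c : {c : α // p c} // ¬ bad c.1} ≃ {c : α // p c ∧ ¬ bad c} := Equiv.subtypeSubtypeEquivSubtypeInter p (fun c => ¬ bad c)
  rw [← Nat.card_congr e1, Nat.card_sum, Nat.card_congr e2, Nat.card_congr e3]
  omega

/-- symmetric tuples for a free involution -/
theorem exists_half (hι2 : ∀ x, ι (ι x) = x) (hι : ∀ x, ι x ≠ x) : ∃ (R : Type) (_ : Fintype R) (_ : Fintype.card P = 2 * Fintype.card R)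
    (e : {c : P → ℕ // ∀ x, c (ι x) = c x} ≃ (R → ℕ)), ∀ c, ∑ x, c.1 x = 2 * ∑ x, e c x := by
  classical
  let e := Fintype.equivFin P
  let R : Finset (Fin (Fintype.card P)) := Finset.univ.filter (fun x => x < e (ι (e.symm x)))
  have hR : ∀ x, e x ∈ R ↔ e x < e (ι x) := fun x => by simp [R]
  have hR' : ∀ x, e (ι x) ∈ R ↔ e x ∉ R := by
    intro x
    rw [hR, hR, hι2, not_lt]
    constructor
    · exact fun h => h.le
    · intro h
      exact lt_of_le_of_ne h (fun h1 => hι x (e.injective h1))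
  have hsum : ∀ c : P → ℕ, (∀ x, c (ι x) = c x) → ∑ x, c x = 2 * ∑ x ∈ R, c (e.symm x) := by
    intro c hc
    have h0 : ∑ x, c x = ∑ x, c (e.symm x) := (Equiv.sum_comp e.symm c).symm
    have h1 : ∑ x, c (e.symm x) = ∑ x ∈ R, c (e.symm x) + ∑ x ∈ Rᶜ, c (e.symm x) := (Finset.sum_add_sum_compl R _).symm
    have h3 : ∑ x ∈ Rᶜ, c (e.symm x) = ∑ x ∈ R, c (e.symm x) := by
      apply Finset.sum_bij' (fun x _ => e (ι (e.symm x))) (fun x _ => e (ι (e.symm x)))
      · intro x hx
        rw [Finset.mem_compl] at hx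
        rw [hR', Equiv.apply_symm_apply]; exact hx
      · intro x hx
        rw [Finset.mem_compl]
        intro h
        rw [hR', Equiv.apply_symm_apply] at h
        exact h hx
      · intro x _; simp only [Equiv.symm_apply_apply, hι2, Equiv.apply_symm_apply]
      · intro x _; simp only [Equiv.symm_apply_apply, hι2, Equiv.apply_symm_apply]
      · intro x _; rw [Equiv.symm_apply_apply, hc]
    rw [h0, h1, h3, two_mul]
  have hcard : Fintype.card P = 2 * Fintype.card R := by
    have h1 := hsum (fun _ => 1) (fun _ => rfl)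
    rw [Finset.sum_const, Finset.sum_const, Finset.card_univ, smul_eq_mul, smul_eq_mul, mul_one, mul_one] at h1
    rw [Fintype.card_coe]
    exact h1
  have hsR : ∀ c : P → ℕ, ∑ x ∈ R, c (e.symm x) = ∑ x : R, c (e.symm x) := fun c => (Finset.sum_coe_sort R (fun x => c (e.symm x))).symm
  refine ⟨R, inferInstance, hcard,
    { toFun := fun c => fun x => c.1 (e.symm x)
      invFun := fun c => ⟨fun x => if hx : e x ∈ R then c ⟨e x, hx⟩ else c ⟨e (ι x), (hR' x).mpr hx⟩, by
        intro x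
        by_cases hx : e x ∈ R
        · have h1 : e (ι x) ∉ R := fun h => ((hR' x).mp h) hx
          simp only [dif_pos hx, dif_neg h1]
          exact congrArg c (Subtype.ext (congrArg e (hι2 x)))
        · have h1 : e (ι x) ∈ R := (hR' x).mpr hx
          simp only [dif_neg hx, dif_pos h1]⟩
      left_inv := fun c => by
        apply Subtype.ext
        funext x
        by_cases hx : e x ∈ R
        · simp only [dif_pos hx, Equiv.symm_apply_apply]
        · simp only [dif_neg hx, Equiv.symm_apply_apply]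
          exact c.2 x
      right_inv := fun c => by
        funext x
        have h1 : e (e.symm (x : Fin (Fintype.card P))) ∈ R := by rw [Equiv.apply_symm_apply]; exact x.2
        simp only [dif_pos h1]
        exact congrArg c (Subtype.ext (Equiv.apply_symm_apply e _)) }, ?_⟩
  intro c
  rw [hsum c.1 c.2, hsR]
  rfl

theorem card_sym_eq_free (hι2 : ∀ x, ι (ι x) = x) (hι : ∀ x, ι x ≠ x) (hP : 0 < Fintype.card P) (N : ℕ) :
    Nat.card {c : P → ℕ // (∀ x, c (ι x) = c x) ∧ ∑ x, c x = 2 * N} = (N + Fintype.card P / 2 - 1).choose (Fintype.card P / 2 - 1) := by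
  obtain ⟨R, _, hcard, e, he⟩ := exists_half hι2 hι
  rw [show Fintype.card P / 2 = Fintype.card R by omega, ← card_eq_sum R (by omega) N]
  apply Nat.card_congr
  refine (Equiv.subtypeSubtypeEquivSubtypeInter (fun c : P → ℕ => ∀ x, c (ι x) = c x) (fun c => ∑ x, c x = 2 * N)).symm.trans ?_
  apply Equiv.subtypeEquiv e
  intro c
  rw [he c]
  constructor
  · intro h; omega
  · intro h; omega

end tuples

end Cfsg.Agent.H17
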