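import Mathlib
import Cfsg.Agent.H17.CcI
import Cfsg.Agent.H17.CcJ
import Cfsg.Agent.H17.Minus3
import Cfsg.Agent.H17.ConfD

set_option autoImplicit false

/-! Types of even dimensional quadratic spaces. -/

namespace Cfsg.Agent.H17

open Cfsg Cfsg.Agent.H5 Module

section zt

variable {F : Type*} [Field F]

/-- the quadratic space has type `ε` -/
def ZT {V : Type*} [AddCommGroup V] [Module F V] (Q : QuadraticForm F V) (q k : ℕ) (ε : ℤ) : Prop :=
  (q : ℤ) * (zn Q : ℤ) = (q : ℤ) ^ (2 * k) + ε * ((q : ℤ) - 1) * (q : ℤ) ^ k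

variable {V W : Type*} [AddCommGroup V] [Module F V] [AddCommGroup W] [Module F W] {q : ℕ}

theorem zt_eq (hq : 0 < q) {Q : QuadraticForm F V} {Q' : QuadraticForm F W} {k : ℕ} {ε : ℤ} (h : ZT Q q k ε) (h' : ZT Q' q k ε) : zn Q = zn Q' := by
  have h1 : (q : ℤ) * (zn Q : ℤ) = (q : ℤ) * (zn Q' : ℤ) := h.trans h'.symm
  have h3 : (q : ℤ) ≠ 0 := by exact_mod_cast hq.ne'
  exact_mod_cast mul_left_cancel₀ h3 h1

theorem zt_of_eq {Q : QuadraticForm F V} {Q' : QuadraticForm F W} {k : ℕ} {ε : ℤ} (h : zn Q = zn Q') (h' : ZT Q' q k ε) : ZT Q q k ε := by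
  unfold ZT
  rw [h]
  exact h'

theorem zt_ne (hq : 2 ≤ q) {Q : QuadraticForm F V} {k : ℕ} {ε ε' : ℤ} (h : ZT Q q k ε) (h' : ZT Q q k ε') : ε = ε' := by
  have h1 : (q : ℤ) ^ (2 * k) + ε * ((q : ℤ) - 1) * (q : ℤ) ^ k = (q : ℤ) ^ (2 * k) + ε' * ((q : ℤ) - 1) * (q : ℤ) ^ k := h.symm.trans h'
  have hq' : (2 : ℤ) ≤ q := by exact_mod_cast hq
  have h3 : ((q : ℤ) - 1) * (q : ℤ) ^ k ≠ 0 := mul_ne_zero (by omega) (pow_ne_zero _ (by omega))
  have h5 : (ε - ε') * (((q : ℤ) - 1) * (q : ℤ) ^ k) = 0 := by linear_combination h1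
  have := (mul_eq_zero.mp h5).resolve_right h3
  omega

variable [Finite F]

theorem two_le_q (hq : Nat.card F = q) : 2 ≤ q := by rw [← hq]; exact Finite.one_lt_card

theorem zt_plus (hq : Nat.card F = q) (m : ℕ) : ZT (qPlus m F) q m 1 := by
  unfold ZT
  rw [zn_plus hq]
  have h2 := two_le_q hq
  have h1 : 1 ≤ q ^ m := Nat.one_le_pow _ _ (by omega)
  push_cast [Nat.cast_sub h1]
  rcases m with _ | m
  · simp
  · rw [show m + 1 - 1 = m by omega]
    ring

theorem zt_minus (hq : Nat.card F = q) (m : ℕ) {a b : F} (hab : ∀ z₁ z₂ : F, z₁ ^ 2 + a * z₁ * z₂ + b * z₂ ^ 2 = 0 → z₁ = 0 ∧ z₂ = 0) :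
    ZT (qMinus m F a b) q (m + 1) (-1) := by
  unfold ZT
  rw [zn_minus hab hq]
  have h2 := two_le_q hq
  have h1 : 1 ≤ q ^ m := Nat.one_le_pow _ _ (by omega)
  push_cast [Nat.cast_sub h1]
  rcases m with _ | m
  · simp; ring
  · rw [show m + 1 - 1 = m by omega]
    ring

theorem fr_plus' (F : Type*) [Field F] (m : ℕ) : finrank F (Fin m ⊕ Fin m → F) = 2 * m := by
  rw [Module.finrank_fintype_fun_eq_card, Fintype.card_sum, Fintype.card_fin]; ring

variable [FiniteDimensional F V] [FiniteDimensional F W]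

theorem zt_dich (hq : Nat.card F = q) {Q : QuadraticForm F V} (hnd : ND Q) {k : ℕ} (hk : finrank F V = 2 * k) :
    ZT Q q k 1 ∨ (1 ≤ k ∧ ZT Q q k (-1)) := by
  haveI : Finite V := Module.finite_of_finite F
  by_cases h : ∃ U : Submodule F V, TS Q U ∧ finrank F U = k
  · left
    apply zt_of_eq (class_even_ts k hnd nd_plus hk (fr_plus' F k) ⟨fun _ => ⟨Ustd k F, Ustd_TS, Ustd_finrank⟩, fun _ => h⟩) (zt_plus hq k)
  · right
    rcases k with _ | k
    · exfalso
      apply h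
      exact ⟨⊥, fun x hx => by rw [(Submodule.mem_bot F).mp hx, q_zero], finrank_bot F V⟩
    · refine ⟨by omega, ?_⟩
      obtain ⟨a, b, hab⟩ := exists_ab (F := F)
      exact zt_of_eq (class_even_ts (k + 1) hnd (nd_minus hab) hk (fr_minus F k) ⟨fun h' => absurd h' h, fun h' => absurd h' (no_ts_minus hab)⟩) (zt_minus hq k hab)

theorem zt_of_ts (hq : Nat.card F = q) {Q : QuadraticForm F V} (hnd : ND Q) {k : ℕ} (hk : finrank F V = 2 * k)
    (h : ∃ U : Submodule F V, TS Q U ∧ finrank F U = k) : ZT Q q k 1 := by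
  haveI : Finite V := Module.finite_of_finite F
  exact zt_of_eq (class_even_ts k hnd nd_plus hk (fr_plus' F k) ⟨fun _ => ⟨Ustd k F, Ustd_TS, Ustd_finrank⟩, fun _ => h⟩) (zt_plus hq k)

/-- isometries between spaces of the same type -/
theorem zt_iso (hq : Nat.card F = q) {Q : QuadraticForm F V} {Q' : QuadraticForm F W} (hnd : ND Q) (hnd' : ND Q') {k : ℕ} (hk : finrank F V = 2 * k)
    (hk' : finrank F W = 2 * k) {ε : ℤ} (h : ZT Q q k ε) (h' : ZT Q' q k ε) {c : F} (hc : c ≠ 0) : ∃ ψ : V ≃ₗ[F] W, ∀ x, Q' (ψ x) = c * Q x := by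
  haveI : Finite V := Module.finite_of_finite F
  haveI : Finite W := Module.finite_of_finite F
  obtain ⟨φ, hφ⟩ := class_even k hnd hnd' hk hk' (zt_eq (by have := two_le_q hq; omega) h h') hc
  exact exists_simEquiv hc hφ hnd (hk.trans hk'.symm)

/-- orthogonal sum with a split space -/
theorem zt_sum (hq : Nat.card F = q) {Q₁ : QuadraticForm F V} {Q₂ : QuadraticForm F W} (hnd : ND Q₂) {k₁ k₂ : ℕ} (hk₁ : finrank F V = 2 * k₁)
    (hk₂ : finrank F W = 2 * k₂) {ε : ℤ} (h1 : ZT Q₁ q k₁ ε) (h2 : ZT Q₂ q k₂ 1) : ZT (QuadraticMap.prod Q₁ Q₂) q (k₁ + k₂) ε := by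
  haveI : Finite V := Module.finite_of_finite F
  obtain ⟨ψ, hψ⟩ := zt_iso hq nd_plus hnd (fr_plus' F k₂) hk₂ (zt_plus hq k₂) h2 one_ne_zero
  have hz : zn (QuadraticMap.prod Q₁ Q₂) = (q ^ k₂ - 1) * (Nat.card V * q ^ (k₂ - 1)) + q ^ k₂ * zn Q₁ := by
    have h3 := card_dot k₂ (fun v : V => Q₁ v) 0 hq
    unfold zn
    rw [← h3]
    apply Nat.card_congr
    refine Equiv.subtypeEquiv
      { toFun := fun p => (fun i => ψ.symm p.2 (Sum.inl i), fun i => ψ.symm p.2 (Sum.inr i), p.1)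
        invFun := fun p => (p.2.2, ψ (Sum.elim p.1 p.2.1))
        left_inv := fun p => by
          have : Sum.elim (fun i => ψ.symm p.2 (Sum.inl i)) (fun i => ψ.symm p.2 (Sum.inr i)) = ψ.symm p.2 := by
            funext x
            rcases x with x | x <;> rfl
          show (p.1, ψ (Sum.elim (fun i => ψ.symm p.2 (Sum.inl i)) (fun i => ψ.symm p.2 (Sum.inr i)))) = p
          rw [this, LinearEquiv.apply_symm_apply]
        right_inv := fun p => by
          simp } ?_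
    intro p
    show QuadraticMap.prod Q₁ Q₂ p = 0 ↔ (∑ i, ψ.symm p.2 (Sum.inl i) * ψ.symm p.2 (Sum.inr i)) + Q₁ p.1 = 0
    have h5 := hψ (ψ.symm p.2)
    rw [LinearEquiv.apply_symm_apply, one_mul, qPlus_sum] at h5
    rw [QuadraticMap.prod_apply, h5, add_comm]
  have hcV : Nat.card V = q ^ (2 * k₁) := by rw [Module.natCard_eq_pow_finrank (K := F), hq, hk₁]
  unfold ZT at h1 ⊢
  rw [hz, hcV]
  have h2' := two_le_q hq
  have h3 : 1 ≤ q ^ k₂ := Nat.one_le_pow _ _ (by omega)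
  push_cast [Nat.cast_sub h3]
  have h5 : (q : ℤ) * (((q : ℤ) ^ k₂ - 1) * ((q : ℤ) ^ (2 * k₁) * (q : ℤ) ^ (k₂ - 1)) + (q : ℤ) ^ k₂ * (zn Q₁ : ℤ)) =
      ((q : ℤ) ^ k₂ - 1) * ((q : ℤ) ^ (2 * k₁) * (q * (q : ℤ) ^ (k₂ - 1))) + (q : ℤ) ^ k₂ * (q * (zn Q₁ : ℤ)) := by ring
  rw [h5, h1]
  rcases k₂ with _ | k
  · simp
  · rw [show k + 1 - 1 = k by omega]
    ring

theorem zn_swap {Q₁ : QuadraticForm F V} {Q₂ : QuadraticForm F W} : zn (QuadraticMap.prod Q₁ Q₂) = zn (QuadraticMap.prod Q₂ Q₁) := by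
  unfold zn
  apply Nat.card_congr
  refine Equiv.subtypeEquiv (Equiv.prodComm V W) ?_
  intro p
  rw [QuadraticMap.prod_apply, QuadraticMap.prod_apply, add_comm]
  rfl

/-- complement of a nonsplit space in a split space -/
theorem zt_mm (hq : Nat.card F = q) {Q₂ : QuadraticForm F W} (hnd : ND Q₂) {k₁ k₂ : ℕ} (hk₁ : 1 ≤ k₁) (hk₂' : 1 ≤ k₂)
    (hk₂ : finrank F W = 2 * k₂) (h2 : ZT Q₂ q k₂ (-1)) :
    ∃ Q₁ : QuadraticForm F ((Fin (k₁ - 1) ⊕ Fin (k₁ - 1)) ⊕ Fin 2 → F), ND Q₁ ∧ ZT (QuadraticMap.prod Q₁ Q₂) q (k₁ + k₂) 1 := by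
  obtain ⟨l₁, rfl⟩ : ∃ l, k₁ = l + 1 := ⟨k₁ - 1, by omega⟩
  obtain ⟨l₂, rfl⟩ : ∃ l, k₂ = l + 1 := ⟨k₂ - 1, by omega⟩
  rw [show l₁ + 1 - 1 = l₁ by omega]
  obtain ⟨a, b, hab⟩ := exists_ab (F := F)
  obtain ⟨ψ, hψ⟩ := zt_iso hq (nd_minus hab) hnd (fr_minus F l₂) hk₂ (zt_minus hq l₂ hab) h2 one_ne_zero
  have hndn : ND (-(qMinus l₁ F a b)) := by
    intro x hx
    apply nd_minus hab
    intro y
    have h1 := hx y
    have h3 : pB (-(qMinus l₁ F a b)) x y = - pB (qMinus l₁ F a b) x y := by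
      rw [pB_apply, pB_apply, QuadraticMap.polar, QuadraticMap.polar, QuadraticMap.neg_apply, QuadraticMap.neg_apply, QuadraticMap.neg_apply]
      ring
    rw [h3, neg_eq_zero] at h1
    exact h1
  refine ⟨-(qMinus l₁ F a b), hndn, ?_⟩
  apply zt_of_ts hq (nd_prod hndn hnd)
  · rw [Module.finrank_prod, fr_minus, hk₂]; ring
  · let L : ((Fin l₁ → F) × (Fin l₂ → F) × (Fin 2 → F)) →ₗ[F] (((Fin l₁ ⊕ Fin l₁) ⊕ Fin 2 → F) × W) :=
      { toFun := fun p => (Sum.elim (Sum.elim p.1 0) p.2.2, ψ (Sum.elim (Sum.elim p.2.1 0) p.2.2))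
        map_add' := fun p p' => by
          apply Prod.ext
          · funext x
            rcases x with (x | x) | x <;> simp
          · show ψ _ = ψ _ + ψ _
            rw [← map_add]
            congr 1
            funext x
            rcases x with (x | x) | x <;> simp
        map_smul' := fun c p => by
          apply Prod.ext
          · funext x
            rcases x with (x | x) | x <;> simp
          · show ψ _ = c • ψ _
            rw [← map_smul]
            congr 1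
            funext x
            rcases x with (x | x) | x <;> simp }
    have hL : ∀ p, L p = (Sum.elim (Sum.elim p.1 0) p.2.2, ψ (Sum.elim (Sum.elim p.2.1 0) p.2.2)) := fun p => rfl
    have hLi : Function.Injective L := by
      intro p p' h
      rw [hL, hL, Prod.mk.injEq] at h
      obtain ⟨h1, h3⟩ := h
      have h3 := ψ.injective h3
      apply Prod.ext
      · funext i
        exact congrFun h1 (Sum.inl (Sum.inl i))
      · apply Prod.ext
        · funext i
          exact congrFun h3 (Sum.inl (Sum.inl i))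
        · funext i
          exact congrFun h1 (Sum.inr i)
    refine ⟨LinearMap.range L, ?_, ?_⟩
    · rintro _ ⟨p, rfl⟩
      rw [hL, QuadraticMap.prod_apply, QuadraticMap.neg_apply, hψ, one_mul, qMinus_coe, qMinus_coe, quadFormMinus, quadFormMinus]
      simp
      ring
    · rw [LinearMap.finrank_range_of_inj hLi, Module.finrank_prod, Module.finrank_prod, Module.finrank_fin_fun, Module.finrank_fin_fun, Module.finrank_fin_fun]
      ring

/-- nonzero levels -/
theorem zt_level (hq : Nat.card F = q) {Q : QuadraticForm F V} (hnd : ND Q) {k : ℕ} (hk : finrank F V = 2 * k) {ε : ℤ} (h : ZT Q q k ε) :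
    (q : ℤ) * (Nat.card {x : V // Q x = 1} : ℤ) = (q : ℤ) ^ k * ((q : ℤ) ^ k - ε) := by
  classical
  haveI : Finite V := Module.finite_of_finite F
  have h2' := two_le_q hq
  have hψ : ∀ u : Fˣ, ∃ ψ : V ≃ₗ[F] V, ∀ x, Q (ψ x) = u * Q x := fun u => zt_iso hq hnd hnd hk hk h h u.ne_zero
  choose ψ hψ using hψ
  have e : Fˣ × {x : V // Q x = 1} ≃ {x : V // Q x ≠ 0} :=
    { toFun := fun p => ⟨ψ p.1 p.2.1, by rw [hψ, p.2.2, mul_one]; exact p.1.ne_zero⟩
      invFun := fun x => (Units.mk0 (Q x.1) x.2, ⟨(ψ (Units.mk0 (Q x.1) x.2)).symm x.1, by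
        have h1 := hψ (Units.mk0 (Q x.1) x.2) ((ψ (Units.mk0 (Q x.1) x.2)).symm x.1)
        rw [LinearEquiv.apply_symm_apply, Units.val_mk0] at h1
        exact mul_left_cancel₀ x.2 (h1.symm.trans (mul_one _).symm)⟩)
      left_inv := fun p => by
        have h1 : Units.mk0 (Q (ψ p.1 p.2.1)) (by rw [hψ, p.2.2, mul_one]; exact p.1.ne_zero) = p.1 := by
          apply Units.ext
          rw [Units.val_mk0, hψ, p.2.2, mul_one]
        apply Prod.ext
        · exact h1
        · apply Subtype.ext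
          show (ψ (Units.mk0 (Q (ψ p.1 p.2.1)) _)).symm (ψ p.1 p.2.1) = p.2.1
          rw [h1, LinearEquiv.symm_apply_apply]
      right_inv := fun x => by
        apply Subtype.ext
        show ψ _ ((ψ _).symm x.1) = x.1
        rw [LinearEquiv.apply_symm_apply] }
  have hc : Nat.card {x : V // Q x ≠ 0} + zn Q = q ^ (2 * k) := by
    rw [← hk, ← hq, ← Module.natCard_eq_pow_finrank (K := F) (V := V)]
    unfold zn
    haveI := Fintype.ofFinite V
    rw [Nat.card_eq_fintype_card, Nat.card_eq_fintype_card, Nat.card_eq_fintype_card, Fintype.card_subtype_compl]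
    have := Fintype.card_subtype_le (fun x : V => Q x = 0)
    omega
  have hu : Nat.card Fˣ = q - 1 := by rw [Nat.card_units, hq]
  rw [← Nat.card_congr e, Nat.card_prod, hu] at hc
  have hc' : ((q : ℤ) - 1) * (Nat.card {x : V // Q x = 1} : ℤ) + (zn Q : ℤ) = (q : ℤ) ^ (2 * k) := by
    have := congrArg (fun n : ℕ => (n : ℤ)) hc
    push_cast [Nat.cast_sub (show 1 ≤ q by omega)] at this
    exact this
  unfold ZT at h
  have hq1 : ((q : ℤ) - 1) ≠ 0 := by
    have : (2 : ℤ) ≤ q := by exact_mod_cast h2'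
    omega
  apply mul_left_cancel₀ hq1
  have e1 : (q : ℤ) ^ (2 * k) = (q : ℤ) ^ k * (q : ℤ) ^ k := by rw [two_mul, pow_add]
  rw [e1] at hc' h
  linear_combination (q : ℤ) * hc' - h

/-- the type of a space with a fixed point free isometry of prime order -/
theorem zt_type (hq : Nat.card F = q) {Q : QuadraticForm F V} (hnd : ND Q) {k : ℕ} (hk : finrank F V = 2 * k) {ε : ℤ} (h : ZT Q q k ε)
    {r : ℕ} (hr : r.Prime) (hqr : (q : ZMod r) ≠ 0) (g : OG Q) (hg : g ^ r = 1) (hfix : ∀ x, g x = x → x = 0) : (q : ZMod r) ^ k = (ε : ZMod r) := by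
  classical
  haveI : Fact r.Prime := ⟨hr⟩
  haveI : Finite V := Module.finite_of_finite F
  haveI := Fintype.ofFinite V
  let f : Function.End {x : V // Q x = 1} := fun x => ⟨g x.1, by rw [og_q, x.2]⟩
  have hf : ∀ (n : ℕ) (x : {x : V // Q x = 1}), ((f ^ n) x : V) = (g ^ n : OG Q) x.1 := by
    intro n
    induction n with
    | zero => intro x; rfl
    | succ n ih =>
      intro x
      rw [pow_succ, pow_succ, og_mul]
      show ((f ^ n) (f x) : V) = _
      rw [ih]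
  have h1 := Equiv.Perm.card_fixedPoints_modEq (f := f) (p := r) (n := 1) (by
    rw [pow_one]
    funext x
    apply Subtype.ext
    rw [hf, hg]; rfl)
  have h3 : Fintype.card (Function.fixedPoints f) = 0 := by
    rw [Fintype.card_eq_zero_iff]
    refine ⟨fun x => ?_⟩
    have h5 : g x.1.1 = x.1.1 := congrArg Subtype.val x.2
    have h7 := hfix _ h5
    have h9 := x.1.2
    rw [h7, q_zero] at h9
    exact zero_ne_one h9
  rw [h3, Nat.modEq_zero_iff_dvd, ← Nat.card_eq_fintype_card] at h1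
  have h5 := congrArg (fun n : ℤ => (n : ZMod r)) (zt_level hq hnd hk h)
  push_cast at h5
  rw [(ZMod.natCast_eq_zero_iff _ _).mpr h1, mul_zero] at h5
  rcases mul_eq_zero.mp h5.symm with h7 | h7
  · exact absurd h7 (pow_ne_zero _ hqr)
  · exact sub_eq_zero.mp h7

end zt

end Cfsg.Agent.H17
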