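import Mathlib
import Cfsg.Agent.H17.CcK

set_option autoImplicit false

/-! Classes of elements of odd prime order in even dimensional orthogonal groups. -/

namespace Cfsg.Agent.H17

open Cfsg Polynomial Matrix Cfsg.Agent.H16.PrOrd Cfsg.Agent.H16 Cfsg.Agent.H5 Module

section og

variable {F : Type*} [Field F] {ι : Type} [Fintype ι] [DecidableEq ι]

/-- transporting block isometries -/
theorem og_block' {Q : QuadraticForm F (ι → F)} {k r : ℕ} {V₁ : Type*} [AddCommGroup V₁] [Module F V₁] [FiniteDimensional F V₁]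
    {Q₁ : QuadraticForm F V₁} {Q₂ : QuadraticForm F (Fin k → F)} {d : F}
    (ψ : (V₁ × (Fin k → F)) ≃ₗ[F] (ι → F)) (hψ : ∀ u, Q (ψ u) = d * (Q₁ u.1 + Q₂ u.2)) (h : GL (Fin k) F) (hr : r ≠ 0) (hh1 : h ^ r = 1)
    (hQ₂ : ∀ x, Q₂ ((h : Matrix (Fin k) (Fin k) F) *ᵥ x) = Q₂ x) :
    ∃ A : isometryGroup F ⇑Q, A ^ r = 1 ∧ ((A : GL ι F) : Matrix ι ι F).charpoly = (X - 1) ^ (finrank F V₁) * (h : Matrix (Fin k) (Fin k) F).charpoly := by
  classical
  let f : Module.End F (V₁ × (Fin k → F)) := (1 : Module.End F V₁).prodMap (Matrix.toLin' (h : Matrix (Fin k) (Fin k) F))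
  have hf : ∀ u, f u = (u.1, (h : Matrix (Fin k) (Fin k) F) *ᵥ u.2) := fun u => rfl
  have hfr : f ^ r = 1 := by
    have hp : ∀ j : ℕ, f ^ j = (1 : Module.End F V₁).prodMap (Matrix.toLin' ((h : Matrix (Fin k) (Fin k) F) ^ j)) := by
      intro j
      induction j with
      | zero => rw [pow_zero, pow_zero, Matrix.toLin'_one]; rfl
      | succ j ih =>
        rw [pow_succ, ih, pow_succ, Matrix.toLin'_mul]
        apply LinearMap.ext
        intro u
        rw [Module.End.mul_apply, hf]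
        rfl
    rw [hp, ← Units.val_pow_eq_pow_val, hh1, Units.val_one, Matrix.toLin'_one]; rfl
  let θ := (LinearEquiv.conjAlgEquiv F ψ).trans (LinearMap.toMatrixAlgEquiv' (R := F) (n := ι))
  have hθ : ∀ w, (θ f) *ᵥ w = ψ (f (ψ.symm w)) := by
    intro w
    show (LinearMap.toMatrix' (LinearEquiv.conjAlgEquiv F ψ f)) *ᵥ w = _
    rw [LinearMap.toMatrix'_mulVec]
    rfl
  have hθr : (θ f) ^ r = 1 := by rw [← map_pow, hfr, map_one]
  let A : GL ι F := Units.ofPowEqOne (θ f) r hθr hr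
  have hA : (A : Matrix ι ι F) = θ f := rfl
  have hmem : A ∈ isometryGroup F ⇑Q := by
    rw [mem_isometryGroup]
    intro w
    rw [hA, hθ, hψ, hf]
    show d * (Q₁ (ψ.symm w).1 + Q₂ ((h : Matrix (Fin k) (Fin k) F) *ᵥ (ψ.symm w).2)) = _
    rw [hQ₂, ← hψ, LinearEquiv.apply_symm_apply]
  refine ⟨⟨A, hmem⟩, ?_, ?_⟩
  · apply Subtype.ext
    apply Units.ext
    show ((A ^ r : GL ι F) : Matrix ι ι F) = 1
    rw [Units.val_pow_eq_pow_val, hA, hθr]
  · show (LinearMap.toMatrix' (LinearEquiv.conjAlgEquiv F ψ f)).charpoly = _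
    have h1 : (LinearMap.toMatrix' (LinearEquiv.conjAlgEquiv F ψ f)).charpoly = (LinearEquiv.conjAlgEquiv F ψ f).charpoly := by
      rw [← LinearMap.toMatrix_eq_toMatrix', LinearMap.charpoly_toMatrix]
    have h3 : LinearEquiv.conjAlgEquiv F ψ f = ψ.conj f := rfl
    rw [h1, h3, LinearEquiv.charpoly_conj, LinearMap.charpoly_prodMap, Matrix.charpoly_toLin', LinearMap.charpoly_one]

/-- isometries of a coordinate space given by a matrix -/
theorem exists_og_of_gl {k : ℕ} {Q₂ : QuadraticForm F (Fin k → F)} (h : GL (Fin k) F) (hQ₂ : ∀ x, Q₂ ((h : Matrix (Fin k) (Fin k) F) *ᵥ x) = Q₂ x) :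
    ∃ g : OG Q₂, ∀ (n : ℕ) x, (g ^ n : OG Q₂) x = ((h ^ n : GL (Fin k) F) : Matrix (Fin k) (Fin k) F) *ᵥ x := by
  have hm : h ∈ isometryGroup F ⇑Q₂ := mem_isometryGroup.mpr hQ₂
  refine ⟨ogEquiv Q₂ ⟨h, hm⟩, fun n x => ?_⟩
  rw [← map_pow]; rfl

variable [Fintype F] {r i t q : ℕ}

open Classical in
theorem og_exists (hF : Fintype.card F = q) (hr : r.Prime) (hr2 : r ≠ 2) (hqr : (q : ZMod r) ≠ 0) (H : CycF F r i t) {Q : QuadraticForm F (ι → F)} (hnd : ND Q)
    {m : ℕ} (hm : finrank F (ι → F) = 2 * m) {ε : ℤ} (hε : ε = 1 ∨ ε = -1) (hz : ZT Q q m ε) (c : cycP F r → ℕ)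
    (hc : ∀ x, c (H.io hr (σ := RingHom.id F) (fun _ => rfl) x) = c x) (hc0 : c ≠ 0) {k : ℕ} (hk : k = i * ∑ x, c x) (hke : Even k) (hkm : k ≤ 2 * m)
    (hadm : k = 2 * m → (q : ZMod r) ^ m = (ε : ZMod r)) :
    ∃ A : isometryGroup F ⇑Q, A ^ r = 1 ∧ ((A : GL ι F) : Matrix ι ι F).charpoly = pl (cycP F r) (2 * m - k) c := by
  haveI : Fact r.Prime := ⟨hr⟩
  have hq : Nat.card F = q := by rw [Nat.card_eq_fintype_card, hF]
  have hodd := hr.odd_of_ne_two hr2
  obtain ⟨h, hh1, hh2, hinv, S, hS1, hS2⟩ := exists_block H hr hr2 c hc hk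
  obtain ⟨Q₂, hQ₂, hQ₂h⟩ := exists_Q2 hodd hh1 hinv S hS1 hS2
  obtain ⟨k', hk'⟩ := hke
  have hk2 : finrank F (Fin k → F) = 2 * k' := by rw [Module.finrank_fin_fun]; omega
  have hk'0 : 1 ≤ k' := by
    rcases Nat.eq_zero_or_pos k' with h0 | h0
    · exfalso
      apply hc0
      have h1 : i * ∑ x, c x = 0 := by rw [← hk]; omega
      have h3 := (Nat.mul_eq_zero.mp h1).resolve_left (by have := H.i0; omega)
      funext x
      exact Finset.sum_eq_zero_iff.mp h3 x (Finset.mem_univ x)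
    · exact h0
  obtain ⟨g, hg⟩ := exists_og_of_gl h hQ₂h
  have hg1 : g ^ r = 1 := og_ext fun x => by rw [hg, hh1, Units.val_one, Matrix.one_mulVec]; rfl
  have hgf : ∀ x, g x = x → x = 0 := by
    intro x hx
    have h1 := hg 1 x
    rw [pow_one, pow_one, hx] at h1
    apply hinv
    have h3 : ((h⁻¹ : GL (Fin k) F) : Matrix (Fin k) (Fin k) F) *ᵥ x = x := by
      nth_rewrite 1 [h1]
      rw [Matrix.mulVec_mulVec, Units.inv_mul, Matrix.one_mulVec]
    rw [h3, ← h1]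
  obtain ⟨ε₂, hε₂, hz₂, hM⟩ : ∃ ε₂ : ℤ, (ε₂ = 1 ∨ ε₂ = -1) ∧ ZT Q₂ q k' ε₂ ∧ True := by
    rcases zt_dich hq hQ₂ hk2 with h | ⟨_, h⟩
    · exact ⟨1, Or.inl rfl, h, trivial⟩
    · exact ⟨-1, Or.inr rfl, h, trivial⟩
  have htype := zt_type hq hQ₂ hk2 hz₂ hr hqr g hg1 hgf
  -- the complement
  have key : ∃ (V₁ : Type _) (_ : AddCommGroup V₁) (_ : Module F V₁) (_ : FiniteDimensional F V₁) (Q₁ : QuadraticForm F V₁), ND Q₁ ∧ finrank F V₁ = 2 * (m - k') ∧
      ZT (QuadraticMap.prod Q₁ Q₂) q m ε := by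
    have hmk : m - k' + k' = m := by omega
    by_cases hee : ε = ε₂
    · refine ⟨Fin (m - k') ⊕ Fin (m - k') → F, inferInstance, inferInstance, inferInstance, qPlus (m - k') F, nd_plus, fr_plus' F _, ?_⟩
      have h1 := zt_sum hq (Q₁ := Q₂) nd_plus hk2 (fr_plus' F (m - k')) hz₂ (zt_plus hq (m - k'))
      rw [add_comm, hmk] at h1
      rw [hee]
      exact zt_of_eq zn_swap h1
    · have hlt : 1 ≤ m - k' := by
        by_contra h0
        have h1 : k = 2 * m := by omega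
        have h3 := hadm h1
        have h5 : k' = m := by omega
        rw [h5, h3] at htype
        apply hee
        haveI : Fact (2 < r) := ⟨lt_of_le_of_ne hr.two_le hr2.symm⟩
        rcases hε with h | h <;> rcases hε₂ with h' | h' <;> rw [h, h'] at htype ⊢
        · exfalso
          push_cast at htype
          exact ZMod.neg_one_ne_one htype.symm
        · exfalso
          push_cast at htype
          exact ZMod.neg_one_ne_one htype
      rcases hε with h | h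
      · have h' : ε₂ = -1 := by
          rcases hε₂ with h' | h'
          · exact absurd (h.trans h'.symm) hee
          · exact h'
        rw [h'] at hz₂
        obtain ⟨Q₁, hQ₁, hz⟩ := zt_mm hq hQ₂ hlt hk'0 hk2 hz₂
        refine ⟨_, inferInstance, inferInstance, inferInstance, Q₁, hQ₁, ?_, ?_⟩
        · rw [fr_minus]; omega
        · rw [hmk] at hz
          rw [h]
          exact hz
      · have h' : ε₂ = 1 := by
          rcases hε₂ with h' | h'
          · exact h'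
          · exact absurd (h.trans h'.symm) hee
        rw [h'] at hz₂
        obtain ⟨a, b, hab⟩ := exists_ab (F := F)
        refine ⟨(Fin (m - k' - 1) ⊕ Fin (m - k' - 1)) ⊕ Fin 2 → F, inferInstance, inferInstance, inferInstance, qMinus (m - k' - 1) F a b, nd_minus hab, ?_, ?_⟩
        · rw [fr_minus]; omega
        · have h1 := zt_sum hq (Q₁ := qMinus (m - k' - 1) F a b) hQ₂ (by rw [fr_minus]) hk2 (zt_minus hq (m - k' - 1) hab) hz₂
          rw [show m - k' - 1 + 1 + k' = m by omega] at h1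
          rw [h]
          exact h1
  obtain ⟨V₁, _, _, _, Q₁, hQ₁, hfr, hz'⟩ := key
  obtain ⟨ψ, hψ⟩ := zt_iso hq (nd_prod hQ₁ hQ₂) hnd (k := m) (by rw [Module.finrank_prod, hfr, hk2]; omega) hm hz' hz one_ne_zero
  obtain ⟨A, hA1, hA2⟩ := og_block' ψ (fun u => by rw [hψ, QuadraticMap.prod_apply]) h hr.ne_zero hh1 hQ₂h
  refine ⟨A, hA1, ?_⟩
  rw [hA2, hh2, hfr]
  unfold pl
  rw [pow_zero, one_mul, show 2 * (m - k') = 2 * m - k by omega]

open Classical in
/-- the general count -/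
theorem count_oeven {p : ℕ} [Fact p.Prime] [CharP F p] (hF : Fintype.card F = q) (hr : r.Prime) (hr2 : r ≠ 2) (hrp : r ≠ p)
    (hi : i = orderOf (q : ZMod r)) (ht : t * i = r - 1) (H : CycF F r i t) {Q : QuadraticForm F (ι → F)} (hnd : ND Q)
    {m : ℕ} (hm : finrank F (ι → F) = 2 * m) {ε : ℤ} (hε : ε = 1 ∨ ε = -1) (hz : ZT Q q m ε) :
    Nat.card {C : ConjClasses ↥(isometryGroup F ⇑Q) // ∃ g : ↥(isometryGroup F ⇑Q), ConjClasses.mk g = C ∧ orderOf g = r} =
      Nat.card {c : cycP F r → ℕ // (∀ x, c (H.io hr (σ := RingHom.id F) (fun _ => rfl) x) = c x) ∧ c ≠ 0 ∧ i * ∑ x, c x ≤ 2 * m ∧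
        (i * ∑ x, c x = 2 * m → (q : ZMod r) ^ m = (ε : ZMod r))} := by
  haveI : Fact r.Prime := ⟨hr⟩
  have hfix := cyc_even hF hr hr2 hi H
  have hqr : (q : ZMod r) ≠ 0 := by
    intro h
    obtain ⟨e, hpp, hqe⟩ := FiniteField.card F p
    rw [ZMod.natCast_eq_zero_iff, ← hF, hqe] at h
    exact hrp ((Nat.prime_dvd_prime_iff_eq hr Fact.out).mp (hr.dvd_of_dvd_pow h))
  have hcι : Fintype.card ι = 2 * m := by rw [← hm, Module.finrank_fintype_fun_eq_card]
  let e : ι ≃ Fin (2 * m) := Fintype.equivFinOfCardEq hcι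
  have hodd := hr.odd_of_ne_two hr2
  have hq : Nat.card F = q := by rw [Nat.card_eq_fintype_card, hF]
  refine count_adm (σ := RingHom.id F) H hr (fun _ => rfl) (isoφ Q e) (fun c => i * ∑ x, c x = 2 * m → (q : ZMod r) ^ m = (ε : ZMod r))
    (fun A B hA hB hP => iso_H1 hnd e H.rF hodd A B hA hB hP)
    (fun A => by rw [isoφ_coe, charpoly_reindex]; exact iso_self_dual hnd A) ?_ ?_
  · intro A hA a c hac _ _ han hcm
    have ha : a = 0 := by omega
    subst ha
    rw [isoφ_coe, charpoly_reindex] at hac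
    apply zt_type hq hnd hm hz hr hqr (ogEquiv Q A) (by rw [← map_pow, hA, map_one])
    intro x hx
    have hx' : ((A : GL ι F) : Matrix ι ι F) *ᵥ x = x := hx
    by_contra hx0
    have h1 : ((1 : Matrix ι ι F) - ((A : GL ι F) : Matrix ι ι F)).det = 0 := Matrix.exists_mulVec_eq_zero_iff.mp ⟨x, hx0, by
      rw [Matrix.sub_mulVec, Matrix.one_mulVec, hx', sub_self]⟩
    have h3 : ((A : GL ι F) : Matrix ι ι F).charpoly.eval 1 = 0 := by
      rw [Matrix.eval_charpoly]
      have : (Matrix.scalar ι) (1 : F) = 1 := map_one _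
      rw [this]; exact h1
    rw [hac] at h3
    unfold pl at h3
    rw [pow_zero, one_mul, eval_prod, Finset.prod_eq_zero_iff] at h3
    obtain ⟨π, _, h5⟩ := h3
    rw [eval_pow] at h5
    have h7 := eq_zero_of_pow_eq_zero h5
    have h9 : (X - C 1 : F[X]) ∣ π := dvd_iff_isRoot.mpr h7
    obtain ⟨hm', hirr⟩ := H.mi π π.2
    have h11 := eq_of_monic_of_associated (monic_X_sub_C 1) hm' ((irreducible_X_sub_C 1).associated_of_dvd hirr h9)
    apply H.one
    rw [← C_1, h11]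
    exact π.2
  · intro g hg c hc hc0 hcn hadm hgc _
    obtain ⟨A, hA1, hA2⟩ := og_exists hF hr hr2 hqr H hnd hm hε hz c hc hc0 rfl (dim_even hr H hfix hc) hcn hadm
    exact ⟨A, hA1, by rw [isoφ_coe, charpoly_reindex, hA2, hgc]⟩

end og

end Cfsg.Agent.H17
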