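import Mathlib
import Cfsg.Agent.H17.CcL

set_option autoImplicit false

/-! Classes of elements of odd prime order in even dimensional orthogonal groups: final counts. -/

namespace Cfsg.Agent.H17

open Cfsg Polynomial Matrix Cfsg.Agent.H16.PrOrd Cfsg.Agent.H16 Cfsg.Agent.H5 Module

section tuples

variable {P : Type*} [Fintype P] {ι : P → P}

theorem card_full_id (hι : ∀ x, ι x = x) (hP : 0 < Fintype.card P) {i : ℕ} (hi : 0 < i) (n : ℕ) :
    Nat.card {c : P → ℕ // (∀ x, c (ι x) = c x) ∧ i * ∑ x, c x = n} = if i ∣ n then (n / i + Fintype.card P - 1).choose (Fintype.card P - 1) else 0 := by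
  split_ifs with h
  · rw [← card_eq_sum P hP]
    apply Nat.card_congr
    apply Equiv.subtypeEquivRight
    intro c
    obtain ⟨k, rfl⟩ := h
    rw [Nat.mul_div_cancel_left _ hi]
    constructor
    · rintro ⟨_, h1⟩
      exact Nat.eq_of_mul_eq_mul_left hi h1
    · intro h1
      exact ⟨fun x => by rw [hι], by rw [h1]⟩
  · rw [Nat.card_eq_zero]
    left
    refine ⟨fun c => h ⟨_, c.2.2.symm⟩⟩

theorem card_full_free (hι2 : ∀ x, ι (ι x) = x) (hι : ∀ x, ι x ≠ x) (hP : 0 < Fintype.card P) {i : ℕ} (hi : 0 < i) (m : ℕ) :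
    Nat.card {c : P → ℕ // (∀ x, c (ι x) = c x) ∧ i * ∑ x, c x = 2 * m} = if i ∣ m then (m / i + Fintype.card P / 2 - 1).choose (Fintype.card P / 2 - 1) else 0 := by
  split_ifs with h
  · rw [← card_sym_eq_free hι2 hι hP]
    apply Nat.card_congr
    apply Equiv.subtypeEquivRight
    intro c
    obtain ⟨k, rfl⟩ := h
    rw [Nat.mul_div_cancel_left _ hi]
    constructor
    · rintro ⟨h0, h1⟩
      refine ⟨h0, ?_⟩
      rw [← mul_assoc, mul_comm 2 i, mul_assoc] at h1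
      exact Nat.eq_of_mul_eq_mul_left hi h1
    · rintro ⟨h0, h1⟩
      exact ⟨h0, by rw [h1]; ring⟩
  · rw [Nat.card_eq_zero]
    left
    refine ⟨fun c => h ?_⟩
    obtain ⟨s, hs⟩ := sum_even_of_free hι2 hι c.2.1
    have h1 := c.2.2
    rw [hs] at h1
    exact ⟨s, by nlinarith⟩

end tuples

section final

variable {F : Type*} [Field F] [Fintype F] {r i t q : ℕ} {ι : Type} [Fintype ι] [DecidableEq ι]

open Classical in
theorem count_oeven' {p : ℕ} [Fact p.Prime] [CharP F p] (hF : Fintype.card F = q) (hr : r.Prime) (hr2 : r ≠ 2) (hrp : r ≠ p)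
    (hi : i = orderOf (q : ZMod r)) (ht : t * i = r - 1) (H : CycF F r i t) {Q : QuadraticForm F (ι → F)} (hnd : ND Q)
    {m : ℕ} (hm1 : 1 ≤ m) (hm : finrank F (ι → F) = 2 * m) {ε : ℤ} (hε : ε = 1 ∨ ε = -1) (hz : ZT Q q m ε) :
    Nat.card {C : ConjClasses ↥(isometryGroup F ⇑Q) // ∃ g : ↥(isometryGroup F ⇑Q), ConjClasses.mk g = C ∧ orderOf g = r} =
      Nat.card {c : cycP F r → ℕ // (∀ x, c (H.io hr (σ := RingHom.id F) (fun _ => rfl) x) = c x) ∧ c ≠ 0 ∧ i * ∑ x, c x ≤ 2 * m} -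
      (if (q : ZMod r) ^ m = (ε : ZMod r) then 0 else
        Nat.card {c : cycP F r → ℕ // (∀ x, c (H.io hr (σ := RingHom.id F) (fun _ => rfl) x) = c x) ∧ i * ∑ x, c x = 2 * m}) := by
  rw [count_oeven hF hr hr2 hrp hi ht H hnd hm hε hz]
  let p' : (cycP F r → ℕ) → Prop := fun c => (∀ x, c (H.io hr (σ := RingHom.id F) (fun _ => rfl) x) = c x) ∧ c ≠ 0 ∧ i * ∑ x, c x ≤ 2 * m
  let bad : (cycP F r → ℕ) → Prop := fun c => (∀ x, c (H.io hr (σ := RingHom.id F) (fun _ => rfl) x) = c x) ∧ i * ∑ x, c x = 2 * m ∧ ¬ (q : ZMod r) ^ m = (ε : ZMod r)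
  haveI : Finite {c // p' c} := finite_le (cycP F r) (2 * m) p' (fun c hc => by
    have := hc.2.2
    have h3 : ∑ x, c x ≤ i * ∑ x, c x := Nat.le_mul_of_pos_left _ H.i0
    omega)
  have h1 := card_sub_bad p' bad (fun c hc => ⟨hc.1, fun h0 => by
    have := hc.2.1
    rw [h0] at this
    simp at this
    omega, hc.2.1.le⟩)
  have h3 : Nat.card {c // p' c ∧ ¬ bad c} = Nat.card {c : cycP F r → ℕ // (∀ x, c (H.io hr (σ := RingHom.id F) (fun _ => rfl) x) = c x) ∧ c ≠ 0 ∧ i * ∑ x, c x ≤ 2 * m ∧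
        (i * ∑ x, c x = 2 * m → (q : ZMod r) ^ m = (ε : ZMod r))} := by
    apply Nat.card_congr
    apply Equiv.subtypeEquivRight
    intro c
    show ((∀ x, c (H.io hr (σ := RingHom.id F) (fun _ => rfl) x) = c x) ∧ c ≠ 0 ∧ i * ∑ x, c x ≤ 2 * m) ∧
      ¬ ((∀ x, c (H.io hr (σ := RingHom.id F) (fun _ => rfl) x) = c x) ∧ i * ∑ x, c x = 2 * m ∧ ¬ (q : ZMod r) ^ m = (ε : ZMod r)) ↔ _
    tauto
  rw [← h3, h1]
  congr 1
  split_ifs with h
  · rw [Nat.card_eq_zero]
    left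
    exact ⟨fun c => c.2.2.2 h⟩
  · apply Nat.card_congr
    apply Equiv.subtypeEquivRight
    intro c
    exact ⟨fun h' => ⟨h'.1, h'.2.1⟩, fun h' => ⟨h'.1, h'.2, h⟩⟩

theorem cyc_card_pos (hr : r.Prime) (ht : t * i = r - 1) (H : CycF F r i t) : 0 < Fintype.card (cycP F r) := by
  rw [Fintype.card_coe, H.card]
  rcases Nat.eq_zero_or_pos t with h | h
  · rw [h, zero_mul] at ht
    have := hr.two_le
    omega
  · exact h

theorem pow_of_dvd_odd (hi : i = orderOf (q : ZMod r)) {m : ℕ} (h : i ∣ m) : (q : ZMod r) ^ m = 1 := by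
  obtain ⟨k, rfl⟩ := h
  rw [pow_mul, hi, pow_orderOf_eq_one, one_pow]

theorem pow_of_dvd_even (hr : r.Prime) (hi : i = orderOf (q : ZMod r)) (he : Even i) (hi0 : 0 < i) {m : ℕ} (h : i ∣ 2 * m) :
    (q : ZMod r) ^ m = (-1) ^ (2 * m / i) := by
  obtain ⟨k, hk⟩ := h
  obtain ⟨j, hj⟩ := he
  have h1 : 2 * m / i = k := by rw [hk, Nat.mul_div_cancel_left _ hi0]
  have h3 : m = (i / 2) * k := by
    have : i / 2 = j := by omega
    rw [this]
    have : 2 * m = 2 * (j * k) := by rw [hk, hj]; ring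
    omega
  rw [h1, h3, pow_mul, neg_one_of_order hr hi ⟨j, hj⟩ hi0]

theorem count_oplus {p : ℕ} [Fact p.Prime] [CharP F p] (hF : Fintype.card F = q) (m : ℕ) (hm : 1 ≤ m) (hr : r.Prime) (hr2 : r ≠ 2) (hrp : r ≠ p)
    (hi : i = orderOf (q : ZMod r)) (ht : t * i = r - 1) :
    Nat.card {C : ConjClasses ↥(isometryGroup F ⇑(qPlus m F)) // ∃ g : ↥(isometryGroup F ⇑(qPlus m F)), ConjClasses.mk g = C ∧ orderOf g = r} =
      if Odd i then Nat.choose (m / i + t / 2) (t / 2) - 1 else Nat.choose (2 * m / i + t) t - 1 -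
        (if i ∣ 2 * m ∧ Odd (2 * m / i) then Nat.choose (2 * m / i + t - 1) (t - 1) else 0) := by
  classical
  haveI : Fact r.Prime := ⟨hr⟩
  haveI : Fact (2 < r) := ⟨lt_of_le_of_ne hr.two_le hr2.symm⟩
  have H := cycF (F := F) hF r i t hr hrp hi ht
  have hfix := cyc_even hF hr hr2 hi H
  have hq : Nat.card F = q := by rw [Nat.card_eq_fintype_card, hF]
  have hPc : Fintype.card (cycP F r) = t := by rw [Fintype.card_coe, H.card]
  rw [count_oeven' hF hr hr2 hrp hi ht H nd_plus hm (fr_plus' F m) (Or.inl rfl) (zt_plus hq m), Int.cast_one]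
  split_ifs with h1 ho h3 ho h3
  · rw [card_sym_free (H.io_io hr (fun _ => rfl)) (fun x h => (Nat.not_even_iff_odd.mpr ho) ((hfix x).mp h)) H.i0, hPc, Nat.sub_zero,
      Nat.mul_div_mul_left _ _ (by norm_num)]
  · exfalso
    rw [Nat.not_odd_iff_even] at ho
    rw [pow_of_dvd_even hr hi ho H.i0 h3.1, h3.2.neg_one_pow] at h1
    exact ZMod.neg_one_ne_one h1
  · rw [Nat.not_odd_iff_even] at ho
    rw [card_sym_id (fun x => (hfix x).mpr ho) H.i0, hPc, Nat.sub_zero]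
  · rw [card_sym_free (H.io_io hr (fun _ => rfl)) (fun x h => (Nat.not_even_iff_odd.mpr ho) ((hfix x).mp h)) H.i0, hPc,
      card_full_free (H.io_io hr (fun _ => rfl)) (fun x h => (Nat.not_even_iff_odd.mpr ho) ((hfix x).mp h)) (cyc_card_pos hr ht H) H.i0,
      if_neg (fun h => h1 (pow_of_dvd_odd hi h)), Nat.sub_zero, Nat.mul_div_mul_left _ _ (by norm_num)]
  · rw [Nat.not_odd_iff_even] at ho
    rw [card_sym_id (fun x => (hfix x).mpr ho) H.i0, card_full_id (fun x => (hfix x).mpr ho) (cyc_card_pos hr ht H) H.i0, if_pos h3.1, hPc]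
  · rw [Nat.not_odd_iff_even] at ho
    rw [card_sym_id (fun x => (hfix x).mpr ho) H.i0, card_full_id (fun x => (hfix x).mpr ho) (cyc_card_pos hr ht H) H.i0, hPc]
    rw [if_neg (fun h => ?_)]
    rcases Nat.even_or_odd (2 * m / i) with h5 | h5
    · rw [pow_of_dvd_even hr hi ho H.i0 h, h5.neg_one_pow] at h1
      exact h1 rfl
    · exact h3 ⟨h, h5⟩

theorem count_ominus {p : ℕ} [Fact p.Prime] [CharP F p] (hF : Fintype.card F = q) (m : ℕ) (hm : 1 ≤ m) {a c : F}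
    (hac : ∀ z₁ z₂ : F, z₁ ^ 2 + a * z₁ * z₂ + c * z₂ ^ 2 = 0 → z₁ = 0 ∧ z₂ = 0) (hr : r.Prime) (hr2 : r ≠ 2) (hrp : r ≠ p)
    (hi : i = orderOf (q : ZMod r)) (ht : t * i = r - 1) :
    Nat.card {C : ConjClasses ↥(isometryGroup F ⇑(qMinus (m - 1) F a c)) // ∃ g : ↥(isometryGroup F ⇑(qMinus (m - 1) F a c)), ConjClasses.mk g = C ∧ orderOf g = r} =
      if Odd i then Nat.choose (m / i + t / 2) (t / 2) - 1 - (if i ∣ m then Nat.choose (m / i + t / 2 - 1) (t / 2 - 1) else 0)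
      else Nat.choose (2 * m / i + t) t - 1 - (if i ∣ 2 * m ∧ Even (2 * m / i) then Nat.choose (2 * m / i + t - 1) (t - 1) else 0) := by
  classical
  haveI : Fact r.Prime := ⟨hr⟩
  haveI : Fact (2 < r) := ⟨lt_of_le_of_ne hr.two_le hr2.symm⟩
  have H := cycF (F := F) hF r i t hr hrp hi ht
  have hfix := cyc_even hF hr hr2 hi H
  have hq : Nat.card F = q := by rw [Nat.card_eq_fintype_card, hF]
  have hPc : Fintype.card (cycP F r) = t := by rw [Fintype.card_coe, H.card]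
  have hm' : m - 1 + 1 = m := by omega
  rw [count_oeven' hF hr hr2 hrp hi ht H (nd_minus hac) hm (by rw [fr_minus, hm']) (Or.inr rfl) (by have := zt_minus hq (m - 1) hac; rwa [hm'] at this),
    Int.cast_neg, Int.cast_one]
  split_ifs with h1 ho h3 h3 ho h3 h3
  · exfalso
    rw [pow_of_dvd_odd hi h3] at h1
    exact ZMod.neg_one_ne_one h1.symm
  · rw [card_sym_free (H.io_io hr (fun _ => rfl)) (fun x h => (Nat.not_even_iff_odd.mpr ho) ((hfix x).mp h)) H.i0, hPc, Nat.sub_zero, Nat.sub_zero,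
      Nat.mul_div_mul_left _ _ (by norm_num)]
  · exfalso
    rw [Nat.not_odd_iff_even] at ho
    rw [pow_of_dvd_even hr hi ho H.i0 h3.1, h3.2.neg_one_pow] at h1
    exact ZMod.neg_one_ne_one h1.symm
  · rw [Nat.not_odd_iff_even] at ho
    rw [card_sym_id (fun x => (hfix x).mpr ho) H.i0, hPc, Nat.sub_zero]
  · rw [card_sym_free (H.io_io hr (fun _ => rfl)) (fun x h => (Nat.not_even_iff_odd.mpr ho) ((hfix x).mp h)) H.i0, hPc,
      card_full_free (H.io_io hr (fun _ => rfl)) (fun x h => (Nat.not_even_iff_odd.mpr ho) ((hfix x).mp h)) (cyc_card_pos hr ht H) H.i0,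
      if_pos h3, hPc, Nat.mul_div_mul_left _ _ (by norm_num)]
  · rw [card_sym_free (H.io_io hr (fun _ => rfl)) (fun x h => (Nat.not_even_iff_odd.mpr ho) ((hfix x).mp h)) H.i0, hPc,
      card_full_free (H.io_io hr (fun _ => rfl)) (fun x h => (Nat.not_even_iff_odd.mpr ho) ((hfix x).mp h)) (cyc_card_pos hr ht H) H.i0,
      if_neg h3, Nat.mul_div_mul_left _ _ (by norm_num)]
  · rw [Nat.not_odd_iff_even] at ho
    rw [card_sym_id (fun x => (hfix x).mpr ho) H.i0, card_full_id (fun x => (hfix x).mpr ho) (cyc_card_pos hr ht H) H.i0, if_pos h3.1, hPc]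
  · rw [Nat.not_odd_iff_even] at ho
    rw [card_sym_id (fun x => (hfix x).mpr ho) H.i0, card_full_id (fun x => (hfix x).mpr ho) (cyc_card_pos hr ht H) H.i0, hPc]
    rw [if_neg (fun h => ?_)]
    rcases Nat.even_or_odd (2 * m / i) with h5 | h5
    · exact h3 ⟨h, h5⟩
    · rw [pow_of_dvd_even hr hi ho H.i0 h, h5.neg_one_pow] at h1
      exact h1 rfl

end final

end Cfsg.Agent.H17
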