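import Mathlib

set_option autoImplicit false

/-! Splitting of a conjugacy class of `G` in the kernel of a homomorphism to an abelian group. -/

namespace Cfsg.Agent.H17

theorem class_split {G A H : Type*} [Group G] [CommGroup A] [Group H] (δ : G →* A) (ι : H →* G) (hι : Function.Injective ι)
    (hr : ι.range = δ.ker) (P : G → Prop) (hP : ∀ g, P g → δ g = 1) (hc : ∀ g u, P u → P (g * u * g⁻¹))
    (htr : ∀ g g', P g → P g' → IsConj g g') {u : G} (hu : P u) :
    Nat.card {C : ConjClasses H // ∃ h, ConjClasses.mk h = C ∧ P (ι h)} = ((Subgroup.centralizer {u}).map δ).relIndex δ.range := by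
  classical
  rw [← Subgroup.index_comap]
  set S : Subgroup G := ((Subgroup.centralizer {u}).map δ).comap δ with hS
  have hmem : ∀ g, ∃ h : H, ι h = g * u * g⁻¹ := by
    intro g
    have : g * u * g⁻¹ ∈ ι.range := by
      rw [hr, MonoidHom.mem_ker]
      exact hP _ (hc g u hu)
    exact this
  choose lift hlift using hmem
  let f : G → {C : ConjClasses H // ∃ h, ConjClasses.mk h = C ∧ P (ι h)} := fun g => ⟨ConjClasses.mk (lift g), lift g, rfl, by rw [hlift]; exact hc g u hu⟩
  have hf : ∀ g g', f g = f g' ↔ g⁻¹ * g' ∈ S := by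
    intro g g'
    have h1 : f g = f g' ↔ IsConj (lift g) (lift g') := by
      rw [Subtype.ext_iff]
      exact ConjClasses.mk_eq_mk_iff_isConj
    rw [h1, isConj_iff, hS, Subgroup.mem_comap, Subgroup.mem_map]
    constructor
    · rintro ⟨c, hcc⟩
      have h2 : ι c * (g * u * g⁻¹) * (ι c)⁻¹ = g' * u * g'⁻¹ := by
        rw [← hlift, ← hlift, ← hcc, map_mul, map_mul, map_inv]
      refine ⟨g⁻¹ * (ι c)⁻¹ * g', ?_, ?_⟩
      · rw [Subgroup.mem_centralizer_singleton_iff]
        have h3 : g' * u = ι c * (g * u * g⁻¹) * (ι c)⁻¹ * g' := by rw [h2]; group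
        calc g⁻¹ * (ι c)⁻¹ * g' * u = g⁻¹ * (ι c)⁻¹ * (g' * u) := by group
          _ = g⁻¹ * (ι c)⁻¹ * (ι c * (g * u * g⁻¹) * (ι c)⁻¹ * g') := by rw [h3]
          _ = u * (g⁻¹ * (ι c)⁻¹ * g') := by group
      · have h3 : δ (ι c) = 1 := by
          rw [← MonoidHom.mem_ker, ← hr]
          exact ⟨c, rfl⟩
        rw [map_mul, map_mul, map_inv δ (ι c), h3, inv_one, mul_one, ← map_mul]
    · rintro ⟨s, hs, hs2⟩
      rw [Subgroup.mem_centralizer_singleton_iff] at hs
      have h3 : g' * s⁻¹ * g⁻¹ ∈ ι.range := by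
        rw [hr, MonoidHom.mem_ker, map_mul, map_mul, map_inv, hs2, map_mul, map_inv, mul_inv_rev, inv_inv]
        group
      obtain ⟨c, hcc⟩ := h3
      refine ⟨c, hι ?_⟩
      rw [map_mul, map_mul, map_inv, hlift, hlift, hcc]
      have h4 : s⁻¹ * u * s = u := by rw [mul_assoc, ← hs]; group
      calc g' * s⁻¹ * g⁻¹ * (g * u * g⁻¹) * (g' * s⁻¹ * g⁻¹)⁻¹ = g' * (s⁻¹ * u * s) * g'⁻¹ := by group
        _ = g' * u * g'⁻¹ := by rw [h4]
  have hsurj : Function.Surjective f := by
    rintro ⟨C, h, rfl, hPh⟩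
    obtain ⟨g, hg⟩ := isConj_iff.mp (htr u (ι h) hu hPh)
    refine ⟨g, ?_⟩
    apply Subtype.ext
    show ConjClasses.mk (lift g) = ConjClasses.mk h
    congr 1
    apply hι
    rw [hlift, hg]
  show _ = Nat.card (G ⧸ S)
  symm
  refine Nat.card_congr (Equiv.ofBijective (Quotient.lift f (fun a b hab => (hf a b).mpr (QuotientGroup.leftRel_apply.mp hab))) ⟨?_, ?_⟩)
  · intro x y
    induction x using Quotient.inductionOn with | _ x
    induction y using Quotient.inductionOn with | _ y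
    intro h
    apply Quotient.sound
    exact QuotientGroup.leftRel_apply.mpr ((hf x y).mp h)
  · intro C
    obtain ⟨g, hg⟩ := hsurj C
    exact ⟨Quotient.mk _ g, hg⟩

end Cfsg.Agent.H17
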