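import Mathlib

set_option autoImplicit false

/-! A linear map killed by the minimal polynomial of a generator `θ` of `K/F` is multiplication by `θ` on `K^m`. -/

namespace Cfsg.Agent.H17

open Module

theorem exists_struct {F K : Type*} [Field F] [Field K] [Algebra F K] [FiniteDimensional F K] {θ : K} (htop : Algebra.adjoin F {θ} = ⊤)
    {W : Type*} [AddCommGroup W] [Module F W] [FiniteDimensional F W] (X : Module.End F W) (hX : Polynomial.aeval X (minpoly F θ) = 0)
    {m : ℕ} (hm : finrank F W = finrank F K * m) : ∃ c : W ≃ₗ[F] (Fin m → K), ∀ w, c (X w) = θ • c w := by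
  have hθ : IsIntegral F θ := Algebra.IsIntegral.isIntegral θ
  let pb : PowerBasis F K := PowerBasis.ofAdjoinEqTop hθ htop
  have hgen : pb.gen = θ := PowerBasis.ofAdjoinEqTop_gen hθ htop
  let φ : K →ₐ[F] Module.End F W := pb.lift X (by rw [hgen]; exact hX)
  have hφ : φ θ = X := pb.lift_gen X (by rw [hgen]; exact hX)
  letI : Module K W := Module.compHom W (φ : K →+* Module.End F W)
  have hsm : ∀ (k : K) (w : W), k • w = φ k w := fun _ _ => rfl
  haveI : IsScalarTower F K W := ⟨fun a k w => by rw [hsm, hsm, map_smul]; rfl⟩
  haveI : Module.Finite K W := Module.Finite.of_restrictScalars_finite F K W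
  have h1 : finrank F K * finrank K W = finrank F W := Module.finrank_mul_finrank F K W
  have h2 : finrank K W = m := Nat.eq_of_mul_eq_mul_left (finrank_pos (R := F) (M := K)) (h1.trans hm)
  let e : W ≃ₗ[K] (Fin m → K) := LinearEquiv.ofFinrankEq W (Fin m → K) (by rw [h2, Module.finrank_fin_fun])
  refine ⟨e.restrictScalars F, fun w => ?_⟩
  show e (X w) = θ • e w
  rw [← hφ, ← hsm, map_smul]

/-- a generator of a quadratic extension -/
theorem quad_gen {F K : Type*} [Field F] [Field K] [Algebra F K] (hfr : finrank F K = 2) {θ : K} {b c : F}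
    (h : θ * θ + algebraMap F K b * θ + algebraMap F K c = 0) (hθ : ∀ a : F, algebraMap F K a ≠ θ) :
    Algebra.adjoin F {θ} = ⊤ ∧ minpoly F θ = Polynomial.X ^ 2 + Polynomial.C b * Polynomial.X + Polynomial.C c := by
  haveI : FiniteDimensional F K := FiniteDimensional.of_finrank_pos (by omega)
  have hint : IsIntegral F θ := Algebra.IsIntegral.isIntegral θ
  constructor
  · have h1 : Subalgebra.toSubmodule (Algebra.adjoin F {θ}) = ⊤ := by
      apply Submodule.eq_top_of_finrank_eq
      apply le_antisymm (Submodule.finrank_le _)
      rw [hfr]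
      have hli : LinearIndependent F ![(⟨1, one_mem _⟩ : Algebra.adjoin F {θ}), ⟨θ, Algebra.self_mem_adjoin_singleton F θ⟩] := by
        rw [LinearIndependent.pair_iff]
        intro s t hst
        have h2 : algebraMap F K s + algebraMap F K t * θ = 0 := by
          have := congrArg Subtype.val hst
          simpa [Algebra.smul_def] using this
        have ht : t = 0 := by
          by_contra ht
          have ht' : algebraMap F K t ≠ 0 := fun h => ht ((map_eq_zero _).mp h)
          apply hθ (-(t⁻¹ * s))
          rw [map_neg, map_mul, map_inv₀]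
          field_simp
          linear_combination -h2
        subst ht
        rw [map_zero, zero_mul, add_zero] at h2
        exact ⟨(map_eq_zero _).mp h2, rfl⟩
      have := hli.fintype_card_le_finrank
      simpa using this
    exact Algebra.toSubmodule_eq_top.mp h1
  · have hf : (Polynomial.X ^ 2 + Polynomial.C b * Polynomial.X + Polynomial.C c : Polynomial F).natDegree = 2 := by
      compute_degree!
    have hm : (Polynomial.X ^ 2 + Polynomial.C b * Polynomial.X + Polynomial.C c : Polynomial F).Monic := by
      monicity!
    refine Eq.symm ?_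
    refine Polynomial.eq_of_monic_of_dvd_of_natDegree_le (minpoly.monic hint) hm (minpoly.dvd F θ ?_) ?_
    · rw [map_add, map_add, map_mul, map_pow, Polynomial.aeval_X, Polynomial.aeval_C, Polynomial.aeval_C, pow_two]
      exact h
    · rw [hf, minpoly.two_le_natDegree_iff hint]
      rintro ⟨a, ha⟩
      exact hθ a ha

end Cfsg.Agent.H17
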