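import Mathlib
import Cfsg.Agent.H17.FixUnits
import Cfsg.Agent.H17.OField4

set_option autoImplicit false

/-! Number of invertible matrices whose coset modulo scalars is fixed by a field automorphism. -/

namespace Cfsg.Agent.H17

open scoped MatrixGroups Matrix

section count

variable {F F₀ : Type*} [Field F] [Field F₀] {n : ℕ}

/-- scalars times matrices over a subfield -/
def scPr (n : ℕ) (j : F₀ →+* F) : Fˣ × GL (Fin n) F₀ →* GL (Fin n) F where
  toFun x := sGL n x.1 * Matrix.GeneralLinearGroup.map j x.2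
  map_one' := by rw [Prod.fst_one, Prod.snd_one, map_one, map_one, one_mul]
  map_mul' x y := by
    rw [Prod.fst_mul, Prod.snd_mul, map_mul, map_mul, mul_assoc, mul_assoc, ← mul_assoc (sGL n y.1), sGL_comm y.1, mul_assoc]

theorem scPr_apply (j : F₀ →+* F) (y : Fˣ) (h : GL (Fin n) F₀) : scPr n j (y, h) = sGL n y * Matrix.GeneralLinearGroup.map j h := rfl

theorem map_sGL (j : F₀ →+* F) (z : F₀ˣ) : Matrix.GeneralLinearGroup.map j (sGL n z) = sGL n (Units.map (j : F₀ →* F) z) := by
  apply Units.ext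
  ext a b
  show j ((Matrix.scalar (Fin n) (z : F₀)) a b) = (Matrix.scalar (Fin n) (j (z : F₀))) a b
  rw [Matrix.scalar_apply, Matrix.scalar_apply, Matrix.diagonal_apply, Matrix.diagonal_apply]
  split_ifs
  · rfl
  · exact map_zero j

theorem card_ker_scPr (hn : 1 ≤ n) (j : F₀ →+* F) : Nat.card (scPr n j).ker = Nat.card F₀ˣ := by
  symm
  refine Nat.card_congr (Equiv.ofBijective (fun z => ⟨(Units.map (j : F₀ →* F) z, sGL n z⁻¹), ?_⟩) ⟨?_, ?_⟩)
  · rw [MonoidHom.mem_ker, scPr_apply, map_sGL, ← map_mul, map_inv, mul_inv_cancel, map_one]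
  · intro z z' h
    have h1 := congrArg (fun x : (scPr n j).ker => x.1.1) h
    apply Units.ext
    exact j.injective (congrArg Units.val h1)
  · rintro ⟨⟨y, h⟩, hyh⟩
    rw [MonoidHom.mem_ker, scPr_apply] at hyh
    have h1 : ∀ a b, (y : F) * j ((h : Matrix (Fin n) (Fin n) F₀) a b) = (1 : Matrix (Fin n) (Fin n) F) a b := by
      intro a b
      rw [← Units.val_one, ← hyh, Units.val_mul, coe_sGL, Matrix.scalar_apply, Matrix.diagonal_mul]
      rfl
    set i₀ : Fin n := ⟨0, hn⟩
    have h2 : (y : F) * j ((h : Matrix (Fin n) (Fin n) F₀) i₀ i₀) = 1 := by rw [h1, Matrix.one_apply_eq]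
    have hz0 : (h : Matrix (Fin n) (Fin n) F₀) i₀ i₀ ≠ 0 := by
      intro h0
      rw [h0, map_zero, mul_zero] at h2
      exact zero_ne_one h2
    refine ⟨(Units.mk0 _ hz0)⁻¹, Subtype.ext (Prod.ext (Units.ext ?_) (Units.ext ?_))⟩
    · show j (((Units.mk0 _ hz0)⁻¹ : F₀ˣ) : F₀) = y
      rw [Units.val_inv_eq_inv_val, map_inv₀, Units.val_mk0]
      exact inv_eq_of_mul_eq_one_left h2
    · show ((sGL n ((Units.mk0 _ hz0)⁻¹)⁻¹ : GL (Fin n) F₀) : Matrix (Fin n) (Fin n) F₀) = _
      rw [inv_inv, coe_sGL, Units.val_mk0]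
      ext a b
      rw [Matrix.scalar_apply, Matrix.diagonal_apply]
      apply j.injective
      apply mul_left_cancel₀ y.ne_zero
      rw [h1, Matrix.one_apply]
      split_ifs with hab
      · rw [h2]
      · rw [map_zero, mul_zero]

theorem range_scPr {σ : F ≃+* F} {r : ℕ} (hr : orderOf σ = r) (hr0 : 0 < r) (hn : 1 ≤ n) (j : F₀ →+* F) (hj : ∀ x, σ x = x ↔ ∃ y, j y = x) (g : GL (Fin n) F) :
    g ∈ (scPr n j).range ↔ ∃ c : F, c ≠ 0 ∧ (g : Matrix (Fin n) (Fin n) F).map σ = c • (g : Matrix (Fin n) (Fin n) F) := by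
  constructor
  · rintro ⟨⟨y, h⟩, rfl⟩
    refine ⟨σ y / y, div_ne_zero (by simp) y.ne_zero, ?_⟩
    ext a b
    rw [scPr_apply, Matrix.map_apply, Matrix.smul_apply, Units.val_mul, coe_sGL, Matrix.scalar_apply, Matrix.diagonal_mul, map_mul]
    have : σ ((Matrix.GeneralLinearGroup.map j h : Matrix (Fin n) (Fin n) F) a b) = (Matrix.GeneralLinearGroup.map j h : Matrix (Fin n) (Fin n) F) a b :=
      (hj _).mpr ⟨(h : Matrix (Fin n) (Fin n) F₀) a b, rfl⟩
    rw [this, smul_eq_mul]
    field_simp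
  · rintro ⟨c, hc, hg⟩
    have h1 : glMap σ g = sGL n (Units.mk0 c hc) * g := by
      apply Units.ext
      rw [Units.val_mul, coe_sGL, Units.val_mk0, Matrix.scalar_apply, ← Matrix.smul_eq_diagonal_mul]
      exact hg
    have h2 : ∀ i, glMap (σ ^ i) g = sGL n (uN σ (Units.mk0 c hc) i) * g := by
      intro i
      induction i with
      | zero =>
        rw [pow_zero, uN_zero, map_one, one_mul]
        rfl
      | succ i ih =>
        rw [glMap_pow_succ, ih, map_mul, glMap_sGL, h1, uN_succ, ← mul_assoc, ← map_mul, mul_comm]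
    have h3 : uN σ (Units.mk0 c hc) r = 1 := by
      have h4 := h2 r
      rw [← hr, pow_orderOf_eq_one, hr] at h4
      have h5 : (1 : GL (Fin n) F) = sGL n (uN σ (Units.mk0 c hc) r) := by
        apply mul_right_cancel (b := g)
        rw [one_mul, ← h4]
        rfl
      exact (sGL_inj (n := n) (by omega) (by rw [map_one]; exact h5)).symm
    obtain ⟨y, hy⟩ := hilbert90_u σ hr hr0 _ h3
    have h4 : glMap σ (sGL n y * g) = sGL n y * g := by
      rw [map_mul, glMap_sGL, h1, ← mul_assoc, ← map_mul, mul_comm (uM σ y), hy]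
    have h5 : ∀ a b, ∃ z, j z = (sGL n y * g : GL (Fin n) F) a b := by
      intro a b
      rw [← hj]
      exact congrArg (fun M : GL (Fin n) F => (M : Matrix (Fin n) (Fin n) F) a b) h4
    choose M hM using h5
    have h6 : (Matrix.of M).map j = ((sGL n y * g : GL (Fin n) F) : Matrix (Fin n) (Fin n) F) := by
      ext a b
      exact hM a b
    have h7 : (Matrix.of M).det ≠ 0 := by
      intro h0
      have h8 : ((sGL n y * g : GL (Fin n) F) : Matrix (Fin n) (Fin n) F).det = 0 := by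
        rw [← h6]
        have := RingHom.map_det j (Matrix.of M)
        rw [h0, map_zero] at this
        exact this.symm
      exact (Matrix.GeneralLinearGroup.det (sGL n y * g)).ne_zero h8
    refine ⟨(y⁻¹, Matrix.GeneralLinearGroup.mkOfDetNeZero (Matrix.of M) h7), ?_⟩
    rw [scPr_apply]
    have h8 : Matrix.GeneralLinearGroup.map j (Matrix.GeneralLinearGroup.mkOfDetNeZero (Matrix.of M) h7) = sGL n y * g := by
      apply Units.ext
      exact h6
    rw [h8, ← mul_assoc, ← map_mul, inv_mul_cancel, map_one, one_mul]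

theorem fixed_coset_count {F : Type*} [Field F] [Fintype F] {q₀ r n : ℕ} (hr : r.Prime) (hn : 1 ≤ n) (hF : Fintype.card F = q₀ ^ r) (σ : F ≃+* F)
    (hσ : orderOf σ = r) : Nat.card {g : GL (Fin n) F // ∃ c : F, c ≠ 0 ∧ (g : Matrix (Fin n) (Fin n) F).map σ = c • (g : Matrix (Fin n) (Fin n) F)} =
      (q₀ ^ r - 1) / (q₀ - 1) * ∏ i : Fin n, (q₀ ^ n - q₀ ^ (i : ℕ)) := by
  classical
  obtain ⟨p, hp⟩ := CharP.exists F
  haveI : Fact p.Prime := ⟨CharP.char_is_prime F p⟩
  obtain ⟨⟨f, hf0⟩, -, hFp⟩ := FiniteField.card F p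
  have hFp' : Fintype.card F = p ^ f := hFp
  have hFn : Nat.card F = p ^ f := by rw [Nat.card_eq_fintype_card]; exact hFp'
  have hrf : r ∣ f := by
    have h := (ringAut_cyclic (F := F) p f (by omega) hFn).2
    rw [← h, ← hσ]
    exact orderOf_dvd_natCard σ
  have hfr : f / r ≠ 0 := by
    obtain ⟨k, hk⟩ := hrf
    rw [hk, Nat.mul_div_cancel_left _ hr.pos]
    rintro rfl
    rw [mul_zero] at hk
    omega
  haveI : Fintype (GaloisField p (f / r)) := Fintype.ofFinite _
  obtain ⟨_, j, hj⟩ := exists_fixed_emb hFn σ hσ (GaloisField p (f / r)) (GaloisField.card p (f / r) hfr)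
  have hq : Nat.card (GaloisField p (f / r)) = q₀ := by
    rw [GaloisField.card p (f / r) hfr]
    have h1 : (p ^ (f / r)) ^ r = q₀ ^ r := by
      rw [← pow_mul, Nat.div_mul_cancel hrf, ← hFp', hF]
    exact Nat.pow_left_injective hr.ne_zero h1
  have hcard : Nat.card {g : GL (Fin n) F // ∃ c : F, c ≠ 0 ∧ (g : Matrix (Fin n) (Fin n) F).map σ = c • (g : Matrix (Fin n) (Fin n) F)} = Nat.card (scPr n j).range := by
    apply Nat.card_congr
    exact Equiv.subtypeEquivRight fun g => (range_scPr hσ hr.pos hn j hj g).symm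
  rw [hcard]
  have h1 := Subgroup.card_mul_index (scPr n j).ker
  rw [Subgroup.index_ker, card_ker_scPr hn j, Nat.card_prod, Matrix.card_GL_field, Nat.card_units, Nat.card_units] at h1
  rw [← Nat.card_eq_fintype_card (α := GaloisField p (f / r)), hq, Nat.card_eq_fintype_card (α := F), hF] at h1
  have hq1 : 1 < q₀ := by rw [← hq]; exact Finite.one_lt_card
  have hd : q₀ - 1 ∣ q₀ ^ r - 1 := by
    have := Nat.sub_dvd_pow_sub_pow q₀ 1 r
    rwa [one_pow] at this
  obtain ⟨k, hk⟩ := hd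
  rw [hk, Nat.mul_div_cancel_left _ (by omega)]
  rw [hk, mul_assoc] at h1
  exact Nat.eq_of_mul_eq_mul_left (by omega) h1

end count

end Cfsg.Agent.H17
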