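import Mathlib
import Cfsg.Agent.H17.Split2

set_option autoImplicit false

/-! The model of the involutory graph-field automorphism of plus type. -/

namespace Cfsg.Agent.H17

open Cfsg Cfsg.Agent.H5 Module
open scoped MatrixGroups Matrix

section field

variable {F F₀ : Type*} [Field F] [Finite F] [Field F₀] [Finite F₀] {σ : F ≃+* F} {j : F₀ →+* F}

theorem inv_unique {σ τ : F ≃+* F} (hσ : orderOf σ = 2) (hτ : orderOf τ = 2) : σ = τ := by
  classical
  haveI := Fintype.ofFinite F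
  obtain ⟨p, hp⟩ := CharP.exists F
  haveI : Fact p.Prime := ⟨CharP.char_is_prime F p⟩
  obtain ⟨⟨f, hf0⟩, -, hF⟩ := FiniteField.card F p
  simp only [PNat.mk_coe] at hF
  have hF' : Nat.card F = p ^ f := by rw [Nat.card_eq_fintype_card, hF]
  haveI := (ringAut_cyclic (F := F) p f (by omega) hF').1
  haveI : Finite (F ≃+* F) := Finite.of_injective (fun e : F ≃+* F => (e : F → F)) DFunLike.coe_injective
  haveI := Fintype.ofFinite (F ≃+* F)
  have h1 := IsCyclic.card_pow_eq_one_le (α := F ≃+* F) (n := 2) (by norm_num)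
  by_contra hne
  have h1σ : σ ≠ 1 := by rintro rfl; rw [orderOf_one] at hσ; omega
  have h1τ : τ ≠ 1 := by rintro rfl; rw [orderOf_one] at hτ; omega
  have hs : ({1, σ, τ} : Finset (F ≃+* F)) ⊆ Finset.univ.filter (fun a => a ^ 2 = 1) := by
    intro x hx
    simp only [Finset.mem_insert, Finset.mem_singleton] at hx
    rw [Finset.mem_filter]
    refine ⟨Finset.mem_univ _, ?_⟩
    rcases hx with rfl | rfl | rfl
    · exact one_pow 2
    · rw [← hσ]; exact pow_orderOf_eq_one _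
    · rw [← hτ]; exact pow_orderOf_eq_one _
  have h2 := Finset.card_le_card hs
  rw [Finset.card_insert_of_notMem (by simp [Ne.symm h1σ, Ne.symm h1τ]), Finset.card_insert_of_notMem (by simpa using hne),
    Finset.card_singleton] at h2
  omega

theorem sq_fix (hσ : σ * σ = 1) (hj : ∀ x, σ x = x ↔ ∃ y, j y = x) (t : F) : ∃ w, j w = t * σ t := by
  rw [← hj, map_mul]
  have : σ (σ t) = t := by
    have := congrArg (fun e : F ≃+* F => e t) hσ
    exact this
  rw [this, mul_comm]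

/-- square classes of the data -/
theorem sq_data (h2 : (2 : F) ≠ 0) (hσ : σ * σ = 1) (hj : ∀ x, σ x = x ↔ ∃ y, j y = x) {μ₀ : F₀} (hμ₀ : ¬ IsSquare μ₀) {c l : F}
    (hc : c * c = j μ₀) (hl : l * σ l = j μ₀) :
    σ c = -c ∧ ¬ IsSquare l ∧ (IsSquare c ↔ ¬ IsSquare (-1 : F₀)) := by
  have h20 := two_ne_zero_of_emb j h2
  have hμ0 : μ₀ ≠ 0 := by rintro rfl; exact hμ₀ IsSquare.zero
  have hj' : ∀ y, σ (j y) = j y := fun y => (hj _).mpr ⟨y, rfl⟩
  have hc0 : c ≠ 0 := by
    rintro rfl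
    rw [mul_zero] at hc
    exact hμ0 ((map_eq_zero j).mp hc.symm)
  have h1 : σ c = -c := by
    have h3 : (σ c - c) * (σ c + c) = 0 := by
      have h4 := congrArg σ hc
      rw [map_mul, hj'] at h4
      linear_combination h4 - hc
    rcases mul_eq_zero.mp h3 with h5 | h5
    · exfalso
      obtain ⟨w, hw⟩ := (hj c).mp (by linear_combination h5)
      apply hμ₀
      refine ⟨w, ?_⟩
      apply j.injective
      rw [← hc, map_mul, hw]
    · linear_combination h5
  have hnl : ¬ IsSquare l := by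
    rintro ⟨t, rfl⟩
    obtain ⟨w, hw⟩ := sq_fix hσ hj t
    apply hμ₀
    refine ⟨w, ?_⟩
    apply j.injective
    rw [← hl, map_mul j, hw, map_mul σ]; ring
  refine ⟨h1, hnl, ?_⟩
  constructor
  · rintro ⟨t, ht⟩ ⟨v, hv⟩
    obtain ⟨w, hw⟩ := sq_fix hσ hj t
    have h3 : j w * j w = -j μ₀ := by
      rw [hw]
      have h4 : t * σ t * (t * σ t) = c * σ c := by rw [ht, map_mul]; ring
      rw [h4, h1, ← hc]; ring
    have h4 : w * w = -μ₀ := by apply j.injective; rw [map_mul, map_neg]; exact h3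
    apply hμ₀
    exact ⟨v * w, by linear_combination h4 + (w * w) * hv⟩
  · intro hm
    by_contra hcn
    obtain ⟨t, ht⟩ := nonsq_mul h2 hcn hnl
    obtain ⟨w, hw⟩ := sq_fix hσ hj t
    have h3 : j w * j w = -(j μ₀ * j μ₀) := by
      rw [hw]
      have h4 : t * σ t * (t * σ t) = (c * l) * σ (c * l) := by rw [ht, map_mul]; ring
      rw [h4, map_mul, h1]
      linear_combination (-(l * σ l)) * hc + (-j μ₀) * hl
    have h4 : w * w = -(μ₀ * μ₀) := by apply j.injective; rw [map_mul, map_neg, map_mul]; exact h3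
    apply hm
    exact ⟨w * μ₀⁻¹, by field_simp; linear_combination -h4⟩

end field

section model

variable {F F₀ : Type*} [Field F] [Finite F] [Field F₀] [Finite F₀] {n : ℕ}

/-- the model semisimilarity -/
noncomputable def s1 (n : ℕ) (σ : F ≃+* F) : SSG (qPlus (n + 1) F) :=
  ogSS _ (refl (q_efv_ne (Fin.last n) (one_ne_zero (α := F)))) * stdS (qPlus (n + 1) F) σ (qPlus_svI σ)

omit [Finite F] in
theorem s1_snd (σ : F ≃+* F) : (s1 n σ).1.2 = σ := one_mul σ

omit [Finite F] in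
theorem s1_inl (σ : F ≃+* F) (x : Fin (n + 1) ⊕ Fin (n + 1) → F) (i : Fin (n + 1)) :
    (s1 n σ).1.1 x (Sum.inl i) = if i = Fin.last n then σ (x (Sum.inr i)) else σ (x (Sum.inl i)) := by
  show refl (q_efv_ne (Fin.last n) (one_ne_zero (α := F))) (svI σ x) (Sum.inl i) = _
  rw [refl_efv (Fin.last n) one_ne_zero, Function.update_of_ne (by simp)]
  by_cases h : i = Fin.last n
  · subst h
    rw [if_pos rfl, Function.update_self, inv_one, one_mul]; rfl
  · rw [if_neg h, Function.update_of_ne (by simpa using h)]; rfl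

omit [Finite F] in
theorem s1_inr (σ : F ≃+* F) (x : Fin (n + 1) ⊕ Fin (n + 1) → F) (i : Fin (n + 1)) :
    (s1 n σ).1.1 x (Sum.inr i) = if i = Fin.last n then σ (x (Sum.inl i)) else σ (x (Sum.inr i)) := by
  show refl (q_efv_ne (Fin.last n) (one_ne_zero (α := F))) (svI σ x) (Sum.inr i) = _
  rw [refl_efv (Fin.last n) one_ne_zero]
  by_cases h : i = Fin.last n
  · subst h
    rw [if_pos rfl, Function.update_self, one_mul]; rfl
  · rw [if_neg h, Function.update_of_ne (by simpa using h), Function.update_of_ne (by simp)]; rfl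

omit [Finite F] in
theorem s1_sq {σ : F ≃+* F} (hσ : σ * σ = 1) : s1 n σ ^ 2 = 1 := by
  have hσ' : ∀ t, σ (σ t) = t := fun t => congrArg (fun e : F ≃+* F => e t) hσ
  rw [pow_two]
  apply ss_ext
  · intro x
    funext k
    show (s1 n σ).1.1 ((s1 n σ).1.1 x) k = x k
    rcases k with k | k
    · rw [s1_inl, s1_inr, s1_inl]
      by_cases h : k = Fin.last n
      · rw [if_pos h, if_pos h, hσ']
      · rw [if_neg h, if_neg h, hσ']
    · rw [s1_inr, s1_inr, s1_inl]
      by_cases h : k = Fin.last n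
      · rw [if_pos h, if_pos h, hσ']
      · rw [if_neg h, if_neg h, hσ']
  · show (s1 n σ).1.2 * (s1 n σ).1.2 = 1
    rw [s1_snd, hσ]

theorem std_ev {m : ℕ} {σ : F ≃+* F} {r : ℕ} (hσ : orderOf σ = r) (hr : 0 < r) {j : F₀ →+* F} (hj : ∀ x, σ x = x ↔ ∃ y, j y = x) :
    Ev m (stdS (qPlus m F) σ (qPlus_svI σ)) := by
  have hext : ∀ v, j (qPlus m F₀ v) = qPlus m F (jV j v) := by
    intro v
    rw [qPlus_sum, qPlus_sum, map_sum]
    exact Finset.sum_congr rfl fun i _ => map_mul j _ _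
  have D := desc_of_coords (stdS (qPlus m F) σ (qPlus_svI σ)) (j := j) hj (b := 1) (d := 1) (Q₀ := qPlus m F₀)
    (fun x => by rw [Units.val_one, Matrix.one_mulVec, Matrix.one_mulVec]; rfl)
    (fun v => by rw [Units.val_one, one_mul, Units.val_one, Matrix.one_mulVec, hext])
  refine (D.type (PT_plus F m) ?_ hσ hr ?_).mpr (std_max m)
  · rw [fr_plus, fr_plus]
  · have h1 : ∀ i : ℕ, stdS (qPlus m F) σ (qPlus_svI σ) ^ i = stdSS (qPlus m F) qPlus_svI (σ ^ i) := by
      intro i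
      rw [map_pow]; rfl
    rw [h1, ← hσ, pow_orderOf_eq_one, map_one]

theorem s1_not_ev {σ : F ≃+* F} {r : ℕ} (hσ : orderOf σ = r) (hr : 0 < r) {j : F₀ →+* F} (hj : ∀ x, σ x = x ↔ ∃ y, j y = x) :
    ¬ Ev (n + 1) (s1 n σ) := by
  unfold s1
  rw [(PT_plus F (n + 1)).ev_mul]
  intro h
  exact (PT_plus F (n + 1)).refl_not_ev _ (h.mpr (std_ev hσ hr hj))

/-- the torus element commuting with the model -/
noncomputable def g1 (n : ℕ) (c l : Fˣ) : SSG (qPlus (n + 1) F) :=
  scSS _ c * ogSS _ (tor (n + 1) F (Function.update (fun _ => c) (Fin.last n) (l * c⁻¹)))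

omit [Finite F] in
theorem g1_ev (c l : Fˣ) : Ev (n + 1) (g1 n c l) := by
  unfold g1
  rw [(PT_plus F (n + 1)).ev_mul]
  exact ⟨fun _ => (PT_plus F (n + 1)).dg_ev (tor_dg _), fun _ => (PT_plus F (n + 1)).ev_sc _⟩

omit [Finite F] in
theorem g1_inl (c l : Fˣ) (x : Fin (n + 1) ⊕ Fin (n + 1) → F) (i : Fin (n + 1)) :
    (g1 n c l).1.1 x (Sum.inl i) = if i = Fin.last n then l * x (Sum.inl i) else (c * c : F) * x (Sum.inl i) := by
  show (c : F) * (((Function.update (fun _ => c) (Fin.last n) (l * c⁻¹) : Fin (n + 1) → Fˣ) i : Fˣ) * x (Sum.inl i)) = _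
  by_cases h : i = Fin.last n
  · subst h
    rw [if_pos rfl, Function.update_self, ← mul_assoc, ← Units.val_mul, mul_comm l, mul_inv_cancel_left]
  · rw [if_neg h, Function.update_of_ne h]; ring

omit [Finite F] in
theorem g1_inr (c l : Fˣ) (x : Fin (n + 1) ⊕ Fin (n + 1) → F) (i : Fin (n + 1)) :
    (g1 n c l).1.1 x (Sum.inr i) = if i = Fin.last n then (c * c * (l : F)⁻¹) * x (Sum.inr i) else x (Sum.inr i) := by
  show (c : F) * ((((Function.update (fun _ => c) (Fin.last n) (l * c⁻¹) : Fin (n + 1) → Fˣ) i)⁻¹ : Fˣ) * x (Sum.inr i)) = _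
  by_cases h : i = Fin.last n
  · subst h
    rw [if_pos rfl, Function.update_self, mul_inv, inv_inv, Units.val_mul, Units.val_inv_eq_inv_val]; ring
  · rw [if_neg h, Function.update_of_ne h, ← mul_assoc, Units.mul_inv, one_mul]

theorem g1_comm {σ : F ≃+* F} (hσ : σ * σ = 1) {c l : Fˣ} (hcc : σ (c * c : F) = c * c) (hl : (l : F) * σ l = c * c) :
    g1 n c l * s1 n σ = s1 n σ * g1 n c l := by
  have hσ' : ∀ t, σ (σ t) = t := fun t => congrArg (fun e : F ≃+* F => e t) hσ
  have hl0 : (l : F) ≠ 0 := l.ne_zero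
  have h1 : σ (l : F) = c * c * (l : F)⁻¹ := by
    field_simp
    linear_combination hl
  have h2 : σ (c * c * (l : F)⁻¹) = l := by rw [← h1, hσ']
  apply ss_ext
  · intro x
    funext k
    show (g1 n c l).1.1 ((s1 n σ).1.1 x) k = (s1 n σ).1.1 ((g1 n c l).1.1 x) k
    rcases k with k | k
    · rw [g1_inl, s1_inl, s1_inl, g1_inl, g1_inr]
      by_cases h : k = Fin.last n
      · rw [if_pos h, if_pos h, if_pos h, if_pos h, map_mul, h2]
      · rw [if_neg h, if_neg h, if_neg h, if_neg h, map_mul, hcc]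
    · rw [g1_inr, s1_inr, s1_inr, g1_inl, g1_inr]
      by_cases h : k = Fin.last n
      · rw [if_pos h, if_pos h, if_pos h, if_pos h, map_mul, h1]
      · rw [if_neg h, if_neg h, if_neg h, if_neg h]
  · show (1 * 1) * (s1 n σ).1.2 = (s1 n σ).1.2 * (1 * 1)
    rw [one_mul, one_mul, mul_one]

theorem g1_inn (h2 : (2 : F) ≠ 0) (hn : 2 ≤ n) (hneg : ogNeg (qPlus (n + 1) F) ∈ EG (qPlus (n + 1) F)) (c l : Fˣ) :
    aE _ (g1 n c l) ∈ Inn (PE (qPlus (n + 1) F)) ↔ IsSquare ((c : F) ^ n * (l * (c : F)⁻¹)) := by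
  have hnF : 5 ≤ finrank F (Fin (n + 1) ⊕ Fin (n + 1) → F) := by rw [fr_plus]; omega
  unfold g1
  rw [map_mul, aE_ker_sc nd_plus hnF, one_mul]
  have h1 : ∀ g : OG (qPlus (n + 1) F), aE _ (ogSS _ g) ∈ Inn (PE (qPlus (n + 1) F)) ↔ g ∈ EG (qPlus (n + 1) F) := by
    intro g
    constructor
    · intro h
      rw [aE_og_inn_iff nd_plus hnF] at h
      rcases oG_eq_one nd_plus hnF h with h1 | h1
      · exact h1
      · exact (Subgroup.mul_mem_cancel_left _ hneg).mp h1
    · exact aE_eg_mem_inn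
  rw [h1, tor_mem_iff h2 (by omega), Fin.prod_univ_castSucc, Function.update_self]
  have h3 : (∏ i : Fin n, (Function.update (fun _ => c) (Fin.last n) (l * c⁻¹) : Fin (n + 1) → Fˣ) i.castSucc) = c ^ n := by
    rw [Finset.prod_congr rfl (g := fun _ => c) (fun i _ => by
      rw [Function.update_of_ne (Fin.castSucc_lt_last i).ne])]
    rw [Finset.prod_const, Finset.card_univ, Fintype.card_fin]
  rw [h3, Units.val_mul, Units.val_pow_eq_pow_val, Units.val_mul, Units.val_inv_eq_inv_val]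

end model

end Cfsg.Agent.H17
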