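import Mathlib
import Cfsg.Agent.H17.GFPlus1

set_option autoImplicit false

/-! Involutory graph-field automorphisms of plus type: conjugacy, centralizer, class splitting. -/

namespace Cfsg.Agent.H17

open Cfsg Cfsg.Agent.H5 Module
open scoped MatrixGroups Matrix

theorem HS_ev_sim {F : Type*} [Field F] {ι ι' : Type} [Fintype ι] [DecidableEq ι] [Fintype ι'] [DecidableEq ι']
    {Q : QuadraticForm F (ι → F)} {Q' : QuadraticForm F (ι' → F)} (S : Sim Q Q') {m : ℕ} (P : PT Q m) (P' : PT Q' m) (α : MulAut (PE Q)) :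
    α ∈ HS Q (evS P) ↔ MulAut.congr S.pe α ∈ HS Q' (evS P') := by
  constructor
  · intro h
    obtain ⟨p, hp1, hp2, rfl⟩ := mem_HS_ev.mp h
    rw [S.congr_pe]
    exact mem_HS_ev.mpr ⟨S.ss p, hp1, (S.ev_iff p).mpr hp2, rfl⟩
  · intro h
    obtain ⟨p, hp1, hp2, hp3⟩ := mem_HS_ev.mp h
    obtain ⟨q, rfl⟩ := S.ss.surjective p
    rw [← S.congr_pe] at hp3
    rw [← (MulAut.congr S.pe).injective hp3]
    exact mem_HS_ev.mpr ⟨q, hp1, (S.ev_iff q).mp hp2, rfl⟩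

/-- proper similarities with arbitrary multiplier -/
theorem exists_ev_mult {F : Type*} [Field F] [Finite F] {m : ℕ} (hm : 1 ≤ m) (c : Fˣ) :
    ∃ G : SSG (qPlus m F), G.1.2 = 1 ∧ Ev m G ∧ (ssK G : F) = c := by
  have hnd : ND (qPlus m F) := nd_plus
  have hne : ∃ x, qPlus m F x ≠ 0 := exists_ne_q hnd (by rw [fr_plus]; omega)
  obtain ⟨φ, hφ⟩ := class_even m hnd hnd (fr_plus F m) (fr_plus F m) rfl c.ne_zero
  obtain ⟨ψ, hψ⟩ := exists_simEquiv c.ne_zero hφ hnd rfl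
  let G : SSG (qPlus m F) := ⟨(ψ.toEquiv, 1), fun x y => map_add ψ x y, fun a x => map_smul ψ a x, c, fun x => hψ x⟩
  have hG : (ssK G : F) = c := ssK_eq hne G (fun x => hψ x)
  by_cases hev : Ev m G
  · exact ⟨G, rfl, hev, hG⟩
  · obtain ⟨v, hv⟩ := hne
    refine ⟨G * ogSS _ (refl hv), rfl, ?_, ?_⟩
    · rw [(PT_plus F m).ev_mul]
      exact ⟨fun h => absurd h hev, fun h => absurd h ((PT_plus F m).refl_not_ev hv)⟩
    · rw [ssK_mul ⟨v, hv⟩, hG]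
      have h5 : (ssK (ogSS (qPlus m F) (refl hv)) : F) = 1 := ssK_eq ⟨v, hv⟩ _ (fun x => by rw [ogSS_apply, og_q, one_mul]; rfl)
      rw [h5, map_one, mul_one]

/-- properties of an involutory graph-field automorphism -/
theorem gf_data {F : Type*} [Field F] [Finite F] {n : ℕ} (hm : 4 ≤ n) (hn : 5 ≤ Fintype.card (Fin (n + 1) ⊕ Fin (n + 1)))
    {x : MulAut (POmega F ⇑(qPlus (n + 1) F))}
    (hx : ∃ (α γ φ : MulAut (POmega F ⇑(qPlus (n + 1) F))) (σ : F ≃+* F) (v : Fin (n + 1) ⊕ Fin (n + 1) → F) (r : GL (Fin (n + 1) ⊕ Fin (n + 1)) F),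
      σ ≠ RingEquiv.refl F ∧ qPlus (n + 1) F v ≠ 0 ∧ (∀ i, σ (v i) = v i) ∧ (r : Matrix (Fin (n + 1) ⊕ Fin (n + 1)) (Fin (n + 1) ⊕ Fin (n + 1)) F) = reflectionMatrix ⇑(qPlus (n + 1) F) v ∧
      IsInducedBySemilinearPOmega ⇑(qPlus (n + 1) F) r (RingEquiv.refl F) γ ∧ IsFieldAutPOmegaOf ⇑(qPlus (n + 1) F) σ φ ∧ α * x * α⁻¹ = γ * φ)
    (hx2 : orderOf x = 2) :
    ∃ p : SSG (qPlus (n + 1) F), orderOf p.1.2 = 2 ∧ MulAut.congr (pomEquiv nd_plus hn) x = aE _ p ∧ ¬ Ev (n + 1) p ∧ aE _ p ^ 2 = 1 := by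
  have hn' : 5 ≤ finrank F (Fin (n + 1) ⊕ Fin (n + 1) → F) := semi_card (F := F) hn
  obtain ⟨p, a, σ, v, hv, hσ, _, h1, h2, h3⟩ := gf_formO nd_plus hn qPlus_svI (surj_plus (by omega)) hx
  have hord : ∀ y : MulAut (POmega F ⇑(qPlus (n + 1) F)), orderOf (MulAut.congr (pomEquiv nd_plus hn) y) = orderOf y := fun y =>
    orderOf_injective (MulAut.congr (pomEquiv nd_plus hn)).toMonoidHom (MulAut.congr (pomEquiv nd_plus hn)).injective y
  have hxr' : aE (qPlus (n + 1) F) p ^ 2 = 1 := by rw [← h2, ← hx2, ← hord, pow_orderOf_eq_one]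
  have hτ := ss_order nd_plus hn' Nat.prime_two hxr' (by rw [h1]; exact hσ)
  refine ⟨p, hτ, h2, ?_, hxr'⟩
  obtain ⟨F₀, _, _, j, hj⟩ := exists_fixF F (by norm_num) hτ
  rw [h3, (PT_plus F (n + 1)).ev_conj, (PT_plus F (n + 1)).ev_mul]
  intro h
  have hσ2 : orderOf σ = 2 := by rw [← h1]; exact hτ
  exact (PT_plus F (n + 1)).refl_not_ev hv (h.mpr (std_ev hσ2 (by norm_num) (j := j) (by rw [← h1]; exact hj)))

/-- conjugacy with the model -/
theorem gf_conj_model {F : Type*} [Field F] [Finite F] {n : ℕ} (hm : 4 ≤ n) {p : SSG (qPlus (n + 1) F)} (hτ : orderOf p.1.2 = 2)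
    (hev : ¬ Ev (n + 1) p) (hp : aE _ p ^ 2 = 1) {σ : F ≃+* F} (hσ : orderOf σ = 2) :
    ∃ k ∈ HS (qPlus (n + 1) F) (evS (PT_plus F (n + 1))), aE _ p = k * aE _ (s1 n σ) * k⁻¹ := by
  have hn' : 5 ≤ finrank F (Fin (n + 1) ⊕ Fin (n + 1) → F) := by rw [fr_plus]; omega
  obtain ⟨F₀, _, _, j, hj⟩ := exists_fixF F (by norm_num) hσ
  have hσσ : σ * σ = 1 := by rw [← pow_two, ← hσ, pow_orderOf_eq_one]
  apply conj_plus (PT_plus F (n + 1)) hn' (p := s1 n σ) (p' := p) (r := 2) (by rw [s1_snd]; exact inv_unique hτ hσ)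
    (by rw [s1_snd]; exact hσ) (by norm_num) (j := j) (by rw [s1_snd]; exact hj) (by rw [← map_pow, s1_sq hσσ, map_one]) hp
  constructor
  · intro h; exact absurd h (s1_not_ev hσ (by norm_num) hj)
  · intro h; exact absurd h hev

/-- the centralizer of the model -/
theorem gf_cent_model {F F₀ : Type*} [Field F] [Finite F] [Field F₀] [Finite F₀] {n : ℕ} (hm : 4 ≤ n) {σ : F ≃+* F} (hσ : orderOf σ = 2)
    {j : F₀ →+* F} (hj : ∀ x, σ x = x ↔ ∃ y, j y = x) {a₀ b₀ : F₀}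
    (hab₀ : ∀ z₁ z₂ : F₀, z₁ ^ 2 + a₀ * z₁ * z₂ + b₀ * z₂ ^ 2 = 0 → z₁ = 0 ∧ z₂ = 0) :
    ∃ P' : PT (qMinus n F (j a₀) (j b₀)) (n + 1),
      Nonempty (↥(HS (qPlus (n + 1) F) (evS (PT_plus F (n + 1))) ⊓ Subgroup.centralizer {aE _ (s1 n σ)}) ≃*
        ↥(HS (qMinus n F₀ a₀ b₀) (mS j P'))) := by
  letI := j.toAlgebra
  have hσσ : σ * σ = 1 := by rw [← pow_two, ← hσ, pow_orderOf_eq_one]
  have P' : PT (qMinus n F (j a₀) (j b₀)) (n + 1) := PT_ext (K := F) (finrank_fix_two hσ hj) hab₀ n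
  refine ⟨P', ?_⟩
  have hnd₀ := nd_minus (m := n) hab₀
  have hj' : ∀ y, σ (j y) = j y := fun y => (hj _).mpr ⟨y, rfl⟩
  have hz : zn (qPlus (n + 1) F) = zn (qMinus n F (j a₀) (j b₀)) :=
    class_even_ts (n + 1) nd_plus P'.nd (fr_plus F (n + 1)) P'.fr ⟨fun _ => P'.ex, fun _ => (PT_plus F (n + 1)).ex⟩
  obtain ⟨φ, hφ⟩ := class_even (n + 1) nd_plus P'.nd (fr_plus F (n + 1)) P'.fr hz (c := 1) one_ne_zero
  obtain ⟨ψ, hψ⟩ := exists_simEquiv one_ne_zero hφ nd_plus ((fr_plus F (n + 1)).trans P'.fr.symm)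
  let S : Sim (qPlus (n + 1) F) (qMinus n F (j a₀) (j b₀)) := ⟨ψ, 1, fun x => by rw [Units.val_one]; exact hψ x⟩
  have hn' : 5 ≤ finrank F ((Fin n ⊕ Fin n) ⊕ Fin 2 → F) := by rw [fr_minus]; omega
  have hne : ∃ x, qMinus n F (j a₀) (j b₀) x ≠ 0 := exists_ne_q P'.nd (by omega)
  have hs2 : (S.ss (s1 n σ)).1.2 = σ := s1_snd σ
  have hsq : S.ss (s1 n σ) ^ 2 = 1 := by rw [← map_pow, s1_sq hσσ, map_one]
  have hsev : ¬ Ev (n + 1) (S.ss (s1 n σ)) := by rw [S.ev_iff]; exact s1_not_ev hσ (by norm_num) hj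
  obtain ⟨B, e, hB, hBe⟩ := std_of_zn hne P'.nd (card_minus_ι n) (S.ss (s1 n σ)) (r := 2) (by rw [hs2]; exact hσ) (by norm_num)
    (j := j) (by rw [hs2]; exact hj) hsq (qMinus_jV (m := n) j a₀ b₀) hnd₀ (by
    intro Q₀ β d D
    have hfr : finrank F₀ ((Fin n ⊕ Fin n) ⊕ Fin 2 → F₀) = finrank F ((Fin n ⊕ Fin n) ⊕ Fin 2 → F) := by
      rw [fr_minus, fr_minus]
    apply class_even_ts (n + 1) hnd₀ (D.nd P'.nd) (fr_minus F₀ n) (fr_minus F₀ n)
    refine ⟨fun h => absurd h (no_ts_minus hab₀), fun h => ?_⟩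
    exact absurd ((D.type P' hfr (by rw [hs2]; exact hσ) (by norm_num) hsq).mpr h) hsev)
  have hQσ : ∀ x, qMinus n F (j a₀) (j b₀) (svI σ x) = σ (qMinus n F (j a₀) (j b₀) x) := qMinus_svI σ (hj' _) (hj' _)
  have hstd : MulAut.congr (simGL B e hBe).pe (aE _ (stdS (qMinus n F (j a₀) (j b₀)) σ hQσ)) = aE _ (S.ss (s1 n σ)) := by
    rw [Sim.congr_pe]
    congr 1
    apply ss_ext
    · intro x
      obtain ⟨y, rfl⟩ := (simGL B e hBe).φ.surjective x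
      rw [Sim.ss_apply', stdS_apply]
      have := hB y
      rw [hs2] at this
      exact this.symm
    · exact hs2.symm
  obtain ⟨e1⟩ := cent_equiv' (MulAut.congr S.pe) (HS_ev_sim S (PT_plus F (n + 1)) P') (aE _ (s1 n σ))
  rw [S.congr_pe] at e1
  obtain ⟨e2⟩ := cent_equiv' (MulAut.congr (simGL B e hBe).pe) (HS_ev_sim (simGL B e hBe) P' P')
    (aE _ (stdS (qMinus n F (j a₀) (j b₀)) σ hQσ))
  rw [hstd] at e2
  obtain ⟨e3⟩ := cent_std P'.nd hn' hσ (by norm_num) hj hQσ (qMinus_jV j a₀ b₀) (evS P') (mS j P')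
    (fun c => by
      refine (mem_evS (sI_mem_qs _ _)).mpr ?_
      have h2 : goSS (qMinus n F (j a₀) (j b₀)) ⟨sI _ c, sI_mem_qs _ _⟩ = scSS _ c := by
        apply ss_ext
        · intro x
          rw [goSS_apply, coe_sI', Matrix.smul_mulVec, Matrix.one_mulVec]
          rfl
        · rfl
      rw [h2]
      exact P'.ev_sc _)
    (fun g hg => Iff.rfl)
  exact ⟨e1.trans (e2.symm.trans e3)⟩

/-- the splitting of the class of the model -/
theorem gf_split_model {F F₀ : Type*} [Field F] [Finite F] [Field F₀] [Finite F₀] {n : ℕ} (hm : 4 ≤ n) {σ : F ≃+* F} (hσ : orderOf σ = 2)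
    {j : F₀ →+* F} (hj : ∀ x, σ x = x ↔ ∃ y, j y = x) :
    ((2 : F) = 0 → splitClassCount (HS (qPlus (n + 1) F) (evS (PT_plus F (n + 1)))) (Inn (PE (qPlus (n + 1) F))) (aE _ (s1 n σ)) = 1) ∧
    ((2 : F) ≠ 0 → Even n → IsSquare (-1 : F₀) → splitClassCount (HS (qPlus (n + 1) F) (evS (PT_plus F (n + 1)))) (Inn (PE (qPlus (n + 1) F))) (aE _ (s1 n σ)) = 4) ∧
    ((2 : F) ≠ 0 → ¬ (Even n ∧ IsSquare (-1 : F₀)) → splitClassCount (HS (qPlus (n + 1) F) (evS (PT_plus F (n + 1)))) (Inn (PE (qPlus (n + 1) F))) (aE _ (s1 n σ)) = 2) := by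
  have hn' : 5 ≤ finrank F (Fin (n + 1) ⊕ Fin (n + 1) → F) := by rw [fr_plus]; omega
  have hn₀ : 5 ≤ finrank F₀ (Fin (n + 1) ⊕ Fin (n + 1) → F₀) := by rw [fr_plus]; omega
  have hσσ : σ * σ = 1 := by rw [← pow_two, ← hσ, pow_orderOf_eq_one]
  have P := PT_plus F (n + 1)
  constructor
  · intro h2
    haveI := Inn_normal (G := PE (qPlus (n + 1) F))
    have hle : HS (qPlus (n + 1) F) (evS P) ≤ Inn (PE (qPlus (n + 1) F)) := by
      intro α hα
      obtain ⟨q, hq1, hqev, rfl⟩ := mem_HS_ev.mp hα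
      obtain ⟨g, hg, he⟩ := sq_dgA P hn' hq1 hqev (isSq_two h2 _)
      rw [← he]
      exact aE_eg_mem_inn (dg_eg_two h2 nd_plus hn' hg)
    have hinn : Inn (PE (qPlus (n + 1) F)) ≤ HS (qPlus (n + 1) F) (evS P) := by
      rintro _ ⟨x, rfl⟩
      obtain ⟨g, rfl⟩ := QuotientGroup.mk_surjective x
      exact mem_HS_ev.mpr ⟨ogSS _ g.1, rfl, P.dg_ev (EG_le_DG nd_plus hn' g.2), aE_ogSS g⟩
    rw [splitClassCount_eq hinn, Subgroup.relIndex_eq_one]
    exact hle.trans le_sup_left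
  · -- odd characteristic
    have main : (2 : F) ≠ 0 → ∃ c l : Fˣ, ¬ IsSquare (l : F) ∧ (IsSquare (c : F) ↔ ¬ IsSquare (-1 : F₀)) ∧
        ((aE _ (g1 n c l) ∈ Inn (PE (qPlus (n + 1) F)) → splitClassCount (HS (qPlus (n + 1) F) (evS P)) (Inn (PE (qPlus (n + 1) F))) (aE _ (s1 n σ)) = 4) ∧
        (aE _ (g1 n c l) ∉ Inn (PE (qPlus (n + 1) F)) → splitClassCount (HS (qPlus (n + 1) F) (evS P)) (Inn (PE (qPlus (n + 1) F))) (aE _ (s1 n σ)) = 2)) ∧
        (aE _ (g1 n c l) ∈ Inn (PE (qPlus (n + 1) F)) ↔ IsSquare ((c : F) ^ n * (l * (c : F)⁻¹))) := by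
      intro h2
      have hc2 : Nat.card F = Nat.card F₀ ^ 2 := card_fix (by norm_num) hσ hj
      have hsq : ∀ a : F₀, IsSquare (j a) := fun a => sq_extend h2 hc2 a
      obtain ⟨μ₀, hμ₀⟩ := exists_nonsq (two_ne_zero_of_emb j h2)
      have hμ0 : μ₀ ≠ 0 := by rintro rfl; exact hμ₀ IsSquare.zero
      obtain ⟨c, hc⟩ := hsq μ₀
      have hjμ : j μ₀ ≠ 0 := (map_ne_zero j).mpr hμ0
      have hc0 : c ≠ 0 := by rintro rfl; rw [mul_zero] at hc; exact hjμ hc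
      have hj' : ∀ y, σ (j y) = j y := fun y => (hj _).mpr ⟨y, rfl⟩
      obtain ⟨l, hl⟩ := uNorm_surj σ hσ (by norm_num) (Units.mk0 (j μ₀) hjμ) (hj' μ₀)
      have hl' : (l : F) * σ l = j μ₀ := by
        have h3 := congrArg Units.val hl
        rw [uN, uN, uN, map_one, mul_one, Units.val_mul] at h3
        exact h3
      obtain ⟨d1, d2, d3⟩ := sq_data h2 hσσ hj hμ₀ hc.symm hl'
      have hneg : ogNeg (qPlus (n + 1) F) ∈ EG (qPlus (n + 1) F) := by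
        rw [neg_plus_iff h2 (by omega)]
        have h3 : IsSquare (-1 : F) := by
          have := hsq (-1)
          rwa [map_neg, map_one] at this
        exact h3.pow _
      have hne : ∃ x, qPlus (n + 1) F x ≠ 0 := exists_ne_q nd_plus (by omega)
      obtain ⟨b, d, Q₀, hb, hQ₀⟩ := ss_descend hne (s1 n σ) (r := 2) (by rw [s1_snd]; exact hσ) (by norm_num) (j := j) (by rw [s1_snd]; exact hj) (s1_sq hσσ)
      have D := desc_of_coords (s1 n σ) (j := j) (by rw [s1_snd]; exact hj) hb hQ₀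
      obtain ⟨δ, hδ⟩ := exists_nonsq h2
      have hδ0 : δ ≠ 0 := by rintro rfl; exact hδ IsSquare.zero
      obtain ⟨G', hG'1, hG'2, hG'3⟩ := exists_ev_mult (m := n + 1) (by omega) (Units.mk0 δ hδ0)
      have hκ : (ssK (g1 n (Units.mk0 c hc0) l) : F) = j μ₀ := by
        unfold g1
        rw [ssK_mul hne, ssK_sc hne]
        have h5 : (ssK (ogSS (qPlus (n + 1) F) (tor (n + 1) F (Function.update (fun _ => Units.mk0 c hc0) (Fin.last n) (l * (Units.mk0 c hc0)⁻¹)))) : F) = 1 :=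
          ssK_eq hne _ (fun x => by rw [ogSS_apply, og_q, one_mul]; rfl)
        rw [h5, map_one, mul_one, hc]; rfl
      refine ⟨Units.mk0 c hc0, l, d2, d3, ?_, g1_inn h2 (by omega) hneg _ _⟩
      exact D.split_two h2 hn' hn₀ hsq P (r := 2) (by rw [s1_snd]; exact hσ) (by norm_num) (s1_sq hσσ) hneg
        ⟨G', hG'1, hG'2, by rw [hG'3]; exact hδ⟩ (G := g1 n (Units.mk0 c hc0) l) rfl (g1_ev _ _)
        (g1_comm hσσ (by rw [Units.val_mk0, ← hc, hj']) (by rw [Units.val_mk0, hl', hc])) hκ hμ₀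
    constructor
    · intro h2 hev hm1
      obtain ⟨c, l, h3, h4, ⟨h5, _⟩, h6⟩ := main h2
      apply h5
      rw [h6]
      have hcn : ¬ IsSquare (c : F) := by rw [h4]; exact fun h => h hm1
      have h7 : IsSquare ((l : F) * (c : F)⁻¹) := nonsq_mul h2 h3 (by rw [isSquare_inv]; exact hcn)
      exact (hev.isSquare_pow _).mul h7
    · intro h2 hnot
      obtain ⟨c, l, h3, h4, ⟨_, h5⟩, h6⟩ := main h2
      apply h5
      rw [h6]
      by_cases hm1 : IsSquare (-1 : F₀)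
      · have hodd : ¬ Even n := fun h => hnot ⟨h, hm1⟩
        have hcn : ¬ IsSquare (c : F) := by rw [h4]; exact fun h => h hm1
        have h7 : IsSquare ((l : F) * (c : F)⁻¹) := nonsq_mul h2 h3 (by rw [isSquare_inv]; exact hcn)
        have h8 : ¬ IsSquare ((c : F) ^ n) := by
          rw [Nat.not_even_iff_odd] at hodd
          obtain ⟨k, rfl⟩ := hodd
          rw [pow_succ]
          exact sq_mul_nonsq ⟨(c : F) ^ k, by ring⟩ (pow_ne_zero _ c.ne_zero) hcn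
        rw [mul_comm]
        exact sq_mul_nonsq h7 (mul_ne_zero l.ne_zero (inv_ne_zero c.ne_zero)) h8
      · have hcs : IsSquare (c : F) := h4.mpr hm1
        have h7 : IsSquare ((c : F) ^ n * (c : F)⁻¹) := (hcs.pow _).mul (by rw [isSquare_inv]; exact hcs)
        have h8 : (c : F) ^ n * (l * (c : F)⁻¹) = ((c : F) ^ n * (c : F)⁻¹) * l := by ring
        rw [h8]
        exact sq_mul_nonsq h7 (mul_ne_zero (pow_ne_zero _ c.ne_zero) (inv_ne_zero c.ne_zero)) h3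

end Cfsg.Agent.H17
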