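import Mathlib
import Cfsg.Agent.H17.GFPlus2

set_option autoImplicit false

/-! Involutory graph-field automorphisms of plus type: final form. -/

namespace Cfsg.Agent.H17

open Cfsg Cfsg.Agent.H5 Module
open scoped MatrixGroups Matrix

universe u v

theorem gf_plus' {F : Type u} [Field F] [Finite F] {n : ℕ} (hm : 4 ≤ n) {p f : ℕ} [Fact p.Prime] (hF : Nat.card F = p ^ f)
    (x : MulAut (POmega F ⇑(qPlus (n + 1) F)))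
    (hx : ∃ (α γ φ : MulAut (POmega F ⇑(qPlus (n + 1) F))) (σ : F ≃+* F) (v : Fin (n + 1) ⊕ Fin (n + 1) → F) (r : GL (Fin (n + 1) ⊕ Fin (n + 1)) F),
      σ ≠ RingEquiv.refl F ∧ ⇑(qPlus (n + 1) F) v ≠ 0 ∧ (∀ i, σ (v i) = v i) ∧ (r : Matrix (Fin (n + 1) ⊕ Fin (n + 1)) (Fin (n + 1) ⊕ Fin (n + 1)) F) = reflectionMatrix ⇑(qPlus (n + 1) F) v ∧
      IsInducedBySemilinearPOmega ⇑(qPlus (n + 1) F) r (RingEquiv.refl F) γ ∧ IsFieldAutPOmegaOf ⇑(qPlus (n + 1) F) σ φ ∧ α * x * α⁻¹ = γ * φ)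
    (hx2 : orderOf x = 2) (F₀ : Type v) [Field F₀] [Finite F₀] (hF₀ : Nat.card F₀ = p ^ (f / 2)) :
    2 ∣ f ∧ (∀ y : MulAut (POmega F ⇑(qPlus (n + 1) F)), (∃ (α γ φ : MulAut (POmega F ⇑(qPlus (n + 1) F))) (σ : F ≃+* F) (v : Fin (n + 1) ⊕ Fin (n + 1) → F) (r : GL (Fin (n + 1) ⊕ Fin (n + 1)) F),
      σ ≠ RingEquiv.refl F ∧ ⇑(qPlus (n + 1) F) v ≠ 0 ∧ (∀ i, σ (v i) = v i) ∧ (r : Matrix (Fin (n + 1) ⊕ Fin (n + 1)) (Fin (n + 1) ⊕ Fin (n + 1)) F) = reflectionMatrix ⇑(qPlus (n + 1) F) v ∧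
      IsInducedBySemilinearPOmega ⇑(qPlus (n + 1) F) r (RingEquiv.refl F) γ ∧ IsFieldAutPOmegaOf ⇑(qPlus (n + 1) F) σ φ ∧ α * y * α⁻¹ = γ * φ) →
      orderOf y = 2 → IsConjUnder (autSubgroupOf (fun β : POmega F ⇑(qPlus (n + 1) F) ≃* _ => ∃ g : GL (Fin (n + 1) ⊕ Fin (n + 1)) F, g ∈ Geo.quadSimilarityGroup (F := F) ⇑(qPlus (n + 1) F) ∧
      PreservesSingularClasses ⇑(qPlus (n + 1) F) (g : Matrix (Fin (n + 1) ⊕ Fin (n + 1)) (Fin (n + 1) ⊕ Fin (n + 1)) F) ∧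
      IsInducedBySemilinearPOmega ⇑(qPlus (n + 1) F) g (RingEquiv.refl F) β)) x y) ∧
    (∃ a₀ b₀ : F₀, (∀ z₁ z₂ : F₀, z₁ ^ 2 + a₀ * z₁ * z₂ + b₀ * z₂ ^ 2 = 0 → z₁ = 0 ∧ z₂ = 0) ∧
      Nonempty (↥((autSubgroupOf (fun β : POmega F ⇑(qPlus (n + 1) F) ≃* _ => ∃ g : GL (Fin (n + 1) ⊕ Fin (n + 1)) F, g ∈ Geo.quadSimilarityGroup (F := F) ⇑(qPlus (n + 1) F) ∧
      PreservesSingularClasses ⇑(qPlus (n + 1) F) (g : Matrix (Fin (n + 1) ⊕ Fin (n + 1)) (Fin (n + 1) ⊕ Fin (n + 1)) F) ∧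
      IsInducedBySemilinearPOmega ⇑(qPlus (n + 1) F) g (RingEquiv.refl F) β)) ⊓ Subgroup.centralizer {x}) ≃* ↥(autSubgroupOf (fun β : POmega F₀ ⇑(qMinus n F₀ a₀ b₀) ≃* _ => ∃ g : GL ((Fin n ⊕ Fin n) ⊕ Fin 2) F₀, g ∈ Geo.quadSimilarityGroup (F := F₀) ⇑(qMinus n F₀ a₀ b₀) ∧
      PreservesSingularClassesMinus n a₀ b₀ (g : Matrix ((Fin n ⊕ Fin n) ⊕ Fin 2) ((Fin n ⊕ Fin n) ⊕ Fin 2) F₀) ∧
      IsInducedBySemilinearPOmega ⇑(qMinus n F₀ a₀ b₀) g (RingEquiv.refl F₀) β)))) ∧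
    ((2 : F) = 0 → splitClassCount (autSubgroupOf (fun β : POmega F ⇑(qPlus (n + 1) F) ≃* _ => ∃ g : GL (Fin (n + 1) ⊕ Fin (n + 1)) F, g ∈ Geo.quadSimilarityGroup (F := F) ⇑(qPlus (n + 1) F) ∧
      PreservesSingularClasses ⇑(qPlus (n + 1) F) (g : Matrix (Fin (n + 1) ⊕ Fin (n + 1)) (Fin (n + 1) ⊕ Fin (n + 1)) F) ∧
      IsInducedBySemilinearPOmega ⇑(qPlus (n + 1) F) g (RingEquiv.refl F) β)) (Inn (POmega F ⇑(qPlus (n + 1) F))) x = 1) ∧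
    ((2 : F) ≠ 0 → Even n → IsSquare (-1 : F₀) → splitClassCount (autSubgroupOf (fun β : POmega F ⇑(qPlus (n + 1) F) ≃* _ => ∃ g : GL (Fin (n + 1) ⊕ Fin (n + 1)) F, g ∈ Geo.quadSimilarityGroup (F := F) ⇑(qPlus (n + 1) F) ∧
      PreservesSingularClasses ⇑(qPlus (n + 1) F) (g : Matrix (Fin (n + 1) ⊕ Fin (n + 1)) (Fin (n + 1) ⊕ Fin (n + 1)) F) ∧
      IsInducedBySemilinearPOmega ⇑(qPlus (n + 1) F) g (RingEquiv.refl F) β)) (Inn (POmega F ⇑(qPlus (n + 1) F))) x = 4) ∧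
    ((2 : F) ≠ 0 → ¬ (Even n ∧ IsSquare (-1 : F₀)) → splitClassCount (autSubgroupOf (fun β : POmega F ⇑(qPlus (n + 1) F) ≃* _ => ∃ g : GL (Fin (n + 1) ⊕ Fin (n + 1)) F, g ∈ Geo.quadSimilarityGroup (F := F) ⇑(qPlus (n + 1) F) ∧
      PreservesSingularClasses ⇑(qPlus (n + 1) F) (g : Matrix (Fin (n + 1) ⊕ Fin (n + 1)) (Fin (n + 1) ⊕ Fin (n + 1)) F) ∧
      IsInducedBySemilinearPOmega ⇑(qPlus (n + 1) F) g (RingEquiv.refl F) β)) (Inn (POmega F ⇑(qPlus (n + 1) F))) x = 2) := by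
  have hn : 5 ≤ Fintype.card (Fin (n + 1) ⊕ Fin (n + 1)) := by rw [card_plus_ι]; omega
  have P := PT_plus F (n + 1)
  obtain ⟨q, hτ, hq, hev, hq2⟩ := gf_data hm hn hx hx2
  obtain ⟨h2f, j, hj⟩ := exists_fixed_emb hF q.1.2 hτ F₀ hF₀
  obtain ⟨k, hk, hqk⟩ := gf_conj_model hm hτ hev hq2 hτ
  obtain ⟨hsp1, hsp2, hsp3⟩ := gf_split_model hm hτ hj
  have hspl : splitClassCount (autSubgroupOf (fun β : POmega F ⇑(qPlus (n + 1) F) ≃* _ => ∃ g : GL (Fin (n + 1) ⊕ Fin (n + 1)) F, g ∈ Geo.quadSimilarityGroup (F := F) ⇑(qPlus (n + 1) F) ∧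
      PreservesSingularClasses ⇑(qPlus (n + 1) F) (g : Matrix (Fin (n + 1) ⊕ Fin (n + 1)) (Fin (n + 1) ⊕ Fin (n + 1)) F) ∧
      IsInducedBySemilinearPOmega ⇑(qPlus (n + 1) F) g (RingEquiv.refl F) β)) (Inn (POmega F ⇑(qPlus (n + 1) F))) x =
      splitClassCount (HS (qPlus (n + 1) F) (evS (PT_plus F (n + 1)))) (Inn (PE (qPlus (n + 1) F))) (aE _ (s1 n q.1.2)) := by
    rw [split_equiv (MulAut.congr (pomEquiv nd_plus hn)) (inndiagPlus_iff hn) (inn_iff nd_plus hn), hq, hqk,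
      ← splitClassCount_conj (x := aE _ (s1 n q.1.2)) ⟨_, hk, rfl⟩]
  refine ⟨h2f, ?_, ?_, ?_, ?_, ?_⟩
  · intro y hy hy2
    obtain ⟨q', hτ', hq', hev', hq2'⟩ := gf_data hm hn hy hy2
    obtain ⟨k', hk', hqk'⟩ := gf_conj_model hm hτ' hev' hq2' hτ
    rw [isConjUnder_equiv (MulAut.congr (pomEquiv nd_plus hn)) (inndiagPlus_iff hn), hq, hq']
    exact isConjUnder_trans' ⟨_, hk, hqk⟩ ⟨_, hk', hqk'⟩
  · obtain ⟨a₀, b₀, hab₀⟩ := exists_ab (F := F₀)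
    refine ⟨a₀, b₀, hab₀, ?_⟩
    have hnd₀ := nd_minus (m := n) hab₀
    have hn0 : 5 ≤ Fintype.card ((Fin n ⊕ Fin n) ⊕ Fin 2) := by rw [card_minus_ι]; omega
    obtain ⟨P', ⟨e3⟩⟩ := gf_cent_model hm hτ hj hab₀
    obtain ⟨e1⟩ := cent_equiv' (MulAut.congr (pomEquiv nd_plus hn)) (inndiagPlus_iff hn) x
    rw [hq, hqk] at e1
    obtain ⟨e2⟩ := cent_transport (H := HS (qPlus (n + 1) F) (evS (PT_plus F (n + 1)))) (conj_mem_iff hk) (aE _ (s1 n q.1.2))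
    have hsq : (2 : F₀) ≠ 0 → ∀ a : F₀, IsSquare (j a) := fun h20 a => sq_extend (fun h => h20 (by
      apply j.injective
      rw [map_zero, map_ofNat]; exact h)) (card_fix (by norm_num) hτ hj) a
    obtain ⟨e4⟩ := sub_equiv (MulAut.congr (pomEquiv hnd₀ hn0)) (inndiagMinus_iff hab₀ (by omega) P' hsq hn0)
    exact ⟨e1.trans (e2.symm.trans (e3.trans e4.symm))⟩
  · intro h2; rw [hspl]; exact hsp1 h2
  · intro h2 h3 h4; rw [hspl]; exact hsp2 h2 h3 h4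
  · intro h2 h3; rw [hspl]; exact hsp3 h2 h3

theorem gf_plus {F : Type u} [Field F] [Finite F] {n : ℕ} (hm : 4 ≤ n) {p f : ℕ} [Fact p.Prime] (hF : Nat.card F = p ^ f)
    (QP : (Fin (n + 1) ⊕ Fin (n + 1) → F) → F) (hQP : QP = ⇑(qPlus (n + 1) F))
    (x : MulAut (POmega F QP))
    (hx : ∃ (α γ φ : MulAut (POmega F QP)) (σ : F ≃+* F) (v : Fin (n + 1) ⊕ Fin (n + 1) → F) (r : GL (Fin (n + 1) ⊕ Fin (n + 1)) F),
      σ ≠ RingEquiv.refl F ∧ QP v ≠ 0 ∧ (∀ i, σ (v i) = v i) ∧ (r : Matrix (Fin (n + 1) ⊕ Fin (n + 1)) (Fin (n + 1) ⊕ Fin (n + 1)) F) = reflectionMatrix QP v ∧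
      IsInducedBySemilinearPOmega QP r (RingEquiv.refl F) γ ∧ IsFieldAutPOmegaOf QP σ φ ∧ α * x * α⁻¹ = γ * φ)
    (hx2 : orderOf x = 2) (F₀ : Type v) [Field F₀] [Finite F₀] (hF₀ : Nat.card F₀ = p ^ (f / 2))
    (Qf₀ : F₀ → F₀ → ((Fin n ⊕ Fin n) ⊕ Fin 2 → F₀) → F₀) (hQf₀ : Qf₀ = fun a b => ⇑(qMinus n F₀ a b)) :
    2 ∣ f ∧ (∀ y : MulAut (POmega F QP), (∃ (α γ φ : MulAut (POmega F QP)) (σ : F ≃+* F) (v : Fin (n + 1) ⊕ Fin (n + 1) → F) (r : GL (Fin (n + 1) ⊕ Fin (n + 1)) F),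
      σ ≠ RingEquiv.refl F ∧ QP v ≠ 0 ∧ (∀ i, σ (v i) = v i) ∧ (r : Matrix (Fin (n + 1) ⊕ Fin (n + 1)) (Fin (n + 1) ⊕ Fin (n + 1)) F) = reflectionMatrix QP v ∧
      IsInducedBySemilinearPOmega QP r (RingEquiv.refl F) γ ∧ IsFieldAutPOmegaOf QP σ φ ∧ α * y * α⁻¹ = γ * φ) →
      orderOf y = 2 → IsConjUnder (autSubgroupOf (fun β : POmega F QP ≃* _ => ∃ g : GL (Fin (n + 1) ⊕ Fin (n + 1)) F, g ∈ Geo.quadSimilarityGroup (F := F) QP ∧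
      PreservesSingularClasses QP (g : Matrix (Fin (n + 1) ⊕ Fin (n + 1)) (Fin (n + 1) ⊕ Fin (n + 1)) F) ∧
      IsInducedBySemilinearPOmega QP g (RingEquiv.refl F) β)) x y) ∧
    (∃ a₀ b₀ : F₀, (∀ z₁ z₂ : F₀, z₁ ^ 2 + a₀ * z₁ * z₂ + b₀ * z₂ ^ 2 = 0 → z₁ = 0 ∧ z₂ = 0) ∧
      Nonempty (↥((autSubgroupOf (fun β : POmega F QP ≃* _ => ∃ g : GL (Fin (n + 1) ⊕ Fin (n + 1)) F, g ∈ Geo.quadSimilarityGroup (F := F) QP ∧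
      PreservesSingularClasses QP (g : Matrix (Fin (n + 1) ⊕ Fin (n + 1)) (Fin (n + 1) ⊕ Fin (n + 1)) F) ∧
      IsInducedBySemilinearPOmega QP g (RingEquiv.refl F) β)) ⊓ Subgroup.centralizer {x}) ≃* ↥(autSubgroupOf (fun β : POmega F₀ (Qf₀ a₀ b₀) ≃* _ => ∃ g : GL ((Fin n ⊕ Fin n) ⊕ Fin 2) F₀, g ∈ Geo.quadSimilarityGroup (F := F₀) (Qf₀ a₀ b₀) ∧
      PreservesSingularClassesMinus n a₀ b₀ (g : Matrix ((Fin n ⊕ Fin n) ⊕ Fin 2) ((Fin n ⊕ Fin n) ⊕ Fin 2) F₀) ∧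
      IsInducedBySemilinearPOmega (Qf₀ a₀ b₀) g (RingEquiv.refl F₀) β)))) ∧
    ((2 : F) = 0 → splitClassCount (autSubgroupOf (fun β : POmega F QP ≃* _ => ∃ g : GL (Fin (n + 1) ⊕ Fin (n + 1)) F, g ∈ Geo.quadSimilarityGroup (F := F) QP ∧
      PreservesSingularClasses QP (g : Matrix (Fin (n + 1) ⊕ Fin (n + 1)) (Fin (n + 1) ⊕ Fin (n + 1)) F) ∧
      IsInducedBySemilinearPOmega QP g (RingEquiv.refl F) β)) (Inn (POmega F QP)) x = 1) ∧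
    ((2 : F) ≠ 0 → Even n → IsSquare (-1 : F₀) → splitClassCount (autSubgroupOf (fun β : POmega F QP ≃* _ => ∃ g : GL (Fin (n + 1) ⊕ Fin (n + 1)) F, g ∈ Geo.quadSimilarityGroup (F := F) QP ∧
      PreservesSingularClasses QP (g : Matrix (Fin (n + 1) ⊕ Fin (n + 1)) (Fin (n + 1) ⊕ Fin (n + 1)) F) ∧
      IsInducedBySemilinearPOmega QP g (RingEquiv.refl F) β)) (Inn (POmega F QP)) x = 4) ∧
    ((2 : F) ≠ 0 → ¬ (Even n ∧ IsSquare (-1 : F₀)) → splitClassCount (autSubgroupOf (fun β : POmega F QP ≃* _ => ∃ g : GL (Fin (n + 1) ⊕ Fin (n + 1)) F, g ∈ Geo.quadSimilarityGroup (F := F) QP ∧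
      PreservesSingularClasses QP (g : Matrix (Fin (n + 1) ⊕ Fin (n + 1)) (Fin (n + 1) ⊕ Fin (n + 1)) F) ∧
      IsInducedBySemilinearPOmega QP g (RingEquiv.refl F) β)) (Inn (POmega F QP)) x = 2) := by
  subst hQP
  subst hQf₀
  exact gf_plus' hm hF x hx hx2 F₀ hF₀

end Cfsg.Agent.H17
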