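import Mathlib

set_option autoImplicit false

/-! Centralizers of elements of primitive prime order in `GL_n(q)`. -/

namespace Cfsg.Agent.H17

open scoped MatrixGroups Matrix
open Polynomial

section prim

variable {F : Type*} [Field F] [Fintype F] {n : ℕ}

theorem cent_irred (hn : 1 ≤ n) (x : GL (Fin n) F) {f : F[X]} (hf : Irreducible f) (hfn : f.natDegree = n)
    (hx : aeval (x : Matrix (Fin n) (Fin n) F) f = 0) :
    IsCyclic ↥(Subgroup.centralizer ({x} : Set (GL (Fin n) F))) ∧ Nat.card ↥(Subgroup.centralizer ({x} : Set (GL (Fin n) F))) = Fintype.card F ^ n - 1 := by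
  classical
  haveI : Fact (Irreducible f) := ⟨hf⟩
  have hf0 : f ≠ 0 := hf.ne_zero
  let φ : AdjoinRoot f →ₐ[F] Matrix (Fin n) (Fin n) F := Ideal.Quotient.liftₐ (Ideal.span {f}) (aeval (x : Matrix (Fin n) (Fin n) F)) (by
    intro a ha
    obtain ⟨b, rfl⟩ := Ideal.mem_span_singleton'.mp ha
    rw [map_mul, hx, mul_zero])
  have hφ : φ (AdjoinRoot.root f) = (x : Matrix (Fin n) (Fin n) F) := by
    have : φ (AdjoinRoot.mk f X) = aeval (x : Matrix (Fin n) (Fin n) F) X := rfl
    rwa [AdjoinRoot.mk_X, aeval_X] at this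
  haveI : Module.Finite F (AdjoinRoot f) := (AdjoinRoot.powerBasis hf0).finite
  haveI : Finite (AdjoinRoot f) := Module.finite_of_finite F
  haveI : Fintype (AdjoinRoot f) := Fintype.ofFinite _
  have hfr : Module.finrank F (AdjoinRoot f) = n := by
    rw [(AdjoinRoot.powerBasis hf0).finrank, AdjoinRoot.powerBasis_dim, hfn]
  have hcard : Nat.card (AdjoinRoot f) = Fintype.card F ^ n := by
    rw [Nat.card_eq_fintype_card, Module.card_eq_pow_finrank (K := F), hfr]
  haveI : NeZero n := ⟨by omega⟩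
  haveI : Nontrivial (Matrix (Fin n) (Fin n) F) := inferInstance
  have hinj : Function.Injective φ := φ.toRingHom.injective
  -- a nonzero vector
  let v : Fin n → F := Pi.single 0 1
  have hv : v ≠ 0 := by
    intro h
    have := congrFun h 0
    simp [v] at this
  let θ : AdjoinRoot f →ₗ[F] (Fin n → F) :=
    { toFun := fun k => φ k *ᵥ v
      map_add' := fun a b => by rw [map_add, Matrix.add_mulVec]
      map_smul' := fun c a => by rw [map_smul, Matrix.smul_mulVec]; rfl }
  have hθinj : Function.Injective θ := by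
    rw [injective_iff_map_eq_zero]
    intro k hk
    by_contra hk0
    have h1 : φ k⁻¹ *ᵥ (φ k *ᵥ v) = v := by
      rw [Matrix.mulVec_mulVec, ← map_mul, inv_mul_cancel₀ hk0, map_one, Matrix.one_mulVec]
    have h2 : φ k *ᵥ v = 0 := hk
    rw [h2, Matrix.mulVec_zero] at h1
    exact hv h1.symm
  have hθsurj : Function.Surjective θ := (LinearMap.injective_iff_surjective_of_finrank_eq_finrank (by
    rw [hfr, Module.finrank_fin_fun])).mp hθinj
  -- the commutant
  have hcomm : ∀ y : Matrix (Fin n) (Fin n) F, y * (x : Matrix (Fin n) (Fin n) F) = (x : Matrix (Fin n) (Fin n) F) * y → ∃ k, φ k = y := by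
    intro y hy
    have h1 : ∀ p : F[X], y * φ (AdjoinRoot.mk f p) = φ (AdjoinRoot.mk f p) * y := by
      intro p
      have e : φ (AdjoinRoot.mk f p) = aeval (x : Matrix (Fin n) (Fin n) F) p := rfl
      rw [e]
      have hc : Commute y (x : Matrix (Fin n) (Fin n) F) := hy
      induction p using Polynomial.induction_on' with
      | add p q hp hq => 
        have ep : φ (AdjoinRoot.mk f p) = aeval (x : Matrix (Fin n) (Fin n) F) p := rfl
        have eq : φ (AdjoinRoot.mk f q) = aeval (x : Matrix (Fin n) (Fin n) F) q := rfl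
        rw [map_add, mul_add, add_mul, hp ep, hq eq]
      | monomial m a =>
        rw [aeval_monomial]
        have h3 : Commute y ((algebraMap F (Matrix (Fin n) (Fin n) F)) a) := (Algebra.commutes a y).symm
        exact h3.mul_right (hc.pow_right m)
    obtain ⟨k₀, hk₀⟩ := hθsurj (y *ᵥ v)
    have hk₀' : φ k₀ *ᵥ v = y *ᵥ v := hk₀
    refine ⟨k₀, ?_⟩
    have h2 : ∀ w, φ k₀ *ᵥ w = y *ᵥ w := by
      intro w
      obtain ⟨k, rfl⟩ := hθsurj w
      obtain ⟨p, rfl⟩ := AdjoinRoot.mk_surjective k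
      show φ k₀ *ᵥ (φ (AdjoinRoot.mk f p) *ᵥ v) = y *ᵥ (φ (AdjoinRoot.mk f p) *ᵥ v)
      rw [Matrix.mulVec_mulVec, Matrix.mulVec_mulVec, h1, ← map_mul, mul_comm, map_mul, ← Matrix.mulVec_mulVec, hk₀', Matrix.mulVec_mulVec]
    exact Matrix.ext_of_mulVec_single fun i => h2 _
  let ψ : (AdjoinRoot f)ˣ →* GL (Fin n) F := Units.map (φ : AdjoinRoot f →* Matrix (Fin n) (Fin n) F)
  have hψinj : Function.Injective ψ := fun a b h => Units.ext (hinj (congrArg Units.val h))
  have hrange : ψ.range = Subgroup.centralizer ({x} : Set (GL (Fin n) F)) := by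
    ext g
    rw [Subgroup.mem_centralizer_singleton_iff]
    constructor
    · rintro ⟨k, rfl⟩
      apply Units.ext
      show φ (k : AdjoinRoot f) * (x : Matrix (Fin n) (Fin n) F) = (x : Matrix (Fin n) (Fin n) F) * φ (k : AdjoinRoot f)
      rw [← hφ, ← map_mul, ← map_mul, mul_comm]
    · intro h
      obtain ⟨k, hk⟩ := hcomm g (congrArg Units.val h)
      have hk0 : k ≠ 0 := by
        rintro rfl
        rw [map_zero] at hk
        exact g.ne_zero hk.symm
      exact ⟨Units.mk0 k hk0, Units.ext hk⟩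
  have e : (AdjoinRoot f)ˣ ≃* ↥(Subgroup.centralizer ({x} : Set (GL (Fin n) F))) :=
    (MonoidHom.ofInjective hψinj).trans (MulEquiv.subgroupCongr hrange)
  refine ⟨isCyclic_of_surjective e e.surjective, ?_⟩
  rw [← Nat.card_congr e.toEquiv, Nat.card_units, hcard]

theorem cent_prim {p q : ℕ} [Fact p.Prime] [CharP F p] (hF : Fintype.card F = q) {r : ℕ} (hn : 1 ≤ n) (hr : r.Prime) (hrp : r ≠ p)
    (hi : orderOf (q : ZMod r) = n) (x : GL (Fin n) F) (hx : orderOf x = r) :
    IsCyclic ↥(Subgroup.centralizer ({x} : Set (GL (Fin n) F))) ∧ Nat.card ↥(Subgroup.centralizer ({x} : Set (GL (Fin n) F))) = q ^ n - 1 := by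
  classical
  subst hF
  haveI : NeZero n := ⟨by omega⟩
  haveI : Nontrivial (Matrix (Fin n) (Fin n) F) := inferInstance
  set μ := minpoly F (x : Matrix (Fin n) (Fin n) F) with hμ
  have hint : IsIntegral F (x : Matrix (Fin n) (Fin n) F) := IsIntegral.of_finite F _
  have hxr : (x : Matrix (Fin n) (Fin n) F) ^ r = 1 := by
    rw [← Units.val_pow_eq_pow_val, ← hx, pow_orderOf_eq_one, Units.val_one]
  have h1 : μ ∣ cyclotomic r F * (X - 1) := by
    haveI : Fact r.Prime := ⟨hr⟩
    rw [cyclotomic_prime_mul_X_sub_one F r]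
    apply minpoly.dvd
    rw [map_sub, map_pow, aeval_X, map_one, hxr, sub_self]
  obtain ⟨f, hf, hf1, hf2⟩ : ∃ f : F[X], Irreducible f ∧ f ∣ μ ∧ f ∣ cyclotomic r F := by
    by_contra hcon
    push Not at hcon
    have h2 : IsCoprime μ (cyclotomic r F) := isCoprime_of_irreducible_dvd (fun h => minpoly.ne_zero hint h.1) hcon
    have h3 := h2.dvd_of_dvd_mul_left h1
    obtain ⟨c, hc⟩ := h3
    have h4 : aeval (x : Matrix (Fin n) (Fin n) F) (X - 1 : F[X]) = 0 := by
      rw [hc, map_mul, hμ, minpoly.aeval, zero_mul]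
    rw [map_sub, aeval_X, map_one, sub_eq_zero] at h4
    have h5 : x = 1 := Units.ext h4
    rw [h5, orderOf_one] at hx
    exact hr.one_lt.ne hx
  haveI : Fact (Irreducible f) := ⟨hf⟩
  have hf0 : f ≠ 0 := hf.ne_zero
  haveI : Module.Finite F (AdjoinRoot f) := (AdjoinRoot.powerBasis hf0).finite
  haveI : Finite (AdjoinRoot f) := Module.finite_of_finite F
  haveI : Fintype (AdjoinRoot f) := Fintype.ofFinite _
  have hfr : Module.finrank F (AdjoinRoot f) = f.natDegree := by
    rw [(AdjoinRoot.powerBasis hf0).finrank, AdjoinRoot.powerBasis_dim]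
  haveI : CharP (AdjoinRoot f) p := charP_of_injective_algebraMap (algebraMap F (AdjoinRoot f)).injective p
  haveI : NeZero (r : AdjoinRoot f) := ⟨fun h => by
    rw [CharP.cast_eq_zero_iff (AdjoinRoot f) p] at h
    rcases (Nat.dvd_prime hr).mp h with h | h
    · exact (Fact.out : p.Prime).one_lt.ne' h
    · exact hrp h.symm⟩
  have hprim : IsPrimitiveRoot (AdjoinRoot.root f) r := by
    rw [← isRoot_cyclotomic_iff, IsRoot.def]
    obtain ⟨c, hc⟩ := hf2
    rw [← map_cyclotomic r (algebraMap F (AdjoinRoot f)), hc, Polynomial.map_mul, eval_mul, eval_map, AdjoinRoot.algebraMap_eq,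
      AdjoinRoot.eval₂_root, zero_mul]
  have hdvd : r ∣ Fintype.card (AdjoinRoot f) - 1 := by
    rw [hprim.eq_orderOf]
    apply orderOf_dvd_of_pow_eq_one
    exact FiniteField.pow_card_sub_one_eq_one _ (hprim.ne_zero hr.ne_zero)
  have hdeg : f.natDegree = n := by
    have h2 : n ∣ f.natDegree := by
      rw [← hi]
      apply orderOf_dvd_of_pow_eq_one
      rw [Module.card_eq_pow_finrank (K := F), hfr] at hdvd
      have h3 : 1 ≤ Fintype.card F ^ f.natDegree := Nat.one_le_pow _ _ Fintype.card_pos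
      have h4 := (Nat.modEq_iff_dvd' h3).mpr hdvd
      have h5 := (ZMod.natCast_eq_natCast_iff _ _ _).mpr h4
      rw [Nat.cast_one, Nat.cast_pow] at h5
      exact h5.symm
    have h3 : f.natDegree ≤ n := by
      refine (natDegree_le_of_dvd hf1 (minpoly.ne_zero hint)).trans ?_
      have h4 : μ ∣ (x : Matrix (Fin n) (Fin n) F).charpoly := Matrix.minpoly_dvd_charpoly _
      refine (natDegree_le_of_dvd h4 (Matrix.charpoly_monic _).ne_zero).trans ?_
      rw [Matrix.charpoly_natDegree_eq_dim, Fintype.card_fin]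
    exact le_antisymm h3 (Nat.le_of_dvd hf.natDegree_pos h2)
  apply cent_irred hn x hf hdeg
  -- f annihilates x
  have h3 : μ.natDegree ≤ f.natDegree := by
    rw [hdeg]
    have h4 : μ ∣ (x : Matrix (Fin n) (Fin n) F).charpoly := Matrix.minpoly_dvd_charpoly _
    refine (natDegree_le_of_dvd h4 (Matrix.charpoly_monic _).ne_zero).trans ?_
    rw [Matrix.charpoly_natDegree_eq_dim, Fintype.card_fin]
  obtain ⟨c, hc⟩ := hf1
  have hμ0 : μ ≠ 0 := minpoly.ne_zero hint
  have hc0 : c ≠ 0 := by rintro rfl; rw [mul_zero] at hc; exact hμ0 hc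
  have h4 : c.natDegree = 0 := by
    rw [hc, natDegree_mul hf0 hc0] at h3
    omega
  obtain ⟨a, rfl⟩ := natDegree_eq_zero.mp h4
  have ha : a ≠ 0 := by rintro rfl; exact hc0 (map_zero _)
  have h5 : aeval (x : Matrix (Fin n) (Fin n) F) f * algebraMap F _ a = 0 := by
    have := minpoly.aeval F (x : Matrix (Fin n) (Fin n) F)
    rw [← hμ, hc, map_mul, aeval_C] at this
    exact this
  have h6 : aeval (x : Matrix (Fin n) (Fin n) F) f = (aeval (x : Matrix (Fin n) (Fin n) F) f * algebraMap F _ a) * algebraMap F _ a⁻¹ := by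
    rw [mul_assoc, ← map_mul, mul_inv_cancel₀ ha, map_one, mul_one]
  rw [h6, h5, zero_mul]

end prim

end Cfsg.Agent.H17
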