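import Mathlib

set_option autoImplicit false

/-! The Lang-Steinberg theorem for general linear groups. -/

namespace Cfsg.Agent.H17

open scoped MatrixGroups Matrix
open Polynomial Module

universe u v

section lang

variable {K : Type u} [Field K] [IsAlgClosed K] {q : ℕ}

/-- the polynomials of the coefficient recursion -/
noncomputable def rP (q : ℕ) (a : ℕ → K) : ℕ → K[X]
  | 0 => C (a 0) * X ^ q
  | i + 1 => (rP q a i) ^ q + C (a (i + 1)) * X ^ q

theorem rP_zero (a : ℕ → K) : rP q a 0 = C (a 0) * X ^ q := rfl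
theorem rP_succ (a : ℕ → K) (i : ℕ) : rP q a (i + 1) = (rP q a i) ^ q + C (a (i + 1)) * X ^ q := rfl

theorem rP_dvd (hq : 2 ≤ q) (a : ℕ → K) (i : ℕ) : X ^ q ∣ rP q a i := by
  induction i with
  | zero => exact Dvd.intro_left _ rfl
  | succ i ih =>
    rw [rP_succ]
    exact dvd_add (ih.trans (dvd_pow_self _ (by omega))) (Dvd.intro_left _ rfl)

theorem rP_ne (hq : 2 ≤ q) (a : ℕ → K) (i : ℕ) (h : rP q a i = 0) : ∀ j ≤ i, a j = 0 := by
  induction i with
  | zero =>
    intro j hj
    obtain rfl : j = 0 := by omega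
    rw [rP_zero, mul_eq_zero] at h
    exact C_eq_zero.mp (h.resolve_right (pow_ne_zero _ X_ne_zero))
  | succ i ih =>
    rw [rP_succ] at h
    obtain ⟨r, hr⟩ := rP_dvd hq a i
    have h1 : coeff (rP q a i ^ q) q = 0 := by
      rw [hr, mul_pow, ← pow_mul, coeff_X_pow_mul']
      rw [if_neg]
      push Not
      nlinarith
    have h2 := congrArg (fun p => coeff p q) h
    simp only [coeff_add, h1, coeff_C_mul, coeff_X_pow, if_true, mul_one, zero_add, coeff_zero] at h2
    rw [h2, map_zero, zero_mul, add_zero] at h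
    have h3 := ih (pow_eq_zero_iff (by omega) |>.mp h)
    intro j hj
    rcases Nat.lt_or_ge j (i + 1) with h4 | h4
    · exact h3 j (by omega)
    · obtain rfl : j = i + 1 := by omega
      exact h2

/-- a nonzero solution of the recursion -/
theorem exists_rec (hq : 2 ≤ q) (a : ℕ → K) (k : ℕ) (h : ∃ j ≤ k, a j ≠ 0) : ∃ c : ℕ → K, c k ≠ 0 ∧ c 0 = c k ^ q * a 0 ∧
    ∀ i < k, c (i + 1) = c i ^ q + c k ^ q * a (i + 1) := by
  obtain ⟨r, hr⟩ := rP_dvd hq a k
  have hr0 : r ≠ 0 := by
    rintro rfl
    rw [mul_zero] at hr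
    obtain ⟨j, hj, hj'⟩ := h
    exact hj' (rP_ne hq a k hr j hj)
  have hdeg : (X ^ (q - 1) * r - 1 : K[X]).degree ≠ 0 := by
    have h1 : (X ^ (q - 1) * r : K[X]).natDegree ≠ 0 := by
      rw [natDegree_mul (pow_ne_zero _ X_ne_zero) hr0, natDegree_X_pow]
      omega
    intro h2
    apply h1
    have h3 : (X ^ (q - 1) * r : K[X]) = (X ^ (q - 1) * r - 1) + 1 := by ring
    rw [h3]
    have h4 : (X ^ (q - 1) * r - 1 : K[X]).natDegree ≤ 0 := natDegree_le_iff_degree_le.mpr (by rw [h2]; rfl)
    have h5 := natDegree_add_le (X ^ (q - 1) * r - 1 : K[X]) 1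
    rw [natDegree_one] at h5
    omega
  obtain ⟨t, ht⟩ := IsAlgClosed.exists_root _ hdeg
  rw [IsRoot.def, eval_sub, eval_mul, eval_pow, eval_X, eval_one, sub_eq_zero] at ht
  have ht0 : t ≠ 0 := by
    rintro rfl
    rw [zero_pow (by omega), zero_mul] at ht
    exact zero_ne_one ht
  have hk : (rP q a k).eval t = t := by
    rw [hr, eval_mul, eval_pow, eval_X]
    obtain ⟨s, rfl⟩ : ∃ s, q = s + 1 := ⟨q - 1, by omega⟩
    rw [show s + 1 - 1 = s from rfl] at ht
    rw [pow_succ]
    linear_combination t * ht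
  refine ⟨fun i => (rP q a i).eval t, ?_, ?_, ?_⟩
  · show (rP q a k).eval t ≠ 0
    rw [hk]; exact ht0
  · show (rP q a 0).eval t = (rP q a k).eval t ^ q * a 0
    rw [hk, rP_zero, eval_mul, eval_C, eval_pow, eval_X]; ring
  · intro i _
    show (rP q a (i + 1)).eval t = (rP q a i).eval t ^ q + (rP q a k).eval t ^ q * a (i + 1)
    rw [hk, rP_succ, eval_add, eval_pow, eval_mul, eval_C, eval_pow, eval_X]; ring

/-- the equation `x ^ q - x + c = 0` -/
theorem exists_as (hq : 2 ≤ q) (c : K) : ∃ x : K, x ^ q - x + c = 0 := by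
  have hdeg : (X ^ q - X + C c : K[X]).degree ≠ 0 := by
    intro h
    have h1 : (X ^ q - X + C c : K[X]).natDegree = q := by
      rw [natDegree_add_C, natDegree_sub_eq_left_of_natDegree_lt]
      · exact natDegree_X_pow q
      · rw [natDegree_X_pow, natDegree_X]; omega
    have h2 : (X ^ q - X + C c : K[X]).natDegree = 0 := natDegree_eq_of_degree_eq_some h
    omega
  obtain ⟨x, hx⟩ := IsAlgClosed.exists_root _ hdeg
  refine ⟨x, ?_⟩
  rw [IsRoot.def] at hx
  simpa using hx

theorem exists_root_q (hq : 2 ≤ q) (c : K) : ∃ x : K, x ^ q = c := IsAlgClosed.exists_pow_nat_eq c (by omega)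

/-- fixed vectors of semilinear injections -/
theorem exists_fixed_vector (hq : 2 ≤ q) {V : Type v} [AddCommGroup V] [Module K V] [FiniteDimensional K V] [Nontrivial V] (φ : V →+ V)
    (hφ : ∀ (a : K) v, φ (a • v) = a ^ q • φ v) (hinj : Function.Injective φ) : ∃ w, w ≠ 0 ∧ φ w = w := by
  classical
  obtain ⟨v, hv⟩ := exists_ne (0 : V)
  let f : ℕ → V := fun i => φ^[i] v
  have hf : ∀ i, φ (f i) = f (i + 1) := fun i => (Function.iterate_succ_apply' φ i v).symm
  have hfne : ∀ i, f i ≠ 0 := by
    intro i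
    induction i with
    | zero => exact hv
    | succ i ih =>
      rw [← hf]
      intro h
      exact ih (hinj (by rw [h, map_zero]))
  -- minimal relation
  have hex : ∃ k, f k ∈ Submodule.span K (f '' {i | i < k}) := by
    by_contra hcon
    push Not at hcon
    have hli : ∀ k, LinearIndependent K (fun i : Fin k => f i) := by
      intro k
      induction k with
      | zero => exact linearIndependent_empty_type
      | succ k ih =>
        rw [linearIndependent_fin_succ']
        refine ⟨ih, ?_⟩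
        intro h
        apply hcon k
        rw [Fin.val_last] at h
        convert h using 2
        ext x
        constructor
        · rintro ⟨i, hi, rfl⟩
          exact ⟨⟨i, hi⟩, rfl⟩
        · rintro ⟨i, rfl⟩
          exact ⟨i, i.2, rfl⟩
    have := (hli (finrank K V + 1)).fintype_card_le_finrank
    rw [Fintype.card_fin] at this
    omega
  obtain ⟨k, hk, hmin⟩ : ∃ k, f k ∈ Submodule.span K (f '' {i | i < k}) ∧ ∀ j < k, f j ∉ Submodule.span K (f '' {i | i < j}) :=
    ⟨Nat.find hex, Nat.find_spec hex, fun j hj => Nat.find_min hex hj⟩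
  have hk0 : k ≠ 0 := by
    rintro rfl
    have : f '' {i | i < 0} = ∅ := by ext; simp
    rw [this, Submodule.span_empty, Submodule.mem_bot] at hk
    exact hfne 0 hk
  obtain ⟨l, rfl⟩ : ∃ l, k = l + 1 := ⟨k - 1, by omega⟩
  -- coefficients
  obtain ⟨a, ha⟩ : ∃ a : ℕ → K, f (l + 1) = ∑ i ∈ Finset.range (l + 1), a i • f i := by
    have h1 : f '' {i | i < l + 1} = f '' ((Finset.range (l + 1) : Finset ℕ) : Set ℕ) := by
      congr 1; ext i; simp
    rw [h1, ← Finset.coe_image] at hk
    rw [← Finset.coe_image] at h1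
    obtain ⟨a, ha⟩ := (Submodule.mem_span_image_finset_iff_exists_fun K).mp (by rwa [Finset.coe_image] at hk)
    refine ⟨fun i => if h : i ∈ Finset.range (l + 1) then a ⟨i, h⟩ else 0, ?_⟩
    rw [← ha, ← Finset.sum_coe_sort (Finset.range (l + 1))]
    apply Finset.sum_congr rfl
    intro i _
    simp only [dif_pos i.2]
  have hane : ∃ j ≤ l, a j ≠ 0 := by
    by_contra hcon
    push Not at hcon
    apply hfne (l + 1)
    rw [ha]
    apply Finset.sum_eq_zero
    intro i hi
    rw [Finset.mem_range] at hi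
    rw [hcon i (by omega), zero_smul]
  obtain ⟨c, hc1, hc2, hc3⟩ := exists_rec hq a l hane
  refine ⟨∑ i ∈ Finset.range (l + 1), c i • f i, ?_, ?_⟩
  · intro h0
    apply hmin l (by omega)
    rw [Finset.sum_range_succ] at h0
    have h1 : f l = ∑ i ∈ Finset.range l, (-(c l)⁻¹ * c i) • f i := by
      have h2 : c l • f l = -∑ i ∈ Finset.range l, c i • f i := by
        rw [eq_neg_iff_add_eq_zero, add_comm]; exact h0
      calc f l = (c l)⁻¹ • (c l • f l) := by rw [smul_smul, inv_mul_cancel₀ hc1, one_smul]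
        _ = _ := by
          rw [h2, smul_neg, Finset.smul_sum, ← Finset.sum_neg_distrib]
          apply Finset.sum_congr rfl
          intro i _
          rw [smul_smul, neg_mul, neg_smul]
    rw [h1]
    apply Submodule.sum_mem
    intro i hi
    exact Submodule.smul_mem _ _ (Submodule.subset_span ⟨i, Finset.mem_range.mp hi, rfl⟩)
  · rw [map_sum]
    have h1 : ∀ i, φ (c i • f i) = c i ^ q • f (i + 1) := fun i => by rw [hφ, hf]
    simp only [h1]
    rw [Finset.sum_range_succ, ha, Finset.smul_sum]
    rw [Finset.sum_range_succ' (fun i => c i • f i)]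
    rw [Finset.sum_range_succ' (fun i => c l ^ q • a i • f i)]
    rw [← add_assoc, ← Finset.sum_add_distrib, smul_smul, ← hc2]
    congr 1
    apply Finset.sum_congr rfl
    intro i hi
    rw [Finset.mem_range] at hi
    rw [hc3 i hi, add_smul, smul_smul]

/-- bases of fixed vectors -/
theorem exists_fixed_basis (hq : 2 ≤ q) (hadd : ∀ x y : K, (x + y) ^ q = x ^ q + y ^ q) : ∀ (n : ℕ) {V : Type v} [AddCommGroup V] [Module K V]
    [FiniteDimensional K V] (_ : finrank K V = n) (φ : V →+ V) (_ : ∀ (a : K) v, φ (a • v) = a ^ q • φ v) (_ : Function.Injective φ),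
    ∃ b : Basis (Fin n) K V, ∀ i, φ (b i) = b i := by
  intro n
  induction n with
  | zero =>
    intro V _ _ _ hn φ _ _
    exact ⟨(finBasis K V).reindex (finCongr hn), fun i => i.elim0⟩
  | succ n ih =>
    intro V _ _ _ hn φ hφ hinj
    haveI : Nontrivial V := Module.nontrivial_of_finrank_pos (R := K) (by omega)
    obtain ⟨w, hw, hw1⟩ := exists_fixed_vector hq φ hφ hinj
    set W := Submodule.span K {w} with hW
    have hWφ : ∀ x ∈ W, φ x ∈ W := by
      intro x hx
      obtain ⟨a, rfl⟩ := Submodule.mem_span_singleton.mp hx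
      rw [hφ, hw1]
      exact W.smul_mem _ (Submodule.mem_span_singleton_self w)
    let φ' : (V ⧸ W) →+ (V ⧸ W) := QuotientAddGroup.map W.toAddSubgroup W.toAddSubgroup φ hWφ
    have hφ' : ∀ x, φ' (W.mkQ x) = W.mkQ (φ x) := fun x => rfl
    have hfr : finrank K (V ⧸ W) = n := by
      have h1 := Submodule.finrank_quotient_add_finrank W
      rw [hW, finrank_span_singleton hw, hn] at h1
      exact Nat.succ.inj h1
    obtain ⟨b, hb⟩ := ih hfr φ' (by
      intro a x
      obtain ⟨x, rfl⟩ := W.mkQ_surjective x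
      rw [← map_smul, hφ', hφ', hφ, map_smul]) (by
      rw [injective_iff_map_eq_zero]
      intro x hx
      obtain ⟨x, rfl⟩ := W.mkQ_surjective x
      rw [hφ', Submodule.mkQ_apply, Submodule.Quotient.mk_eq_zero] at hx
      obtain ⟨a, ha⟩ := Submodule.mem_span_singleton.mp hx
      obtain ⟨s, hs⟩ := exists_root_q hq a
      rw [Submodule.mkQ_apply, Submodule.Quotient.mk_eq_zero]
      have : φ (s • w) = φ x := by rw [hφ, hw1, hs, ha]
      rw [← hinj this]
      exact W.smul_mem _ (Submodule.mem_span_singleton_self w))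
    -- lift
    have hlift : ∀ i, ∃ u, W.mkQ u = b i ∧ φ u = u := by
      intro i
      obtain ⟨u, hu⟩ := W.mkQ_surjective (b i)
      have h1 : φ u - u ∈ W := by
        have h2 := hb i
        rw [← hu, hφ', ← sub_eq_zero, ← map_sub, Submodule.mkQ_apply, Submodule.Quotient.mk_eq_zero] at h2
        exact h2
      obtain ⟨c, hc⟩ := Submodule.mem_span_singleton.mp h1
      obtain ⟨d, hd⟩ := exists_as hq c
      refine ⟨u + d • w, ?_, ?_⟩
      · rw [map_add, hu]
        have : W.mkQ (d • w) = 0 := by
          rw [Submodule.mkQ_apply, Submodule.Quotient.mk_eq_zero]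
          exact W.smul_mem _ (Submodule.mem_span_singleton_self w)
        rw [this, add_zero]
      · rw [map_add, hφ, hw1]
        have h3 : φ u = u + c • w := by rw [hc]; abel
        rw [h3, add_assoc, ← add_smul]
        congr 2
        linear_combination hd
    choose u hu1 hu2 using hlift
    have hli : LinearIndependent K (Fin.cons w u : Fin (n + 1) → V) := by
      rw [linearIndependent_fin_cons]
      constructor
      · have : LinearIndependent K (W.mkQ ∘ u) := by
          have e : W.mkQ ∘ u = b := funext hu1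
          rw [e]; exact b.linearIndependent
        exact this.of_comp _
      · intro hmem
        obtain ⟨c, hc⟩ := (Submodule.mem_span_range_iff_exists_fun K).mp hmem
        have h1 := congrArg W.mkQ hc
        rw [map_sum] at h1
        have h2 : W.mkQ w = 0 := by
          rw [Submodule.mkQ_apply, Submodule.Quotient.mk_eq_zero]
          exact Submodule.mem_span_singleton_self w
        rw [h2] at h1
        simp only [map_smul, hu1] at h1
        have h3 := Fintype.linearIndependent_iff.mp b.linearIndependent c h1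
        apply hw
        rw [← hc]
        apply Finset.sum_eq_zero
        intro i _
        rw [h3 i, zero_smul]
    let b' : Basis (Fin (n + 1)) K V := basisOfLinearIndependentOfCardEqFinrank hli (by rw [Fintype.card_fin, hn])
    refine ⟨b', fun i => ?_⟩
    have hb' : ∀ i, b' i = (Fin.cons w u : Fin (n + 1) → V) i := fun i => by
      rw [coe_basisOfLinearIndependentOfCardEqFinrank]
    rw [hb']
    refine Fin.cases ?_ (fun i => ?_) i
    · rw [Fin.cons_zero, hw1]
    · rw [Fin.cons_succ, hu2]

end lang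

theorem lang_gl {K : Type*} [Field K] [IsAlgClosed K] (p : ℕ) [Fact p.Prime] [CharP K p]
    (f : ℕ) (hf : 1 ≤ f) (n : ℕ) (g : GL (Fin n) K) :
    ∃ x : GL (Fin n) K, g = x * (Matrix.GeneralLinearGroup.map (iterateFrobenius K p f) x)⁻¹ := by
  have hq : 2 ≤ p ^ f := by
    have h1 : 2 ≤ p := (Fact.out : p.Prime).two_le
    calc 2 ≤ p := h1
      _ = p ^ 1 := (pow_one p).symm
      _ ≤ p ^ f := Nat.pow_le_pow_right (by omega) hf
  have hadd : ∀ x y : K, (x + y) ^ (p ^ f) = x ^ (p ^ f) + y ^ (p ^ f) := fun x y => add_pow_char_pow x y p f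
  let φ : (Fin n → K) →+ (Fin n → K) :=
    { toFun := fun v => (g : Matrix (Fin n) (Fin n) K) *ᵥ (fun i => v i ^ (p ^ f))
      map_zero' := by
        have : (fun i : Fin n => (0 : Fin n → K) i ^ (p ^ f)) = 0 := by
          funext i; rw [Pi.zero_apply, zero_pow (by omega)]
        rw [this, Matrix.mulVec_zero]
      map_add' := fun x y => by
        rw [← Matrix.mulVec_add]
        congr 1
        funext i
        rw [Pi.add_apply, hadd]; rfl }
  obtain ⟨b, hb⟩ := exists_fixed_basis hq hadd n (V := Fin n → K) (Module.finrank_fin_fun K) φ (by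
    intro a v
    show (g : Matrix (Fin n) (Fin n) K) *ᵥ (fun i => (a • v) i ^ (p ^ f)) = a ^ (p ^ f) • ((g : Matrix (Fin n) (Fin n) K) *ᵥ (fun i => v i ^ (p ^ f)))
    rw [← Matrix.mulVec_smul]
    congr 1
    funext i
    rw [Pi.smul_apply, Pi.smul_apply, smul_eq_mul, smul_eq_mul, mul_pow]) (by
    rw [injective_iff_map_eq_zero]
    intro v hv
    have h1 : (g : Matrix (Fin n) (Fin n) K) *ᵥ (fun i => v i ^ (p ^ f)) = 0 := hv
    have h2 : (fun i => v i ^ (p ^ f)) = 0 := by
      have h3 := congrArg (fun w => ((g⁻¹ : GL (Fin n) K) : Matrix (Fin n) (Fin n) K) *ᵥ w) h1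
      simp only [Matrix.mulVec_mulVec, Matrix.mulVec_zero] at h3
      rwa [← Units.val_mul, inv_mul_cancel, Units.val_one, Matrix.one_mulVec] at h3
    funext i
    exact (pow_eq_zero_iff (by omega)).mp (congrFun h2 i))
  have hdet : (Matrix.of fun i j => b j i).det ≠ 0 := by
    have h1 := Basis.invertibleToMatrix (Pi.basisFun K (Fin n)) b
    have h2 : (Pi.basisFun K (Fin n)).toMatrix b = Matrix.of fun i j => b j i := by
      ext i j
      rw [Basis.toMatrix_apply, Pi.basisFun_repr]; rfl
    rw [← h2]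
    exact (Matrix.isUnit_det_of_invertible _).ne_zero
  let x : GL (Fin n) K := Matrix.GeneralLinearGroup.mkOfDetNeZero (Matrix.of fun i j => b j i) hdet
  refine ⟨x, ?_⟩
  rw [eq_mul_inv_iff_mul_eq]
  apply Units.ext
  ext i j
  rw [Units.val_mul, Matrix.mul_apply]
  have h1 := congrFun (hb j) i
  show ∑ k, (g : Matrix (Fin n) (Fin n) K) i k * (iterateFrobenius K p f) (b j k) = b j i
  rw [← h1]
  rfl

end Cfsg.Agent.H17
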