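import Mathlib
import Cfsg.Agent.H17.OutMinus2

set_option autoImplicit false

/-! Abstract group theory for the outer automorphism groups of `PΩ⁺`: commuting splittings, `S₃`, `S₄`. -/

namespace Cfsg.Agent.H17

open Cfsg Cfsg.Agent.H5

/-- splitting with a commuting cyclic complement -/
theorem split_cyc {G S : Type*} [Group G] [Group S] {f : ℕ} (hf : 1 ≤ f) (Φ : G →* S) {φ : S} (hφ : ∀ s : S, s ∈ Subgroup.zpowers φ)
    (hS : Nat.card S = f) {y : G} (hy : Φ y = φ) (hyf : y ^ f = 1) (hc : ∀ k ∈ Φ.ker, y * k = k * y) :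
    Nonempty (G ≃* Φ.ker × Multiplicative (ZMod f)) := by
  haveI : NeZero f := ⟨by omega⟩
  have ho : orderOf φ = f := by rw [← hS]; exact orderOf_eq_card_of_forall_mem_zpowers hφ
  have hoy : orderOf y = f :=
    Nat.dvd_antisymm (orderOf_dvd_of_pow_eq_one hyf) (by rw [← ho, ← hy]; exact orderOf_map_dvd Φ y)
  have hcomm : ∀ (k : Φ.ker) (n : Subgroup.zpowers y), Commute (Φ.ker.subtype k) ((Subgroup.zpowers y).subtype n) := by
    rintro k ⟨_, j, rfl⟩
    exact ((show Commute y k.1 from hc k.1 k.2).zpow_left j).symm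
  obtain ⟨g, hg⟩ : ∃ g, g = MonoidHom.noncommCoprod _ _ hcomm := ⟨_, rfl⟩
  have hgv : ∀ k n, g (k, n) = k.1 * n.1 := fun k n => by rw [hg]; rfl
  have hb : Function.Bijective g := by
    constructor
    · rw [injective_iff_map_eq_one]
      rintro ⟨k, ⟨_, j, rfl⟩⟩ h
      rw [hgv] at h
      have h1 := congrArg Φ h
      rw [map_mul, MonoidHom.mem_ker.mp k.2, one_mul, map_one] at h1
      have h2 : Φ (y ^ j) = 1 := h1
      rw [map_zpow, hy, ← orderOf_dvd_iff_zpow_eq_one, ho, ← hoy, orderOf_dvd_iff_zpow_eq_one] at h2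
      have h3 : k.1 = 1 := by
        have h4 : k.1 * y ^ j = 1 := h
        rwa [h2, mul_one] at h4
      exact Prod.ext (Subtype.ext h3) (Subtype.ext h2)
    · intro x
      obtain ⟨j, hj⟩ := hφ (Φ x)
      have hj' : φ ^ j = Φ x := hj
      refine ⟨(⟨x * (y ^ j)⁻¹, by rw [MonoidHom.mem_ker, map_mul, map_inv, map_zpow, hy, hj', mul_inv_cancel]⟩, ⟨y ^ j, j, rfl⟩), ?_⟩
      rw [hgv]
      exact inv_mul_cancel_right _ _
  let e : Subgroup.zpowers y ≃* Multiplicative (ZMod f) :=
    mulEquivOfCyclicCardEq (by rw [Nat.card_zpowers, hoy]; exact (Nat.card_zmod f).symm)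
  exact ⟨(MulEquiv.ofBijective g hb).symm.trans (MulEquiv.prodCongr (MulEquiv.refl _) e)⟩

theorem exists_psi {O S A : Type*} [Group O] [Group S] [Group A] (a : S →* O) (π : S →* A) (r : O)
    (hr : r ^ 3 = 1) (h1 : ∀ p, ∃ (i : ℕ) (p' : S), π p' = π p ∧ a p * r = r ^ i * a p')
    (h2 : ∀ x, ∃ (i : ℕ) (p : S), x = r ^ i * a p)
    (h3 : ∀ i : ℕ, r ^ i ∈ a.range → r ^ i = 1) (h4 : ∀ p, a p = 1 → π p = 1) :
    ∃ Ψ : O →* A, Ψ r = 1 ∧ ∀ p, Ψ (a p) = π p := by
  have hinj : ∀ p q, a p = a q → π p = π q := by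
    intro p q h
    have h5 := h4 (p * q⁻¹) (by rw [map_mul, map_inv, h, mul_inv_cancel])
    rw [map_mul, map_inv] at h5
    exact mul_inv_eq_one.mp h5
  have huniq : ∀ (i j : ℕ) (p q : S), r ^ i * a p = r ^ j * a q → π p = π q := by
    intro i j p q h
    have hri : ∀ j : ℕ, (r ^ j)⁻¹ = r ^ (2 * j) := by
      intro j
      rw [inv_eq_iff_mul_eq_one, ← pow_add, show j + 2 * j = 3 * j by ring, pow_mul, hr, one_pow]
    have h5 : r ^ (2 * j + i) = a (q * p⁻¹) := by
      rw [pow_add, ← hri, map_mul, map_inv, eq_mul_inv_iff_mul_eq, mul_assoc, h, inv_mul_cancel_left]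
    have h6 := h3 (2 * j + i) ⟨_, h5.symm⟩
    rw [h5, map_mul, map_inv, mul_inv_eq_one] at h6
    exact (hinj _ _ h6).symm
  have hcomm : ∀ (j : ℕ) (p : S), ∃ (i : ℕ) (p' : S), π p' = π p ∧ a p * r ^ j = r ^ i * a p' := by
    intro j
    induction j with
    | zero => intro p; exact ⟨0, p, rfl, by rw [pow_zero, mul_one, one_mul]⟩
    | succ j ih =>
      intro p
      obtain ⟨i, p', hp', h5⟩ := ih p
      obtain ⟨k, p'', hp'', h6⟩ := h1 p'
      refine ⟨i + k, p'', hp''.trans hp', ?_⟩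
      rw [pow_succ, ← mul_assoc, h5, mul_assoc, h6, pow_add, mul_assoc]
  choose I P hIP using h2
  have hdef : ∀ (i : ℕ) (p : S), π (P (r ^ i * a p)) = π p := fun i p => huniq _ _ _ _ (hIP (r ^ i * a p)).symm
  refine ⟨MonoidHom.mk' (fun x => π (P x)) ?_, ?_, ?_⟩
  · intro x y
    obtain ⟨i, p', hp', h5⟩ := hcomm (I y) (P x)
    have h6 : x * y = r ^ (I x + i) * a (p' * P y) := by
      conv_lhs => rw [hIP x, hIP y]
      rw [pow_add, map_mul]
      calc r ^ I x * a (P x) * (r ^ I y * a (P y)) = r ^ I x * (a (P x) * r ^ I y) * a (P y) := by group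
        _ = _ := by rw [h5]; group
    show π (P (x * y)) = π (P x) * π (P y)
    rw [h6, hdef, map_mul, hp']
  · show π (P r) = 1
    have h7 := hdef 1 1
    rwa [pow_one, map_one, mul_one, map_one] at h7
  · intro p
    show π (P (a p)) = π p
    have h7 := hdef 0 p
    rwa [pow_zero, one_mul] at h7

theorem perm_of_core {K : Type*} [Group K] (S : Subgroup K) {n : ℕ} (hn0 : n ≠ 0) (hn : S.index = n) (hK : Nat.card K = n.factorial)
    (hcore : S.normalCore = ⊥) : Nonempty (K ≃* Equiv.Perm (Fin n)) := by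
  have hcard : Nat.card (K ⧸ S) = n := hn
  haveI : Finite (K ⧸ S) := Nat.finite_of_card_ne_zero (by rw [hcard]; exact hn0)
  haveI : Finite K := Nat.finite_of_card_ne_zero (by rw [hK]; exact Nat.factorial_ne_zero n)
  let e : K ⧸ S ≃ Fin n := Finite.equivFinOfCardEq hcard
  have hinj : Function.Injective (MulAction.toPermHom K (K ⧸ S)) := by
    rw [← MonoidHom.ker_eq_bot_iff, ← Subgroup.normalCore_eq_ker, hcore]
  have hbij : Function.Bijective (MulAction.toPermHom K (K ⧸ S)) := by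
    rw [Nat.bijective_iff_injective_and_card]
    exact ⟨hinj, by rw [hK, Nat.card_perm, hcard]⟩
  exact ⟨(MulEquiv.ofBijective _ hbij).trans (Equiv.permCongrHom e)⟩

theorem mem_zpowers_two {K : Type*} [Group K] {t x : K} (ht : t * t = 1) (hx : x ∈ Subgroup.zpowers t) : x = 1 ∨ x = t := by
  obtain ⟨j, rfl⟩ := hx
  show t ^ j = 1 ∨ t ^ j = t
  have h1 : ∀ i : ℤ, t ^ (2 * i) = 1 := by
    intro i
    have : t ^ (2 : ℤ) = 1 := by rw [zpow_two, ht]
    rw [zpow_mul, this, one_zpow]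
  rcases Int.even_or_odd' j with ⟨i, rfl | rfl⟩
  · exact Or.inl (h1 i)
  · right; rw [zpow_add, h1, one_mul, zpow_one]

theorem zpow_three_cases {K : Type*} [Group K] {r : K} (hr : r * r * r = 1) (j : ℤ) : r ^ j = 1 ∨ r ^ j = r ∨ r ^ j = r * r := by
  have h1 : ∀ i : ℤ, r ^ (3 * i) = 1 := by
    intro i
    have : r ^ (3 : ℤ) = 1 := by rw [show (3 : ℤ) = 2 + 1 by rfl, zpow_add, zpow_two, zpow_one, hr]
    rw [zpow_mul, this, one_zpow]
  have h2 : j = 3 * (j / 3) + j % 3 := (Int.mul_ediv_add_emod j 3).symm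
  have h3 : j % 3 = 0 ∨ j % 3 = 1 ∨ j % 3 = 2 := by omega
  rw [h2, zpow_add, h1, one_mul]
  rcases h3 with h | h | h
  · left; rw [h, zpow_zero]
  · right; left; rw [h, zpow_one]
  · right; right; rw [h, zpow_two]

theorem s3_of {K : Type*} [Group K] (hK : Nat.card K = 6) {r t : K} (hr : r * r * r = 1) (hr1 : r ≠ 1) (ht : t * t = 1)
    (hrt : t * r * t = r⁻¹) : Nonempty (K ≃* Equiv.Perm (Fin 3)) := by
  haveI : Finite K := Nat.finite_of_card_ne_zero (by rw [hK]; norm_num)
  have hri : r⁻¹ = r * r := inv_eq_of_mul_eq_one_left hr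
  have htc : t * r ≠ r * t := by
    intro h
    rw [h, mul_assoc, ht, mul_one] at hrt
    apply hr1
    rw [hri] at hrt
    exact (left_eq_mul.mp hrt)
  have ht1 : t ≠ 1 := by
    rintro rfl
    exact htc (by rw [one_mul, mul_one])
  have hmem : ∀ x ∈ Subgroup.zpowers t, x = 1 ∨ x = t := by
    exact fun x hx => mem_zpowers_two ht hx
  refine perm_of_core (Subgroup.zpowers t) (by norm_num) ?_ (by rw [hK]; rfl) ?_
  · have h1 := Subgroup.card_mul_index (Subgroup.zpowers t)
    rw [Nat.card_zpowers, orderOf_eq_prime (p := 2) (by rw [pow_two, ht]) ht1, hK] at h1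
    omega
  · rw [eq_bot_iff]
    intro x hx
    have h1 := hx 1
    rw [one_mul, inv_one, mul_one] at h1
    rcases hmem x h1 with rfl | rfl
    · exact Subgroup.mem_bot.mpr rfl
    · exfalso
      rcases hmem _ (hx r) with h2 | h2
      · exact ht1 (conj_eq_one_iff.mp h2)
      · exact htc (mul_inv_eq_iff_eq_mul.mp h2).symm

theorem s4_of {K : Type*} [Group K] (hK : Nat.card K = 24) {r t z : K} (hr : r * r * r = 1) (hr1 : r ≠ 1) (ht : t * t = 1)
    (hrt : t * r * t = r⁻¹) (hz : z * z = 1) (htz : t * z = z * t) (hz1 : z ≠ 1) (hzt : z ≠ t)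
    (hv : z * (r * z * r⁻¹) = r * r * z * (r * r)⁻¹) : Nonempty (K ≃* Equiv.Perm (Fin 4)) := by
  haveI : Finite K := Nat.finite_of_card_ne_zero (by rw [hK]; norm_num)
  have hri : r⁻¹ = r * r := inv_eq_of_mul_eq_one_left hr
  have hr3 : r ^ 3 = 1 := by rw [pow_succ, pow_two, hr]
  have hor : orderOf r = 3 := orderOf_eq_prime hr3 hr1
  have hrne : r * r ≠ 1 := by
    intro h
    apply hr1
    rw [h, one_mul] at hr
    exact hr
  have hrne' : r * r ≠ r := fun h => hr1 (mul_eq_left.mp h)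
  have htr : t ∉ Subgroup.zpowers r := by
    rintro ⟨j, hj⟩
    have hj' : r ^ j = t := hj
    have h1 : Commute t r := by rw [← hj']; exact (Commute.refl r).zpow_left j
    rw [h1.eq, mul_assoc, ht, mul_one, hri] at hrt
    exact hrne' hrt.symm
  obtain ⟨D, hD⟩ : ∃ D, D = Cfsg.Agent.H22.dihedralLift 3 r t hr3 ht hrt := ⟨_, rfl⟩
  have hDinj : Function.Injective D := by rw [hD]; exact Cfsg.Agent.H22.dihedralLift_injective 3 r t hr3 ht hrt hor htr
  obtain ⟨S, hS⟩ : ∃ S, S = D.range := ⟨_, rfl⟩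
  have hrS : r ∈ S := by
    rw [hS]; refine ⟨.r ((1 : ℤ) : ZMod 3), ?_⟩
    rw [hD, Cfsg.Agent.H22.dihedralLift_r, zpow_one]
  have htS : t ∈ S := by
    rw [hS]; refine ⟨.sr ((0 : ℤ) : ZMod 3), ?_⟩
    rw [hD, Cfsg.Agent.H22.dihedralLift_sr, zpow_zero, mul_one]
  have hSc : ∀ x ∈ S, x = 1 ∨ x = r ∨ x = r * r ∨ x = t ∨ x = t * r ∨ x = t * (r * r) := by
    rw [hS]
    rintro _ ⟨i | i, rfl⟩
    · obtain ⟨k, rfl⟩ := ZMod.intCast_surjective i
      rw [hD, Cfsg.Agent.H22.dihedralLift_r]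
      rcases zpow_three_cases hr k with h | h | h <;> rw [h] <;> simp
    · obtain ⟨k, rfl⟩ := ZMod.intCast_surjective i
      rw [hD, Cfsg.Agent.H22.dihedralLift_sr]
      rcases zpow_three_cases hr k with h | h | h <;> rw [h] <;> simp
  have hcS : Nat.card S = 6 := by
    rw [hS, Nat.card_congr (MonoidHom.ofInjective hDinj).toEquiv.symm, DihedralGroup.nat_card]
  have htrt : t * r = r * r * t := by
    rw [← hri, ← hrt, mul_assoc, ht, mul_one]
  have htrt2 : t * (r * r) = r * t := by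
    calc t * (r * r) = (t * r) * r := (mul_assoc _ _ _).symm
      _ = (r * r * t) * r := by rw [htrt]
      _ = r * r * (t * r) := mul_assoc _ _ _
      _ = (r * r * r) * r * t := by rw [htrt]; group
      _ = r * t := by rw [hr, one_mul]
  have hzS : z ∉ S := by
    intro h
    rcases hSc z h with rfl | rfl | rfl | rfl | rfl | rfl
    · exact hz1 rfl
    · exact hrne hz
    · rw [← mul_assoc, hr, one_mul] at hz
      exact hr1 hz
    · exact hzt rfl
    · rw [← mul_assoc, ht, one_mul, hrt, hri] at htz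
      exact hrne' htz.symm
    · rw [← mul_assoc, ht, one_mul, htrt2, mul_assoc, ht, mul_one] at htz
      exact hrne' htz
  refine perm_of_core S (by norm_num) ?_ (by rw [hK]; rfl) ?_
  · have h1 := Subgroup.card_mul_index S
    rw [hcS, hK] at h1
    omega
  · by_contra hne
    have hrN : r ∈ S.normalCore := by
      obtain ⟨n, hn⟩ := (Subgroup.ne_bot_iff_exists_ne_one).mp hne
      have hn1 : n.1 ≠ 1 := fun h => hn (Subtype.ext h)
      rcases hSc n.1 (Subgroup.normalCore_le S n.2) with h | h | h | h | h | h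
      · exact absurd h hn1
      · rw [← h]; exact n.2
      · have h3 := mul_mem n.2 n.2
        rw [h] at h3
        have : r * r * (r * r) = r := by rw [← mul_assoc, hr, one_mul]
        rwa [this] at h3
      all_goals
        have key : ∀ s, s * r = r * s → n.1 = t * s → r ∈ S.normalCore := by
          intro s hs hns
          have h5 : n.1 * (r * (n.1)⁻¹ * r⁻¹) = r := by
            rw [hns]
            calc t * s * (r * (t * s)⁻¹ * r⁻¹) = t * (s * r) * s⁻¹ * t⁻¹ * r⁻¹ := by group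
              _ = t * r * t⁻¹ * r⁻¹ := by rw [hs]; group
              _ = r⁻¹ * r⁻¹ := by rw [show t⁻¹ = t from inv_eq_of_mul_eq_one_left ht, hrt]
              _ = (r * r * r) * r := by rw [hri]; group
              _ = r := by rw [hr, one_mul]
          rw [← h5]
          exact mul_mem n.2 ((inferInstance : S.normalCore.Normal).conj_mem _ (inv_mem n.2) r)
      · exact key 1 (by rw [one_mul, mul_one]) (by rw [mul_one]; exact h)
      · exact key r rfl h
      · exact key (r * r) (by group) h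
    have h1 : z * r * z⁻¹ ∈ S := Subgroup.normalCore_le S ((inferInstance : S.normalCore.Normal).conj_mem r hrN z)
    have h2 : r * r * z * (r * r)⁻¹ ∈ S := by
      rw [← hv]
      have h3 : z * (r * z * r⁻¹) = z * r * z⁻¹ * r⁻¹ := by
        rw [show z⁻¹ = z from inv_eq_of_mul_eq_one_left hz]; group
      rw [h3]
      exact mul_mem h1 (inv_mem hrS)
    apply hzS
    have h4 : z = (r * r)⁻¹ * (r * r * z * (r * r)⁻¹) * (r * r) := by group
    rw [h4]
    exact mul_mem (mul_mem (inv_mem (mul_mem hrS hrS)) h2) (mul_mem hrS hrS)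

end Cfsg.Agent.H17
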