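import Mathlib
import Cfsg.Agent.H17.Tri5

set_option autoImplicit false

/-! The automorphism group in dimension eight. -/

namespace Cfsg.Agent.H17

open Cfsg Cfsg.Agent.H5

section lag

variable {F V : Type*} [Field F] [Finite F] [AddCommGroup V] [Module F V] [FiniteDimensional F V]
  {Q : QuadraticForm F V} {hnd : ND Q} {hn : 5 ≤ Module.finrank F V}

/-- maximal totally singular subspaces of half dimension are conjugate -/
theorem lag_conj (hnd : ND Q) {R R' : Submodule F V} (hR : ∀ x ∈ R, Q x = 0) (hR' : ∀ x ∈ R', Q x = 0)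
    (h1 : ∀ u v, (∀ r ∈ R, pB Q r u = 0) → (∀ r ∈ R, pB Q r v = 0) → pB Q u v = 0)
    (h1' : ∀ u v, (∀ r ∈ R', pB Q r u = 0) → (∀ r ∈ R', pB Q r v = 0) → pB Q u v = 0) :
    ∃ g : OG Q, (∀ x ∈ R, g x ∈ R') ∧ ∀ x ∈ R', (g⁻¹ : OG Q) x ∈ R := by
  have key : ∀ R : Submodule F V, (∀ x ∈ R, Q x = 0) → (∀ u v, (∀ r ∈ R, pB Q r u = 0) → (∀ r ∈ R, pB Q r v = 0) → pB Q u v = 0) →
      2 * Module.finrank F R = Module.finrank F V := by
    intro R hR hR2
    have h1 : R ≤ oc Q R := by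
      intro x hx n hn
      have h2 := hR _ (R.add_mem hn hx)
      rw [q_add, hR _ hn, hR _ hx, zero_add, zero_add] at h2
      exact h2
    have h2 : oc Q R ≤ R := by
      conv_rhs => rw [← oc_oc hnd R]
      intro x hx n hn
      exact hR2 n x hn hx
    have h3 : oc Q R = R := le_antisymm h2 h1
    have h4 := finrank_oc hnd R
    rw [h3] at h4
    omega
  have e1 := key R hR h1
  have e2 := key R' hR' h1'
  obtain ⟨k, hk⟩ : ∃ k, k = Module.finrank F R := ⟨_, rfl⟩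
  let b := Module.finBasisOfFinrankEq F R hk.symm
  let b' := Module.finBasisOfFinrankEq F R' (show Module.finrank F R' = k by omega)
  have hts : ∀ R : Submodule F V, (∀ x ∈ R, Q x = 0) → ∀ x ∈ R, ∀ y ∈ R, pB Q x y = 0 := by
    intro R hR x hx y hy
    have h2 := hR _ (R.add_mem hx hy)
    rw [q_add, hR _ hx, hR _ hy, zero_add, zero_add] at h2
    exact h2
  obtain ⟨g, hg⟩ := og_witt_family hnd (fun i => (b i : V)) (fun i => (b' i : V))
    (b.linearIndependent.map' R.subtype (Submodule.ker_subtype R)) (b'.linearIndependent.map' R'.subtype (Submodule.ker_subtype R'))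
    (fun i j => by rw [hts R' hR' _ (b' i).2 _ (b' j).2, hts R hR _ (b i).2 _ (b j).2]) (fun i => by rw [hR' _ (b' i).2, hR _ (b i).2])
  have key2 : ∀ (R R' : Submodule F V) (b : Module.Basis (Fin k) F R) (b' : Module.Basis (Fin k) F R') (g : OG Q), (∀ i, g (b i : V) = b' i) → ∀ x ∈ R, g x ∈ R' := by
    intro R R' b b' g hg x hx
    have h2 := b.sum_repr ⟨x, hx⟩
    have h3 : x = ∑ i, (b.repr ⟨x, hx⟩ i) • (b i : V) := by
      have := congrArg Subtype.val h2
      simp only [Submodule.coe_sum, Submodule.coe_smul] at this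
      exact this.symm
    rw [h3]
    have h4 : g (∑ i, (b.repr ⟨x, hx⟩ i) • (b i : V)) = ∑ i, (b.repr ⟨x, hx⟩ i) • (b' i : V) := by
      show g.1 (∑ i, (b.repr ⟨x, hx⟩ i) • (b i : V)) = _
      rw [map_sum]
      apply Finset.sum_congr rfl
      intro i _
      rw [map_smul]
      congr 1
      exact hg i
    rw [h4]
    exact R'.sum_mem (fun i _ => R'.smul_mem _ (b' i).2)
  refine ⟨g, key2 R R' b b' g hg, key2 R' R b' b g⁻¹ (fun i => ?_)⟩
  rw [← hg i]
  exact og_inv g _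

theorem im_ZG (hnd : ND Q) (hn : 5 ≤ Module.finrank F V) {R R' : Submodule F V} (g : OG Q) (h1 : ∀ x ∈ R, g x ∈ R') (h2 : ∀ x ∈ R', (g⁻¹ : OG Q) x ∈ R) :
    Pol.im (aE Q (ogSS Q g)) (((pomPol Q hnd hn).ZG R).map (pomPol Q hnd hn).pr) ≤ ((pomPol Q hnd hn).ZG R').map (pomPol Q hnd hn).pr := by
  rintro _ ⟨_, ⟨s, hs, rfl⟩, rfl⟩
  refine ⟨conjEG Q (ogSS Q g) s, ⟨fun v => ?_, fun v hv => ?_⟩, rfl⟩
  · show g (s.1 ((g⁻¹ : OG Q) v)) - v ∈ R'
    have h3 := h1 _ (hs.1 ((g⁻¹ : OG Q) v))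
    have h4 : g ((pomPol Q hnd hn).act s ((g⁻¹ : OG Q) v) - (g⁻¹ : OG Q) v) = g (s.1 ((g⁻¹ : OG Q) v)) - v := by
      rw [og_sub, og_inv']; rfl
    rwa [h4] at h3
  · show g (s.1 ((g⁻¹ : OG Q) v)) = v
    have h3 := hs.2 ((g⁻¹ : OG Q) v) (fun r hr => by
      show pB Q r ((g⁻¹ : OG Q) v) = 0
      rw [← og_p_inv]
      exact hv _ (h1 r hr))
    have h4 : s.1 ((g⁻¹ : OG Q) v) = (g⁻¹ : OG Q) v := h3
    rw [h4, og_inv']

theorem im_ZG_eq (hnd : ND Q) (hn : 5 ≤ Module.finrank F V) {R R' : Submodule F V} (g : OG Q) (h1 : ∀ x ∈ R, g x ∈ R') (h2 : ∀ x ∈ R', (g⁻¹ : OG Q) x ∈ R) :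
    Pol.im (aE Q (ogSS Q g)) (((pomPol Q hnd hn).ZG R).map (pomPol Q hnd hn).pr) = ((pomPol Q hnd hn).ZG R').map (pomPol Q hnd hn).pr := by
  apply le_antisymm (im_ZG hnd hn g h1 h2)
  have h3 := im_ZG hnd hn g⁻¹ h2 (by rw [inv_inv]; exact h1)
  have h4 : Pol.im (aE Q (ogSS Q g)) (Pol.im (aE Q (ogSS Q g⁻¹)) (((pomPol Q hnd hn).ZG R').map (pomPol Q hnd hn).pr)) ≤
      Pol.im (aE Q (ogSS Q g)) (((pomPol Q hnd hn).ZG R).map (pomPol Q hnd hn).pr) := Subgroup.map_mono h3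
  rw [← Pol.im_mul, ← map_mul, ← map_mul, mul_inv_cancel, map_one, map_one, Pol.im_one] at h4
  exact h4

theorem image_or (hnd : ND Q) (hn : 5 ≤ Module.finrank F V) {e f : V} (h : (pomPol Q hnd hn).Hyp e f) (α : MulAut (PE Q)) :
    α ∈ (aE Q).range ∨ ∃ β ∈ (aE Q).range, ∃ R : Submodule F V, (∀ x ∈ R, Q x = 0) ∧
      (∀ u v, (∀ r ∈ R, pB Q r u = 0) → (∀ r ∈ R, pB Q r v = 0) → pB Q u v = 0) ∧
      Pol.im (β * α) ((pomPol Q hnd hn).Qs e) = ((pomPol Q hnd hn).ZG R).map (pomPol Q hnd hn).pr := by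
  haveI : Finite V := Module.finite_of_finite F
  haveI : Finite (EG Q) := Finite.of_injective (fun g : EG Q => fun x : V => g.1 x)
    (fun g g' hgg => Subtype.ext (og_ext fun x => congrFun hgg x))
  obtain ⟨p, hp⟩ := CharP.exists F
  haveI : Fact p.Prime := ⟨CharP.char_is_prime F p⟩
  obtain ⟨g0, h1 | ⟨R, h1, h2, h3⟩⟩ := Pol.exists_image_O' p big_O ot_O big4_O singW_O h α
  · left
    obtain ⟨S, hS⟩ := Pol.all_induced_of_Qs p big_O ot_O big4_O singW_O gen_O (fun S => ⟨_, (induced_iff S _).mpr rfl⟩) h _ h1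
    have h2 := (induced_iff S _).mp hS
    have h3 : α = MulAut.conj ((pomPol Q hnd hn).pr g0) * aE Q (toSSG S) := by
      rw [← h2, ← mul_assoc, ← map_mul, mul_inv_cancel, map_one, one_mul]
    rw [h3]
    refine mul_mem ⟨ogSS Q g0.1, ?_⟩ ⟨_, rfl⟩
    rw [aE_ogSS]; rfl
  · right
    refine ⟨MulAut.conj ((pomPol Q hnd hn).pr g0)⁻¹, ?_, R, h1, h2, h3⟩
    rw [map_inv]
    refine inv_mem ⟨ogSS Q g0.1, ?_⟩
    rw [aE_ogSS]; rfl

theorem of_same (hnd : ND Q) (hn : 5 ≤ Module.finrank F V) {e f : V} (h : (pomPol Q hnd hn).Hyp e f) (δ : MulAut (PE Q))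
    (hδ : Pol.im δ ((pomPol Q hnd hn).Qs e) = (pomPol Q hnd hn).Qs e) : δ ∈ (aE Q).range := by
  haveI : Finite V := Module.finite_of_finite F
  haveI : Finite (EG Q) := Finite.of_injective (fun g : EG Q => fun x : V => g.1 x)
    (fun g g' hgg => Subtype.ext (og_ext fun x => congrFun hgg x))
  obtain ⟨p, hp⟩ := CharP.exists F
  haveI : Fact p.Prime := ⟨CharP.char_is_prime F p⟩
  obtain ⟨S, hS⟩ := Pol.all_induced_of_Qs p big_O ot_O big4_O singW_O gen_O (fun S => ⟨_, (induced_iff S _).mpr rfl⟩) h _ hδ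
  exact ⟨_, ((induced_iff S _).mp hS).symm⟩

/-- two automorphisms outside the semisimilarity group are in the same double coset -/
theorem double_coset (hnd : ND Q) (hn : 5 ≤ Module.finrank F V) (α ρ : MulAut (PE Q)) (hα : α ∉ (aE Q).range) (hρ : ρ ∉ (aE Q).range) :
    ∃ β ∈ (aE Q).range, ∃ δ ∈ (aE Q).range, α = β * ρ * δ := by
  obtain ⟨e, f, h⟩ := exists_hyp_O hnd hn
  obtain ⟨β1, hβ1, R, h1, h2, h3⟩ := (image_or hnd hn h α).resolve_left hα
  obtain ⟨β2, hβ2, R', h1', h2', h3'⟩ := (image_or hnd hn h ρ).resolve_left hρ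
  obtain ⟨g, hg, hg'⟩ := lag_conj hnd h1' h1 h2' h2
  have h4 := im_ZG_eq hnd hn g hg hg'
  rw [← h3, ← h3', ← Pol.im_mul] at h4
  obtain ⟨X, hX⟩ : ∃ X, X = aE Q (ogSS Q g) * (β2 * ρ) := ⟨_, rfl⟩
  rw [← hX] at h4
  have h5 : Pol.im (X⁻¹ * (β1 * α)) ((pomPol Q hnd hn).Qs e) = (pomPol Q hnd hn).Qs e := by
    rw [Pol.im_mul, ← h4, ← Pol.im_mul, inv_mul_cancel, Pol.im_one]
  have h6 := of_same hnd hn h _ h5
  refine ⟨β1⁻¹ * aE Q (ogSS Q g) * β2, mul_mem (mul_mem (inv_mem hβ1) ⟨_, rfl⟩) hβ2, _, h6, ?_⟩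
  rw [hX]; group

end lag

section main

variable {F : Type*} [Field F] [Finite F]

local notation "V8" => (Fin 4 ⊕ Fin 4 → F)
local notation "A8" => octA F
local notation "Q8" => qPlus 4 F

theorem range_mul_rho {β : MulAut (PE Q8)} (hβ : β ∈ (aE Q8).range) : (∃ δ ∈ (aE Q8).range, β * rho F = rho F * δ) ∨ ∃ δ ∈ (aE Q8).range, β * rho F = rho F * rho F * δ := by
  have key : ∀ t : RT F, f3 F t * rho F = rho F * f3 F (cycT (cycT t)) := by
    intro t
    rw [rho_spec, cycT3]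
  obtain ⟨p, rfl⟩ := hβ
  rcases mem_or p with ⟨t, ht⟩ | ⟨t, ht⟩
  · left
    refine ⟨f3 F (cycT (cycT t)), ⟨_, rfl⟩, ?_⟩
    rw [← key]
    congr 1
    rw [f3_apply, ← ht]; rfl
  · right
    have h1 : aE Q8 p = aE Q8 (kS F) * f3 F t := by
      have h2 : p = kS F * r3 F t := by rw [ht, ← mul_assoc, kS_mul, one_mul]
      rw [f3_apply]
      conv_lhs => rw [h2]
      rw [map_mul]; rfl
    have h3 : aE Q8 (kS F) * rho F = rho F * rho F * aE Q8 (kS F) := by
      have h4 := rho_k (F := F)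
      have h5 : aE Q8 (kS F) * rho F * aE Q8 (kS F) = rho F * rho F := by
        rw [mul_assoc, h4, ← mul_assoc, k_mul, one_mul]
      rw [← h5, mul_assoc (aE Q8 (kS F) * rho F), k_mul, mul_one]
    refine ⟨aE Q8 (kS F) * f3 F (cycT (cycT t)), mul_mem ⟨_, rfl⟩ ⟨_, rfl⟩, ?_⟩
    rw [h1, mul_assoc, key, ← mul_assoc, h3, mul_assoc]

/-- all automorphisms -/
theorem aut8 (α : MulAut (PE Q8)) : α ∈ (aE Q8).range ∨ (∃ δ ∈ (aE Q8).range, α = rho F * δ) ∨ ∃ δ ∈ (aE Q8).range, α = rho F * rho F * δ := by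
  by_cases hα : α ∈ (aE Q8).range
  · exact Or.inl hα
  right
  obtain ⟨β, hβ, δ, hδ, rfl⟩ := double_coset nd_plus fr8' α (rho F) hα rho_not_mem
  rcases range_mul_rho hβ with ⟨δ', hδ', h⟩ | ⟨δ', hδ', h⟩
  · left
    exact ⟨δ' * δ, mul_mem hδ' hδ, by rw [h, mul_assoc]⟩
  · right
    exact ⟨δ' * δ, mul_mem hδ' hδ, by rw [h, mul_assoc]⟩

theorem index8 : (aE Q8).range.index = 3 := by
  have hinv : (rho F)⁻¹ = rho F * rho F := by
    rw [inv_eq_iff_mul_eq_one, ← mul_assoc, rho_cube]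
  have hρ2 : rho F * rho F ∉ (aE Q8).range := by
    intro h
    apply rho_not_mem (F := F)
    have := inv_mem h
    rw [← hinv, inv_inv] at this
    exact this
  rw [Subgroup.index]
  let φ : Fin 3 → MulAut (PE Q8) ⧸ (aE Q8).range := ![QuotientGroup.mk 1, QuotientGroup.mk (rho F), QuotientGroup.mk (rho F * rho F)]
  have hφ : Function.Bijective φ := by
    constructor
    · have h01 : (QuotientGroup.mk 1 : MulAut (PE Q8) ⧸ (aE Q8).range) ≠ QuotientGroup.mk (rho F) := by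
        intro h
        rw [QuotientGroup.eq, inv_one, one_mul] at h
        exact rho_not_mem h
      have h02 : (QuotientGroup.mk 1 : MulAut (PE Q8) ⧸ (aE Q8).range) ≠ QuotientGroup.mk (rho F * rho F) := by
        intro h
        rw [QuotientGroup.eq, inv_one, one_mul] at h
        exact hρ2 h
      have h12 : (QuotientGroup.mk (rho F) : MulAut (PE Q8) ⧸ (aE Q8).range) ≠ QuotientGroup.mk (rho F * rho F) := by
        intro h
        rw [QuotientGroup.eq, inv_mul_cancel_left] at h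
        exact rho_not_mem h
      intro i j hij
      fin_cases i <;> fin_cases j
      · rfl
      · exact absurd hij h01
      · exact absurd hij h02
      · exact absurd hij.symm h01
      · rfl
      · exact absurd hij h12
      · exact absurd hij.symm h02
      · exact absurd hij.symm h12
      · rfl
    · intro x
      obtain ⟨α, rfl⟩ := QuotientGroup.mk_surjective x
      rcases aut8 α with h | ⟨δ, h, rfl⟩ | ⟨δ, h, rfl⟩
      · exact ⟨0, by
          show QuotientGroup.mk 1 = _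
          rw [QuotientGroup.eq, inv_one, one_mul]; exact h⟩
      · exact ⟨1, by
          show QuotientGroup.mk (rho F) = _
          rw [QuotientGroup.eq, inv_mul_cancel_left]; exact h⟩
      · exact ⟨2, by
          show QuotientGroup.mk (rho F * rho F) = _
          rw [QuotientGroup.eq, inv_mul_cancel_left]; exact h⟩
  rw [← Nat.card_congr (Equiv.ofBijective φ hφ), Nat.card_eq_fintype_card, Fintype.card_fin]

/-- the order of the automorphism group -/
theorem card_mulAut8 : Nat.card (MulAut (PE Q8)) = 3 * (Nat.card (F ≃+* F) * Nat.card (OG Q8)) := by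
  have hnd : ND Q8 := nd_plus
  have hk : Module.finrank F V8 = 2 * 4 := fr8
  have hne : ∃ x, Q8 x ≠ 0 := exists_ne_q hnd (by rw [fr8]; norm_num)
  have hπ : Function.Surjective (ssπ Q8) := fun σ => by
    obtain ⟨p, hp, _⟩ := exists_ss_even hnd hk σ (c := 1) one_ne_zero
    exact ⟨p, hp⟩
  have h1 := Subgroup.card_mul_index (aE Q8).ker
  rw [Subgroup.index_ker, aE_ker hnd fr8'] at h1
  have h2 : Nat.card (scSS Q8).range = Nat.card Fˣ := (Nat.card_congr (MonoidHom.ofInjective (scSS_injective hne)).toEquiv).symm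
  rw [h2] at h1
  have h3 := Subgroup.card_mul_index (ssπ Q8).ker
  rw [Subgroup.index_ker, MonoidHom.range_eq_top.mpr hπ, Subgroup.card_top] at h3
  have h4 := Subgroup.card_mul_index (ssl Q8 hne).ker
  rw [Subgroup.index_ker, card_ssl_ker] at h4
  have h5 : (ssl Q8 hne).range = ⊤ := by
    rw [eq_top_iff]
    intro c _
    obtain ⟨p, hp, hc⟩ := exists_ss_even hnd hk 1 (c := c) c.ne_zero
    refine ⟨⟨p, hp⟩, Units.ext ?_⟩
    exact ssK_eq hne p (fun x => by rw [hc, hp])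
  rw [h5, Subgroup.card_top] at h4
  have h6 := Subgroup.card_mul_index (aE Q8).range
  rw [index8] at h6
  have h7 : 0 < Nat.card Fˣ := Nat.card_pos
  rw [← h6, mul_comm _ 3]
  congr 1
  apply Nat.eq_of_mul_eq_mul_left h7
  rw [h1, ← h3, ← h4]; ring

end main

end Cfsg.Agent.H17
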