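import Mathlib
import Cfsg.Agent.H17.Out8A
import Cfsg.Agent.H17.ConfB
import Cfsg.Agent.H17.Tri6

set_option autoImplicit false

/-! Outer automorphism groups of `PΩ⁺`: the commuting field automorphism. -/

namespace Cfsg.Agent.H17

open Cfsg Cfsg.Agent.H5 Module

section gen
variable {F V : Type*} [Field F] [Finite F] [AddCommGroup V] [Module F V] [FiniteDimensional F V]
  {Q : QuadraticForm F V} {u v : V}

theorem sim_sq_case (hnd : ND Q) (hn : 5 ≤ finrank F V) {p : SSG Q} (hp1 : p.1.2 = 1) (hp : IsSquare (ssK p : F)) : ∃ g, outE Q p = oG Q g := by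
  obtain ⟨c, hc⟩ := hp
  have hc0 : c ≠ 0 := by
    rintro rfl
    rw [mul_zero] at hc
    exact Units.ne_zero _ hc
  obtain ⟨g, hg⟩ := sq_split hp1 (c := Units.mk0 c hc0) hc.symm
  refine ⟨g, ?_⟩
  rw [hg, map_mul, out_sc hnd hn, one_mul, oG_apply]

theorem sim_cases (hnd : ND Q) (hn : 5 ≤ finrank F V) {d : SSG Q} (hd1 : d.1.2 = 1) (hd : ¬ IsSquare (ssK d : F)) (p : SSG Q) (hp1 : p.1.2 = 1) :
    (∃ g, outE Q p = oG Q g) ∨ ∃ g, outE Q p = outE Q d * oG Q g := by
  have hne : ∃ x, Q x ≠ 0 := exists_ne_q hnd (by omega)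
  by_cases hs : IsSquare (ssK p : F)
  · exact Or.inl (sim_sq_case hnd hn hp1 hs)
  · right
    have h1 : p = d * (d⁻¹ * p) := (mul_inv_cancel_left _ _).symm
    have h2 : (d⁻¹ * p).1.2 = 1 := by
      show (d.1.2)⁻¹ * p.1.2 = 1
      rw [hd1, hp1, inv_one, one_mul]
    have h3 := ssK_mul hne d (d⁻¹ * p)
    rw [← h1, hd1] at h3
    have h4 : (ssK p : F) = ssK d * ssK (d⁻¹ * p) := h3
    rw [h4, sq_mul_iff (Units.ne_zero _) (Units.ne_zero _)] at hs
    have h5 : IsSquare (ssK (d⁻¹ * p) : F) := by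
      by_contra h6
      exact hs ⟨fun h => absurd h hd, fun h => absurd h h6⟩
    obtain ⟨g, hg⟩ := sim_sq_case hnd hn h2 h5
    refine ⟨g, ?_⟩
    rw [← hg, ← map_mul, mul_inv_cancel_left]

end gen

section plus
variable {F : Type*} [Field F] [Finite F] {m : ℕ} {u v : Fin m ⊕ Fin m → F}

theorem std_refl (R : RD (qPlus m F) u v) (hu1 : qPlus m F u = 1) (σ : F ≃+* F) {w : Fin m ⊕ Fin m → F} (hw : qPlus m F w ≠ 0) :
    outE (qPlus m F) (stdSS _ qPlus_svI σ) * oG (qPlus m F) (H5.refl hw) = oG (qPlus m F) (H5.refl hw) * outE (qPlus m F) (stdSS _ qPlus_svI σ) := by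
  rw [← mul_inv_eq_iff_eq_mul, oG_conj]
  have hq : qPlus m F ((stdSS _ qPlus_svI σ : SSG (qPlus m F)).1.1 w) = σ (qPlus m F w) := qPlus_svI σ w
  have hq' := ss_refl_ne (stdSS _ qPlus_svI σ) hw
  rcases R.refl_cases hw with ⟨h1, h2⟩ | ⟨h1, h2⟩ <;> rcases R.refl_cases hq' with ⟨h3, h4⟩ | ⟨h3, h4⟩
  · rw [h2, h4]
  · exfalso
    apply h3
    rw [hq, hu1, one_mul]
    rw [hu1, one_mul] at h1
    exact h1.map σ
  · exfalso
    apply h1
    rw [hq, hu1, one_mul] at h3
    rw [hu1, one_mul]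
    have h5 := h3.map σ.symm
    rwa [RingEquiv.symm_apply_apply] at h5
  · rw [h2, h4]

theorem std_og (R : RD (qPlus m F) u v) (hu1 : qPlus m F u = 1) (σ : F ≃+* F) (g : OG (qPlus m F)) :
    outE (qPlus m F) (stdSS _ qPlus_svI σ) * oG (qPlus m F) g = oG (qPlus m F) g * outE (qPlus m F) (stdSS _ qPlus_svI σ) := by
  have h1 : Commute (outE (qPlus m F) (stdSS _ qPlus_svI σ)) (oG (qPlus m F) (H5.refl R.hu)) := std_refl R hu1 σ R.hu
  have h2 : Commute (outE (qPlus m F) (stdSS _ qPlus_svI σ)) (oG (qPlus m F) (H5.refl R.hv)) := std_refl R hu1 σ R.hv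
  rcases R.og_cases g with h | h | h | h <;> rw [h]
  · rw [mul_one, one_mul]
  · exact h1
  · exact h2
  · exact h1.mul_right h2

theorem dP_mul (a b : Fˣ) : dP m F (a * b) = dP m F a * dP m F b := by
  refine ss_ext (fun x => ?_) rfl
  show (dP m F (a * b)).1.1 x = (dP m F a).1.1 ((dP m F b).1.1 x)
  rw [dP_apply, dP_apply, dP_apply]
  funext i
  rcases i with i | i
  · show ((a * b : Fˣ) : F) * x (Sum.inl i) = a * (b * x (Sum.inl i))
    rw [Units.val_mul, mul_assoc]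
  · rfl

theorem std_dP (σ : F ≃+* F) (a b : Fˣ) (hb : (b : F) = σ a) : stdSS (qPlus m F) qPlus_svI σ * dP m F a = dP m F b * stdSS (qPlus m F) qPlus_svI σ := by
  refine ss_ext (fun x => ?_) rfl
  show svI σ ((dP m F a).1.1 x) = (dP m F b).1.1 (svI σ x)
  rw [dP_apply, dP_apply]
  funext i
  rcases i with i | i
  · show σ (a * x (Sum.inl i)) = b * σ (x (Sum.inl i))
    rw [map_mul, hb]
  · rfl

theorem exists_y (h2 : (2 : F) ≠ 0) (hm : 3 ≤ m) {f : ℕ} {φ : F ≃+* F} (hφ : φ ^ f = 1) :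
    ∃ y : Out (PE (qPlus m F)), (∃ q, y = outE (qPlus m F) q ∧ q.1.2 = φ) ∧ y ^ f = 1 ∧
      ∀ p : SSG (qPlus m F), p.1.2 = 1 → y * outE (qPlus m F) p = outE (qPlus m F) p * y := by
  obtain ⟨l, hl⟩ := exists_nonsq (F := F) h2
  have hl0 : l ≠ 0 := by rintro rfl; exact hl IsSquare.zero
  have hfr : finrank F (Fin m ⊕ Fin m → F) = 2 * m := by rw [Module.finrank_fintype_fun_eq_card]; simp; omega
  let i0 : Fin m := ⟨0, by omega⟩
  have hu : qPlus m F (efv i0 (-1)) = 1 := by rw [q_efv, neg_neg]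
  have hv : qPlus m F (efv i0 (-l)) = l := by rw [q_efv, neg_neg]
  have R : RD (qPlus m F) (efv i0 (-1)) (efv i0 (-l)) := ⟨h2, nd_plus, by rw [hfr]; omega, ⟨m, hfr⟩, by rw [hu]; exact one_ne_zero,
    by rw [hv]; exact hl0, by rw [hu, hv, one_mul]; exact hl⟩
  have hne : ∃ x, qPlus m F x ≠ 0 := ⟨_, R.hu⟩
  obtain ⟨a, ha⟩ : ∃ a : Fˣ, (a : F) = l := ⟨Units.mk0 l hl0, rfl⟩
  have hd : ¬ IsSquare (ssK (dP m F a) : F) := by rw [(dP_mem hne a).2, ha]; exact hl
  obtain ⟨y0, hy0⟩ : ∃ y0, y0 = outE (qPlus m F) (stdSS _ qPlus_svI φ) := ⟨_, rfl⟩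
  obtain ⟨D, hD⟩ : ∃ D, D = outE (qPlus m F) (dP m F a) := ⟨_, rfl⟩
  obtain ⟨t, ht⟩ : ∃ t, t = oG (qPlus m F) (H5.refl R.hu) := ⟨_, rfl⟩
  obtain ⟨w, hw⟩ : ∃ w, w = oG (qPlus m F) (H5.refl R.hv) := ⟨_, rfl⟩
  have hyf : y0 ^ f = 1 := by rw [hy0, ← map_pow, ← map_pow, hφ, map_one, map_one]
  have htt : t * t = 1 := by rw [ht]; exact R.sq_u
  have hww : w * w = 1 := by rw [hw]; exact R.sq_v
  have htw : t * w = w * t := by rw [ht, hw]; exact R.comm
  have hDw : D * w = t * D := by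
    rw [← mul_inv_eq_iff_eq_mul, hD, hw, ht]; exact R.swap_v _ rfl hd
  have hy0g : ∀ g, y0 * oG (qPlus m F) g = oG (qPlus m F) g * y0 := by rw [hy0]; exact std_og R hu φ
  have hy0t : y0 * t = t * y0 := by rw [ht]; exact hy0g _
  have hy0w : y0 * w = w * y0 := by rw [hw]; exact hy0g _
  have htg : ∀ g, t * oG (qPlus m F) g = oG (qPlus m F) g * t := by
    intro g
    have h1 : Commute t w := htw
    rcases R.og_cases g with h | h | h | h <;> rw [h]
    · rw [mul_one, one_mul]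
    · rw [← ht]
    · rw [← hw]; exact htw
    · rw [← hw, ← ht]; exact (Commute.refl t).mul_right h1
  -- conjugation of `D`
  obtain ⟨z', hz', hyD⟩ : ∃ z', (z' = 1 ∨ z' = t * w) ∧ y0 * D = D * z' * y0 := by
    obtain ⟨b, hb⟩ : ∃ b : Fˣ, (b : F) = φ a := ⟨Units.mk0 (φ a) (by rw [map_ne_zero_iff _ φ.injective]; exact Units.ne_zero a), rfl⟩
    have hbs : IsSquare ((a⁻¹ * b : Fˣ) : F) := by
      rw [Units.val_mul, sq_mul_iff (Units.ne_zero _) (Units.ne_zero _)]
      constructor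
      · intro h
        exfalso
        rw [Units.val_inv_eq_inv_val, isSquare_inv, ha] at h
        exact hl h
      · intro h
        exfalso
        rw [hb] at h
        have h5 := h.map φ.symm
        rw [RingEquiv.symm_apply_apply, ha] at h5
        exact hl h5
    obtain ⟨e, he⟩ := hbs
    have he0 : e ≠ 0 := by
      rintro rfl
      rw [mul_zero] at he
      exact Units.ne_zero _ he
    obtain ⟨e', he'⟩ : ∃ e' : Fˣ, (e' : F) = e := ⟨Units.mk0 e he0, rfl⟩
    have hbe : b = a * (e' * e') := by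
      rw [← inv_mul_eq_iff_eq_mul]
      apply Units.ext
      rw [he, Units.val_mul, he']
    refine ⟨oG (qPlus m F) (tor m F (fun _ => e')), ?_, ?_⟩
    · rw [ht, hw]
      exact R.det_one (odet_dg (tor_dg _))
    · rw [hy0, hD, ← map_mul, std_dP φ a b hb, map_mul, hbe, dP_mul, dP_mul, dP_sq, map_mul, map_mul, out_sc nd_plus R.hn, one_mul]
      rfl
  have hred : ∀ y, (∀ g, y * oG (qPlus m F) g = oG (qPlus m F) g * y) → y * D = D * y → ∀ p : SSG (qPlus m F), p.1.2 = 1 →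
      y * outE (qPlus m F) p = outE (qPlus m F) p * y := by
    intro y h1 h3 p hp
    rcases sim_cases nd_plus R.hn (d := dP m F a) rfl hd p hp with ⟨g, hg⟩ | ⟨g, hg⟩
    · rw [hg]; exact h1 g
    · rw [hg, ← hD]
      exact (show Commute y D from h3).mul_right (h1 g)
  by_cases hz1 : z' = 1
  · rw [hz1, mul_one] at hyD
    exact ⟨y0, ⟨_, hy0, rfl⟩, hyf, hred y0 hy0g hyD⟩
  · have hz2 : z' = t * w := hz'.resolve_left hz1
    rw [hz2] at hyD hz1
    have hzz : (t * w) * (t * w) = 1 := by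
      calc (t * w) * (t * w) = t * (w * t) * w := by group
        _ = (t * t) * (w * w) := by rw [← htw]; group
        _ = 1 := by rw [htt, hww, one_mul]
    have hy0z : y0 * (t * w) = (t * w) * y0 := (show Commute y0 t from hy0t).mul_right hy0w
    have hpow : ∀ n : ℕ, y0 ^ n * D = D * (t * w) ^ n * y0 ^ n := by
      intro n
      induction n with
      | zero => rw [pow_zero, pow_zero, one_mul, mul_one, mul_one]
      | succ n ih =>
        have h5 : y0 ^ n * (t * w) = (t * w) * y0 ^ n := (show Commute y0 (t * w) from hy0z).pow_left n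
        rw [pow_succ, pow_succ, mul_assoc, hyD]
        calc y0 ^ n * (D * (t * w) * y0) = (y0 ^ n * D) * (t * w) * y0 := by group
          _ = D * (t * w) ^ n * (y0 ^ n * (t * w)) * y0 := by rw [ih]; group
          _ = _ := by rw [h5]; group
    have hfz : (t * w) ^ f = 1 := by
      have h5 := hpow f
      rw [hyf, one_mul, mul_one] at h5
      exact mul_eq_left.mp h5.symm
    have hfe : Even f := by
      by_contra hfo
      rw [Nat.not_even_iff_odd] at hfo
      rw [pow_odd_eq hzz hfo] at hfz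
      exact hz1 hfz
    refine ⟨y0 * t, ⟨_, by rw [hy0, ht, oG_apply, ← map_mul], rfl⟩, ?_, hred _ ?_ ?_⟩
    · rw [(show Commute y0 t from hy0t).mul_pow, hyf, one_mul]
      obtain ⟨k, rfl⟩ := hfe
      rw [← two_mul, pow_mul, pow_two, htt, one_pow]
    · intro g
      exact ((show Commute y0 _ from hy0g g).mul_left (htg g))
    · calc y0 * t * D = y0 * (t * D) := mul_assoc _ _ _
        _ = (y0 * D) * w := by rw [← hDw]; group
        _ = D * (t * w) * (y0 * w) := by rw [hyD]; group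
        _ = D * t * (w * w) * y0 := by rw [hy0w]; group
        _ = D * (t * y0) := by rw [hww]; group
        _ = D * (y0 * t) := by rw [hy0t]

end plus

end Cfsg.Agent.H17
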