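import Mathlib
import Cfsg.Agent.H17.Out8B

set_option autoImplicit false

/-! The outer automorphism group of `PΩ₈⁺`: triality. -/

namespace Cfsg.Agent.H17

open Cfsg Cfsg.Agent.H5 Module

variable {F : Type*} [Field F] [Finite F]

local notation "V8" => (Fin 4 ⊕ Fin 4 → F)
local notation "A8" => octA F
local notation "Q8" => qPlus 4 F

noncomputable def rhoO (F : Type*) [Field F] [Finite F] : Out (PE (qPlus 4 F)) := QuotientGroup.mk (rho F)

theorem rhoO_cube : rhoO F * rhoO F * rhoO F = 1 := congrArg (QuotientGroup.mk (s := Inn (PE Q8))) (rho_cube (F := F))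

theorem rhoO_rel {p1 p2 p3 : SSG Q8} (h : Rel p1 p2 p3) : rhoO F * outE Q8 p3 = outE Q8 p1 * rhoO F :=
  congrArg (QuotientGroup.mk (s := Inn (PE Q8))) (rho_rel h)

theorem rhoO_k : rhoO F * outE Q8 (kS F) = outE Q8 (kS F) * (rhoO F * rhoO F) :=
  congrArg (QuotientGroup.mk (s := Inn (PE Q8))) (rho_k (F := F))

theorem kO_mul : outE Q8 (kS F) * outE Q8 (kS F) = 1 := by rw [← map_mul, kS_mul, map_one]

theorem kO_rho : outE Q8 (kS F) * rhoO F = rhoO F * rhoO F * outE Q8 (kS F) := by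
  have h1 := kO_mul (F := F)
  calc outE Q8 (kS F) * rhoO F = outE Q8 (kS F) * (rhoO F * (outE Q8 (kS F) * outE Q8 (kS F))) := by rw [h1, mul_one]
    _ = outE Q8 (kS F) * (rhoO F * outE Q8 (kS F)) * outE Q8 (kS F) := by group
    _ = (outE Q8 (kS F) * outE Q8 (kS F)) * (rhoO F * rhoO F) * outE Q8 (kS F) := by rw [rhoO_k]; group
    _ = _ := by rw [h1, one_mul]

theorem rhoO_not : rhoO F ∉ (outE Q8).range := by
  rintro ⟨p, hp⟩
  have h1 : (QuotientGroup.mk (s := Inn (PE Q8)) (aE Q8 p)) = QuotientGroup.mk (rho F) := hp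
  rw [QuotientGroup.eq] at h1
  obtain ⟨t, ht⟩ := h1
  induction t using QuotientGroup.induction_on with
  | H g =>
  apply rho_not_mem (F := F)
  refine ⟨p * ogSS Q8 g.1, ?_⟩
  rw [map_mul, aE_ogSS]
  have h2 : MulAut.conj (QuotientGroup.mk g : PE Q8) = (aE Q8 p)⁻¹ * rho F := ht
  rw [h2, mul_inv_cancel_left]

theorem psi8 : ∃ Ψ : Out (PE Q8) →* (F ≃+* F), Ψ (rhoO F) = 1 ∧ ∀ p, Ψ (outE Q8 p) = p.1.2 := by
  have hr3 : rhoO F ^ 3 = 1 := by rw [pow_succ, pow_two, rhoO_cube]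
  refine exists_psi (outE Q8) (ssπ Q8) (rhoO F) hr3 ?_ ?_ ?_ ?_
  · intro p
    rcases mem_or p with ⟨t, ht⟩ | ⟨t, ht⟩
    · have h : Rel t.1.1 t.1.2.1 t.1.2.2 := t.2
      have ht' : t.1.2.2 = p := ht
      refine ⟨1, t.1.2.1, ?_, ?_⟩
      · rw [← ht']; exact h.2.1
      · rw [pow_one, ← ht']
        exact (rhoO_rel h.cyc.cyc).symm
    · have h : Rel t.1.1 t.1.2.1 t.1.2.2 := t.2
      have ht' : t.1.2.2 = kS F * p := ht
      have hp : p = kS F * t.1.2.2 := by rw [ht', ← mul_assoc, kS_mul, one_mul]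
      refine ⟨2, kS F * t.1.2.1, ?_, ?_⟩
      · rw [hp, map_mul, map_mul]
        congr 1
        exact h.2.1
      · rw [hp, map_mul, mul_assoc, ← rhoO_rel h.cyc.cyc, ← mul_assoc, kO_rho, map_mul, pow_two, mul_assoc]
  · intro x
    induction x using QuotientGroup.induction_on with
    | H α =>
    rcases aut8 α with ⟨p, hp⟩ | ⟨_, ⟨p, rfl⟩, hp⟩ | ⟨_, ⟨p, rfl⟩, hp⟩
    · exact ⟨0, p, by rw [pow_zero, one_mul, ← hp]; rfl⟩
    · exact ⟨1, p, by rw [pow_one, hp]; rfl⟩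
    · exact ⟨2, p, by rw [pow_two, hp]; rfl⟩
  · intro i hi
    have h1 : i = 3 * (i / 3) + i % 3 := (Nat.div_add_mod i 3).symm
    have h2 : i % 3 = 0 ∨ i % 3 = 1 ∨ i % 3 = 2 := by omega
    have h3 : rhoO F ^ i = rhoO F ^ (i % 3) := by
      conv_lhs => rw [h1]
      rw [pow_add, pow_mul, hr3, one_pow, one_mul]
    rcases h2 with h | h | h
    · rw [h3, h, pow_zero]
    · exfalso
      rw [h3, h, pow_one] at hi
      exact rhoO_not hi
    · exfalso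
      rw [h3, h, pow_two] at hi
      apply rhoO_not (F := F)
      have h4 := mul_mem hi hi
      rwa [← mul_assoc, rhoO_cube, one_mul] at h4
  · intro p hp
    obtain ⟨c, g, rfl⟩ := (outE_eq_one_iff nd_plus fr8' p).mp hp
    rfl

theorem ker_elem {Ψ : Out (PE Q8) →* (F ≃+* F)} (h1 : Ψ (rhoO F) = 1) (h2 : ∀ p, Ψ (outE Q8 p) = p.1.2) {x : Out (PE Q8)} (hx : x ∈ Ψ.ker) :
    ∃ (i : ℕ) (p : SSG Q8), p.1.2 = 1 ∧ x = rhoO F ^ i * outE Q8 p := by
  have h3 : ∃ (i : ℕ) (p : SSG Q8), x = rhoO F ^ i * outE Q8 p := by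
    induction x using QuotientGroup.induction_on with
    | H α =>
    rcases aut8 α with ⟨p, hp⟩ | ⟨_, ⟨p, rfl⟩, hp⟩ | ⟨_, ⟨p, rfl⟩, hp⟩
    · exact ⟨0, p, by rw [pow_zero, one_mul, ← hp]; rfl⟩
    · exact ⟨1, p, by rw [pow_one, hp]; rfl⟩
    · exact ⟨2, p, by rw [pow_two, hp]; rfl⟩
  obtain ⟨i, p, rfl⟩ := h3
  refine ⟨i, p, ?_, rfl⟩
  rw [MonoidHom.mem_ker, map_mul, map_pow, h1, one_pow, one_mul, h2] at hx
  exact hx

theorem fO_rho (σ : F ≃+* F) : outE Q8 (fO8 F σ) * rhoO F = rhoO F * outE Q8 (fO8 F σ) := (rhoO_rel (rel_f σ)).symm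

theorem fO_k (σ : F ≃+* F) : outE Q8 (fO8 F σ) * outE Q8 (kS F) = outE Q8 (kS F) * outE Q8 (fO8 F σ) := by
  rw [← map_mul, ← map_mul]
  congr 1
  refine ss_ext (fun x => ?_) rfl
  exact (cj_svI σ x).symm

theorem rhoO_ne : rhoO F ≠ 1 := by
  intro h
  apply rhoO_not (F := F)
  rw [h]; exact one_mem _

theorem kO_conj : outE Q8 (kS F) * rhoO F * outE Q8 (kS F) = (rhoO F)⁻¹ := by
  rw [kO_rho, mul_assoc, kO_mul, mul_one]
  exact (inv_eq_of_mul_eq_one_left rhoO_cube).symm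

end Cfsg.Agent.H17
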