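import Mathlib
import Cfsg.Agent.H17.Out8C

set_option autoImplicit false

/-! The outer automorphism groups of `PΩ⁺`: conclusions. -/

namespace Cfsg.Agent.H17

open Cfsg Cfsg.Agent.H5 Module

theorem card_ker_of {G S : Type*} [Group G] [Group S] (Φ : G →* S) (hs : Function.Surjective Φ) {n f : ℕ} (hG : Nat.card G = n * f)
    (hS : Nat.card S = f) (hf : 1 ≤ f) : Nat.card Φ.ker = n := by
  have h5 := Subgroup.card_mul_index Φ.ker
  rw [Subgroup.index_ker, MonoidHom.range_eq_top.mpr hs, Subgroup.card_top, hG, hS] at h5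
  exact Nat.eq_of_mul_eq_mul_right (by omega) h5

theorem comm_of_gen6 {G : Type*} [Group G] (K : Subgroup G) (hK : Nat.card K = 6) {r t : G} (hr : r ∈ K) (ht : t ∈ K) (ho : orderOf r = 3)
    (ho2 : orderOf t = 2) {y : G} (hyr : y * r = r * y) (hyt : y * t = t * y) : ∀ k ∈ K, y * k = k * y := by
  haveI : Finite K := Nat.finite_of_card_ne_zero (by rw [hK]; norm_num)
  have h1 : K ⊓ Subgroup.centralizer {y} ≤ K := inf_le_left
  have hrm : r ∈ K ⊓ Subgroup.centralizer {y} := ⟨hr, Subgroup.mem_centralizer_singleton_iff.mpr hyr.symm⟩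
  have htm : t ∈ K ⊓ Subgroup.centralizer {y} := ⟨ht, Subgroup.mem_centralizer_singleton_iff.mpr hyt.symm⟩
  have h3 := Subgroup.orderOf_dvd_natCard _ hrm
  have h4 := Subgroup.orderOf_dvd_natCard _ htm
  rw [ho] at h3
  rw [ho2] at h4
  haveI : Finite (K ⊓ Subgroup.centralizer {y} : Subgroup G) := Finite.of_injective (Subgroup.inclusion h1) (Subgroup.inclusion_injective h1)
  have h5 : 0 < Nat.card (K ⊓ Subgroup.centralizer {y} : Subgroup G) := Nat.card_pos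
  have h6 : K ⊓ Subgroup.centralizer {y} = K := Subgroup.eq_of_le_of_card_ge h1 (by rw [hK]; omega)
  intro k hk
  rw [← h6] at hk
  exact (Subgroup.mem_centralizer_singleton_iff.mp hk.2).symm

section four
variable {F : Type*} [Field F] [Finite F]

local notation "V8" => (Fin 4 ⊕ Fin 4 → F)
local notation "A8" => octA F
local notation "Q8" => qPlus 4 F

theorem out8_even {f : ℕ} (hf : 1 ≤ f) (hcyc : IsCyclic (F ≃+* F)) (hcF : Nat.card (F ≃+* F) = f)
    (hc : Nat.card (Out (PE Q8)) = 6 * f) : Nonempty (Out (PE Q8) ≃* Equiv.Perm (Fin 3) × Multiplicative (ZMod f)) := by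
  obtain ⟨Ψ, h1, h2⟩ := psi8 (F := F)
  have hsurj : Function.Surjective Ψ := fun σ => ⟨outE Q8 (fO8 F σ), h2 _⟩
  have hK := card_ker_of Ψ hsurj hc hcF hf
  have hrK : rhoO F ∈ Ψ.ker := h1
  have htK : outE Q8 (kS F) ∈ Ψ.ker := h2 _
  obtain ⟨e1⟩ := s3_of hK (r := ⟨rhoO F, hrK⟩) (t := ⟨outE Q8 (kS F), htK⟩) (Subtype.ext rhoO_cube) (fun h => rhoO_ne (congrArg Subtype.val h))
    (Subtype.ext kO_mul) (Subtype.ext kO_conj)
  obtain ⟨φ, hφ⟩ := hcyc.exists_generator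
  have hφf : φ ^ f = 1 := by rw [← hcF]; exact pow_card_eq_one'
  have ho3 : orderOf (rhoO F) = 3 := orderOf_eq_prime (by rw [pow_succ, pow_two, rhoO_cube]) rhoO_ne
  have hk1 : outE Q8 (kS F) ≠ 1 := by
    intro h
    have h3 := kO_conj (F := F)
    rw [h, one_mul, mul_one] at h3
    have h4 := rhoO_cube (F := F)
    rw [mul_eq_one_iff_eq_inv.mpr h3, one_mul] at h4
    exact rhoO_ne h4
  have ho2 : orderOf (outE Q8 (kS F)) = 2 := orderOf_eq_prime (by rw [pow_two, kO_mul]) hk1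
  obtain ⟨e2⟩ := split_cyc hf Ψ hφ hcF (y := outE Q8 (fO8 F φ)) (h2 _) (by rw [← map_pow, ← map_pow, hφf, map_one, map_one])
    (comm_of_gen6 _ hK hrK htK ho3 ho2 (fO_rho φ) (fO_k φ))
  exact ⟨e2.trans (MulEquiv.prodCongr e1 (MulEquiv.refl _))⟩

theorem out8_odd (h2 : (2 : F) ≠ 0) {f : ℕ} (hf : 1 ≤ f) (hcyc : IsCyclic (F ≃+* F)) (hcF : Nat.card (F ≃+* F) = f)
    (hneg : ogNeg Q8 ∈ EG Q8) (hc : Nat.card (Out (PE Q8)) = 24 * f) : Nonempty (Out (PE Q8) ≃* Equiv.Perm (Fin 4) × Multiplicative (ZMod f)) := by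
  obtain ⟨Ψ, h1, h3⟩ := psi8 (F := F)
  have hsurj : Function.Surjective Ψ := fun σ => ⟨outE Q8 (fO8 F σ), h3 _⟩
  have hK := card_ker_of Ψ hsurj hc hcF hf
  obtain ⟨l, hl⟩ := exists_nonsq (F := F) h2
  have hl0 : l ≠ 0 := by rintro rfl; exact hl IsSquare.zero
  obtain ⟨a, ha⟩ : ∃ a : V8, Q8 a = l := ⟨efv 0 (-l), by rw [q_efv, neg_neg]⟩
  obtain ⟨c, hc'⟩ : ∃ c : Fˣ, (c : F) = l := ⟨Units.mk0 l hl0, rfl⟩
  have hca : (c : F) = Q8 a := by rw [hc', ha]
  have hcj : Q8 ((A8).cj a) = l := by rw [(A8).q_cj, ha]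
  have hccj : (c : F) = Q8 ((A8).cj a) := by rw [hc', hcj]
  have hcj0 : Q8 ((A8).cj a) ≠ 0 := by rw [hcj]; exact hl0
  have ha0 : Q8 a ≠ 0 := by rw [ha]; exact hl0
  have hqi : Q8 (A8).i = 1 := (A8).qi
  have R : RD Q8 (A8).i ((A8).cj a) := ⟨h2, nd_plus, fr8', ⟨4, fr8⟩, o1_ne, hcj0, by rw [hqi, hcj, one_mul]; exact hl⟩
  obtain ⟨t, ht⟩ : ∃ t, t = oG Q8 (H5.refl R.hu) := ⟨_, rfl⟩
  obtain ⟨w, hw⟩ : ∃ w, w = oG Q8 (H5.refl R.hv) := ⟨_, rfl⟩
  have htt : t * t = 1 := by rw [ht]; exact R.sq_u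
  have hww : w * w = 1 := by rw [hw]; exact R.sq_v
  have htw : t * w = w * t := by rw [ht, hw]; exact R.comm
  have hk : outE Q8 (kS F) = t := by
    rw [kS_eq, map_mul, out_sc nd_plus fr8', one_mul, ht]; rfl
  have hz : outE Q8 (sB ((A8).cj a) c hccj) = w * t := by
    rw [sB_eq _ _ hccj hcj0, map_mul, out_sc nd_plus fr8', one_mul, map_mul, map_mul, ht, hw]; rfl
  obtain ⟨d, hd⟩ : ∃ d, d = outE Q8 (sL a c hca) := ⟨_, rfl⟩
  obtain ⟨d', hd'⟩ : ∃ d', d' = outE Q8 (sR a c hca) := ⟨_, rfl⟩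
  have hRel := rel_L a c hca hccj
  have hrz : rhoO F * (w * t) = d * rhoO F := by rw [← hz, hd]; exact rhoO_rel hRel
  have hrd : rhoO F * d = d' * rhoO F := by rw [hd, hd']; exact rhoO_rel hRel.cyc
  have haw : oG Q8 (H5.refl ha0) = w := by
    rcases R.refl_cases ha0 with ⟨h4, _⟩ | ⟨_, h5⟩
    · exfalso
      rw [hqi, one_mul, ha] at h4
      exact hl h4
    · rw [h5, hw]
  have hdd' : d' * d = w * t := by
    have h4 : sR a c hca * sL a c hca = scSS Q8 1 * sB a c hca := by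
      refine ss_ext (fun x => ?_) rfl
      show (A8).μ ((A8).μ a x) a = (1 : Fˣ) • (A8).μ ((A8).μ a x) a
      rw [one_smul]
    rw [hd', hd, ← map_mul, h4, map_mul, out_sc nd_plus fr8', one_mul, sB_eq a c hca ha0, map_mul, out_sc nd_plus fr8', one_mul, map_mul, map_mul]
    show oG Q8 (H5.refl ha0) * oG Q8 (H5.refl _) = w * t
    rw [haw, ht]
  have hzz : (w * t) * (w * t) = 1 := by
    calc (w * t) * (w * t) = w * (t * w) * t := by group
      _ = (w * w) * (t * t) := by rw [htw]; group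
      _ = 1 := by rw [htt, hww, one_mul]
  have hdz : d = rhoO F * (w * t) * (rhoO F)⁻¹ := by rw [hrz, mul_inv_cancel_right]
  have hddsq : d * d = 1 := by
    rw [hdz]
    calc rhoO F * (w * t) * (rhoO F)⁻¹ * (rhoO F * (w * t) * (rhoO F)⁻¹) = rhoO F * ((w * t) * (w * t)) * (rhoO F)⁻¹ := by group
      _ = 1 := by rw [hzz]; group
  have hrK : rhoO F ∈ Ψ.ker := h1
  have htK : t ∈ Ψ.ker := by rw [← hk]; exact h3 _
  have hwK : w ∈ Ψ.ker := by rw [hw]; exact h3 _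
  have hconj : t * rhoO F * t = (rhoO F)⁻¹ := by rw [← hk]; exact kO_conj
  have hztne : w * t ≠ t := by
    intro h
    have h4 : w = 1 := mul_eq_right.mp h
    rw [hw] at h4
    exact R.ne_v h4
  have hzne : w * t ≠ 1 := by
    rw [← htw, ht, hw]
    exact R.uv_ne_one hneg
  have htz : t * (w * t) = w * t * t := by rw [← mul_assoc, htw]
  have hv : (w * t) * (rhoO F * (w * t) * (rhoO F)⁻¹) = rhoO F * rhoO F * (w * t) * (rhoO F * rhoO F)⁻¹ := by
    calc (w * t) * (rhoO F * (w * t) * (rhoO F)⁻¹) = (d' * d) * d := by rw [← hdz, hdd']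
      _ = d' := by rw [mul_assoc, hddsq, mul_one]
      _ = rhoO F * d * (rhoO F)⁻¹ := by rw [hrd, mul_inv_cancel_right]
      _ = _ := by rw [hdz]; group
  obtain ⟨e1⟩ := s4_of hK (r := ⟨rhoO F, hrK⟩) (t := ⟨t, htK⟩) (z := ⟨w * t, mul_mem hwK htK⟩) (Subtype.ext rhoO_cube)
    (fun h => rhoO_ne (congrArg Subtype.val h)) (Subtype.ext htt) (Subtype.ext hconj) (Subtype.ext hzz) (Subtype.ext htz)
    (fun h => hzne (congrArg Subtype.val h)) (fun h => hztne (congrArg Subtype.val h)) (Subtype.ext hv)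
  obtain ⟨φ, hφ⟩ := hcyc.exists_generator
  have hφf : φ ^ f = 1 := by rw [← hcF]; exact pow_card_eq_one'
  have hog : ∀ g, outE Q8 (fO8 F φ) * oG Q8 g = oG Q8 g * outE Q8 (fO8 F φ) := fun g => std_og R hqi φ g
  have hr' : Commute (outE Q8 (fO8 F φ)) (rhoO F) := fO_rho φ
  have hcd : Commute (outE Q8 (fO8 F φ)) d := by
    rw [hdz]
    have h5 : Commute (outE Q8 (fO8 F φ)) (w * t) := by
      rw [hw, ht]
      exact (show Commute _ _ from hog _).mul_right (hog _)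
    exact (hr'.mul_right h5).mul_right hr'.inv_right
  have hLns : ¬ IsSquare (ssK (sL a c hca) : F) := by
    have h5 : (ssK (sL a c hca) : F) = c := by
      apply ssK_eq ⟨_, R.hu⟩
      intro x
      show Q8 ((A8).μ a x) = c * Q8 x
      rw [(A8).comp, hca]
    rw [h5, hc']; exact hl
  obtain ⟨e2⟩ := split_cyc hf Ψ hφ hcF (y := outE Q8 (fO8 F φ)) (h3 _) (by rw [← map_pow, ← map_pow, hφf, map_one, map_one]) (by
    intro k hk'
    obtain ⟨i, p, hp, rfl⟩ := ker_elem h1 h3 hk'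
    refine (hr'.pow_right i).mul_right ?_
    rcases sim_cases nd_plus fr8' (d := sL a c hca) rfl hLns p hp with ⟨g, hg⟩ | ⟨g, hg⟩
    · rw [hg]; exact hog g
    · rw [hg, ← hd]
      exact hcd.mul_right (hog g))
  exact ⟨e2.trans (MulEquiv.prodCongr e1 (MulEquiv.refl _))⟩

end four

section big
variable {F : Type*} [Field F] [Finite F] {m : ℕ}

theorem outP_aux (h2 : (2 : F) ≠ 0) (hm : 5 ≤ m) {f : ℕ} (hf : 1 ≤ f) (hcyc : IsCyclic (F ≃+* F)) (hcF : Nat.card (F ≃+* F) = f) :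
    Nonempty (Out (PE (qPlus m F)) ≃* (simS (qPlus m F)).map (outE (qPlus m F)) × Multiplicative (ZMod f)) := by
  have hfr : finrank F (Fin m ⊕ Fin m → F) = 2 * m := by rw [Module.finrank_fintype_fun_eq_card]; simp; omega
  have hsurj := aE_surj (Q := qPlus m F) nd_plus (by rw [hfr]; omega) (Or.inr (by rw [hfr]; omega))
  obtain ⟨Φ, hΦ⟩ := exists_outπ nd_plus (by rw [hfr]; omega) hsurj
  obtain ⟨φ, hφ⟩ := hcyc.exists_generator
  have hφf : φ ^ f = 1 := by rw [← hcF]; exact pow_card_eq_one'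
  obtain ⟨y, ⟨q, hq, hq1⟩, hyf, hy⟩ := exists_y (m := m) h2 (by omega) hφf
  have hker : Φ.ker = (simS (qPlus m F)).map (outE (qPlus m F)) := by
    ext x
    constructor
    · intro hx
      obtain ⟨p, rfl⟩ := outE_surj hsurj x
      rw [MonoidHom.mem_ker, hΦ] at hx
      exact ⟨p, hx, rfl⟩
    · rintro ⟨p, hp, rfl⟩
      rw [MonoidHom.mem_ker, hΦ]
      exact hp
  obtain ⟨e⟩ := split_cyc hf Φ hφ hcF (y := y) (by rw [hq, hΦ, hq1]) hyf (by
    intro k hk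
    rw [hker] at hk
    obtain ⟨p, hp, rfl⟩ := hk
    exact hy p hp)
  exact ⟨e.trans (MulEquiv.prodCongr (MulEquiv.subgroupCongr hker) (MulEquiv.refl _))⟩

theorem outP_D8 (h2 : (2 : F) ≠ 0) (hm : 5 ≤ m) {f : ℕ} (hf : 1 ≤ f) (hcyc : IsCyclic (F ≃+* F)) (hcF : Nat.card (F ≃+* F) = f)
    (hneg : ogNeg (qPlus m F) ∈ EG (qPlus m F)) : Nonempty (Out (PE (qPlus m F)) ≃* DihedralGroup 4 × Multiplicative (ZMod f)) := by
  obtain ⟨e1⟩ := outP_aux (m := m) h2 hm hf hcyc hcF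
  obtain ⟨e2⟩ := (ch_plus (F := F) (m := m) h2 (by omega)).iso_D8 hneg
  exact ⟨e1.trans (MulEquiv.prodCongr e2 (MulEquiv.refl _))⟩

theorem outP_V4 (h2 : (2 : F) ≠ 0) (hm : 5 ≤ m) {f : ℕ} (hf : 1 ≤ f) (hcyc : IsCyclic (F ≃+* F)) (hcF : Nat.card (F ≃+* F) = f)
    (hneg : ogNeg (qPlus m F) ∉ EG (qPlus m F)) (hc : Nat.card (Out (PE (qPlus m F))) = 4 * f) :
    Nonempty (Out (PE (qPlus m F)) ≃* Multiplicative (ZMod 2 × ZMod 2 × ZMod f)) := by
  obtain ⟨e1⟩ := outP_aux (m := m) h2 hm hf hcyc hcF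
  obtain ⟨u, v, R⟩ := (ch_plus (F := F) (m := m) h2 (by omega)).rd
  obtain ⟨K, hK⟩ : ∃ K, K = (simS (qPlus m F)).map (outE (qPlus m F)) := ⟨_, rfl⟩
  rw [← hK] at e1
  have hcK : Nat.card K = 4 := by
    have h3 := Nat.card_congr e1.toEquiv
    rw [hc, Nat.card_prod, Nat.card_congr Multiplicative.toAdd, Nat.card_zmod] at h3
    exact (Nat.eq_of_mul_eq_mul_right (by omega) h3).symm
  have hsq : ∀ x : K, x ^ 2 = 1 := by
    rintro ⟨x, hx⟩
    apply Subtype.ext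
    show x ^ 2 = 1
    rw [hK] at hx
    obtain ⟨p, hp, rfl⟩ := hx
    rw [pow_two]
    rcases R.sim_sq p hp with h | h
    · exact h
    · rw [h, R.uv_one hneg]
  haveI : IsKleinFour K := by
    refine ⟨hcK, ?_⟩
    have h1 : Monoid.exponent K ∣ 2 := Monoid.exponent_dvd_of_forall_pow_eq_one hsq
    rcases (Nat.dvd_prime Nat.prime_two).mp h1 with h | h
    · exfalso
      have h3 := Monoid.exp_eq_one_iff.mp h
      have h4 : Nat.card K = 1 := Nat.card_unique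
      omega
    · exact h
  have hk4 : Nonempty (K ≃* Multiplicative (ZMod 2 × ZMod 2)) := IsKleinFour.nonempty_mulEquiv
  obtain ⟨e2⟩ := hk4
  exact ⟨(e1.trans (MulEquiv.prodCongr e2 (MulEquiv.refl _))).trans
    ((MulEquiv.prodMultiplicative (ZMod 2 × ZMod 2) (ZMod f)).symm.trans (AddEquiv.toMultiplicative AddEquiv.prodAssoc))⟩

end big

end Cfsg.Agent.H17
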