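import Mathlib
import Cfsg.Agent.H17.CcJ

set_option autoImplicit false

/-! Orbits of rotations on tuples of multiplicities. -/

namespace Cfsg.Agent.H17

section tup

variable (R : Type*) [Group R] [Fintype R] (n : ℕ)

abbrev Tup := {a : R → ℕ // ∑ x, a x = n ∧ ¬ ∃ x, a x = n}

variable {R n}

instance tupAct : MulAction R (Tup R n) where
  smul c a := ⟨fun x => a.1 (c⁻¹ * x), by
    refine ⟨?_, ?_⟩
    · exact (Equiv.sum_comp (Equiv.mulLeft c⁻¹) a.1).trans a.2.1
    · rintro ⟨x, hx⟩
      exact a.2.2 ⟨_, hx⟩⟩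
  one_smul a := by
    apply Subtype.ext
    funext x
    show a.1 (1⁻¹ * x) = a.1 x
    rw [inv_one, one_mul]
  mul_smul c d a := by
    apply Subtype.ext
    funext x
    show a.1 ((c * d)⁻¹ * x) = a.1 (d⁻¹ * (c⁻¹ * x))
    rw [mul_inv_rev, mul_assoc]

theorem tup_smul (c : R) (a : Tup R n) (x : R) : (c • a).1 x = a.1 (c⁻¹ * x) := rfl

theorem card_tup (hn : 0 < n) : Nat.card (Tup R n) = (n + Fintype.card R - 1).choose (Fintype.card R - 1) - Fintype.card R := by
  classical
  haveI : Finite {c : R → ℕ // ∑ x, c x = n} := finite_le R n _ (fun c hc => hc.le)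
  have h := card_sub_bad (α := R → ℕ) (fun c => ∑ x, c x = n) (fun c => ∑ x, c x = n ∧ ∃ x, c x = n) (fun c hc => hc.1)
  rw [card_eq_sum R Fintype.card_pos] at h
  have h2 : Nat.card {c : R → ℕ // ∑ x, c x = n ∧ ∃ x, c x = n} = Fintype.card R := by
    rw [← Nat.card_eq_fintype_card]
    symm
    apply Nat.card_congr
    apply Equiv.ofBijective (fun x : R => (⟨Pi.single x n, by
      refine ⟨by simp, x, by simp⟩⟩ : {c : R → ℕ // ∑ x, c x = n ∧ ∃ x, c x = n}))
    constructor
    · intro x y hxy
      have h1 : (Pi.single x n : R → ℕ) x = (Pi.single y n : R → ℕ) x := congrFun (congrArg Subtype.val hxy) x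
      rw [Pi.single_eq_same] at h1
      by_contra hne
      rw [Pi.single_eq_of_ne hne] at h1
      omega
    · rintro ⟨c, hc, x, hx⟩
      refine ⟨x, Subtype.ext ?_⟩
      funext y
      show (Pi.single x n : R → ℕ) y = c y
      by_cases hy : y = x
      · rw [hy, Pi.single_eq_same, hx]
      · rw [Pi.single_eq_of_ne hy]
        have h3 : c x + c y ≤ ∑ x, c x := by
          rw [← Finset.sum_pair (f := c) (Ne.symm hy)]
          exact Finset.sum_le_sum_of_subset (Finset.subset_univ _)
        omega
  rw [h2] at h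
  rw [← h]
  apply Nat.card_congr
  apply Equiv.subtypeEquivRight
  intro c
  constructor
  · rintro ⟨h1, h2⟩
    exact ⟨h1, fun h3 => h2 h3.2⟩
  · rintro ⟨h1, h2⟩
    exact ⟨h1, fun h3 => h2 ⟨h1, h3⟩⟩

instance : Finite (Tup R n) := finite_le R n _ (fun c hc => hc.1.le)

theorem card_fix (hr : (Fintype.card R).Prime) (hn : 0 < n) {c : R} (hc : c ≠ 1) :
    Nat.card (MulAction.fixedBy (Tup R n) c) = if Fintype.card R ∣ n then 1 else 0 := by
  classical
  haveI : Fact (Nat.card R).Prime := ⟨by rw [Nat.card_eq_fintype_card]; exact hr⟩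
  have hgen : ∀ x : R, x ∈ Subgroup.zpowers c := by
    intro x
    rw [zpowers_eq_top_of_prime_card rfl hc]
    trivial
  have hconst : ∀ a : Tup R n, c • a = a → ∀ x, a.1 x = a.1 1 := by
    intro a ha x
    have h1 : ∀ y : R, y • a = a := by
      intro y
      obtain ⟨k, rfl⟩ := Subgroup.mem_zpowers_iff.mp (hgen y)
      have : c ∈ MulAction.stabilizer R a := ha
      exact (MulAction.stabilizer R a).zpow_mem this k
    have h3 := tup_smul x a x
    rw [h1 x, inv_mul_cancel] at h3
    exact h3
  split_ifs with h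
  · obtain ⟨k, hk⟩ := h
    rw [Nat.card_eq_one_iff_unique]
    constructor
    · constructor
      rintro ⟨a, ha⟩ ⟨b, hb⟩
      apply Subtype.ext
      apply Subtype.ext
      funext x
      show a.1 x = b.1 x
      rw [hconst a ha x, hconst b hb x]
      have h1 := a.2.1
      have h3 := b.2.1
      rw [Finset.sum_congr rfl (fun x _ => hconst a ha x), Finset.sum_const, Finset.card_univ, smul_eq_mul] at h1
      rw [Finset.sum_congr rfl (fun x _ => hconst b hb x), Finset.sum_const, Finset.card_univ, smul_eq_mul] at h3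
      exact Nat.eq_of_mul_eq_mul_left hr.pos (h1.trans h3.symm)
    · refine ⟨⟨⟨fun _ => k, ?_, ?_⟩, ?_⟩⟩
      · rw [Finset.sum_const, Finset.card_univ, smul_eq_mul, hk]
      · rintro ⟨x, hx⟩
        have := hr.two_le
        have hx' : k = n := hx
        have h6 : k * 2 ≤ k * Fintype.card R := Nat.mul_le_mul_left k this
        have h7 : k = Fintype.card R * k := hx.trans hk
        rw [mul_comm] at h7
        omega
      · rfl
  · rw [Nat.card_eq_zero]
    left
    constructor
    rintro ⟨a, ha⟩
    apply h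
    have h1 := a.2.1
    rw [Finset.sum_congr rfl (fun x _ => hconst a ha x), Finset.sum_const, Finset.card_univ, smul_eq_mul] at h1
    exact ⟨_, h1.symm⟩

theorem card_orb (hr : (Fintype.card R).Prime) (hn : 0 < n) :
    Nat.card (MulAction.orbitRel.Quotient R (Tup R n)) * Fintype.card R = Nat.card (Tup R n) + (Fintype.card R - 1) * (if Fintype.card R ∣ n then 1 else 0) := by
  classical
  haveI : Fintype (Tup R n) := Fintype.ofFinite _
  haveI : ∀ g : R, Fintype (MulAction.fixedBy (Tup R n) g) := fun g => Fintype.ofFinite _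
  haveI : Fintype (MulAction.orbitRel.Quotient R (Tup R n)) := Fintype.ofFinite _
  have h := MulAction.sum_card_fixedBy_eq_card_orbits_mul_card_group R (Tup R n)
  rw [Nat.card_eq_fintype_card, ← h, ← Finset.add_sum_erase _ _ (Finset.mem_univ (1 : R))]
  congr 1
  · rw [← Nat.card_eq_fintype_card]
    apply Nat.card_congr
    exact (Equiv.subtypeUnivEquiv (fun a => one_smul _ a))
  · rw [Finset.sum_congr rfl (fun x hx => by
      rw [← Nat.card_eq_fintype_card, card_fix hr hn (Finset.ne_of_mem_erase hx)]), Finset.sum_const, Finset.card_erase_of_mem (Finset.mem_univ _),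
      Finset.card_univ, smul_eq_mul]

theorem card_total (hr : (Fintype.card R).Prime) (hn : 0 < n) :
    Nat.card (MulAction.orbitRel.Quotient R (Tup R n)) + (if Fintype.card R ∣ n then Fintype.card R - 1 else 0) =
      ((n + Fintype.card R - 1).choose (Fintype.card R - 1) - Fintype.card R - (if Fintype.card R ∣ n then 1 else 0)) / Fintype.card R +
        Fintype.card R * (if Fintype.card R ∣ n then 1 else 0) := by
  have h := card_orb (R := R) (n := n) hr hn
  rw [← card_tup hn]
  generalize Nat.card (Tup R n) = t at h ⊢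
  generalize Nat.card (MulAction.orbitRel.Quotient R (Tup R n)) = o at h ⊢
  generalize Fintype.card R = r at h hr ⊢
  have h2 := hr.two_le
  split_ifs at h ⊢ with hd
  · rw [mul_one] at h ⊢
    have ho : 1 ≤ o := by
      by_contra h0
      have : o = 0 := by omega
      rw [this, zero_mul] at h
      omega
    obtain ⟨o', rfl⟩ : ∃ o', o = o' + 1 := ⟨o - 1, by omega⟩
    have h3 : t - 1 = o' * r := by
      rw [add_mul, one_mul] at h
      omega
    rw [h3, Nat.mul_div_cancel _ hr.pos]
    omega
  · rw [mul_zero, add_zero] at h ⊢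
    rw [← h, Nat.sub_zero, Nat.mul_div_cancel _ hr.pos, add_zero]

end tup

end Cfsg.Agent.H17
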