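import Mathlib
import Cfsg.Agent.H17.PgA

set_option autoImplicit false

/-! Monomial matrices and classes of elements of prime order modulo scalars. -/

namespace Cfsg.Agent.H17

open Matrix Polynomial Module

section mono

variable {K : Type*} [Field K] {n : ℕ}

def moM (s : Equiv.Perm (Fin n)) (w : Fin n → Kˣ) : Matrix (Fin n) (Fin n) K := fun i j => if s i = j then (w i : K) else 0

theorem moM_mul (s t : Equiv.Perm (Fin n)) (w u : Fin n → Kˣ) : moM s w * moM t u = moM (t * s) (fun i => w i * u (s i)) := by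
  ext i k
  rw [Matrix.mul_apply, Finset.sum_eq_single (s i)]
  · simp only [moM]
    rw [if_pos trivial]
    by_cases h : t (s i) = k
    · rw [if_pos h, if_pos (by simpa using h), Units.val_mul]
    · rw [if_neg h, if_neg (by simpa using h), mul_zero]
  · intro b _ hb
    simp only [moM]
    rw [if_neg (Ne.symm hb), zero_mul]
  · intro h; exact absurd (Finset.mem_univ _) h

theorem moM_one : moM (1 : Equiv.Perm (Fin n)) (fun _ => (1 : Kˣ)) = 1 := by
  ext i k
  by_cases h : i = k <;> simp [moM, Matrix.one_apply, h]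

def moGL (s : Equiv.Perm (Fin n)) (w : Fin n → Kˣ) : GL (Fin n) K :=
  ⟨moM s w, moM s⁻¹ (fun i => (w (s⁻¹ i))⁻¹), by
    rw [moM_mul]
    convert moM_one using 2
    · simp
    · funext i
      simp, by
    rw [moM_mul]
    convert moM_one using 2
    · simp
    · funext i
      simp⟩

theorem moGL_val (s : Equiv.Perm (Fin n)) (w : Fin n → Kˣ) : ((moGL s w : GL (Fin n) K) : Matrix (Fin n) (Fin n) K) = moM s w := rfl

theorem moGL_mul (s t : Equiv.Perm (Fin n)) (w u : Fin n → Kˣ) : moGL s w * moGL t u = moGL (t * s) (fun i => w i * u (s i)) :=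
  Units.ext (moM_mul s t w u)

theorem moGL_pow (s : Equiv.Perm (Fin n)) (w : Fin n → Kˣ) (m : ℕ) :
    (moGL s w) ^ m = moGL (s ^ m) (fun i => ∏ l ∈ Finset.range m, w ((s ^ l) i)) := by
  induction m with
  | zero =>
    rw [pow_zero, pow_zero]
    apply Units.ext
    simp only [Finset.range_zero, Finset.prod_empty]
    exact moM_one.symm
  | succ m ih =>
    rw [pow_succ, ih, moGL_mul, ← pow_succ']
    congr 1
    funext i
    rw [Finset.prod_range_succ]

def scG : Kˣ →* GL (Fin n) K := Units.map ((algebraMap K (Matrix (Fin n) (Fin n) K)) : K →* Matrix (Fin n) (Fin n) K)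

theorem scG_val (c : Kˣ) : ((scG c : GL (Fin n) K) : Matrix (Fin n) (Fin n) K) = (c : K) • 1 := by
  show algebraMap K (Matrix (Fin n) (Fin n) K) (c : K) = _
  rw [Algebra.algebraMap_eq_smul_one]

theorem scG_comm (c : Kˣ) (g : GL (Fin n) K) : scG c * g = g * scG c := Units.ext (Algebra.commutes _ _)

theorem scG_eq (c : Kˣ) : (scG c : GL (Fin n) K) = moGL 1 (fun _ => c) := by
  apply Units.ext
  rw [scG_val, moGL_val]
  ext i j
  by_cases h : i = j <;> simp [moM, Matrix.one_apply, h]

theorem moM_diag (w : Fin n → Kˣ) : moM 1 w = diagonal (fun i => (w i : K)) := by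
  ext i j
  by_cases h : i = j <;> simp [moM, diagonal, h]

theorem scG_inj (hn : 0 < n) {c d : Kˣ} (h : (scG c : GL (Fin n) K) = scG d) : c = d := by
  have h1 := congrArg (fun g : GL (Fin n) K => (g : Matrix (Fin n) (Fin n) K) ⟨0, hn⟩ ⟨0, hn⟩) h
  simp only [scG_val] at h1
  simp at h1
  exact Units.ext h1

theorem scalar_of_comm (hn : 0 < n) {Γ : Subgroup Kˣ} (hΓ : ∃ γ ∈ Γ, γ ≠ 1) (u : GL (Fin n) K)
    (h : ∀ (s : Equiv.Perm (Fin n)) (w : Fin n → Kˣ), (∀ i, w i ∈ Γ) → moGL s w * u = u * moGL s w) : ∃ c : Kˣ, u = scG c := by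
  obtain ⟨γ, hγ, hγ1⟩ := hΓ
  have h' : ∀ (s : Equiv.Perm (Fin n)) (w : Fin n → Kˣ), (∀ i, w i ∈ Γ) → ∀ i k, (w i : K) * u (s i) k = u i (s⁻¹ k) * w (s⁻¹ k) := by
    intro s w hw i k
    have h1 := congrArg (fun g : GL (Fin n) K => (g : Matrix (Fin n) (Fin n) K) i k) (h s w hw)
    simp only [Units.val_mul, moGL_val, Matrix.mul_apply, moM] at h1
    rw [Finset.sum_eq_single (s i), Finset.sum_eq_single (s⁻¹ k)] at h1
    · simpa using h1
    · intro b _ hb
      rw [if_neg, mul_zero]
      rintro rfl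
      simp at hb
    · intro h; exact absurd (Finset.mem_univ _) h
    · intro b _ hb
      rw [if_neg (Ne.symm hb), zero_mul]
    · intro h; exact absurd (Finset.mem_univ _) h
  have hoff : ∀ i j, i ≠ j → u i j = 0 := by
    intro i j hij
    have h1 := h' 1 (Function.update (fun _ => 1) j γ) (by
      intro l
      by_cases hl : l = j
      · rw [hl, Function.update_self]; exact hγ
      · rw [Function.update_of_ne hl]; exact one_mem _) i j
    rw [Function.update_of_ne hij] at h1
    rw [show (1 : Equiv.Perm (Fin n))⁻¹ j = j by simp, show (1 : Equiv.Perm (Fin n)) i = i from rfl, Function.update_self, Units.val_one, one_mul] at h1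
    by_contra h0
    apply hγ1
    have h3 : (γ : K) = 1 := by
      have : u i j * (γ - 1 : K) = 0 := by rw [mul_sub, ← h1, mul_one, sub_self]
      rcases mul_eq_zero.mp this with h5 | h5
      · exact absurd h5 h0
      · exact sub_eq_zero.mp h5
    exact Units.ext h3
  have hdiag : ∀ i j, u i i = u j j := by
    intro i j
    have h1 := h' (Equiv.swap i j) (fun _ => 1) (fun _ => one_mem _) i j
    simp at h1
    exact h1.symm
  have hne : u ⟨0, hn⟩ ⟨0, hn⟩ ≠ 0 := by
    intro h0
    have h1 : (u : Matrix (Fin n) (Fin n) K) = 0 := by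
      ext i j
      by_cases hij : i = j
      · rw [← hij, hdiag i ⟨0, hn⟩, h0]; rfl
      · rw [hoff i j hij]; rfl
    haveI : Nonempty (Fin n) := ⟨⟨0, hn⟩⟩
    exact u.ne_zero h1
  refine ⟨Units.mk0 _ hne, ?_⟩
  apply Units.ext
  rw [scG_val]
  ext i j
  by_cases hij : i = j
  · rw [← hij, hdiag i ⟨0, hn⟩]
    simp
  · rw [hoff i j hij]
    simp [hij]

end mono

end Cfsg.Agent.H17
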