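import Mathlib
import Cfsg.Agent.H17.PgB

set_option autoImplicit false

/-! Characteristic polynomials of elements whose r-th power is one, when the field has the roots. -/

namespace Cfsg.Agent.H17

open Matrix Polynomial Module Cfsg.Agent.H16 Cfsg.Agent.H16.PrOrd

section roots

variable {K : Type*} [Field K] {r : ℕ} {Γ : Subgroup Kˣ}

abbrev RG (Γ : Subgroup Kˣ) (r : ℕ) : Type _ := ↥(powMonoidHom r : ↥Γ →* ↥Γ).ker

def rv (x : RG Γ r) : Kˣ := ((x : ↥Γ) : Kˣ)

theorem rv_mul (x y : RG Γ r) : rv (x * y) = rv x * rv y := rfl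

theorem rv_inj {x y : RG Γ r} (h : rv x = rv y) : x = y := Subtype.ext (Subtype.ext h)

theorem rv_mem (x : RG Γ r) : rv x ∈ Γ := (x : ↥Γ).2

theorem rv_pow (x : RG Γ r) : rv x ^ r = 1 := congrArg Subtype.val x.2

variable [Finite Γ] [IsCyclic Γ]

theorem card_RG (hr : r ∣ Nat.card Γ) : Nat.card (RG Γ r) = r := by
  rw [IsCyclic.card_powMonoidHom_ker, Nat.gcd_eq_right hr]

theorem rv_surj (hrp : r.Prime) (hr : r ∣ Nat.card Γ) (z : K) (hz : z ^ r = 1) : ∃ x : RG Γ r, (rv x : K) = z := by
  classical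
  haveI : Finite (RG Γ r) := inferInstance
  haveI : Fintype (RG Γ r) := Fintype.ofFinite _
  have hr0 := hrp.pos
  by_contra hcon
  push Not at hcon
  have h1 : (Finset.univ.image (fun x : RG Γ r => (rv x : K))) ⊆ (nthRoots r (1 : K)).toFinset.erase z := by
    intro y hy
    rw [Finset.mem_image] at hy
    obtain ⟨x, _, rfl⟩ := hy
    rw [Finset.mem_erase, Multiset.mem_toFinset, mem_nthRoots hr0]
    refine ⟨hcon x, ?_⟩
    rw [← Units.val_pow_eq_pow_val, rv_pow]; rfl
  have h3 := Finset.card_le_card h1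
  rw [Finset.card_image_of_injective _ (fun x y h => rv_inj (Units.ext h)), Finset.card_erase_of_mem (by
    rw [Multiset.mem_toFinset, mem_nthRoots hr0]; exact hz), Finset.card_univ, ← Nat.card_eq_fintype_card, card_RG hr] at h3
  have h4 := (nthRoots r (1 : K)).toFinset_card_le.trans (card_nthRoots r (1 : K))
  omega

variable [Fintype (RG Γ r)]

noncomputable def PP (a : RG Γ r → ℕ) : K[X] := ∏ x, (X - C (rv x : K)) ^ a x

omit [Finite Γ] [IsCyclic Γ] in
theorem PP_inj {a b : RG Γ r → ℕ} (h : PP a = PP b) : a = b := by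
  classical
  have key : ∀ (a : RG Γ r → ℕ) (x : RG Γ r), (PP a).rootMultiplicity (rv x : K) = a x := by
    intro a x
    have h1 : PP a = (∏ y ∈ Finset.univ.erase x, (X - C (rv y : K)) ^ a y) * (X - C (rv x : K)) ^ a x := by
      unfold PP
      rw [mul_comm]
      exact (Finset.mul_prod_erase Finset.univ (fun y : RG Γ r => (X - C (rv y : K)) ^ a y) (Finset.mem_univ x)).symm
    have h2 : (∏ y ∈ Finset.univ.erase x, (X - C (rv y : K)) ^ a y).eval (rv x : K) ≠ 0 := by
      rw [eval_prod, Finset.prod_ne_zero_iff]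
      intro y hy
      rw [eval_pow, eval_sub, eval_X, eval_C]
      apply pow_ne_zero
      rw [sub_ne_zero]
      intro h
      exact Finset.ne_of_mem_erase hy (rv_inj (Units.ext h)).symm
    rw [h1, rootMultiplicity_mul_X_sub_C_pow (fun h0 => h2 (by rw [h0, eval_zero])), rootMultiplicity_eq_zero (fun h0 => h2 h0), zero_add]
  funext x
  rw [← key a x, h, key]

omit [Finite Γ] [IsCyclic Γ] in
theorem PP_natDegree (a : RG Γ r → ℕ) : (PP a).natDegree = ∑ x, a x := by
  unfold PP
  rw [natDegree_prod_of_monic _ _ (fun x _ => (monic_X_sub_C _).pow _)]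
  apply Finset.sum_congr rfl
  intro x _
  rw [(monic_X_sub_C _).natDegree_pow, natDegree_X_sub_C, mul_one]

theorem PP_of_mem (hrp : r.Prime) (hr : r ∣ Nat.card Γ) {g : K[X]}
    (hg : g ∈ Submonoid.closure {π : K[X] | π.Monic ∧ Irreducible π ∧ π ∣ X ^ r - 1}) : ∃ a : RG Γ r → ℕ, g = PP a := by
  classical
  induction hg using Submonoid.closure_induction with
  | mem π hπ =>
    obtain ⟨hm, hi, hd⟩ := hπ
    -- primitive root
    have hspl : (X ^ r - 1 : K[X]) = ∏ x : RG Γ r, (X - C (rv x : K)) := by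
      apply eq_of_monic_of_dvd_of_natDegree_le
      · exact monic_prod_of_monic _ _ (fun x _ => monic_X_sub_C _)
      · exact monic_X_pow_sub_C 1 hrp.ne_zero
      · apply Finset.prod_dvd_of_coprime
        · intro x _ y _ hxy
          apply pairwise_coprime_X_sub_C (s := fun x : RG Γ r => (rv x : K)) (fun x y h => rv_inj (Units.ext h)) hxy
        · intro x _
          rw [dvd_iff_isRoot, IsRoot, eval_sub, eval_pow, eval_X, eval_one, ← Units.val_pow_eq_pow_val, rv_pow, Units.val_one, sub_self]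
      · rw [natDegree_prod_of_monic _ _ (fun x _ => monic_X_sub_C _), Finset.sum_congr rfl (fun x _ => natDegree_X_sub_C _), Finset.sum_const,
          Finset.card_univ, ← Nat.card_eq_fintype_card, card_RG hr, smul_eq_mul, mul_one]
        exact (natDegree_X_pow_sub_C (n := r) (r := (1 : K))).le
    rw [hspl] at hd
    obtain ⟨x, _, hx⟩ := (hi.prime.dvd_finsetProd_iff _).mp hd
    refine ⟨Pi.single x 1, ?_⟩
    unfold PP
    rw [Finset.prod_eq_single x]
    · rw [Pi.single_eq_same, pow_one]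
      exact eq_of_monic_of_associated hm (monic_X_sub_C _) (hi.associated_of_dvd (irreducible_X_sub_C _) hx)
    · intro b _ hb
      rw [Pi.single_eq_of_ne hb, pow_zero]
    · intro h; exact absurd (Finset.mem_univ _) h
  | one => exact ⟨0, by simp [PP]⟩
  | mul x y _ _ hx hy =>
    obtain ⟨a, rfl⟩ := hx
    obtain ⟨b, rfl⟩ := hy
    refine ⟨a + b, ?_⟩
    unfold PP
    rw [← Finset.prod_mul_distrib]
    exact Finset.prod_congr rfl (fun π _ => by rw [Pi.add_apply, pow_add])

variable {n : ℕ}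

theorem charpoly_PP (hrp : r.Prime) (hr : r ∣ Nat.card Γ) (hrK : (r : K) ≠ 0) (g : GL (Fin n) K) (hg : g ^ r = 1) :
    ∃ a : RG Γ r → ℕ, (g : Matrix (Fin n) (Fin n) K).charpoly = PP a ∧ ∑ x, a x = n := by
  have hE : (toLin' (g : Matrix (Fin n) (Fin n) K)) ^ r = 1 := by
    rw [← toLin'_pow, ← Units.val_pow_eq_pow_val, hg]; simp; rfl
  have hmem := charpoly_mem (SSim.squarefree_of_pow hrK) (g := toLin' (g : Matrix (Fin n) (Fin n) K)) (by rw [map_sub, map_pow, aeval_X, hE, map_one, sub_self])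
  rw [Matrix.charpoly_toLin'] at hmem
  obtain ⟨a, ha⟩ := PP_of_mem hrp hr hmem
  refine ⟨a, ha, ?_⟩
  rw [← PP_natDegree, ← ha, Matrix.charpoly_natDegree_eq_dim, Fintype.card_fin]

noncomputable def mlt {R : Type*} (d : Fin n → R) (x : R) : ℕ := Nat.card {i // d i = x}

omit [Finite Γ] [IsCyclic Γ] in
theorem charpoly_mo (d : Fin n → RG Γ r) : (moM 1 (fun i => rv (d i)) : Matrix (Fin n) (Fin n) K).charpoly = PP (mlt d) := by
  classical
  rw [moM_diag, charpoly_diagonal, ← Finset.prod_fiberwise Finset.univ d]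
  unfold PP
  apply Finset.prod_congr rfl
  intro x _
  rw [Finset.prod_congr rfl (g := fun _ => (X - C (rv x : K))) (fun i hi => by rw [(Finset.mem_filter.mp hi).2]), Finset.prod_const]
  unfold mlt
  rw [Nat.card_eq_fintype_card, Fintype.card_subtype]

theorem mlt_sum {R : Type*} [Fintype R] (d : Fin n → R) : ∑ x, mlt d x = n := by
  classical
  unfold mlt
  rw [← Nat.card_sigma, Nat.card_congr (Equiv.sigmaFiberEquiv d), Nat.card_eq_fintype_card, Fintype.card_fin]

theorem mlt_mul {R : Type*} [Group R] (d : Fin n → R) (c x : R) : mlt (fun i => c * d i) x = mlt d (c⁻¹ * x) := by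
  unfold mlt
  apply Nat.card_congr
  apply Equiv.subtypeEquivRight
  intro i
  exact eq_inv_mul_iff_mul_eq.symm

theorem mlt_surj {R : Type*} [Fintype R] (a : R → ℕ) (ha : ∑ x, a x = n) : ∃ d : Fin n → R, mlt d = a := by
  classical
  have e : (Σ x : R, Fin (a x)) ≃ Fin n := Fintype.equivFinOfCardEq (by simp [ha])
  refine ⟨fun i => (e.symm i).1, ?_⟩
  funext x
  unfold mlt
  rw [← Nat.card_fin (a x)]
  apply Nat.card_congr
  exact ((e.symm.subtypeEquiv (q := fun p => p.1 = x) (fun i => Iff.rfl))).trans (Equiv.sigmaSubtype x)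

end roots

end Cfsg.Agent.H17
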