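import Mathlib
import Cfsg.Agent.H17.PgC

set_option autoImplicit false

/-! Classes of elements of prime order modulo scalars. -/

namespace Cfsg.Agent.H17

open Matrix Polynomial Module Cfsg.Agent.H16 Cfsg.Agent.H16.PrOrd

section gl

variable {K : Type*} [Field K] {n r : ℕ}

theorem isConj_of_charpoly (hrK : (r : K) ≠ 0) {A B : GL (Fin n) K} (hA : A ^ r = 1) (hB : B ^ r = 1)
    (h : (A : Matrix (Fin n) (Fin n) K).charpoly = (B : Matrix (Fin n) (Fin n) K).charpoly) : IsConj A B := by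
  obtain ⟨P, hP⟩ := SSim.gl_conj_of_charpoly hrK hrK hA hB h
  rw [isConj_iff]
  exact ⟨P, by rw [hP, mul_inv_cancel_right]⟩

theorem charpoly_of_isConj {A B : GL (Fin n) K} (h : IsConj A B) :
    (A : Matrix (Fin n) (Fin n) K).charpoly = (B : Matrix (Fin n) (Fin n) K).charpoly := by
  obtain ⟨Q, hQ⟩ := isConj_iff.1 h
  rw [← hQ, Units.val_mul, Units.val_mul, Matrix.coe_units_inv, charpoly_units_conj]

theorem isConj_of_irr (hr : r.Prime) {c : Kˣ} (hc : ¬ ∃ y : K, y ^ r = c) {A B : GL (Fin n) K} (hA : A ^ r = scG c) (hB : B ^ r = scG c) :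
    IsConj A B := by
  have hirr : Irreducible (X ^ r - C (c : K) : K[X]) := by
    rw [X_pow_sub_C_irreducible_iff_of_prime hr]
    intro b hb
    exact hc ⟨b, hb⟩
  have hm : (X ^ r - C (c : K) : K[X]).Monic := monic_X_pow_sub_C _ hr.ne_zero
  have e1 : ∀ g : GL (Fin n) K, g ^ r = scG c → aeval (toLin' (g : Matrix (Fin n) (Fin n) K)) (X ^ r - C (c : K) : K[X]) = 0 := by
    intro g hg
    rw [map_sub, map_pow, aeval_X, aeval_C, ← toLin'_pow, ← Units.val_pow_eq_pow_val, hg, scG_val, map_smul, toLin'_one]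
    apply LinearMap.ext; intro x; simp [Algebra.algebraMap_eq_smul_one]
  obtain ⟨e, he⟩ := InvP.prim_similar hm hirr (e1 A hA) (e1 B hB) rfl
  obtain ⟨P, hP⟩ := SSim.gl_conj_iff A B e (fun v => he v)
  rw [isConj_iff]
  exact ⟨P, by rw [hP, mul_inv_cancel_right]⟩

theorem exists_root_of_not_dvd (hr : r.Prime) (hrn : ¬ r ∣ n) {c : Kˣ} {A : GL (Fin n) K} (hA : A ^ r = scG c) : ∃ y : K, y ^ r = c := by
  have h1 : (A : Matrix (Fin n) (Fin n) K).det ^ r = (c : K) ^ n := by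
    rw [← Matrix.det_pow, ← Units.val_pow_eq_pow_val, hA, scG_val, det_smul, det_one, mul_one, Fintype.card_fin]
  have hdet : (A : Matrix (Fin n) (Fin n) K).det ≠ 0 := by
    intro h0
    rw [h0, zero_pow hr.ne_zero] at h1
    exact (pow_ne_zero n c.ne_zero) h1.symm
  have hcop : IsCoprime (r : ℤ) (n : ℤ) := by
    rw [Nat.isCoprime_iff_coprime]
    exact (Nat.Prime.coprime_iff_not_dvd hr).mpr hrn
  obtain ⟨a, b, hab⟩ := hcop
  refine ⟨(c : K) ^ a * (A : Matrix (Fin n) (Fin n) K).det ^ b, ?_⟩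
  have h5 : ((A : Matrix (Fin n) (Fin n) K).det ^ b) ^ r = (c : K) ^ (b * (n : ℤ)) := by
    rw [← zpow_natCast, ← _root_.zpow_mul, mul_comm b (r : ℤ), _root_.zpow_mul, zpow_natCast, h1, ← zpow_natCast, ← _root_.zpow_mul, mul_comm (n : ℤ) b]
  have h6 : ((c : K) ^ a) ^ r = (c : K) ^ (a * (r : ℤ)) := by
    rw [← zpow_natCast, ← _root_.zpow_mul]
  rw [mul_pow, h5, h6, ← zpow_add₀ c.ne_zero, hab, zpow_one]

theorem exists_mono_root (hr : r.Prime) (hrn : r ∣ n) (c : Kˣ) {Γ : Subgroup Kˣ} (hc : c ∈ Γ) :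
    ∃ (s : Equiv.Perm (Fin n)) (w : Fin n → Kˣ), (∀ i, w i ∈ Γ) ∧ (moGL s w) ^ r = scG c := by
  classical
  obtain ⟨k, hk⟩ := hrn
  haveI : NeZero r := ⟨hr.ne_zero⟩
  have e : Fin k × ZMod r ≃ Fin n := Fintype.equivFinOfCardEq (by rw [Fintype.card_prod, Fintype.card_fin, ZMod.card, hk, mul_comm])
  let s0 : Equiv.Perm (Fin k × ZMod r) := Equiv.prodCongr (Equiv.refl _) (Equiv.addRight 1)
  let s : Equiv.Perm (Fin n) := (e.symm.trans s0).trans e
  have hs0 : ∀ (l : ℕ) (i : Fin n), (s ^ l) i = e ((e.symm i).1, (e.symm i).2 + l) := by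
    intro l
    induction l with
    | zero =>
      intro i
      rw [pow_zero, Nat.cast_zero, add_zero]
      show i = e (e.symm i)
      rw [Equiv.apply_symm_apply]
    | succ l ih =>
      intro i
      rw [pow_succ', Equiv.Perm.mul_apply, ih]
      show e (s0 (e.symm (e _))) = _
      rw [Equiv.symm_apply_apply]
      show e ((e.symm i).1, (e.symm i).2 + l + 1) = _
      rw [Nat.cast_succ, add_assoc]
  refine ⟨s, fun i => if (e.symm i).2 = 0 then c else 1, ?_, ?_⟩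
  · intro i
    show (if (e.symm i).2 = 0 then c else 1) ∈ Γ
    split_ifs
    · exact hc
    · exact one_mem _
  · rw [moGL_pow, scG_eq]
    congr 1
    · apply Equiv.ext
      intro i
      rw [hs0, CharP.cast_eq_zero, add_zero]
      show e (e.symm i) = i
      rw [Equiv.apply_symm_apply]
    · funext i
      simp only [hs0, Equiv.symm_apply_apply]
      have h1 : ∏ l ∈ Finset.range r, (if (e.symm i).2 + (l : ZMod r) = 0 then c else 1) = ∏ x : ZMod r, (if x = 0 then c else 1) := by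
        apply Finset.prod_bij (fun (l : ℕ) _ => (e.symm i).2 + (l : ZMod r))
        · intro l _; exact Finset.mem_univ _
        · intro l hl l' hl' h
          have h2 := add_left_cancel h
          rw [ZMod.natCast_eq_natCast_iff'] at h2
          rw [Finset.mem_range] at hl hl'
          rwa [Nat.mod_eq_of_lt hl, Nat.mod_eq_of_lt hl'] at h2
        · intro x _
          refine ⟨(x - (e.symm i).2).val, Finset.mem_range.mpr (ZMod.val_lt _), ?_⟩
          rw [ZMod.natCast_zmod_val]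
          ring
        · intro l _; rfl
      rw [h1, Finset.prod_ite_eq' Finset.univ (0 : ZMod r) (fun _ => c), if_pos (Finset.mem_univ _)]

end gl

structure PGD {K : Type*} [Field K] (n r : ℕ) (Γ : Subgroup Kˣ) {G : Type*} [Group G] (ρ : G →* GL (Fin n) K) : Prop where
  inj : Function.Injective ρ
  sc : ∀ g c, ρ g = scG c → c ∈ Γ
  conj : ∀ g h, IsConj (ρ g) (ρ h) → IsConj g h
  mono : ∀ (s : Equiv.Perm (Fin n)) (w : Fin n → Kˣ), (∀ i, w i ∈ Γ) → ∃ g, ρ g = moGL s w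
  root : ∀ c ∈ Γ, (∃ y : K, y ^ r = c) → ∃ y ∈ Γ, y ^ r = c

section main

variable {K : Type*} [Field K] {n r : ℕ} {Γ : Subgroup Kˣ} {G : Type*} [Group G] {ρ : G →* GL (Fin n) K}

theorem PGD.cen (H : PGD n r Γ ρ) (hn : 0 < n) (hΓ : ∃ γ ∈ Γ, γ ≠ 1) (g : G) : g ∈ Subgroup.center G ↔ ∃ c : Kˣ, ρ g = scG c := by
  constructor
  · intro hg
    rw [Subgroup.mem_center_iff] at hg
    apply scalar_of_comm hn hΓ
    intro s w hw
    obtain ⟨m, hm⟩ := H.mono s w hw
    rw [← hm, ← map_mul, hg, map_mul]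
  · rintro ⟨c, hc⟩
    rw [Subgroup.mem_center_iff]
    intro h
    apply H.inj
    rw [map_mul, map_mul, hc, scG_comm]

theorem PGD.exS (H : PGD n r Γ ρ) {c : Kˣ} (hc : c ∈ Γ) : ∃ z : G, ρ z = scG c := by
  rw [scG_eq]
  exact H.mono 1 _ (fun _ => hc)

theorem PGD.conjQ (H : PGD n r Γ ρ) (hn : 0 < n) (hΓ : ∃ γ ∈ Γ, γ ≠ 1) (g h : G) :
    IsConj (QuotientGroup.mk' (Subgroup.center G) g) (QuotientGroup.mk' (Subgroup.center G) h) ↔ ∃ c ∈ Γ, IsConj (ρ g) (scG c * ρ h) := by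
  constructor
  · intro h1
    obtain ⟨x, hx⟩ := isConj_iff.mp h1
    obtain ⟨x, rfl⟩ := QuotientGroup.mk'_surjective _ x
    rw [← map_inv, ← map_mul, ← map_mul] at hx
    have h3 : h⁻¹ * (x * g * x⁻¹) ∈ Subgroup.center G := QuotientGroup.eq.mp hx.symm
    obtain ⟨c, hc⟩ := (H.cen hn hΓ _).mp h3
    refine ⟨c, H.sc _ _ hc, ?_⟩
    rw [isConj_iff]
    refine ⟨ρ x, ?_⟩
    rw [scG_comm, ← hc, map_mul, map_mul, map_mul, map_inv, map_inv, mul_inv_cancel_left]
  · rintro ⟨c, hc, h1⟩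
    obtain ⟨z, hz⟩ := H.exS hc
    rw [← hz, ← map_mul] at h1
    have h3 := (QuotientGroup.mk' (Subgroup.center G)).map_isConj (H.conj _ _ h1)
    have h4 : QuotientGroup.mk' (Subgroup.center G) z = 1 := (QuotientGroup.eq_one_iff z).mpr ((H.cen hn hΓ _).mpr ⟨c, hz⟩)
    rwa [map_mul, h4, one_mul] at h3

theorem PGD.ord (H : PGD n r Γ ρ) (hr : r.Prime) (hn : 0 < n) (hΓ : ∃ γ ∈ Γ, γ ≠ 1) (g : G) :
    orderOf (QuotientGroup.mk' (Subgroup.center G) g) = r ↔ (∃ c ∈ Γ, (ρ g) ^ r = scG c) ∧ ¬ ∃ c : Kˣ, ρ g = scG c := by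
  haveI : Fact r.Prime := ⟨hr⟩
  rw [orderOf_eq_prime_iff, ← map_pow, Ne, ← H.cen hn hΓ]
  have e1 : ∀ x : G, QuotientGroup.mk' (Subgroup.center G) x = 1 ↔ x ∈ Subgroup.center G := fun x => QuotientGroup.eq_one_iff x
  rw [e1, e1, H.cen hn hΓ]
  constructor
  · rintro ⟨⟨c, hc⟩, h2⟩
    exact ⟨⟨c, H.sc _ _ hc, by rw [← map_pow, hc]⟩, h2⟩
  · rintro ⟨⟨c, _, hc⟩, h2⟩
    exact ⟨⟨c, by rw [map_pow, hc]⟩, h2⟩

end main

end Cfsg.Agent.H17
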