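import Mathlib
import Cfsg.Agent.H17.PgD

set_option autoImplicit false

/-! Number of classes of elements of prime order modulo scalars. -/

namespace Cfsg.Agent.H17

open Matrix Polynomial Module Cfsg.Agent.H16 Cfsg.Agent.H16.PrOrd

section aux

variable {K : Type*} [Field K] {n r : ℕ} {Γ : Subgroup Kˣ}

theorem scG_mul_pow (c : Kˣ) (A : GL (Fin n) K) (m : ℕ) : (scG c * A) ^ m = scG (c ^ m) * A ^ m := by
  rw [(show Commute (scG c) A from scG_comm c A).mul_pow, map_pow]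

theorem isConj_shift {c : Kˣ} {A B : GL (Fin n) K} (h : IsConj (scG c * A) B) : IsConj A (scG c⁻¹ * B) := by
  obtain ⟨P, hP⟩ := isConj_iff.mp h
  rw [isConj_iff]
  refine ⟨P, ?_⟩
  rw [← hP, ← mul_assoc P, ← scG_comm c P, ← mul_assoc, ← mul_assoc, ← mul_assoc, ← map_mul, inv_mul_cancel, map_one, one_mul]

theorem isConj_scG {c : Kˣ} {A : GL (Fin n) K} (h : IsConj (scG c) A) : A = scG c := by
  obtain ⟨P, hP⟩ := isConj_iff.mp h
  rw [← hP, ← scG_comm, mul_inv_cancel_right]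

theorem pow_rel (hn : 0 < n) {c a b : Kˣ} {A B : GL (Fin n) K} (h : IsConj A (scG c * B)) (hA : A ^ r = scG a) (hB : B ^ r = scG b) :
    a = c ^ r * b := by
  obtain ⟨P, hP⟩ := isConj_iff.mp h
  have h1 : (scG (c ^ r * b) : GL (Fin n) K) = scG a := by
    rw [map_mul, ← hB, ← scG_mul_pow, ← hP, conj_pow, hA, ← scG_comm, mul_inv_cancel_right]
  exact (scG_inj hn h1).symm

theorem moGL_rv_pow (d : Fin n → RG Γ r) : (moGL 1 (fun i => rv (d i)) : GL (Fin n) K) ^ r = scG 1 := by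
  rw [moGL_pow, scG_eq, one_pow]
  congr 1
  funext i
  rw [Finset.prod_congr rfl (g := fun _ => rv (d i)) (fun l _ => by rw [one_pow]; rfl), Finset.prod_const, Finset.card_range, rv_pow]

theorem scG_moGL_rv (c : RG Γ r) (d : Fin n → RG Γ r) : scG (rv c) * (moGL 1 (fun i => rv (d i)) : GL (Fin n) K) = moGL 1 (fun i => rv (c * d i)) := by
  rw [scG_eq, moGL_mul]
  congr 1

theorem moGL_one_inj {w w' : Fin n → Kˣ} (h : (moGL 1 w : GL (Fin n) K) = moGL 1 w') : w = w' := by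
  funext i
  have h1 := congrArg (fun g : GL (Fin n) K => (g : Matrix (Fin n) (Fin n) K) i i) h
  simp only [moGL_val, moM_diag, diagonal_apply_eq] at h1
  exact Units.ext h1

theorem mlt_const {R : Type*} (x : R) : mlt (fun _ : Fin n => x) x = n := by
  unfold mlt
  rw [Nat.card_congr (Equiv.subtypeUnivEquiv (fun _ => rfl)), Nat.card_eq_fintype_card, Fintype.card_fin]

theorem eq_of_sum {R : Type*} [Fintype R] {a b : R → ℕ} {x : R} (ha : ∑ x, a x = n) (hb : ∑ x, b x = n) (h1 : a x = n) (h2 : b x = n) : a = b := by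
  classical
  have key : ∀ a : R → ℕ, ∑ x, a x = n → a x = n → ∀ y, y ≠ x → a y = 0 := by
    intro a ha h1 y hy
    have h3 : a x + a y ≤ ∑ x, a x := by
      rw [← Finset.sum_pair (f := a) (Ne.symm hy)]
      exact Finset.sum_le_sum_of_subset (Finset.subset_univ _)
    omega
  funext y
  by_cases hy : y = x
  · rw [hy, h1, h2]
  · rw [key a ha h1 y hy, key b hb h2 y hy]

end aux

section main

variable {K : Type*} [Field K] {n r : ℕ} {Γ : Subgroup Kˣ} {G : Type*} [Group G] {ρ : G →* GL (Fin n) K}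

theorem PGD.count (H : PGD n r Γ ρ) [Finite Γ] [IsCyclic Γ] (hr : r.Prime) (hrΓ : r ∣ Nat.card Γ) (hrK : (r : K) ≠ 0) (hn : 0 < n) :
    Nat.card {C : ConjClasses (G ⧸ Subgroup.center G) // ∃ g : G ⧸ Subgroup.center G, ConjClasses.mk g = C ∧ orderOf g = r} =
      (Nat.choose (n + r - 1) (r - 1) - r - (if r ∣ n then 1 else 0)) / r + r * (if r ∣ n then 1 else 0) := by
  classical
  haveI : Fintype (RG Γ r) := Fintype.ofFinite _
  have hcR : Fintype.card (RG Γ r) = r := by rw [← Nat.card_eq_fintype_card, card_RG hrΓ]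
  have hΓ : ∃ γ ∈ Γ, γ ≠ 1 := by
    by_contra hcon
    push Not at hcon
    have : Γ = ⊥ := by
      rw [eq_bot_iff]
      intro x hx
      exact Subgroup.mem_bot.mpr (hcon x hx)
    rw [this, Subgroup.card_bot] at hrΓ
    exact hr.one_lt.ne' (Nat.dvd_one.mp hrΓ)
  have hgA : ∀ a : {a : RG Γ r → ℕ // ∑ x, a x = n}, ∃ g : G, ∃ d : Fin n → RG Γ r, mlt d = a.1 ∧ ρ g = moGL 1 (fun i => rv (d i)) := by
    rintro ⟨a, ha⟩
    obtain ⟨d, hd⟩ := mlt_surj a ha
    obtain ⟨g, hg⟩ := H.mono 1 (fun i => rv (d i)) (fun i => rv_mem _)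
    exact ⟨g, d, hd, hg⟩
  choose gA dA hdA hgA using hgA
  have hgB : ∀ c : Γ, r ∣ n → ∃ g : G, (ρ g) ^ r = scG (c : Kˣ) := by
    intro c hrn
    obtain ⟨s, w, hw, h1⟩ := exists_mono_root hr hrn (c : Kˣ) c.2
    obtain ⟨g, hg⟩ := H.mono s w hw
    exact ⟨g, by rw [hg, h1]⟩
  choose gB hgB using hgB
  set N : Subgroup Γ := (powMonoidHom r : ↥Γ →* ↥Γ).range with hN
  have hNmem : ∀ c : Γ, c ∈ N ↔ ∃ y ∈ Γ, y ^ r = (c : Kˣ) := by
    intro c
    rw [hN, MonoidHom.mem_range]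
    constructor
    · rintro ⟨y, hy⟩
      exact ⟨y, y.2, congrArg Subtype.val hy⟩
    · rintro ⟨y, hy, hy2⟩
      exact ⟨⟨y, hy⟩, Subtype.ext hy2⟩
  have hA1 : ∀ a, (ρ (gA a)) ^ r = scG 1 := by
    intro a
    rw [hgA, moGL_rv_pow]
  let J : (MulAction.orbitRel.Quotient (RG Γ r) (Tup (RG Γ r) n)) ⊕ {c : Γ ⧸ N // c ≠ 1 ∧ r ∣ n} → G ⧸ Subgroup.center G :=
    Sum.elim (fun o => QuotientGroup.mk' (Subgroup.center G) (gA ⟨(Quotient.out o).1, (Quotient.out o).2.1⟩))
      (fun c => QuotientGroup.mk' (Subgroup.center G) (gB (Quotient.out c.1) c.2.2))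
  have hout : ∀ c : {c : Γ ⧸ N // c ≠ 1 ∧ r ∣ n}, ¬ ∃ y ∈ Γ, y ^ r = ((Quotient.out c.1 : Γ) : Kˣ) := by
    intro c hy
    rw [← hNmem, ← QuotientGroup.eq_one_iff] at hy
    exact c.2.1 ((QuotientGroup.out_eq' c.1).symm.trans hy)
  have hcount : Nat.card ((MulAction.orbitRel.Quotient (RG Γ r) (Tup (RG Γ r) n)) ⊕ {c : Γ ⧸ N // c ≠ 1 ∧ r ∣ n}) =
      (Nat.choose (n + r - 1) (r - 1) - r - (if r ∣ n then 1 else 0)) / r + r * (if r ∣ n then 1 else 0) := by
    have h := card_total (R := RG Γ r) (n := n) (by rw [hcR]; exact hr) hn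
    rw [hcR] at h
    rw [← h, Nat.card_sum]
    congr 1
    split_ifs with hd
    · have h1 : Nat.card {c : Γ ⧸ N // c ≠ 1 ∧ r ∣ n} = Nat.card {c : Γ ⧸ N // c ≠ 1} :=
        Nat.card_congr (Equiv.subtypeEquivRight fun c => ⟨fun h => h.1, fun h => ⟨h, hd⟩⟩)
      have h2 : Nat.card (Γ ⧸ N) = r := by
        have h3 := IsCyclic.index_powMonoidHom_range (G := Γ) r
        rw [Nat.gcd_eq_right hrΓ] at h3
        exact h3
      haveI : Fintype (Γ ⧸ N) := Fintype.ofFinite _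
      rw [h1, Nat.card_eq_fintype_card, Fintype.card_subtype_compl, Fintype.card_subtype_eq, ← Nat.card_eq_fintype_card, h2]
    · rw [Nat.card_eq_zero]
      left
      exact ⟨fun c => hd c.2.2⟩
  rw [← hcount]
  apply InvP.card_classes' (fun x : G ⧸ Subgroup.center G => orderOf x = r) J
  · rintro (o | c)
    · show orderOf (QuotientGroup.mk' (Subgroup.center G) (gA ⟨(Quotient.out o).1, (Quotient.out o).2.1⟩)) = r
      rw [H.ord hr hn hΓ]
      refine ⟨⟨1, one_mem _, hA1 _⟩, ?_⟩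
      rintro ⟨c, hc⟩
      rw [hgA, scG_eq] at hc
      have h1 := moGL_one_inj hc
      apply (Quotient.out o).2.2
      refine ⟨dA ⟨(Quotient.out o).1, (Quotient.out o).2.1⟩ ⟨0, hn⟩, ?_⟩
      have h2 : dA ⟨(Quotient.out o).1, (Quotient.out o).2.1⟩ = fun _ => dA ⟨(Quotient.out o).1, (Quotient.out o).2.1⟩ ⟨0, hn⟩ := by
        funext i
        exact rv_inj ((congrFun h1 i).trans (congrFun h1 ⟨0, hn⟩).symm)
      have h3 := hdA ⟨(Quotient.out o).1, (Quotient.out o).2.1⟩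
      have h4 := congrFun h3 (dA ⟨(Quotient.out o).1, (Quotient.out o).2.1⟩ ⟨0, hn⟩)
      rw [← h4]
      conv_lhs => rw [h2]
      exact mlt_const _
    · show orderOf (QuotientGroup.mk' (Subgroup.center G) (gB (Quotient.out c.1) c.2.2)) = r
      rw [H.ord hr hn hΓ]
      refine ⟨⟨_, (Quotient.out c.1 : Γ).2, hgB _ _⟩, ?_⟩
      rintro ⟨y, hy⟩
      apply hout c
      refine ⟨y, H.sc _ _ hy, ?_⟩
      apply scG_inj hn (n := n)
      rw [map_pow, ← hy, hgB]
  · intro g hg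
    obtain ⟨g, rfl⟩ := QuotientGroup.mk'_surjective _ g
    rw [H.ord hr hn hΓ] at hg
    obtain ⟨⟨c, hc, hgc⟩, hns⟩ := hg
    by_cases hroot : ∃ y : K, y ^ r = c
    · obtain ⟨y, hy, hyc⟩ := H.root c hc hroot
      have hB : (scG y⁻¹ * ρ g) ^ r = 1 := by
        rw [scG_mul_pow, hgc, ← map_mul, ← hyc, inv_pow, inv_mul_cancel, map_one]
      obtain ⟨a, ha, has⟩ := charpoly_PP hr hrΓ hrK _ hB
      have hna : ¬ ∃ x, a x = n := by
        rintro ⟨x, hx⟩
        have h1 : a = mlt (fun _ : Fin n => x) := eq_of_sum has (mlt_sum _) hx (mlt_const x)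
        rw [h1, ← charpoly_mo] at ha
        have h2 : IsConj (scG (rv x)) (scG y⁻¹ * ρ g) := by
          rw [scG_eq]
          exact isConj_of_charpoly hrK (by rw [moGL_rv_pow (fun _ : Fin n => x), map_one]) hB ha.symm
        have h3 := isConj_scG h2
        apply hns
        refine ⟨y * rv x, ?_⟩
        rw [map_mul, ← h3, ← mul_assoc, ← map_mul, mul_inv_cancel, map_one, one_mul]
      let a' : Tup (RG Γ r) n := ⟨a, has, hna⟩
      let o : MulAction.orbitRel.Quotient (RG Γ r) (Tup (RG Γ r) n) := Quotient.mk _ a'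
      refine ⟨Sum.inl o, ?_⟩
      show IsConj (QuotientGroup.mk' (Subgroup.center G) (gA ⟨(Quotient.out o).1, (Quotient.out o).2.1⟩)) _
      rw [H.conjQ hn hΓ]
      have ho : a' ∈ MulAction.orbit (RG Γ r) (Quotient.out o) := by
        have := Quotient.exact (Quotient.out_eq o)
        exact MulAction.orbitRel_apply.mp ((MulAction.orbitRel (RG Γ r) (Tup (RG Γ r) n)).symm this)
      obtain ⟨c0, hc0⟩ := ho
      refine ⟨(rv c0)⁻¹ * y⁻¹, mul_mem (inv_mem (rv_mem _)) (inv_mem hy), ?_⟩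
      rw [map_mul, mul_assoc]
      apply isConj_shift
      rw [hgA, scG_moGL_rv]
      apply isConj_of_charpoly hrK (by rw [moGL_rv_pow (fun i => c0 * dA _ i), map_one]) hB
      rw [ha, moGL_val, charpoly_mo]
      congr 1
      funext x
      rw [mlt_mul, hdA]
      exact congrFun (congrArg Subtype.val hc0) x
    · have hrn : r ∣ n := by
        by_contra h
        exact hroot (exists_root_of_not_dvd hr h hgc)
      have hne : (QuotientGroup.mk (⟨c, hc⟩ : Γ) : Γ ⧸ N) ≠ 1 := by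
        rw [Ne, QuotientGroup.eq_one_iff, hNmem]
        rintro ⟨y, _, hy⟩
        exact hroot ⟨y, by rw [← Units.val_pow_eq_pow_val, hy]⟩
      let t : {c : Γ ⧸ N // c ≠ 1 ∧ r ∣ n} := ⟨QuotientGroup.mk (⟨c, hc⟩ : Γ), hne, hrn⟩
      refine ⟨Sum.inr t, ?_⟩
      show IsConj (QuotientGroup.mk' (Subgroup.center G) (gB (Quotient.out t.1) t.2.2)) _
      rw [H.conjQ hn hΓ]
      have h1 : (QuotientGroup.mk (Quotient.out t.1) : Γ ⧸ N) = QuotientGroup.mk (⟨c, hc⟩ : Γ) := QuotientGroup.out_eq' t.1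
      rw [QuotientGroup.eq, hNmem] at h1
      obtain ⟨z, hz, hz2⟩ := h1
      refine ⟨z⁻¹, inv_mem hz, ?_⟩
      apply isConj_of_irr hr (c := ((Quotient.out t.1 : Γ) : Kˣ)) ?_ (hgB _ _)
      · rw [scG_mul_pow, hgc, ← map_mul, inv_pow, hz2]
        congr 1
        show (((Quotient.out t.1 : Γ) : Kˣ)⁻¹ * c)⁻¹ * c = _
        rw [_root_.mul_inv_rev, inv_inv, mul_comm c⁻¹ _, inv_mul_cancel_right]
      · intro hy
        exact hout t (H.root _ (Quotient.out t.1 : Γ).2 hy)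
  · have hcross : ∀ (o : MulAction.orbitRel.Quotient (RG Γ r) (Tup (RG Γ r) n)) (c : {c : Γ ⧸ N // c ≠ 1 ∧ r ∣ n}), ¬ IsConj (J (Sum.inl o)) (J (Sum.inr c)) := by
      intro o c h
      have h' : IsConj (QuotientGroup.mk' (Subgroup.center G) (gA ⟨(Quotient.out o).1, (Quotient.out o).2.1⟩))
        (QuotientGroup.mk' (Subgroup.center G) (gB (Quotient.out c.1) c.2.2)) := h
      rw [H.conjQ hn hΓ] at h'
      obtain ⟨z, hz, h1⟩ := h'
      have h2 := pow_rel hn h1 (hA1 _) (hgB _ _)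
      apply hout c
      refine ⟨z⁻¹, inv_mem hz, ?_⟩
      rw [inv_pow]
      exact inv_eq_of_mul_eq_one_right h2.symm
    rintro (o | c) (o' | c') h
    · have h' : IsConj (QuotientGroup.mk' (Subgroup.center G) (gA ⟨(Quotient.out o).1, (Quotient.out o).2.1⟩))
        (QuotientGroup.mk' (Subgroup.center G) (gA ⟨(Quotient.out o').1, (Quotient.out o').2.1⟩)) := h
      rw [H.conjQ hn hΓ] at h'
      obtain ⟨z, hz, h1⟩ := h'
      have h2 := pow_rel hn h1 (hA1 _) (hA1 _)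
      rw [mul_one] at h2
      obtain ⟨x, hx⟩ := rv_surj hr hrΓ (z : K) (by rw [← Units.val_pow_eq_pow_val, ← h2, Units.val_one])
      have hx' : rv x = z := Units.ext hx
      have h3 := charpoly_of_isConj h1
      rw [← hx', hgA, hgA, scG_moGL_rv, moGL_val, moGL_val, charpoly_mo, charpoly_mo] at h3
      have h4 := PP_inj h3
      congr 1
      rw [← Quotient.out_eq o, ← Quotient.out_eq o']
      apply Quotient.sound
      show MulAction.orbitRel (RG Γ r) (Tup (RG Γ r) n) _ _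
      rw [MulAction.orbitRel_apply]
      refine ⟨x, ?_⟩
      apply Subtype.ext
      funext y
      have h5 := congrFun h4 y
      rw [mlt_mul, hdA, hdA] at h5
      exact h5.symm
    · exact absurd h (hcross o c')
    · exact absurd h.symm (hcross o' c)
    · have h' : IsConj (QuotientGroup.mk' (Subgroup.center G) (gB (Quotient.out c.1) c.2.2))
        (QuotientGroup.mk' (Subgroup.center G) (gB (Quotient.out c'.1) c'.2.2)) := h
      rw [H.conjQ hn hΓ] at h'
      obtain ⟨z, hz, h1⟩ := h'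
      have h2 := pow_rel hn h1 (hgB _ _) (hgB _ _)
      congr 1
      apply Subtype.ext
      rw [← QuotientGroup.out_eq' c.1, ← QuotientGroup.out_eq' c'.1, QuotientGroup.eq, hNmem]
      refine ⟨z⁻¹, inv_mem hz, ?_⟩
      show _ = ((Quotient.out c.1 : Γ) : Kˣ)⁻¹ * ((Quotient.out c'.1 : Γ) : Kˣ)
      rw [h2, inv_pow, mul_inv, inv_mul_cancel_right]

end main

end Cfsg.Agent.H17
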