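import Mathlib
import Cfsg.Agent.H17.GFPlus2
import Cfsg.Agent.H17.ConfB
import Cfsg.Agent.H17.Out8B
import Cfsg.Agent.H17.Tri6

set_option autoImplicit false

/-! Field automorphisms of `PΩ⁺`: classes, centralizers, splitting. -/

namespace Cfsg.Agent.H17

open Cfsg Cfsg.Agent.H5 Module
open scoped MatrixGroups Matrix

/-- reduction of the conjugating automorphism to a semisimilarity, including the case of triality -/
theorem conj_red {F : Type*} [Field F] [Finite F] {m : ℕ} (hm : 4 ≤ m) {x α : MulAut (PE (qPlus m F))} {σ : F ≃+* F}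
    (h : α * x * α⁻¹ = aE _ (stdS (qPlus m F) σ (qPlus_svI σ))) :
    ∃ a : SSG (qPlus m F), aE _ a * x * (aE _ a)⁻¹ = aE _ (stdS (qPlus m F) σ (qPlus_svI σ)) := by
  by_cases h4 : m = 4
  · subst h4
    have hρ : rho F * aE _ (stdS (qPlus 4 F) σ (qPlus_svI σ)) = aE _ (stdS (qPlus 4 F) σ (qPlus_svI σ)) * rho F := rho_field σ
    obtain ⟨y, hy⟩ : ∃ y, y = aE _ (stdS (qPlus 4 F) σ (qPlus_svI σ)) := ⟨_, rfl⟩
    rw [← hy] at hρ h ⊢
    have hc : ∀ z : MulAut (PE (qPlus 4 F)), rho F * z * (rho F)⁻¹ = y → z = y := by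
      intro z hz
      have h1 : z = (rho F)⁻¹ * (rho F * z * (rho F)⁻¹) * rho F := by group
      rw [h1, hz, mul_assoc, ← hρ, inv_mul_cancel_left]
    rcases aut8 α with ⟨a, ha⟩ | ⟨_, ⟨a, rfl⟩, ha⟩ | ⟨_, ⟨a, rfl⟩, ha⟩
    · exact ⟨a, by rw [ha]; exact h⟩
    · refine ⟨a, hc _ ?_⟩
      rw [← h, ha]; group
    · refine ⟨a, hc _ (hc _ ?_)⟩
      rw [← h, ha]; group
  · obtain ⟨a, ha⟩ := surj_plus (F := F) (m := m) (by omega) α
    exact ⟨a, by rw [ha]; exact h⟩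

theorem field_form_plus {F : Type*} [Field F] [Finite F] {m : ℕ} (hm : 4 ≤ m) (hn : 5 ≤ Fintype.card (Fin m ⊕ Fin m))
    {x : MulAut (POmega F ⇑(qPlus m F))} (hx : IsFieldAutClassPOmega ⇑(qPlus m F) x) :
    ∃ p : SSG (qPlus m F), p.1.2 ≠ 1 ∧ MulAut.congr (pomEquiv nd_plus hn) x = aE _ p ∧
      ∃ a : SSG (qPlus m F), p = a * stdS _ p.1.2 (qPlus_svI _) * a⁻¹ := by
  obtain ⟨α, φ, σ, hσ, hφ, h⟩ := hx
  rw [fieldPOm_iff nd_plus hn (qPlus_svI σ)] at hφ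
  obtain ⟨a, ha⟩ := conj_red hm (x := MulAut.congr (pomEquiv nd_plus hn) x) (α := MulAut.congr (pomEquiv nd_plus hn) α) (σ := σ)
    (by rw [← hφ, ← h, map_mul, map_mul, map_inv])
  have h1 : (a⁻¹ * stdS _ σ (qPlus_svI σ) * a).1.2 = σ := by
    show a.1.2⁻¹ * σ * a.1.2 = σ
    rw [mul_assoc, fP_comm σ, inv_mul_cancel_left]
  refine ⟨a⁻¹ * stdS _ σ (qPlus_svI σ) * a, by rw [h1]; exact hσ, ?_, a⁻¹, ?_⟩
  · rw [map_mul, map_mul, map_inv, ← ha]
    group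
  · rw [inv_inv]
    congr 2
    congr 1
    exact h1.symm

section model

variable {F F₀ : Type*} [Field F] [Finite F] [Field F₀] [Finite F₀] {m : ℕ} {σ : F ≃+* F} {r : ℕ} {j : F₀ →+* F}

omit [Finite F] [Finite F₀] in
theorem qPlus_jV (j : F₀ →+* F) (v : Fin m ⊕ Fin m → F₀) : j (qPlus m F₀ v) = qPlus m F (jV j v) := by
  rw [qPlus_sum, qPlus_sum, map_sum]
  exact Finset.sum_congr rfl fun i _ => map_mul j _ _

theorem std_pow (hσ : orderOf σ = r) : stdS (qPlus m F) σ (qPlus_svI σ) ^ r = 1 := by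
  have h1 : ∀ i : ℕ, stdS (qPlus m F) σ (qPlus_svI σ) ^ i = stdSS (qPlus m F) qPlus_svI (σ ^ i) := by
    intro i
    rw [map_pow]; rfl
  rw [h1, ← hσ, pow_orderOf_eq_one, map_one]

theorem desc_std (hj : ∀ x, σ x = x ↔ ∃ y, j y = x) :
    Desc (qPlus m F) (qPlus m F₀) j (fun v => ((1 : GL (Fin m ⊕ Fin m) F) : Matrix _ _ F) *ᵥ jV j v) 1 (stdS (qPlus m F) σ (qPlus_svI σ)) :=
  desc_of_coords (stdS (qPlus m F) σ (qPlus_svI σ)) (j := j) hj (b := 1) (d := 1) (Q₀ := qPlus m F₀)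
    (fun x => by rw [Units.val_one, Matrix.one_mulVec, Matrix.one_mulVec]; rfl)
    (fun v => by rw [Units.val_one, one_mul, Units.val_one, Matrix.one_mulVec, qPlus_jV])

/-- the centralizer of the model -/
theorem cent_plus_model (hm : 4 ≤ m) (hσ : orderOf σ = r) (hr : 0 < r) (hj : ∀ x, σ x = x ↔ ∃ y, j y = x) :
    Nonempty (↥(HS (qPlus m F) (evS (PT_plus F m)) ⊓ Subgroup.centralizer {aE _ (stdS (qPlus m F) σ (qPlus_svI σ))}) ≃*
      ↥(HS (qPlus m F₀) (evS (PT_plus F₀ m)))) := by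
  have hn' : 5 ≤ finrank F (Fin m ⊕ Fin m → F) := by rw [fr_plus]; omega
  apply cent_std nd_plus hn' hσ hr hj (qPlus_svI σ) (qPlus_jV j)
  · intro c
    refine (mem_evS (sI_mem_qs _ _)).mpr ?_
    have h2 : goSS (qPlus m F) ⟨sI _ c, sI_mem_qs _ _⟩ = scSS _ c := by
      apply ss_ext
      · intro x
        rw [goSS_apply, coe_sI', Matrix.smul_mulVec, Matrix.one_mulVec]
        rfl
      · rfl
    rw [h2]
    exact (PT_plus F m).ev_sc _
  · intro g hg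
    have hg' : jI (Fin m ⊕ Fin m) j g ∈ Geo.quadSimilarityGroup (F := F) ⇑(qPlus m F) := jI_mem (qPlus_jV j) hg
    rw [mem_evS hg, mem_evS hg']
    have D := desc_std (m := m) hj
    refine (D.ev_ext (by rw [fr_plus, fr_plus]) (PT_plus F m) (PT_plus F₀ m) ?_).symm
    intro v
    rw [goSS_apply, goSS_apply, Units.val_one, Matrix.one_mulVec, Matrix.one_mulVec]
    exact jI_mulVec j g v

theorem std_refl_comm (hj : ∀ x, σ x = x ↔ ∃ y, j y = x) (hm : 4 ≤ m) (u : Fin m ⊕ Fin m → F₀) (hu : qPlus m F (jV j u) ≠ 0) :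
    ogSS (qPlus m F) (H5.refl hu) * stdS (qPlus m F) σ (qPlus_svI σ) = stdS (qPlus m F) σ (qPlus_svI σ) * ogSS (qPlus m F) (H5.refl hu) :=
  (fixed_refl_comm nd_plus (by rw [fr_plus]; omega) (qPlus_svI σ) (fun y => (hj _).mpr ⟨y, rfl⟩) u hu).symm

theorem std_dP_comm (hj : ∀ x, σ x = x ↔ ∃ y, j y = x) (a : Fˣ) (y : F₀) (ha : (a : F) = j y) :
    dP m F a * stdS (qPlus m F) σ (qPlus_svI σ) = stdS (qPlus m F) σ (qPlus_svI σ) * dP m F a := by
  have h := std_dP (m := m) σ a a (by rw [ha]; exact ((hj _).mpr ⟨y, rfl⟩).symm)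
  exact h.symm

/-- one class when `r` is odd -/
theorem split_plus_odd (h2 : (2 : F) ≠ 0) (hm : 4 ≤ m) (hσ : orderOf σ = r) (hro : Odd r) (hj : ∀ x, σ x = x ↔ ∃ y, j y = x) :
    splitClassCount (HS (qPlus m F) (evS (PT_plus F m))) (Inn (PE (qPlus m F))) (aE _ (stdS (qPlus m F) σ (qPlus_svI σ))) = 1 := by
  have hn' : 5 ≤ finrank F (Fin m ⊕ Fin m → F) := by rw [fr_plus]; omega
  have hnd : ND (qPlus m F) := nd_plus
  have P := PT_plus F m
  haveI := Inn_normal (G := PE (qPlus m F))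
  have h20 := two_ne_zero_of_emb j h2
  have hne : ∃ x, qPlus m F x ≠ 0 := exists_ne_q hnd (by omega)
  have hinn : Inn (PE (qPlus m F)) ≤ HS (qPlus m F) (evS P) := by
    rintro _ ⟨x, rfl⟩
    obtain ⟨g, rfl⟩ := QuotientGroup.mk_surjective x
    exact mem_HS_ev.mpr ⟨ogSS _ g.1, rfl, P.dg_ev (EG_le_DG hnd hn' g.2), aE_ogSS g⟩
  rw [splitClassCount_eq hinn, Subgroup.relIndex_eq_one]
  obtain ⟨μ, hμ⟩ := exists_nonsq h20
  have hμ0 : μ ≠ 0 := by rintro rfl; exact hμ IsSquare.zero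
  have hjμ0 : j μ ≠ 0 := (map_ne_zero j).mpr hμ0
  have hjμ : ¬ IsSquare (j μ) := fun h => hμ (sq_descend hσ hro hj h2 h)
  obtain ⟨a, ha⟩ : ∃ a : Fˣ, (a : F) = j μ := ⟨Units.mk0 _ hjμ0, rfl⟩
  -- rational nonsingular vectors
  let i0 : Fin m := ⟨0, by omega⟩
  have hu₀ : qPlus m F₀ (efv i0 (-1)) = 1 := by rw [q_efv, neg_neg]
  have hv₀ : qPlus m F₀ (efv i0 (-μ)) = μ := by rw [q_efv, neg_neg]
  have hu : qPlus m F (jV j (efv i0 (-1))) = 1 := by rw [← qPlus_jV, hu₀, map_one]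
  have hv : qPlus m F (jV j (efv i0 (-μ))) = j μ := by rw [← qPlus_jV, hv₀]
  have hu0 : qPlus m F (jV j (efv i0 (-1))) ≠ 0 := by rw [hu]; exact one_ne_zero
  have hv0 : qPlus m F (jV j (efv i0 (-μ))) ≠ 0 := by rw [hv]; exact hjμ0
  have ns : ¬ IsSquare (qPlus m F (jV j (efv i0 (-1))) * qPlus m F (jV j (efv i0 (-μ)))) := by
    rw [hu, hv, one_mul]; exact hjμ
  obtain ⟨C, hC⟩ : ∃ C, C = HS (qPlus m F) (evS P) ⊓ Subgroup.centralizer {aE _ (stdS (qPlus m F) σ (qPlus_svI σ))} := ⟨_, rfl⟩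
  rw [← hC]
  have hmemC : ∀ q : SSG (qPlus m F), q.1.2 = 1 → Ev m q → q * stdS (qPlus m F) σ (qPlus_svI σ) = stdS (qPlus m F) σ (qPlus_svI σ) * q →
      aE _ q ∈ C := by
    intro q h1 h3 h4
    rw [hC]
    refine ⟨mem_HS_ev.mpr ⟨q, h1, h3, rfl⟩, Subgroup.mem_centralizer_singleton_iff.mpr ?_⟩
    rw [← map_mul, h4, map_mul]
  have hG : aE _ (dP m F a) ∈ C := hmemC _ rfl (dP_ev a) (std_dP_comm hj a μ ha)
  have hUV : aE _ (ogSS (qPlus m F) (H5.refl hu0 * H5.refl hv0)) ∈ C := by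
    refine hmemC _ rfl (P.dg_ev (Subgroup.subset_closure ⟨_, _, hu0, hv0, rfl⟩)) ?_
    rw [map_mul, mul_assoc, std_refl_comm hj hm _ hv0, ← mul_assoc, std_refl_comm hj hm _ hu0, mul_assoc]
  have hdg : ∀ α ∈ dgA (qPlus m F), α ∈ Inn (PE (qPlus m F)) ⊔ C := by
    rintro _ ⟨g, hg, rfl⟩
    show aE _ (ogSS _ g) ∈ _
    rcases dg_cases h2 hnd hn' hu0 hv0 ns hg with h | h
    · exact Subgroup.mem_sup_left (aE_eg_mem_inn h)
    · have h5 : g = (g * (H5.refl hu0 * H5.refl hv0)⁻¹) * (H5.refl hu0 * H5.refl hv0) := (inv_mul_cancel_right _ _).symm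
      rw [h5, map_mul, map_mul]
      exact mul_mem (Subgroup.mem_sup_left (aE_eg_mem_inn h)) (Subgroup.mem_sup_right hUV)
  intro α hα
  obtain ⟨q, hq1, hqev, rfl⟩ := mem_HS_ev.mp hα
  by_cases hs : IsSquare (ssK q : F)
  · exact hdg _ (sq_dgA P hn' hq1 hqev hs)
  · have h1 : q = dP m F a * ((dP m F a)⁻¹ * q) := (mul_inv_cancel_left _ _).symm
    have h3 : ((dP m F a)⁻¹ * q).1.2 = 1 := by
      show ((1 : F ≃+* F))⁻¹ * q.1.2 = 1
      rw [hq1, inv_one, one_mul]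
    have h4 := ssK_mul hne (dP m F a) ((dP m F a)⁻¹ * q)
    rw [← h1] at h4
    have h5 : (ssK q : F) = ssK (dP m F a) * ssK ((dP m F a)⁻¹ * q) := h4
    rw [h5, sq_mul_iff (Units.ne_zero _) (Units.ne_zero _)] at hs
    have h6 : ¬ IsSquare (ssK (dP m F a) : F) := by rw [(dP_mem hne a).2, ha]; exact hjμ
    have h7 : IsSquare (ssK ((dP m F a)⁻¹ * q) : F) := by
      by_contra h8
      exact hs ⟨fun h => absurd h h6, fun h => absurd h h8⟩
    have h8 : Ev m ((dP m F a)⁻¹ * q) := by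
      rw [P.ev_mul, P.ev_inv]
      exact ⟨fun _ => hqev, fun _ => dP_ev a⟩
    rw [h1, map_mul]
    exact mul_mem (Subgroup.mem_sup_right hG) (hdg _ (sq_dgA P hn' h3 h8 h7))

theorem split_plus_char_two (h2 : (2 : F) = 0) (hm : 4 ≤ m) :
    splitClassCount (HS (qPlus m F) (evS (PT_plus F m))) (Inn (PE (qPlus m F))) (aE _ (stdS (qPlus m F) σ (qPlus_svI σ))) = 1 := by
  have hn' : 5 ≤ finrank F (Fin m ⊕ Fin m → F) := by rw [fr_plus]; omega
  have P := PT_plus F m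
  haveI := Inn_normal (G := PE (qPlus m F))
  have hle : HS (qPlus m F) (evS P) ≤ Inn (PE (qPlus m F)) := by
    intro α hα
    obtain ⟨q, hq1, hqev, rfl⟩ := mem_HS_ev.mp hα
    obtain ⟨g, hg, he⟩ := sq_dgA P hn' hq1 hqev (isSq_two h2 _)
    rw [← he]
    exact aE_eg_mem_inn (dg_eg_two h2 nd_plus hn' hg)
  have hinn : Inn (PE (qPlus m F)) ≤ HS (qPlus m F) (evS P) := by
    rintro _ ⟨x, rfl⟩
    obtain ⟨g, rfl⟩ := QuotientGroup.mk_surjective x
    exact mem_HS_ev.mpr ⟨ogSS _ g.1, rfl, P.dg_ev (EG_le_DG nd_plus hn' g.2), aE_ogSS g⟩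
  rw [splitClassCount_eq hinn, Subgroup.relIndex_eq_one]
  exact hle.trans le_sup_left

theorem split_plus_two (h2 : (2 : F) ≠ 0) (hm : 4 ≤ m) (hσ : orderOf σ = 2) (hj : ∀ x, σ x = x ↔ ∃ y, j y = x) :
    ((Odd m ∧ IsSquare (-1 : F₀)) → splitClassCount (HS (qPlus m F) (evS (PT_plus F m))) (Inn (PE (qPlus m F))) (aE _ (stdS (qPlus m F) σ (qPlus_svI σ))) = 2) ∧
    (¬ (Odd m ∧ IsSquare (-1 : F₀)) → splitClassCount (HS (qPlus m F) (evS (PT_plus F m))) (Inn (PE (qPlus m F))) (aE _ (stdS (qPlus m F) σ (qPlus_svI σ))) = 4) := by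
  have hn' : 5 ≤ finrank F (Fin m ⊕ Fin m → F) := by rw [fr_plus]; omega
  have hn₀ : 5 ≤ finrank F₀ (Fin m ⊕ Fin m → F₀) := by rw [fr_plus]; omega
  have hσσ : σ * σ = 1 := by rw [← pow_two, ← hσ, pow_orderOf_eq_one]
  have P := PT_plus F m
  have hc2 : Nat.card F = Nat.card F₀ ^ 2 := card_fix (by norm_num) hσ hj
  have hsq : ∀ a : F₀, IsSquare (j a) := fun a => sq_extend h2 hc2 a
  obtain ⟨μ₀, hμ₀⟩ := exists_nonsq (two_ne_zero_of_emb j h2)
  have hμ0 : μ₀ ≠ 0 := by rintro rfl; exact hμ₀ IsSquare.zero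
  obtain ⟨c, hc⟩ := hsq μ₀
  have hjμ : j μ₀ ≠ 0 := (map_ne_zero j).mpr hμ0
  have hc0 : c ≠ 0 := by rintro rfl; rw [mul_zero] at hc; exact hjμ hc
  have hj' : ∀ y, σ (j y) = j y := fun y => (hj _).mpr ⟨y, rfl⟩
  obtain ⟨l, hl⟩ := uNorm_surj σ hσ (by norm_num) (Units.mk0 (j μ₀) hjμ) (hj' μ₀)
  have hl' : (l : F) * σ l = j μ₀ := by
    have h3 := congrArg Units.val hl
    rw [uN, uN, uN, map_one, mul_one, Units.val_mul] at h3
    exact h3
  obtain ⟨d1, d2, d3⟩ := sq_data h2 hσσ hj hμ₀ hc.symm hl'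
  have hneg : ogNeg (qPlus m F) ∈ EG (qPlus m F) := by
    rw [neg_plus_iff h2 (by omega)]
    have h3 : IsSquare (-1 : F) := by
      have := hsq (-1)
      rwa [map_neg, map_one] at this
    exact h3.pow _
  have hne : ∃ x, qPlus m F x ≠ 0 := exists_ne_q nd_plus (by omega)
  obtain ⟨δ, hδ⟩ := exists_nonsq h2
  have hδ0 : δ ≠ 0 := by rintro rfl; exact hδ IsSquare.zero
  obtain ⟨e, he⟩ : ∃ e : Fˣ, (e : F) = c := ⟨Units.mk0 c hc0, rfl⟩
  have hee : ((e * e : Fˣ) : F) = j μ₀ := by rw [Units.val_mul, he, hc]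
  have D := desc_std (m := m) hj
  have main := D.split_two h2 hn' hn₀ hsq P (r := 2) hσ (by norm_num) (std_pow hσ) hneg
    ⟨dP m F (Units.mk0 δ hδ0), rfl, dP_ev _, by rw [(dP_mem hne _).2]; exact hδ⟩ (G := dP m F (e * e)) rfl (dP_ev _)
    (std_dP_comm hj _ μ₀ hee) (by rw [(dP_mem hne _).2, hee]) hμ₀
  have hinn : aE _ (dP m F (e * e)) ∈ Inn (PE (qPlus m F)) ↔ IsSquare (c ^ m) := by
    rw [← he, ← dP_out h2 (by omega) hneg e, ← map_mul, ← dP_mul, outE_apply, QuotientGroup.eq_one_iff]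
  rw [hinn] at main
  constructor
  · rintro ⟨ho, h1⟩
    apply main.2
    have hcn : ¬ IsSquare c := by rw [d3]; exact fun h => h h1
    obtain ⟨k, rfl⟩ := ho
    rw [pow_succ]
    exact sq_mul_nonsq ⟨c ^ k, by ring⟩ (pow_ne_zero _ hc0) hcn
  · intro hnot
    apply main.1
    by_cases h1 : IsSquare (-1 : F₀)
    · have hev : Even m := by
        rw [← Nat.not_odd_iff_even]
        exact fun h => hnot ⟨h, h1⟩
      exact hev.isSquare_pow _
    · exact (d3.mpr h1).pow _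

end model

end Cfsg.Agent.H17
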