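import Mathlib
import Cfsg.Agent.H17.PlusF
import Cfsg.Agent.H17.OField6

set_option autoImplicit false

/-! Field automorphisms of `PΩ⁺` of prime order: final form. -/

namespace Cfsg.Agent.H17

open Cfsg Cfsg.Agent.H5 Module
open scoped MatrixGroups Matrix

universe u v

theorem field_plus' {F : Type u} [Field F] [Finite F] {m : ℕ} (hm : 4 ≤ m) {p f : ℕ} [Fact p.Prime] (hF : Nat.card F = p ^ f)
    (x : MulAut (POmega F ⇑(qPlus m F))) (hx : IsFieldAutClassPOmega ⇑(qPlus m F) x) {r : ℕ} (hr : r.Prime)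
    (hxr : orderOf x = r) (F₀ : Type v) [Field F₀] [Finite F₀] (hF₀ : Nat.card F₀ = p ^ (f / r)) :
    r ∣ f ∧
    Nonempty (↥((autSubgroupOf (fun β : POmega F ⇑(qPlus m F) ≃* _ => ∃ g : GL (Fin m ⊕ Fin m) F, g ∈ Geo.quadSimilarityGroup (F := F) ⇑(qPlus m F) ∧
      PreservesSingularClasses ⇑(qPlus m F) (g : Matrix (Fin m ⊕ Fin m) (Fin m ⊕ Fin m) F) ∧
      IsInducedBySemilinearPOmega ⇑(qPlus m F) g (RingEquiv.refl F) β)) ⊓ Subgroup.centralizer {x}) ≃*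
      ↥(autSubgroupOf (fun β : POmega F₀ ⇑(qPlus m F₀) ≃* _ => ∃ g : GL (Fin m ⊕ Fin m) F₀, g ∈ Geo.quadSimilarityGroup (F := F₀) ⇑(qPlus m F₀) ∧
      PreservesSingularClasses ⇑(qPlus m F₀) (g : Matrix (Fin m ⊕ Fin m) (Fin m ⊕ Fin m) F₀) ∧
      IsInducedBySemilinearPOmega ⇑(qPlus m F₀) g (RingEquiv.refl F₀) β))) ∧
    ((Odd r ∨ (2 : F) = 0) → splitClassCount (autSubgroupOf (fun β : POmega F ⇑(qPlus m F) ≃* _ => ∃ g : GL (Fin m ⊕ Fin m) F, g ∈ Geo.quadSimilarityGroup (F := F) ⇑(qPlus m F) ∧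
      PreservesSingularClasses ⇑(qPlus m F) (g : Matrix (Fin m ⊕ Fin m) (Fin m ⊕ Fin m) F) ∧
      IsInducedBySemilinearPOmega ⇑(qPlus m F) g (RingEquiv.refl F) β)) (Inn (POmega F ⇑(qPlus m F))) x = 1) ∧
    (r = 2 → (2 : F) ≠ 0 → (Odd m ∧ IsSquare (-1 : F₀)) → splitClassCount (autSubgroupOf (fun β : POmega F ⇑(qPlus m F) ≃* _ => ∃ g : GL (Fin m ⊕ Fin m) F, g ∈ Geo.quadSimilarityGroup (F := F) ⇑(qPlus m F) ∧
      PreservesSingularClasses ⇑(qPlus m F) (g : Matrix (Fin m ⊕ Fin m) (Fin m ⊕ Fin m) F) ∧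
      IsInducedBySemilinearPOmega ⇑(qPlus m F) g (RingEquiv.refl F) β)) (Inn (POmega F ⇑(qPlus m F))) x = 2) ∧
    (r = 2 → (2 : F) ≠ 0 → ¬ (Odd m ∧ IsSquare (-1 : F₀)) → splitClassCount (autSubgroupOf (fun β : POmega F ⇑(qPlus m F) ≃* _ => ∃ g : GL (Fin m ⊕ Fin m) F, g ∈ Geo.quadSimilarityGroup (F := F) ⇑(qPlus m F) ∧
      PreservesSingularClasses ⇑(qPlus m F) (g : Matrix (Fin m ⊕ Fin m) (Fin m ⊕ Fin m) F) ∧
      IsInducedBySemilinearPOmega ⇑(qPlus m F) g (RingEquiv.refl F) β)) (Inn (POmega F ⇑(qPlus m F))) x = 4) := by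
  have hn : 5 ≤ Fintype.card (Fin m ⊕ Fin m) := by rw [card_plus_ι]; omega
  have hn' : 5 ≤ finrank F (Fin m ⊕ Fin m → F) := by rw [fr_plus]; omega
  have P := PT_plus F m
  obtain ⟨q, hq1, hq2, a, hqa⟩ := field_form_plus hm hn hx
  have hord : ∀ y, orderOf (MulAut.congr (pomEquiv (Q := qPlus m F) nd_plus hn) y) = orderOf y := fun y =>
    orderOf_injective (MulAut.congr (pomEquiv nd_plus hn)).toMonoidHom (MulAut.congr (pomEquiv nd_plus hn)).injective y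
  have hxr' : aE (qPlus m F) q ^ r = 1 := by rw [← hq2, ← hxr, ← hord, pow_orderOf_eq_one]
  have hτ := ss_order nd_plus hn' hr hxr' hq1
  obtain ⟨hrf, j, hj⟩ := exists_fixed_emb hF q.1.2 hτ F₀ hF₀
  have hev : Ev m q := by
    rw [hqa, P.ev_conj]
    exact std_ev hτ hr.pos hj
  obtain ⟨k, hk, hqk⟩ := conj_plus P hn' (p := stdS (qPlus m F) q.1.2 (qPlus_svI _)) (p' := q) rfl hτ hr.pos (j := j) hj
    (by rw [← map_pow, std_pow hτ, map_one]) hxr' ⟨fun _ => hev, fun _ => std_ev hτ hr.pos hj⟩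
  have hspl : splitClassCount (autSubgroupOf (fun β : POmega F ⇑(qPlus m F) ≃* _ => ∃ g : GL (Fin m ⊕ Fin m) F, g ∈ Geo.quadSimilarityGroup (F := F) ⇑(qPlus m F) ∧
      PreservesSingularClasses ⇑(qPlus m F) (g : Matrix (Fin m ⊕ Fin m) (Fin m ⊕ Fin m) F) ∧
      IsInducedBySemilinearPOmega ⇑(qPlus m F) g (RingEquiv.refl F) β)) (Inn (POmega F ⇑(qPlus m F))) x =
      splitClassCount (HS (qPlus m F) (evS (PT_plus F m))) (Inn (PE (qPlus m F))) (aE _ (stdS (qPlus m F) q.1.2 (qPlus_svI _))) := by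
    rw [split_equiv (MulAut.congr (pomEquiv nd_plus hn)) (inndiagPlus_iff hn) (inn_iff nd_plus hn), hq2, hqk,
      ← splitClassCount_conj (x := aE _ (stdS (qPlus m F) q.1.2 (qPlus_svI _))) ⟨_, hk, rfl⟩]
  refine ⟨hrf, ?_, ?_, ?_, ?_⟩
  · obtain ⟨e1⟩ := cent_equiv' (MulAut.congr (pomEquiv nd_plus hn)) (inndiagPlus_iff hn) x
    rw [hq2, hqk] at e1
    obtain ⟨e2⟩ := cent_transport (H := HS (qPlus m F) (evS (PT_plus F m))) (conj_mem_iff hk) (aE _ (stdS (qPlus m F) q.1.2 (qPlus_svI _)))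
    obtain ⟨e3⟩ := cent_plus_model hm hτ hr.pos hj
    obtain ⟨e4⟩ := sub_equiv (MulAut.congr (pomEquiv (Q := qPlus m F₀) nd_plus hn)) (inndiagPlus_iff hn)
    exact ⟨e1.trans (e2.symm.trans (e3.trans e4.symm))⟩
  · intro h
    rw [hspl]
    by_cases h2 : (2 : F) = 0
    · exact split_plus_char_two h2 hm
    · exact split_plus_odd h2 hm hτ (h.resolve_right h2) hj
  · intro hr2 h2 h
    subst hr2
    rw [hspl]
    exact (split_plus_two h2 hm hτ hj).1 h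
  · intro hr2 h2 h
    subst hr2
    rw [hspl]
    exact (split_plus_two h2 hm hτ hj).2 h

theorem field_plus {F : Type u} [Field F] [Finite F] {m : ℕ} (hm : 4 ≤ m) {p f : ℕ} [Fact p.Prime] (hF : Nat.card F = p ^ f)
    (QP : (Fin m ⊕ Fin m → F) → F) (hQP : QP = ⇑(qPlus m F))
    (x : MulAut (POmega F QP)) (hx : IsFieldAutClassPOmega QP x) {r : ℕ} (hr : r.Prime)
    (hxr : orderOf x = r) (F₀ : Type v) [Field F₀] [Finite F₀] (hF₀ : Nat.card F₀ = p ^ (f / r))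
    (QP₀ : (Fin m ⊕ Fin m → F₀) → F₀) (hQP₀ : QP₀ = ⇑(qPlus m F₀)) :
    r ∣ f ∧
    Nonempty (↥((autSubgroupOf (fun β : POmega F QP ≃* _ => ∃ g : GL (Fin m ⊕ Fin m) F, g ∈ Geo.quadSimilarityGroup (F := F) QP ∧
      PreservesSingularClasses QP (g : Matrix (Fin m ⊕ Fin m) (Fin m ⊕ Fin m) F) ∧
      IsInducedBySemilinearPOmega QP g (RingEquiv.refl F) β)) ⊓ Subgroup.centralizer {x}) ≃*
      ↥(autSubgroupOf (fun β : POmega F₀ QP₀ ≃* _ => ∃ g : GL (Fin m ⊕ Fin m) F₀, g ∈ Geo.quadSimilarityGroup (F := F₀) QP₀ ∧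
      PreservesSingularClasses QP₀ (g : Matrix (Fin m ⊕ Fin m) (Fin m ⊕ Fin m) F₀) ∧
      IsInducedBySemilinearPOmega QP₀ g (RingEquiv.refl F₀) β))) ∧
    ((Odd r ∨ (2 : F) = 0) → splitClassCount (autSubgroupOf (fun β : POmega F QP ≃* _ => ∃ g : GL (Fin m ⊕ Fin m) F, g ∈ Geo.quadSimilarityGroup (F := F) QP ∧
      PreservesSingularClasses QP (g : Matrix (Fin m ⊕ Fin m) (Fin m ⊕ Fin m) F) ∧
      IsInducedBySemilinearPOmega QP g (RingEquiv.refl F) β)) (Inn (POmega F QP)) x = 1) ∧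
    (r = 2 → (2 : F) ≠ 0 → (Odd m ∧ IsSquare (-1 : F₀)) → splitClassCount (autSubgroupOf (fun β : POmega F QP ≃* _ => ∃ g : GL (Fin m ⊕ Fin m) F, g ∈ Geo.quadSimilarityGroup (F := F) QP ∧
      PreservesSingularClasses QP (g : Matrix (Fin m ⊕ Fin m) (Fin m ⊕ Fin m) F) ∧
      IsInducedBySemilinearPOmega QP g (RingEquiv.refl F) β)) (Inn (POmega F QP)) x = 2) ∧
    (r = 2 → (2 : F) ≠ 0 → ¬ (Odd m ∧ IsSquare (-1 : F₀)) → splitClassCount (autSubgroupOf (fun β : POmega F QP ≃* _ => ∃ g : GL (Fin m ⊕ Fin m) F, g ∈ Geo.quadSimilarityGroup (F := F) QP ∧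
      PreservesSingularClasses QP (g : Matrix (Fin m ⊕ Fin m) (Fin m ⊕ Fin m) F) ∧
      IsInducedBySemilinearPOmega QP g (RingEquiv.refl F) β)) (Inn (POmega F QP)) x = 4) := by
  subst hQP
  subst hQP₀
  exact field_plus' hm hF x hx hr hxr F₀ hF₀

end Cfsg.Agent.H17
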