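import Mathlib
import Cfsg.Agent.H17.QStd

set_option autoImplicit false

/-! Discriminants of quadratic forms over finite fields. -/

namespace Cfsg.Agent.H17

open Cfsg Cfsg.Agent.H5 Module
open scoped MatrixGroups Matrix

section gen

variable {F : Type*} [Field F] {V : Type*} [AddCommGroup V] [Module F V] {Q : QuadraticForm F V}

/-- Gram determinant with respect to a family -/
noncomputable def gD {ι : Type*} [Fintype ι] [DecidableEq ι] (Q : QuadraticForm F V) (b : ι → V) : F := (Matrix.of (fun i j => pB Q (b i) (b j))).det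

theorem gD_reindex {ι ι' : Type*} [Fintype ι] [DecidableEq ι] [Fintype ι'] [DecidableEq ι'] (e : ι' ≃ ι) (b : ι → V) :
    gD Q (b ∘ e) = gD Q b := by
  unfold gD
  rw [← Matrix.det_submatrix_equiv_self e]
  rfl

theorem gD_sq {ι ι' : Type*} [Fintype ι] [DecidableEq ι] [Fintype ι'] [DecidableEq ι'] (b : Basis ι F V) (b' : Basis ι' F V) :
    IsSquare (gD Q b * gD Q b') := by
  have hcard : Fintype.card ι' = Fintype.card ι := by
    rw [← Module.finrank_eq_card_basis b, ← Module.finrank_eq_card_basis b']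
  let e : ι' ≃ ι := Fintype.equivOfCardEq hcard
  have h1 : gD Q b = gD Q (b.reindex e.symm) := by
    rw [← gD_reindex e b]
    congr 1
    funext i
    rw [Basis.reindex_apply, Equiv.symm_symm]; rfl
  rw [h1]
  have h2 := LinearMap.BilinForm.toMatrix_mul_basis_toMatrix (b := b') (c := b.reindex e.symm) (pB Q)
  have h3 : gD Q (b.reindex e.symm) = (LinearMap.BilinForm.toMatrix (b.reindex e.symm) (pB Q)).det := by
    unfold gD
    congr 1
    ext i j
    rw [LinearMap.BilinForm.toMatrix_apply]; rfl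
  have h4 : gD Q b' = (LinearMap.BilinForm.toMatrix b' (pB Q)).det := by
    unfold gD
    congr 1
    ext i j
    rw [LinearMap.BilinForm.toMatrix_apply]; rfl
  rw [h3, h4, ← h2, Matrix.det_mul, Matrix.det_mul, Matrix.det_transpose]
  exact ⟨(b'.toMatrix ⇑(b.reindex e.symm)).det * (LinearMap.BilinForm.toMatrix b' (pB Q)).det, by ring⟩

theorem gD_map {V' : Type*} [AddCommGroup V'] [Module F V'] {Q' : QuadraticForm F V'} {ι : Type*} [Fintype ι] [DecidableEq ι] {c : F} (ψ : V →ₗ[F] V') (hψ : ∀ x, Q' (ψ x) = c * Q x)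
    (b : ι → V) : gD Q' (ψ ∘ b) = c ^ Fintype.card ι * gD Q b := by
  unfold gD
  rw [← Matrix.det_smul]
  congr 1
  ext i j
  show pB Q' (ψ (b i)) (ψ (b j)) = c * pB Q (b i) (b j)
  exact sim_B hψ _ _

theorem det_swap (k : ℕ) : (Matrix.fromBlocks 0 1 1 0 : Matrix (Fin k ⊕ Fin k) (Fin k ⊕ Fin k) F).det = (-1) ^ k := by
  have h1 : (Matrix.fromBlocks 0 1 1 0 : Matrix (Fin k ⊕ Fin k) (Fin k ⊕ Fin k) F) * Matrix.fromBlocks 1 0 1 1 = Matrix.fromBlocks 1 1 1 0 := by
    rw [Matrix.fromBlocks_multiply]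
    simp
  have h2 := congrArg Matrix.det h1
  rw [Matrix.det_mul, Matrix.det_fromBlocks_zero₁₂, Matrix.det_one, mul_one, mul_one, Matrix.det_fromBlocks_one₁₁] at h2
  rw [h2, Matrix.mul_one, zero_sub, Matrix.det_neg, Matrix.det_one, mul_one, Fintype.card_fin]

theorem gD_plus (k : ℕ) : gD (qPlus k F) (Pi.basisFun F (Fin k ⊕ Fin k)) = (-1) ^ k := by
  rw [← det_swap]
  unfold gD
  congr 1
  ext i j
  rw [Matrix.of_apply, Pi.basisFun_apply, Pi.basisFun_apply, pB_plus]
  rcases i with i | i <;> rcases j with j | j <;> simp [Pi.single_apply, Matrix.one_apply, eq_comm]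

theorem gD_minus (k : ℕ) (ζ : F) : gD (qMinus k F 1 ζ) (Pi.basisFun F ((Fin k ⊕ Fin k) ⊕ Fin 2)) = (-1) ^ k * (4 * ζ - 1) := by
  have h1 : (Matrix.fromBlocks (Matrix.fromBlocks 0 1 1 0) 0 0 !![2, 1; 1, 2 * ζ] : Matrix ((Fin k ⊕ Fin k) ⊕ Fin 2) ((Fin k ⊕ Fin k) ⊕ Fin 2) F).det = (-1) ^ k * (4 * ζ - 1) := by
    rw [Matrix.det_fromBlocks_zero₁₂, det_swap, Matrix.det_fin_two_of]
    ring
  rw [← h1]
  unfold gD
  congr 1
  ext i j
  rw [Matrix.of_apply, Pi.basisFun_apply, Pi.basisFun_apply, pB_minus]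
  rcases i with (i | i) | i <;> rcases j with (j | j) | j
  · simp [Pi.single_apply, Matrix.one_apply, eq_comm]
  · simp [Pi.single_apply, Matrix.one_apply, eq_comm]
  · fin_cases j <;> simp [Pi.single_apply, Matrix.one_apply, eq_comm]
  · simp [Pi.single_apply, Matrix.one_apply, eq_comm]
  · simp [Pi.single_apply, Matrix.one_apply, eq_comm]
  · fin_cases j <;> simp [Pi.single_apply, Matrix.one_apply, eq_comm]
  · fin_cases i <;> simp [Pi.single_apply, Matrix.one_apply, eq_comm]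
  · fin_cases i <;> simp [Pi.single_apply, Matrix.one_apply, eq_comm]
  · fin_cases i <;> fin_cases j <;> simp [Pi.single_apply, Matrix.one_apply, eq_comm]

end gen

section fin

variable {F : Type*} [Field F] [Finite F]

theorem gD_plus_minus (h2 : (2 : F) ≠ 0) {k : ℕ} {ζ : F} (hζ : ∀ t : F, t ^ 2 + t + ζ ≠ 0) :
    ¬ IsSquare (gD (qPlus (k + 1) F) (Pi.basisFun F (Fin (k + 1) ⊕ Fin (k + 1))) * gD (qMinus k F 1 ζ) (Pi.basisFun F ((Fin k ⊕ Fin k) ⊕ Fin 2))) := by
  rw [gD_plus, gD_minus]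
  rintro ⟨s, hs⟩
  have h1 : (1 - 4 * ζ) = s * s := by
    rw [← hs, pow_succ]
    have : ((-1 : F) ^ k) * (-1) ^ k = 1 := by rw [← mul_pow]; simp
    linear_combination (4 * ζ - 1) * (-1) * (-this)
  apply hζ ((s - 1) / 2)
  field_simp
  linear_combination -h1

variable {V V' : Type*} [AddCommGroup V] [Module F V] [FiniteDimensional F V] [AddCommGroup V'] [Module F V'] [FiniteDimensional F V']
  {Q : QuadraticForm F V} {Q' : QuadraticForm F V'}

theorem gD_ne {ι : Type*} [Fintype ι] [DecidableEq ι] (hnd : ND Q) (b : Basis ι F V) : gD Q b ≠ 0 := by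
  have h4 : gD Q b = (LinearMap.BilinForm.toMatrix b (pB Q)).det := by
    unfold gD
    congr 1
    ext i j
    rw [LinearMap.BilinForm.toMatrix_apply]; rfl
  rw [h4]
  exact (LinearMap.BilinForm.nondegenerate_iff_det_ne_zero b).mp hnd.nondeg

theorem sq_trans {a b c : F} (hb : b ≠ 0) (h1 : IsSquare (a * b)) (h2 : IsSquare (b * c)) : IsSquare (a * c) := by
  obtain ⟨s, hs⟩ := h1
  obtain ⟨t, ht⟩ := h2
  exact ⟨s * t / b, by field_simp; linear_combination b * c * hs + s * s * ht⟩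

theorem type_ne (h2 : (2 : F) ≠ 0) {m : ℕ} (hm : finrank F V = 2 * m) (hm' : finrank F V' = 2 * m) (hnd : ND Q) (hnd' : ND Q')
    {ι ι' : Type*} [Fintype ι] [DecidableEq ι] [Fintype ι'] [DecidableEq ι'] (b : Basis ι F V) (b' : Basis ι' F V')
    (h : ∃ U : Submodule F V, TS Q U ∧ finrank F U = m) (h' : ¬ ∃ U : Submodule F V', TS Q' U ∧ finrank F U = m) :
    ¬ IsSquare (gD Q b * gD Q' b') := by
  intro hsq
  have hm0 : m ≠ 0 := by
    rintro rfl
    exact h' ⟨⊥, fun x hx => by rw [(Submodule.mem_bot F).mp hx]; exact q_zero _, finrank_bot F V'⟩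
  obtain ⟨k, rfl⟩ : ∃ k, m = k + 1 := ⟨m - 1, by omega⟩
  obtain ⟨ζ, hζ⟩ := exists_zeta F
  obtain ⟨ψ, hψ⟩ := std_plus hnd hm h
  obtain ⟨ψ', hψ'⟩ := std_minus hnd' hm' h' (zeta_aniso hζ)
  apply gD_plus_minus h2 hζ (k := k)
  have e1 : gD Q b = gD (qPlus (k + 1) F) (b.map ψ) := by
    have := gD_map (Q' := qPlus (k + 1) F) (c := 1) ψ.toLinearMap (fun x => by rw [one_mul]; exact hψ x) b
    rw [one_pow, one_mul] at this
    exact this.symm
  have e2 : gD Q' b' = gD (qMinus k F 1 ζ) (b'.map ψ') := by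
    have := gD_map (Q' := qMinus k F 1 ζ) (c := 1) ψ'.toLinearMap (fun x => by rw [one_mul]; exact hψ' x) b'
    rw [one_pow, one_mul] at this
    exact this.symm
  rw [e1, e2] at hsq
  have g1 := gD_sq (Q := qPlus (k + 1) F) (Pi.basisFun F (Fin (k + 1) ⊕ Fin (k + 1))) (b.map ψ)
  have g2 := gD_sq (Q := qMinus k F 1 ζ) (b'.map ψ') (Pi.basisFun F ((Fin k ⊕ Fin k) ⊕ Fin 2))
  exact sq_trans (gD_ne (nd_minus (zeta_aniso hζ)) _) (sq_trans (gD_ne nd_plus _) g1 hsq) g2

/-- classification by dimension and discriminant -/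
theorem iso_of_disc (h2 : (2 : F) ≠ 0) (hnd : ND Q) (hnd' : ND Q') {ι ι' : Type*} [Fintype ι] [DecidableEq ι] [Fintype ι'] [DecidableEq ι']
    (b : Basis ι F V) (b' : Basis ι' F V') (hfr : finrank F V = finrank F V') (hd : IsSquare (gD Q b * gD Q' b')) :
    ∃ ψ : V ≃ₗ[F] V', ∀ x, Q' (ψ x) = Q x := by
  haveI : Finite V := Module.finite_of_finite F
  haveI : Finite V' := Module.finite_of_finite F
  rcases Nat.even_or_odd (finrank F V) with he | ho
  · obtain ⟨m, hm⟩ := he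
    rw [← two_mul] at hm
    have hm' : finrank F V' = 2 * m := hfr.symm.trans hm
    have hz : zn Q = zn Q' := by
      apply class_even_ts m hnd hnd' hm hm'
      constructor
      · intro h
        by_contra h'
        exact type_ne h2 hm hm' hnd hnd' b b' h h' hd
      · intro h
        by_contra h'
        exact type_ne h2 hm' hm hnd' hnd b' b h h' (by rwa [mul_comm])
    obtain ⟨φ, hφ⟩ := class_even m hnd hnd' hm hm' hz (one_ne_zero (α := F))
    obtain ⟨ψ, hψ⟩ := exists_simEquiv one_ne_zero hφ hnd hfr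
    exact ⟨ψ, fun x => by rw [hψ, one_mul]⟩
  · obtain ⟨m, hm⟩ := ho
    obtain ⟨c, hc, φ, hφ⟩ := class_odd h2 m hnd hnd' hm (hfr.symm.trans hm)
    obtain ⟨ψ, hψ⟩ := exists_simEquiv hc hφ hnd hfr
    have h1 := gD_map (Q' := Q') (c := c) ψ.toLinearMap hψ b
    have h3 : gD Q' (b.map ψ) = c ^ Fintype.card ι * gD Q b := h1
    have h4 := gD_sq (Q := Q') b' (b.map ψ)
    have h5 := sq_trans (gD_ne hnd' _) hd h4
    rw [h3, ← Module.finrank_eq_card_basis b, hm] at h5
    have h6 : IsSquare c := by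
      obtain ⟨s, hs⟩ := h5
      have hb := gD_ne hnd b
      refine ⟨s / (c ^ m * gD Q b), ?_⟩
      have hcm := pow_ne_zero m hc
      rw [div_mul_div_comm, ← hs, pow_succ, pow_mul']
      field_simp
    obtain ⟨s, hs⟩ := h6
    have hs0 : s ≠ 0 := by rintro rfl; rw [mul_zero] at hs; exact hc hs
    refine ⟨ψ.trans (LinearEquiv.smulOfNeZero F V' s⁻¹ (inv_ne_zero hs0)), fun x => ?_⟩
    show Q' (s⁻¹ • ψ x) = Q x
    rw [q_smul, hψ, hs]
    field_simp

theorem disc_iff (h2 : (2 : F) ≠ 0) {n : ℕ} (Q₁ Q₂ : QuadraticForm F (Fin n → F)) (h₁ : (QuadraticMap.polarBilin Q₁).Nondegenerate) (h₂ : (QuadraticMap.polarBilin Q₂).Nondegenerate) :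
    (∃ g : (Fin n → F) ≃ₗ[F] (Fin n → F), ∀ v, Q₂ (g v) = Q₁ v) ↔ IsSquare ((Matrix.of (fun i j : Fin n => QuadraticMap.polar ⇑Q₁ (Pi.single i 1) (Pi.single j 1))).det * (Matrix.of (fun i j : Fin n => QuadraticMap.polar ⇑Q₂ (Pi.single i 1) (Pi.single j 1))).det) := by
  have e : ∀ Q : QuadraticForm F (Fin n → F), (Matrix.of (fun i j : Fin n => QuadraticMap.polar ⇑Q (Pi.single i 1) (Pi.single j 1))).det = gD Q (Pi.basisFun F (Fin n)) := by
    intro Q
    unfold gD
    congr 1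
    ext i j
    rw [Matrix.of_apply, Matrix.of_apply, Pi.basisFun_apply, Pi.basisFun_apply, pB_apply]
  rw [e, e]
  constructor
  · rintro ⟨g, hg⟩
    have h1 := gD_map (Q' := Q₂) (c := 1) g.toLinearMap (fun x => by rw [one_mul]; exact hg x) (Pi.basisFun F (Fin n))
    rw [one_pow, one_mul] at h1
    have h3 : gD Q₂ ((Pi.basisFun F (Fin n)).map g) = gD Q₁ (Pi.basisFun F (Fin n)) := h1
    rw [← h3]
    exact gD_sq _ _
  · intro h
    exact iso_of_disc h2 (nd_of h₁) (nd_of h₂) _ _ rfl h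

end fin

end Cfsg.Agent.H17
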