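import Mathlib
import Cfsg.Agent.H5.UnitSimple
import Cfsg.Agent.H17.PolSU

set_option autoImplicit false

/-! Conjugacy of transvections in special unitary groups. -/

namespace Cfsg.Agent.H17

open Matrix Cfsg Cfsg.Agent.H5 FormData Module

section su

variable {F : Type*} [Field F] {σ : F →+* F} {q n : ℕ}
local notation "h⟪" x ", " y "⟫" => hB (Fin _) σ x y

theorem su_transvection_form (hσ : ∀ x, σ x = x ^ q) (hσ2 : ∀ a, σ (σ a) = a) (t : SU n F q)
    (ht : IsTransvection ((t : Matrix.SpecialLinearGroup (Fin n) F) : Matrix (Fin n) (Fin n) F)) :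
    ∃ (v : Fin n → F) (c : F), v ≠ 0 ∧ c ≠ 0 ∧ h⟪v, v⟫ = 0 ∧ c + σ c = 0 ∧ ∀ x, sv t x = x + (c * h⟪v, x⟫) • v := by
  have hS := hB_symm (ι := Fin n) hσ2
  set T : Matrix (Fin n) (Fin n) F := ((t : Matrix.SpecialLinearGroup (Fin n) F) : Matrix (Fin n) (Fin n) F) with hT
  obtain ⟨hr, hsq⟩ := ht
  set N : Matrix (Fin n) (Fin n) F := T - 1 with hN
  have hr' : finrank F (LinearMap.range N.mulVecLin) = 1 := hr
  obtain ⟨⟨u, hu⟩, hu0, hspan⟩ := finrank_eq_one_iff'.mp hr'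
  have hu0' : u ≠ 0 := fun h => hu0 (Subtype.ext h)
  have ha : ∀ x, ∃ a : F, N *ᵥ x = a • u := by
    intro x
    obtain ⟨a, ha⟩ := hspan ⟨N *ᵥ x, x, rfl⟩
    exact ⟨a, (congrArg Subtype.val ha).symm⟩
  choose a ha using ha
  have hNu : N *ᵥ u = 0 := by
    obtain ⟨x, hx⟩ := hu
    rw [← hx]
    show N *ᵥ (N *ᵥ x) = 0
    rw [Matrix.mulVec_mulVec, hsq, Matrix.zero_mulVec]
  have hsv : ∀ x, sv t x = x + a x • u := by
    intro x
    rw [← ha]
    show T *ᵥ x = x + N *ᵥ x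
    rw [hN, Matrix.sub_mulVec, Matrix.one_mulVec]; abel
  have hau : a u = 0 := by
    have := ha u
    rw [hNu] at this
    exact (smul_eq_zero.mp this.symm).resolve_right hu0'
  have hrel : ∀ x y, σ (a x) * h⟪u, y⟫ + a y * h⟪x, u⟫ + σ (a x) * a y * h⟪u, u⟫ = 0 := by
    intro x y
    have h1 := sv_isom hσ t x y
    rw [hsv, hsv, hadd_l, hadd_r, hadd_r, hsmul_l, hsmul_l, hsmul_r, hsmul_r] at h1
    linear_combination h1
  obtain ⟨x₁, hx₁⟩ : ∃ x, a x ≠ 0 := by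
    by_contra hcon
    push Not at hcon
    obtain ⟨x, hx⟩ := hu
    have : N *ᵥ x = u := hx
    rw [ha, hcon, zero_smul] at this
    exact hu0' this.symm
  have huu : h⟪u, u⟫ = 0 := by
    have h1 := hrel x₁ u
    rw [hau, zero_mul, mul_zero, zero_mul, add_zero, add_zero] at h1
    rcases mul_eq_zero.mp h1 with h2 | h2
    · exact absurd ((map_eq_zero σ).mp h2) hx₁
    · exact h2
  obtain ⟨y₀, hy₀⟩ : ∃ y, h⟪u, y⟫ ≠ 0 := by
    by_contra hcon
    push Not at hcon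
    exact hu0' (hB_nd u hcon)
  have hy₀' : h⟪y₀, u⟫ ≠ 0 := by
    rw [← hS]
    intro h
    exact hy₀ ((map_eq_zero σ).mp h)
  set c : F := -(σ (a y₀) * (h⟪y₀, u⟫)⁻¹) with hc
  have hac : ∀ y, a y = c * h⟪u, y⟫ := by
    intro y
    have h1 := hrel y₀ y
    rw [huu, mul_zero, add_zero] at h1
    rw [hc]
    field_simp
    linear_combination h1
  have hc0 : c ≠ 0 := by
    intro h0
    rw [hac, h0, zero_mul] at hx₁
    exact hx₁ rfl
  refine ⟨u, c, hu0', hc0, huu, ?_, fun x => by rw [hsv, hac]⟩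
  have h1 := hrel y₀ y₀
  rw [huu, mul_zero, add_zero, hac, map_mul, hS] at h1
  have h2 : (c + σ c) * (h⟪y₀, u⟫ * h⟪u, y₀⟫) = 0 := by linear_combination h1
  exact (mul_eq_zero.mp h2).resolve_right (mul_ne_zero hy₀' hy₀)

/-- an element of `GU` can be corrected by an element fixing a given isotropic vector -/
theorem su_correct_fix [Fintype F] (hσ : ∀ x, σ x = x ^ q) (hσ1 : σ ≠ RingHom.id F) (hσ2 : ∀ a, σ (σ a) = a) (hn : 3 ≤ n)
    (M : Matrix (Fin n) (Fin n) F) (hM : ∀ x y, h⟪M.mulVec x, M.mulVec y⟫ = h⟪x, y⟫) (w : Fin n → F) :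
    ∃ A : SU n F q, ∀ x, M.mulVec x = w → sv A x = w := by
  have hS := hB_symm (ι := Fin n) hσ2
  -- an anisotropic vector orthogonal to w
  obtain ⟨u, hwu, huu⟩ : ∃ u, h⟪w, u⟫ = 0 ∧ h⟪u, u⟫ ≠ 0 := by
    by_contra hcon
    push Not at hcon
    set K : Submodule F (Fin n → F) := LinearMap.ker (hB (Fin n) σ w) with hK
    have h1 : ∀ x ∈ K, ∀ y ∈ K, h⟪x, y⟫ = 0 := fun x hx y hy => herm_zero_of_isotropic hσ1 hS K (fun x hx => hcon x hx) hx hy
    -- dim K ≥ n - 1 ≥ 2, K ≤ K^⊥ = span w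
    have hfr := LinearMap.finrank_range_add_finrank_ker (hB (Fin n) σ w)
    have h2 : finrank F (LinearMap.range (hB (Fin n) σ w)) ≤ 1 := by
      have := Submodule.finrank_le (LinearMap.range (hB (Fin n) σ w))
      rwa [finrank_self] at this
    rw [Module.finrank_fin_fun] at hfr
    -- choose x, y ∈ K independent
    have h3 : 2 ≤ finrank F K := by rw [hK]; omega
    obtain ⟨z, hz⟩ : ∃ z ∈ K, z ∉ Submodule.span F {w} := by
      by_contra hcon2
      push Not at hcon2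
      have h4 : K ≤ Submodule.span F {w} := fun z hz => hcon2 z hz
      have h5 := Submodule.finrank_mono h4
      have h6 := finrank_span_le_card (R := F) ({w} : Set (Fin n → F))
      simp at h6
      omega
    -- the functional h(z, ·) vanishes on ker h(w, ·), hence is a multiple of it
    have h4 : ∀ y, h⟪w, y⟫ = 0 → h⟪z, y⟫ = 0 := fun y hy => h1 z hz.1 y hy
    have h5 : ∃ a : F, ∀ y, h⟪z, y⟫ = a * h⟪w, y⟫ := by
      by_cases hw0 : ∀ y, h⟪w, y⟫ = 0
      · exact ⟨0, fun y => by rw [zero_mul]; exact h4 y (hw0 y)⟩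
      · push Not at hw0
        obtain ⟨y₀, hy₀⟩ := hw0
        refine ⟨h⟪z, y₀⟫ * (h⟪w, y₀⟫)⁻¹, fun y => ?_⟩
        have h6 := h4 (y - (h⟪w, y⟫ * (h⟪w, y₀⟫)⁻¹) • y₀) (by
          rw [map_sub, map_smul, smul_eq_mul, inv_mul_cancel_right₀ hy₀, sub_self])
        rw [map_sub, map_smul, smul_eq_mul, sub_eq_zero] at h6
        rw [h6]; ring
    obtain ⟨a, ha⟩ := h5
    apply hz.2
    have h6 : z - σ a • w = 0 := by
      apply hB_nd
      intro y
      rw [map_sub, LinearMap.sub_apply, hsmul_l, hσ2, ha, sub_self]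
    rw [sub_eq_zero] at h6
    rw [h6]
    exact Submodule.smul_mem _ _ (Submodule.mem_span_singleton_self w)
  have huw : h⟪u, w⟫ = 0 := by rw [← hS, hwu, map_zero]
  have hd := det_norm_one (cols_of_isom hM)
  have hd0 : M.det ≠ 0 := det_ne_zero_of_cols (cols_of_isom hM)
  set ζ : F := (M.det)⁻¹ with hζ
  have hζ1 : σ ζ * ζ = 1 := by rw [hζ, map_inv₀, ← mul_inv, hd, inv_one]
  set b : F := (ζ - 1) * (h⟪u, u⟫)⁻¹ with hb
  have hσu : σ h⟪u, u⟫ = h⟪u, u⟫ := hS u u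
  let φ : (Fin n → F) →ₗ[F] F := b • hB (Fin n) σ u
  have hφ : ∀ x, φ x = b * h⟪u, x⟫ := fun _ => rfl
  let Dl : (Fin n → F) →ₗ[F] (Fin n → F) := LinearMap.id + φ.smulRight u
  have hDl : ∀ x, Dl x = x + (b * h⟪u, x⟫) • u := fun _ => rfl
  let D : Matrix (Fin n) (Fin n) F := LinearMap.toMatrix' Dl
  have hD : ∀ x, D.mulVec x = x + (b * h⟪u, x⟫) • u := fun x => by
    rw [← Matrix.toLin'_apply, Matrix.toLin'_toMatrix']; exact hDl x
  have hDdet : D.det = ζ := by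
    have h1 := det_of_rank2 (M := D) (u1 := u) (u2 := 0) (φ1 := φ) (φ2 := 0) (fun x => by
      rw [hD, smul_zero, add_zero]; rfl)
    rw [h1, hφ, map_zero φ, zero_mul, sub_zero, LinearMap.zero_apply, add_zero, mul_one, hb]
    field_simp
    ring
  have hDiso : ∀ x y, h⟪D.mulVec x, D.mulVec y⟫ = h⟪x, y⟫ := by
    intro x y
    rw [hD, hD, hadd_l, hadd_r, hadd_r, hsmul_l, hsmul_l, hsmul_r, hsmul_r, map_mul, hS u x]
    have h1 : σ b = (σ ζ - 1) * (h⟪u, u⟫)⁻¹ := by rw [hb, map_mul, map_sub, map_one, map_inv₀ σ (h⟪u, u⟫), hσu]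
    rw [h1, hb]
    field_simp
    linear_combination (h⟪x, u⟫ * h⟪u, y⟫) * hζ1
  have hG : ∀ x y, h⟪(D * M).mulVec x, (D * M).mulVec y⟫ = h⟪x, y⟫ := fun x y => by
    rw [← Matrix.mulVec_mulVec, ← Matrix.mulVec_mulVec, hDiso, hM]
  have hGdet : (D * M).det = 1 := by rw [Matrix.det_mul, hDdet, hζ, inv_mul_cancel₀ hd0]
  refine ⟨mkSU hσ (D * M) (cols_of_isom hG) hGdet, fun x hx => ?_⟩
  show (D * M).mulVec x = w
  rw [← Matrix.mulVec_mulVec, hx, hD, huw, mul_zero, zero_smul, add_zero]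

theorem su_transvections_conj {F : Type*} [Field F] [Fintype F] {q n : ℕ} (hF : Fintype.card F = q ^ 2) (hn : 3 ≤ n) (s t : SU n F q)
    (hs : IsTransvection ((s : Matrix.SpecialLinearGroup (Fin n) F) : Matrix (Fin n) (Fin n) F))
    (ht : IsTransvection ((t : Matrix.SpecialLinearGroup (Fin n) F) : Matrix (Fin n) (Fin n) F)) : IsConj s t := by
  obtain ⟨σ, hσ, hσ2, hσ1⟩ := exists_frob hF
  have hS := hB_symm (ι := Fin n) hσ2
  obtain ⟨v, c, hv0, hc0, hvv, hc, hs'⟩ := su_transvection_form hσ hσ2 s hs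
  obtain ⟨w, d, hw0, hd0, hww, hd, ht'⟩ := su_transvection_form hσ hσ2 t ht
  have hσc : σ c = -c := by linear_combination hc
  have hσd : σ d = -d := by linear_combination hd
  obtain ⟨l, hl0, hl⟩ := norm_surj hσ1 hσ2 (c := d / c) (by rw [map_div₀, hσc, hσd, neg_div_neg_eq]) (div_ne_zero hd0 hc0)
  obtain ⟨M, hM, hM'⟩ := gu_witt_family hσ1 hσ2 (fun _ : Unit => v) (fun _ : Unit => l • w)
    (LinearIndependent.of_subsingleton () hv0) (LinearIndependent.of_subsingleton () (smul_ne_zero hl0 hw0))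
    (fun i j => by rw [hsmul_l, hsmul_r, hww, hvv, mul_zero, mul_zero])
  obtain ⟨A, hA⟩ := su_correct_fix (q := q) hσ hσ1 hσ2 hn M hM (l • w)
  have hAv : sv A v = l • w := hA v (hM' ())
  rw [isConj_iff]
  refine ⟨A, sv_ext fun x => ?_⟩
  rw [sv_mul, sv_mul, hs', sv_add, sv_smul, hAv, sv_inv', ht']
  congr 1
  have h1 : hB (Fin n) σ v (sv A⁻¹ x) = σ l * hB (Fin n) σ w x := by
    rw [← sv_isom hσ A, hAv, sv_inv', hsmul_l]
  rw [h1, smul_smul]
  congr 1
  have : c * (d / c) = d := by field_simp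
  linear_combination (hB (Fin n) σ w x) * c * hl + (hB (Fin n) σ w x) * this

end su

end Cfsg.Agent.H17
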