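import Mathlib
import Cfsg.Agent.H17.FieldStruct
import Cfsg.Agent.H17.GUEmb
import Cfsg.Agent.H17.SpConj
import Cfsg.Agent.H5.UnitOrder

set_option autoImplicit false

/-! Centralizers in the symplectic group of elements generating a quadratic field. -/

namespace Cfsg.Agent.H17

open Cfsg Cfsg.Agent.H5 Module
open scoped MatrixGroups Matrix

variable {F : Type*} [Field F] [Finite F] {p : ℕ} [Fact p.Prime] [CharP F p] {m : ℕ}

/-- An element `x` of `Sp` whose minimal polynomial is that of `θ` (norm one element generating the quadratic extension), of order prime to `p`,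
is multiplication by `θ` on a hermitian space. -/
theorem sp_quad {θ : KK F p} (htop : Algebra.adjoin F {θ} = ⊤) (hθ : θ * sK F p θ = 1) (x : Matrix.symplecticGroup (Fin m) F)
    (hx : Polynomial.aeval (Matrix.toLin' (x : Matrix (Fin m ⊕ Fin m) (Fin m ⊕ Fin m) F)) (minpoly F θ) = 0)
    {N : ℕ} (hN : (N : F) ≠ 0) (hxN : x ^ N = 1) :
    ∃ δ : KK F p, sK F p δ = -δ ∧ δ ≠ 0 ∧ ∃ c : (Fin m ⊕ Fin m → F) ≃ₗ[F] (Fin m → KK F p),
      (∀ w, c ((x : Matrix (Fin m ⊕ Fin m) (Fin m ⊕ Fin m) F) *ᵥ w) = θ • c w) ∧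
      ∀ u v, hS F p m δ (c u) (c v) = sympB m F u v := by
  classical
  obtain ⟨δ, hδ, hδ0⟩ := exists_delta (F := F) (p := p)
  obtain ⟨ψ, hψ⟩ := alt_std (m := m) (hS F p m δ) (hS_alt hδ) (hS_nd hδ hδ0) finrank_hQ
  obtain ⟨c, hc⟩ := exists_struct htop (Matrix.toLin' (x : Matrix (Fin m ⊕ Fin m) (Fin m ⊕ Fin m) F)) hx (m := m) (by
    rw [Module.finrank_fintype_fun_eq_card, finrank_KK, Fintype.card_sum, Fintype.card_fin]; ring)
  have hc' : ∀ w, c ((x : Matrix (Fin m ⊕ Fin m) (Fin m ⊕ Fin m) F) *ᵥ w) = θ • c w := fun w => by rw [← hc, Matrix.toLin'_apply]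
  -- multiplication by `θ`
  let T : (Fin m → KK F p) →ₗ[F] (Fin m → KK F p) :=
    { toFun := fun v => θ • v
      map_add' := fun a b => smul_add _ _ _
      map_smul' := fun a b => smul_comm _ _ _ }
  have hT : ∀ v, T v = θ • v := fun _ => rfl
  have hTS : ∀ u v, hS F p m δ (T u) (T v) = hS F p m δ u v := by
    intro u v
    apply algebraMap_inj (p := p)
    rw [hS_alg hδ, hS_alg hδ]
    have e1 : ∀ a b : Fin m → KK F p, ∑ i, (T a) i * sK F p ((T b) i) = ∑ i, a i * sK F p (b i) := by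
      intro a b
      refine Finset.sum_congr rfl fun i _ => ?_
      rw [hT, hT, Pi.smul_apply, Pi.smul_apply, smul_eq_mul, smul_eq_mul, map_mul]
      linear_combination (a i * sK F p (b i)) * hθ
    rw [e1, e1]
  let M : Matrix (Fin m ⊕ Fin m) (Fin m ⊕ Fin m) F := LinearMap.toMatrix' ((ψ : (Fin m → KK F p) →ₗ[F] _) ∘ₗ T ∘ₗ (ψ.symm : _ →ₗ[F] (Fin m → KK F p)))
  have hM : ∀ w, M *ᵥ w = ψ (θ • ψ.symm w) := fun w => by
    rw [← Matrix.toLin'_apply, Matrix.toLin'_toMatrix']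
    rfl
  have hMsp : M ∈ Matrix.symplecticGroup (Fin m) F := by
    rw [mem_Sp_iff]
    intro u v
    rw [hM, hM, hψ, ← hT, ← hT, hTS, ← hψ, LinearEquiv.apply_symm_apply, LinearEquiv.apply_symm_apply]
  -- the linear conjugating map
  let C : Matrix (Fin m ⊕ Fin m) (Fin m ⊕ Fin m) F := LinearMap.toMatrix' ((ψ : (Fin m → KK F p) →ₗ[F] _) ∘ₗ (c : _ →ₗ[F] (Fin m → KK F p)))
  have hC : ∀ w, C *ᵥ w = ψ (c w) := fun w => by
    rw [← Matrix.toLin'_apply, Matrix.toLin'_toMatrix']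
    rfl
  have hCdet : C.det ≠ 0 := by
    intro h0
    obtain ⟨v, hv, hv2⟩ := Matrix.exists_mulVec_eq_zero_iff.mpr h0
    rw [hC] at hv2
    exact hv (by simpa using hv2)
  let C' : GL (Fin m ⊕ Fin m) F := Matrix.GeneralLinearGroup.mkOfDetNeZero C hCdet
  have hext : ∀ {A B : Matrix (Fin m ⊕ Fin m) (Fin m ⊕ Fin m) F}, (∀ x, A *ᵥ x = B *ᵥ x) → A = B := by
    intro A B h
    apply Matrix.toLin'.injective
    apply LinearMap.ext
    intro x
    rw [Matrix.toLin'_apply, Matrix.toLin'_apply, h]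
  obtain ⟨h, hh⟩ := sp_conj_of_lin x ⟨M, hMsp⟩ hN hxN C' (hext fun w => by
    show (C * (x : Matrix (Fin m ⊕ Fin m) (Fin m ⊕ Fin m) F)) *ᵥ w = (M * C) *ᵥ w
    rw [← Matrix.mulVec_mulVec, ← Matrix.mulVec_mulVec, hC, hC, hM, hc', LinearEquiv.symm_apply_apply])
  have hh' : ∀ w, (h : Matrix (Fin m ⊕ Fin m) (Fin m ⊕ Fin m) F) *ᵥ ((x : Matrix (Fin m ⊕ Fin m) (Fin m ⊕ Fin m) F) *ᵥ w) =
      M *ᵥ ((h : Matrix (Fin m ⊕ Fin m) (Fin m ⊕ Fin m) F) *ᵥ w) := by
    intro w
    rw [Matrix.mulVec_mulVec, Matrix.mulVec_mulVec]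
    congr 1
    exact congrArg Subtype.val hh
  let H : (Fin m ⊕ Fin m → F) ≃ₗ[F] (Fin m ⊕ Fin m → F) :=
    LinearEquiv.ofInjectiveEndo (Matrix.toLin' (h : Matrix (Fin m ⊕ Fin m) (Fin m ⊕ Fin m) F)) (by
      rw [injective_iff_map_eq_zero]
      intro a ha
      rw [Matrix.toLin'_apply] at ha
      apply sympB_nondegenerate.1
      intro b
      rw [← mem_Sp_iff.mp h.2, ha, map_zero, LinearMap.zero_apply])
  have hH : ∀ w, H w = (h : Matrix (Fin m ⊕ Fin m) (Fin m ⊕ Fin m) F) *ᵥ w := fun w => Matrix.toLin'_apply _ _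
  refine ⟨δ, hδ, hδ0, H.trans ψ.symm, fun w => ?_, fun u v => ?_⟩
  · rw [LinearEquiv.trans_apply, LinearEquiv.trans_apply, hH, hh', hM, LinearEquiv.symm_apply_apply, hH]
  · rw [LinearEquiv.trans_apply, LinearEquiv.trans_apply, ← hψ, LinearEquiv.apply_symm_apply, LinearEquiv.apply_symm_apply, hH, hH,
      mem_Sp_iff.mp h.2]

/-- The centralizer of such an element is a unitary group. -/
theorem card_cent_quad {q : ℕ} (hq : Nat.card F = q) {θ : KK F p} (htop : Algebra.adjoin F {θ} = ⊤) (hθ : θ * sK F p θ = 1) (x : Matrix.symplecticGroup (Fin m) F)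
    (hx : Polynomial.aeval (Matrix.toLin' (x : Matrix (Fin m ⊕ Fin m) (Fin m ⊕ Fin m) F)) (minpoly F θ) = 0)
    {N : ℕ} (hN : (N : F) ≠ 0) (hxN : x ^ N = 1) :
    Nat.card ↥(Subgroup.centralizer ({x} : Set ↥(Matrix.symplecticGroup (Fin m) F))) = Nat.card ↥(Cfsg.GU m (KK F p) q) := by
  classical
  obtain ⟨δ, hδ, hδ0, c, hc, hcS⟩ := sp_quad htop hθ x hx hN hxN
  let e : KK F p ≃+* KK F p := RingEquiv.refl _
  have hg : ∀ (g : ↥(Cfsg.GU m (KK F p) q)) x y, hS F p m δ (actE m e g x) (actE m e g y) = hS F p m δ x y := by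
    intro g x y
    apply algebraMap_inj (p := p)
    rw [hS_alg hδ, hS_alg hδ, actE_herm e hq g.2, actE_herm e hq g.2]
  let M : ↥(Cfsg.GU m (KK F p) q) → Matrix (Fin m ⊕ Fin m) (Fin m ⊕ Fin m) F := fun g =>
    LinearMap.toMatrix' ((c.trans ((actE m e g : (Fin m → KK F p) ≃ₗ[F] (Fin m → KK F p)).trans c.symm)).toLinearMap)
  have hM : ∀ g x, M g *ᵥ x = c.symm (actE m e g (c x)) := fun g x => by
    rw [← Matrix.toLin'_apply, Matrix.toLin'_toMatrix']
    rfl
  have hsp : ∀ g, M g ∈ Matrix.symplecticGroup (Fin m) F := by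
    intro g
    rw [mem_Sp_iff]
    intro u v
    rw [hM, hM, ← hcS, LinearEquiv.apply_symm_apply, LinearEquiv.apply_symm_apply, hg, hcS]
  have hext : ∀ {A B : Matrix (Fin m ⊕ Fin m) (Fin m ⊕ Fin m) F}, (∀ x, A *ᵥ x = B *ᵥ x) → A = B := by
    intro A B h
    apply Matrix.toLin'.injective
    apply LinearMap.ext
    intro x
    rw [Matrix.toLin'_apply, Matrix.toLin'_apply, h]
  have hact : ∀ (g : ↥(Cfsg.GU m (KK F p) q)) (k : KK F p) v, actE m e g (k • v) = k • actE m e g v := by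
    intro g k v
    rw [actE_apply, actE_apply, Matrix.mulVec_smul]
  have hcx : ∀ w, (x : Matrix (Fin m ⊕ Fin m) (Fin m ⊕ Fin m) F) *ᵥ (c.symm w) = c.symm (θ • w) := by
    intro w
    apply c.injective
    rw [hc, LinearEquiv.apply_symm_apply, LinearEquiv.apply_symm_apply]
  symm
  refine Nat.card_congr (Equiv.ofBijective (fun g => ⟨⟨M g, hsp g⟩, ?_⟩) ⟨?_, ?_⟩)
  · rw [Subgroup.mem_centralizer_singleton_iff]
    apply Subtype.ext
    apply hext
    intro w
    show (M g * (x : Matrix (Fin m ⊕ Fin m) (Fin m ⊕ Fin m) F)) *ᵥ w = ((x : Matrix (Fin m ⊕ Fin m) (Fin m ⊕ Fin m) F) * M g) *ᵥ w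
    rw [← Matrix.mulVec_mulVec, ← Matrix.mulVec_mulVec, hM, hM, hc, hact, hcx]
  · intro g h hgh
    have h1 : M g = M h := congrArg (fun z => (z.1.1 : Matrix _ _ F)) hgh
    apply Subtype.ext
    apply actE_inj e
    apply LinearEquiv.ext
    intro x
    apply c.symm.injective
    have h2 := congrArg (fun A => A *ᵥ (c.symm x)) h1
    simp only [hM, LinearEquiv.apply_symm_apply] at h2
    exact h2
  · rintro ⟨⟨y, hy⟩, hyx⟩
    rw [Subgroup.mem_centralizer_singleton_iff] at hyx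
    have hyx' : ∀ w, y *ᵥ ((x : Matrix (Fin m ⊕ Fin m) (Fin m ⊕ Fin m) F) *ᵥ w) = (x : Matrix (Fin m ⊕ Fin m) (Fin m ⊕ Fin m) F) *ᵥ (y *ᵥ w) := by
      intro w
      rw [Matrix.mulVec_mulVec, Matrix.mulVec_mulVec]
      congr 1
      exact congrArg Subtype.val hyx
    -- the transported map is linear over the big field
    let Z : (Fin m → KK F p) →ₗ[F] (Fin m → KK F p) := (c : _ →ₗ[F] (Fin m → KK F p)) ∘ₗ (Matrix.toLin' y) ∘ₗ (c.symm : _ →ₗ[F] (Fin m ⊕ Fin m → F))
    have hZ : ∀ v, Z v = c (y *ᵥ (c.symm v)) := fun v => by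
      show c (Matrix.toLin' y (c.symm v)) = _
      rw [Matrix.toLin'_apply]
    have hZθ : ∀ v, Z (θ • v) = θ • Z v := by
      intro v
      rw [hZ, hZ, ← hcx, hyx', hc]
    let S : Subalgebra F (KK F p) :=
      { carrier := {k | ∀ v, Z (k • v) = k • Z v}
        mul_mem' := fun {a b} ha hb v => by rw [mul_smul, ha, hb, mul_smul]
        add_mem' := fun {a b} ha hb v => by rw [add_smul, map_add, ha, hb, add_smul]
        algebraMap_mem' := fun a v => by rw [algebraMap_smul, map_smul, algebraMap_smul] }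
    have hS' : ∀ (k : KK F p) v, Z (k • v) = k • Z v := by
      intro k
      have h1 : Algebra.adjoin F {θ} ≤ S := Algebra.adjoin_le (by
        rintro _ rfl
        exact hZθ)
      rw [htop] at h1
      exact h1 (Algebra.mem_top (x := k))
    let ZK : (Fin m → KK F p) →ₗ[KK F p] (Fin m → KK F p) := { toFun := Z, map_add' := map_add Z, map_smul' := hS' }
    let G : Matrix (Fin m) (Fin m) (KK F p) := LinearMap.toMatrix' ZK
    have hG : ∀ v, G *ᵥ v = Z v := fun v => by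
      rw [← Matrix.toLin'_apply, Matrix.toLin'_toMatrix']
      rfl
    have hZS : ∀ u v, hS F p m δ (Z u) (Z v) = hS F p m δ u v := by
      intro u v
      rw [hZ, hZ, hcS, mem_Sp_iff.mp hy, ← hcS, LinearEquiv.apply_symm_apply, LinearEquiv.apply_symm_apply]
    have hherm : ∀ u v, ∑ i, Z u i * sK F p (Z v i) = ∑ i, u i * sK F p (v i) := by
      intro u v
      -- compare the `F`-valued forms
      have key : ∀ k : KK F p, k * (∑ i, Z u i * sK F p (Z v i) - ∑ i, u i * sK F p (v i)) =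
          sK F p k * sK F p (∑ i, Z u i * sK F p (Z v i) - ∑ i, u i * sK F p (v i)) := by
        intro k
        have h1 := congrArg (algebraMap F (KK F p)) (hZS (k • u) v)
        rw [hS_alg hδ, hS_alg hδ] at h1
        have h2 := mul_left_cancel₀ hδ0 h1
        have e1 : ∀ a b : Fin m → KK F p, ∑ i, (k • a) i * sK F p (b i) = k * ∑ i, a i * sK F p (b i) := by
          intro a b
          rw [Finset.mul_sum]
          exact Finset.sum_congr rfl fun i _ => by rw [Pi.smul_apply, smul_eq_mul, mul_assoc]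
        have e2 : ∀ a b : Fin m → KK F p, ∑ i, a i * sK F p ((k • b) i) = sK F p k * ∑ i, a i * sK F p (b i) := by
          intro a b
          rw [Finset.mul_sum]
          exact Finset.sum_congr rfl fun i _ => by rw [Pi.smul_apply, smul_eq_mul, map_mul]; ring
        have e3 : ∀ a b : Fin m → KK F p, sK F p (∑ i, a i * sK F p (b i)) = ∑ i, b i * sK F p (a i) := by
          intro a b
          rw [map_sum]
          exact Finset.sum_congr rfl fun i _ => by rw [map_mul, sK_sK, mul_comm]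
        rw [hS', e1, e2, e1, e2] at h2
        rw [map_sub, e3, e3]
        linear_combination h2
      obtain ⟨z, hz⟩ := exists_sK_ne (F := F) (p := p)
      have h1 := key 1
      rw [map_one, one_mul, one_mul] at h1
      have h2 := key z
      rw [← h1, ← sub_eq_zero, ← sub_mul] at h2
      exact sub_eq_zero.mp ((mul_eq_zero.mp h2).resolve_left (sub_ne_zero.mpr (Ne.symm hz)))
    have hGdet : G.det ≠ 0 := by
      intro h0
      obtain ⟨v, hv, hv2⟩ := Matrix.exists_mulVec_eq_zero_iff.mpr h0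
      rw [hG] at hv2
      apply hv
      apply hS_nd hδ hδ0
      intro u
      rw [← hZS, hv2, map_zero, LinearMap.zero_apply]
    let g : GL (Fin m) (KK F p) := Matrix.GeneralLinearGroup.mkOfDetNeZero G hGdet
    have hgval : (g : Matrix (Fin m) (Fin m) (KK F p)) = G := rfl
    have hgGU : g ∈ Cfsg.GU m (KK F p) q := by
      show ∀ u v : Fin m → KK F p, Cfsg.hermForm m (KK F p) q ((g : Matrix (Fin m) (Fin m) (KK F p)) *ᵥ u) ((g : Matrix (Fin m) (Fin m) (KK F p)) *ᵥ v) = Cfsg.hermForm m (KK F p) q u v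
      intro u v
      have h0 : ∀ a b : Fin m → KK F p, Cfsg.hermForm m (KK F p) q a b = ∑ i, a i * sK F p (b i) := by
        intro a b
        show ∑ i, a i * (b i) ^ q = _
        refine Finset.sum_congr rfl fun i _ => ?_
        rw [sK_apply, hq]
      rw [h0, h0, hgval, hG, hG, hherm]
    refine ⟨⟨g, hgGU⟩, ?_⟩
    apply Subtype.ext
    apply Subtype.ext
    apply hext
    intro w
    show M ⟨g, hgGU⟩ *ᵥ w = y *ᵥ w
    rw [hM, actE_apply]
    have h1 : ((((⟨g, hgGU⟩ : ↥(Cfsg.GU m (KK F p) q)) : GL (Fin m) (KK F p)) : Matrix (Fin m) (Fin m) (KK F p)).map e) = G := by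
      ext i j; rfl
    rw [h1, hG, hZ, LinearEquiv.symm_apply_apply, LinearEquiv.symm_apply_apply]

end Cfsg.Agent.H17
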