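import Mathlib
import Cfsg.Agent.H17.SpBal6
import Cfsg.Agent.H5.SpGraph

set_option autoImplicit false

/-! Automorphism groups of `PSp`: counts; the exceptional case `Sp₄(2^f)`. -/

namespace Cfsg.Agent.H17

open Module Cfsg Cfsg.Agent.H5
open scoped MatrixGroups Matrix LinearAlgebra.Projectivization

variable {F : Type*} [Field F] {m : ℕ}

theorem card_Inn_PSp (hm : 2 ≤ m) : Nat.card (Inn (PSp m F)) = Nat.card (PSp m F) := by
  refine (Nat.card_congr (MonoidHom.ofInjective (f := (MulAut.conj : PSp m F →* MulAut (PSp m F))) ?_).toEquiv).symm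
  rw [injective_iff_map_eq_one]
  exact fun y hy => conj_eq_one_PSp hm hy

theorem card_cS_range [Finite F] (hm : 2 ≤ m) {q : ℕ} (hq : Nat.card F = q) :
    Nat.card (cS m F).range = Nat.gcd 2 (q - 1) * Nat.card (PSp m F) := by
  classical
  haveI := Fintype.ofFinite F
  have hm1 : 1 ≤ m := by omega
  haveI : Finite (MulAut (PSp m F)) := Finite.of_injective (fun f : MulAut (PSp m F) => (f : PSp m F → PSp m F)) DFunLike.coe_injective
  have h1 : (Inn (PSp m F)).comap (cS m F) = ((powMonoidHom 2 : Fˣ →* Fˣ).range).comap (muS hm1) := by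
    ext g
    exact cS_mem_Inn_iff hm hm1 g
  have h2 := Subgroup.index_comap (Inn (PSp m F)) (cS m F)
  rw [h1, Subgroup.index_comap_of_surjective _ (fun a => ⟨dS m F a, muS_dS hm1 a⟩), IsCyclic.index_powMonoidHom_range, Nat.card_units, hq] at h2
  have h3 : Nat.card (Inn (PSp m F)) * (Inn (PSp m F)).relIndex (cS m F).range = Nat.card (cS m F).range := by
    have h4 := Subgroup.card_mul_index ((Inn (PSp m F)).subgroupOf (cS m F).range)
    rw [Nat.card_congr (Subgroup.subgroupOfEquivOfLe Inn_le_rangeSp).toEquiv] at h4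
    exact h4
  rw [← h3, ← h2, card_Inn_PSp hm, Nat.gcd_comm, mul_comm]

theorem cS_fS_inj (hm : 2 ≤ m) {c c' : (cS m F).range} {τ τ' : F ≃+* F} (h : (c : MulAut (PSp m F)) * fS m F τ = c' * fS m F τ') : c = c' ∧ τ = τ' := by
  obtain ⟨_, g, rfl⟩ := c
  obtain ⟨_, g', rfl⟩ := c'
  have h : cS m F g * fS m F τ = cS m F g' * fS m F τ' := h
  have h1 : cS m F (g'⁻¹ * g) * fS m F (τ * τ'⁻¹) = 1 := by
    rw [map_mul, map_inv, map_mul, map_inv]
    calc (cS m F g')⁻¹ * cS m F g * (fS m F τ * (fS m F τ')⁻¹) = (cS m F g')⁻¹ * (cS m F g * fS m F τ) * (fS m F τ')⁻¹ := by group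
      _ = 1 := by rw [h]; group
  have h2 := (cS_fS_eq_one hm _ _ h1).1
  have h3 : τ = τ' := mul_inv_eq_one.mp h2
  refine ⟨?_, h3⟩
  rw [h3] at h
  exact Subtype.ext (mul_right_cancel h)

theorem card_mulAut_Sp [Finite F] (hm : 2 ≤ m) {q : ℕ} (hq : Nat.card F = q)
    (hall : ∀ α : MulAut (PSp m F), ∃ (g : GSp m F) (τ : F ≃+* F), α = cS m F g * fS m F τ) :
    Nat.card (MulAut (PSp m F)) = Nat.gcd 2 (q - 1) * Nat.card (F ≃+* F) * Nat.card (PSp m F) := by
  have h1 : Function.Bijective (fun x : (cS m F).range × (F ≃+* F) => (x.1 : MulAut (PSp m F)) * fS m F x.2) := by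
    constructor
    · rintro ⟨c, τ⟩ ⟨c', τ'⟩ h
      obtain ⟨h2, h3⟩ := cS_fS_inj hm h
      exact Prod.ext h2 h3
    · intro α
      obtain ⟨g, τ, rfl⟩ := hall α
      exact ⟨⟨⟨cS m F g, g, rfl⟩, τ⟩, rfl⟩
  rw [← Nat.card_congr (Equiv.ofBijective _ h1), Nat.card_prod, card_cS_range hm hq]
  ring

/-- transvection preserving automorphisms of `Sp(2)` are inner -/
theorem tp_F2 [Finite F] (hm : 2 ≤ m) (hm1 : 1 ≤ m) (hF : Nat.card F = 2) {α : MulAut (PSp m F)} (ht : (pspPol m F hm1).TP α) :
    ∃ g : GSp m F, α = cS m F g := by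
  haveI := Fintype.ofFinite F
  have hF' : Fintype.card F = 2 := by rw [← hF, Nat.card_eq_fintype_card]
  have h2 : (2 : F) = 0 := by
    have := FiniteField.cast_card_eq_zero F
    rw [hF'] at this
    exact_mod_cast this
  have h01 : ∀ a : F, a = 0 ∨ a = 1 := by
    intro a
    by_contra hcon
    push Not at hcon
    classical
    have h3 : ({0, 1, a} : Finset F).card = 3 := by
      rw [Finset.card_eq_three]
      exact ⟨0, 1, a, zero_ne_one, hcon.1.symm, hcon.2.symm, rfl⟩
    have h4 := Finset.card_le_univ ({0, 1, a} : Finset F)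
    omega
  have hC := ttype_Sp (F := F) hm1 h2
  have hX : ∀ (e : Fin m ⊕ Fin m → F) (z : F), (pspPol m F hm1).X e 0 z = spT e z := by
    intro e z
    apply pv_ext
    intro v
    have h3 := hC.Z_act e z v
    have h4 : (pspPol m F hm1).act ((pspPol m F hm1).X e 0 z) v = pv ((pspPol m F hm1).X e 0 z) v := rfl
    rw [← h4, h3]
    unfold pv
    rw [spT_mulVec, mul_comm]
    congr 3
    exact hC.sym e v
  have ht0 : ∀ e : Fin m ⊕ Fin m → F, e ≠ 0 → (QuotientGroup.mk (spT e 1) : PSp m F) ≠ 1 := by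
    intro e he
    have := hC.Z_ne he (z := 1) one_ne_zero
    rw [hX] at this
    exact this
  have htm : ∀ e : Fin m ⊕ Fin m → F, (QuotientGroup.mk (spT e 1) : PSp m F) ∈ (pspPol m F hm1).Zs e := by
    intro e
    exact hC.mem_Zs'.mpr ⟨1, by rw [hX]; rfl⟩
  have hex : ∀ e : Fin m ⊕ Fin m → F, ∃ e' : Fin m ⊕ Fin m → F, (e = 0 → e' = 0) ∧ (e ≠ 0 → e' ≠ 0) ∧
      α (QuotientGroup.mk (spT e 1)) = QuotientGroup.mk (spT e' 1) := by
    intro e
    by_cases he : e = 0
    · refine ⟨0, fun _ => rfl, fun h => absurd he h, ?_⟩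
      have : ∀ c : F, spT (0 : Fin m ⊕ Fin m → F) c = 1 := by
        intro c
        apply sp_ext
        intro x
        rw [spT_mulVec, smul_zero, add_zero]
        exact (Matrix.one_mulVec x).symm
      rw [he, this, QuotientGroup.mk_one, map_one]
    · obtain ⟨e', he', h3⟩ := ht e he _ (htm e) (ht0 e he)
      refine ⟨e', fun h => absurd h he, fun _ => he', ?_⟩
      obtain ⟨z, hz⟩ := hC.mem_Zs'.mp h3
      rw [hX] at hz
      have hz1 : z = 1 := by
        rcases h01 z with h | h
        · exfalso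
          rw [h, spT_zero, map_one, MulEquiv.map_eq_one_iff] at hz
          exact ht0 e he hz
        · exact h
      rw [hz, hz1]
      rfl
  choose π hπ0 hπ1 hπ using hex
  have hzz : ∀ e f, sympB m F (π e) (π f) = 0 ↔ sympB m F e f = 0 := by
    intro e f
    by_cases he : e = 0
    · rw [hπ0 e he, he]; simp
    by_cases hf : f = 0
    · rw [hπ0 f hf, hf]; simp
    have h3 := hC.comm_iff he hf (htm e) (htm f) (ht0 e he) (ht0 f hf)
    have h4 := hC.comm_iff (hπ1 e he) (hπ1 f hf) (htm (π e)) (htm (π f)) (ht0 _ (hπ1 e he)) (ht0 _ (hπ1 f hf))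
    have h5 : (pspPol m F hm1).B e f = sympB m F e f := rfl
    have h6 : (pspPol m F hm1).B (π e) (π f) = sympB m F (π e) (π f) := rfl
    rw [← h5, ← h6, ← h3, ← h4, ← hπ, ← hπ, ← map_mul, ← map_mul]
    exact α.injective.eq_iff
  have hB : ∀ e f, sympB m F (π e) (π f) = sympB m F e f := by
    intro e f
    rcases h01 (sympB m F e f) with h | h
    · rw [h, hzz]; exact h
    · rcases h01 (sympB m F (π e) (π f)) with h' | h'
      · rw [hzz, h] at h'; exact absurd h' one_ne_zero
      · rw [h, h']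
  have hinj : Function.Injective π := by
    intro e f hef
    have h3 : α (QuotientGroup.mk (spT e 1)) = α (QuotientGroup.mk (spT f 1)) := by rw [hπ, hπ, hef]
    have h4 := α.injective h3
    have h5 : ∀ x, sympB m F x (e - f) = 0 := by
      intro x
      rw [map_sub, sub_eq_zero]
      have h6 := hB x e
      have h7 := hB x f
      rw [← h6, ← h7, hef]
    have h6 := (sympB_nondegenerate (m := m) (F := F)).1 (e - f) (fun y => by rw [sympB_neg, h5, neg_zero])
    exact sub_eq_zero.mp h6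
  have hsurj : Function.Surjective π := Finite.surjective_of_injective hinj
  have hadd : ∀ e f, π (e + f) = π e + π f := by
    intro e f
    rw [← sub_eq_zero]
    apply (sympB_nondegenerate (m := m) (F := F)).1
    intro y
    obtain ⟨x, rfl⟩ := hsurj y
    rw [map_sub, map_add, LinearMap.sub_apply, LinearMap.add_apply, hB, hB, hB, map_add, LinearMap.add_apply, sub_self]
  have hsmul : ∀ (c : F) e, π (c • e) = c • π e := by
    intro c e
    rcases h01 c with h | h
    · rw [h, zero_smul, zero_smul, hπ0 0 rfl]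
    · rw [h, one_smul, one_smul]
  obtain ⟨A, hA⟩ := exists_pv (m := m) (F := F) { toFun := π, map_add' := hadd, map_smul' := hsmul } hB
  refine ⟨spGSp m F A, ?_⟩
  rw [← conj_mkSp]
  have hgen : Subgroup.closure {g : Matrix.symplecticGroup (Fin m) F | ∃ w c, g = spT w c} = ⊤ := by
    have h3 := spTgroup_eq_top (m := m) (F := F)
    rw [← h3]
    unfold spTgroup
    congr 1
    ext g
    constructor
    · rintro ⟨w, c, rfl⟩; exact ⟨w, c, rfl⟩
    · rintro ⟨w, c, h⟩; exact ⟨w, c, Subtype.ext h⟩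
  have hhom : α.toMonoidHom.comp (QuotientGroup.mk' (Subgroup.center (Matrix.symplecticGroup (Fin m) F))) =
      (MulAut.conj (QuotientGroup.mk A : PSp m F)).toMonoidHom.comp (QuotientGroup.mk' (Subgroup.center (Matrix.symplecticGroup (Fin m) F))) := by
    apply MonoidHom.eq_of_eqOn_dense hgen
    rintro _ ⟨w, c, rfl⟩
    show α (QuotientGroup.mk (spT w c)) = QuotientGroup.mk A * QuotientGroup.mk (spT w c) * (QuotientGroup.mk A)⁻¹
    rcases h01 c with h | h
    · rw [h, spT_zero, QuotientGroup.mk_one, map_one, mul_one, mul_inv_cancel]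
    · rw [h, hπ, ← QuotientGroup.mk_mul, ← QuotientGroup.mk_inv, ← QuotientGroup.mk_mul, spT_conj]
      congr 2
      exact (hA w).symm
  ext y
  obtain ⟨s, rfl⟩ := QuotientGroup.mk_surjective y
  exact DFunLike.congr_fun hhom s

end Cfsg.Agent.H17
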