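import Mathlib
import Cfsg.Agent.H17.SpOut

set_option autoImplicit false

/-! Automorphism group of `Sp₄(2^f)`. -/

namespace Cfsg.Agent.H17

open Module Cfsg Cfsg.Agent.H5
open scoped MatrixGroups Matrix LinearAlgebra.Projectivization

variable {F : Type*} [Field F]

theorem exists_graph [Finite F] [CharP F 2] : ∃ θ : MulAut (PSp 2 F), θ * θ = fS 2 F (frobeniusEquiv F 2) ∧
    ∀ hm1, ¬ (pspPol 2 F hm1).TP θ := by
  obtain ⟨t, ht2, htt⟩ := sp4_graph (F := F)
  have hc : (Subgroup.center (Matrix.symplecticGroup (Fin 2) F)).map t.toMonoidHom = Subgroup.center (Matrix.symplecticGroup (Fin 2) F) :=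
    Subgroup.characteristic_iff_map_eq.mp inferInstance t
  refine ⟨QuotientGroup.congr _ _ t hc, ?_, ?_⟩
  · apply autPSp_ext
    intro s
    show (QuotientGroup.mk (t (t s)) : PSp 2 F) = QuotientGroup.mk (fieldSp 2 F (frobeniusEquiv F 2) s)
    congr 1
    apply Subtype.ext
    rw [ht2, coe_fieldSp]
    rfl
  · intro hm1 hTP
    have h2 : (2 : F) = 0 := two_zero F
    have hC := ttype_Sp (F := F) hm1 h2
    have hX : ∀ (e : Fin 2 ⊕ Fin 2 → F) (z : F), (pspPol 2 F hm1).X e 0 z = spT e z := by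
      intro e z
      apply pv_ext
      intro v
      have h3 := hC.Z_act e z v
      have h4 : (pspPol 2 F hm1).act ((pspPol 2 F hm1).X e 0 z) v = pv ((pspPol 2 F hm1).X e 0 z) v := rfl
      rw [← h4, h3]
      unfold pv
      rw [spT_mulVec, mul_comm]
      congr 3
      exact hC.sym e v
    obtain ⟨u0, hu0⟩ : ∃ u0 : Fin 2 ⊕ Fin 2 → F, u0 ≠ 0 := ⟨Pi.single (Sum.inl 0) 1, by simp⟩
    have h1 := hC.Z_ne hu0 (z := 1) one_ne_zero
    rw [hX] at h1
    obtain ⟨e', he', h3⟩ := hTP u0 hu0 _ (hC.mem_Zs'.mpr ⟨1, by rw [hX]⟩) h1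
    obtain ⟨z, hz⟩ := hC.mem_Zs'.mp h3
    rw [hX] at hz
    have h4 : t (spT u0 1) = spT e' z := psp_inj hm1 h2 hz
    apply htt u0 (spT u0 1) hu0
    · intro v
      rw [spT_mulVec, one_mul]
      congr 2
      exact (hC.sym v u0)
    · refine ⟨e', fun v => ?_⟩
      rw [h4, spT_mulVec, add_sub_cancel_left]
      exact Submodule.smul_mem _ _ (Submodule.mem_span_singleton_self _)

theorem two_F2_or {F : Type*} [Field F] [Finite F] : Nat.card F = 2 ∨ ∃ a : F, a ≠ 0 ∧ a ≠ 1 := by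
  haveI := Fintype.ofFinite F
  by_contra hcon
  push Not at hcon
  obtain ⟨h1, h2⟩ := hcon
  apply h1
  rw [Nat.card_eq_fintype_card]
  classical
  have h5 : (Finset.univ : Finset F) = {0, 1} := by
    ext a
    simp only [Finset.mem_univ, Finset.mem_insert, Finset.mem_singleton, true_iff]
    by_cases ha : a = 0
    · exact Or.inl ha
    · exact Or.inr (h2 a ha)
  rw [← Finset.card_univ, h5, Finset.card_pair zero_ne_one]

theorem inn_char_two [Finite F] [CharP F 2] {m : ℕ} (hm : 2 ≤ m) (g : GSp m F) : cS m F g ∈ Inn (PSp m F) := by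
  haveI := Fintype.ofFinite F
  have hm1 : 1 ≤ m := by omega
  rw [cS_mem_Inn_iff hm hm1]
  obtain ⟨c, hc⟩ : IsSquare ((muS hm1 g : Fˣ) : F) := FiniteField.isSquare_of_char_two (ringChar.eq F 2) _
  have hc0 : c ≠ 0 := by
    rintro rfl
    rw [mul_zero] at hc
    exact (muS hm1 g).ne_zero hc
  refine ⟨Units.mk0 c hc0, Units.ext ?_⟩
  rw [hc, powMonoidHom_apply, Units.val_pow_eq_pow_val, Units.val_mk0, pow_two]

theorem tp_gamma [Finite F] [CharP F 2] {m : ℕ} (hm : 2 ≤ m) (hm1 : 1 ≤ m) (g : GSp m F) (σ : F ≃+* F) : (pspPol m F hm1).TP (cS m F g * fS m F σ) := by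
  obtain ⟨y, hy⟩ := inn_char_two hm g
  obtain ⟨y, rfl⟩ := QuotientGroup.mk_surjective y
  obtain ⟨u0, hu0⟩ : ∃ u0 : Fin m ⊕ Fin m → F, u0 ≠ 0 := ⟨Pi.single (Sum.inl ⟨0, by omega⟩) 1, by simp⟩
  have hu0' : svI σ u0 ≠ 0 := by
    intro h
    apply hu0
    rw [← svI_inv' σ u0, h]
    ext i
    simp [svI]
  have hf : fieldSp m F σ (spT u0 1) = spT (svI σ u0) 1 := by
    apply pv_ext
    intro v
    unfold pv
    rw [coe_fieldSp, spT_mulVec]
    conv_lhs => rw [← svI_inv σ v]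
    rw [← svI_mulVec', spT_mulVec, one_mul, one_mul, svI_add, svI_smul, svI_inv, ← sympB_svI, svI_inv]
  apply tp_of_fix hm1 (two_zero F) hu0 (sp_mulVec_ne_zero y hu0') (b := 1)
  rw [← hy]
  show (QuotientGroup.mk y : PSp m F) * QuotientGroup.mk (fieldSp m F σ (spT u0 1)) * (QuotientGroup.mk y)⁻¹ = _
  rw [hf, ← QuotientGroup.mk_mul, ← QuotientGroup.mk_inv, ← QuotientGroup.mk_mul, spT_conj]

theorem tp_form [Finite F] [CharP F 2] (hm1 : 1 ≤ 2) {α : MulAut (PSp 2 F)} (ht : (pspPol 2 F hm1).TP α) :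
    ∃ (g : GSp 2 F) (τ : F ≃+* F), α = cS 2 F g * fS 2 F τ := by
  rcases two_F2_or (F := F) with hF | hF
  · obtain ⟨g, hg⟩ := tp_F2 le_rfl hm1 hF ht
    exact ⟨g, 1, by rw [hg, map_one, mul_one]⟩
  · exact aut_of_tp le_rfl hm1 (fun _ => hF) (two_zero F) ht ht.inv

theorem aut_form [Finite F] [CharP F 2] {θ : MulAut (PSp 2 F)} (hθ : ∀ hm1, ¬ (pspPol 2 F hm1).TP θ) (α : MulAut (PSp 2 F)) :
    ∃ (g : GSp 2 F) (τ : F ≃+* F), α = cS 2 F g * fS 2 F τ ∨ α = θ * (cS 2 F g * fS 2 F τ) := by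
  have hm1 : 1 ≤ 2 := by norm_num
  by_cases ht : (pspPol 2 F hm1).TP α
  · obtain ⟨g, τ, h⟩ := tp_form hm1 ht
    exact ⟨g, τ, Or.inl h⟩
  · have hθ' : ¬ (pspPol 2 F hm1).TP θ⁻¹ := by
      intro h
      apply hθ hm1
      have := h.inv
      rwa [inv_inv] at this
    obtain ⟨g, τ, h⟩ := tp_form hm1 (tp_sq le_rfl hm1 (two_zero F) hθ' ht)
    exact ⟨g, τ, Or.inr (by rw [← h, mul_inv_cancel_left])⟩

theorem card_mulAut_Sp4 [Finite F] [CharP F 2] : Nat.card (MulAut (PSp 2 F)) = 2 * Nat.card (F ≃+* F) * Nat.card (PSp 2 F) := by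
  obtain ⟨θ, hθ2, hθ⟩ := exists_graph (F := F)
  have hm1 : 1 ≤ 2 := by norm_num
  have h1 : Function.Bijective (fun x : Bool × ((cS 2 F).range × (F ≃+* F)) => (if x.1 then θ else 1) * ((x.2.1 : MulAut (PSp 2 F)) * fS 2 F x.2.2)) := by
    constructor
    · rintro ⟨b, ⟨c, hc⟩, τ⟩ ⟨b', ⟨c', hc'⟩, τ'⟩ h
      have h : (if b then θ else 1) * (c * fS 2 F τ) = (if b' then θ else 1) * (c' * fS 2 F τ') := by
        simpa using h
      have hbb : b = b' := by
        obtain ⟨g, rfl⟩ := hc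
        obtain ⟨g', rfl⟩ := hc'
        have t1 := tp_gamma le_rfl hm1 g τ
        have t2 := tp_gamma le_rfl hm1 g' τ'
        rcases b with _ | _ <;> rcases b' with _ | _
        · rfl
        · exfalso
          apply hθ hm1
          have h3 : θ = (cS 2 F g * fS 2 F τ) * (cS 2 F g' * fS 2 F τ')⁻¹ := by
            rw [eq_mul_inv_iff_mul_eq]
            simpa using h.symm
          rw [h3]
          exact t1.mul t2.inv
        · exfalso
          apply hθ hm1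
          have h3 : θ = (cS 2 F g' * fS 2 F τ') * (cS 2 F g * fS 2 F τ)⁻¹ := by
            rw [eq_mul_inv_iff_mul_eq]
            simpa using h
          rw [h3]
          exact t2.mul t1.inv
        · rfl
      subst hbb
      have h4 := mul_left_cancel h
      obtain ⟨h5, h6⟩ := cS_fS_inj le_rfl (c := ⟨c, hc⟩) (c' := ⟨c', hc'⟩) h4
      rw [h5, h6]
    · intro α
      obtain ⟨g, τ, h | h⟩ := aut_form hθ α
      · exact ⟨⟨false, ⟨cS 2 F g, g, rfl⟩, τ⟩, by simp [h]⟩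
      · exact ⟨⟨true, ⟨cS 2 F g, g, rfl⟩, τ⟩, by simp [h]⟩
  have h2 : (cS 2 F).range = Inn (PSp 2 F) := by
    apply le_antisymm
    · rintro _ ⟨g, rfl⟩
      exact inn_char_two le_rfl g
    · exact Inn_le_rangeSp
  rw [← Nat.card_congr (Equiv.ofBijective _ h1), Nat.card_prod, Nat.card_prod, h2, card_Inn_PSp le_rfl, Nat.card_eq_fintype_card, Fintype.card_bool]
  ring

end Cfsg.Agent.H17
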