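import Mathlib
import Cfsg.Agent.H17.SpAdj
import Cfsg.Agent.H17.ClassSplit

set_option autoImplicit false

/-! Regular unipotent elements of symplectic groups in odd characteristic. -/

namespace Cfsg.Agent.H17

open Module
open scoped MatrixGroups Matrix

variable {F : Type*} [Field F] {m : ℕ}

/-- pairs (similarity, multiplier) -/
def GSpP (m : ℕ) (F : Type*) [Field F] : Subgroup (GL (Fin m ⊕ Fin m) F × Fˣ) where
  carrier := {x | sJ (x.1 : Matrix (Fin m ⊕ Fin m) (Fin m ⊕ Fin m) F) * x.1 = Matrix.scalar (Fin m ⊕ Fin m) (x.2 : F)}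
  one_mem' := by
    show sJ ((1 : GL (Fin m ⊕ Fin m) F) : Matrix (Fin m ⊕ Fin m) (Fin m ⊕ Fin m) F) * ((1 : GL (Fin m ⊕ Fin m) F) : Matrix (Fin m ⊕ Fin m) (Fin m ⊕ Fin m) F) = Matrix.scalar (Fin m ⊕ Fin m) (((1 : Fˣ) : F))
    rw [Units.val_one, Units.val_one, sJ_AI.one, mul_one, map_one]
  mul_mem' := by
    rintro ⟨a, c⟩ ⟨b, d⟩ h1 h2
    have h1' : sJ (a : Matrix (Fin m ⊕ Fin m) (Fin m ⊕ Fin m) F) * a = Matrix.scalar (Fin m ⊕ Fin m) (c : F) := h1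
    have h2' : sJ (b : Matrix (Fin m ⊕ Fin m) (Fin m ⊕ Fin m) F) * b = Matrix.scalar (Fin m ⊕ Fin m) (d : F) := h2
    show sJ ((a * b : GL (Fin m ⊕ Fin m) F) : Matrix (Fin m ⊕ Fin m) (Fin m ⊕ Fin m) F) * ((a * b : GL (Fin m ⊕ Fin m) F) : Matrix (Fin m ⊕ Fin m) (Fin m ⊕ Fin m) F) = Matrix.scalar (Fin m ⊕ Fin m) (((c * d : Fˣ) : F))
    rw [Units.val_mul, sJ_AI.mul, mul_assoc, ← mul_assoc (sJ (a : Matrix (Fin m ⊕ Fin m) (Fin m ⊕ Fin m) F)), h1', (Matrix.scalar_commute (c : F) (fun r => mul_comm _ _) (b : Matrix (Fin m ⊕ Fin m) (Fin m ⊕ Fin m) F)).eq,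
      ← mul_assoc, h2', ← map_mul, Units.val_mul, mul_comm]
  inv_mem' := by
    rintro ⟨a, c⟩ h1
    have h1' : sJ (a : Matrix (Fin m ⊕ Fin m) (Fin m ⊕ Fin m) F) * a = Matrix.scalar (Fin m ⊕ Fin m) (c : F) := h1
    show sJ ((a⁻¹ : GL (Fin m ⊕ Fin m) F) : Matrix (Fin m ⊕ Fin m) (Fin m ⊕ Fin m) F) * ((a⁻¹ : GL (Fin m ⊕ Fin m) F) : Matrix (Fin m ⊕ Fin m) (Fin m ⊕ Fin m) F) = Matrix.scalar (Fin m ⊕ Fin m) (((c⁻¹ : Fˣ) : F))
    have h2 : (a : Matrix (Fin m ⊕ Fin m) (Fin m ⊕ Fin m) F) * ((a⁻¹ : GL (Fin m ⊕ Fin m) F) : Matrix (Fin m ⊕ Fin m) (Fin m ⊕ Fin m) F) = 1 := Units.mul_inv a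
    have h3 : sJ ((a⁻¹ : GL (Fin m ⊕ Fin m) F) : Matrix (Fin m ⊕ Fin m) (Fin m ⊕ Fin m) F) * sJ (a : Matrix (Fin m ⊕ Fin m) (Fin m ⊕ Fin m) F) = 1 := by
      rw [← sJ_AI.mul, h2, sJ_AI.one]
    have h4 : sJ ((a⁻¹ : GL (Fin m ⊕ Fin m) F) : Matrix (Fin m ⊕ Fin m) (Fin m ⊕ Fin m) F) * Matrix.scalar (Fin m ⊕ Fin m) (c : F) * ((a⁻¹ : GL (Fin m ⊕ Fin m) F) : Matrix (Fin m ⊕ Fin m) (Fin m ⊕ Fin m) F) = 1 := by
      rw [← h1', ← mul_assoc, h3, one_mul, h2]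
    rw [(Matrix.scalar_commute (c : F) (fun r => mul_comm _ _) (sJ ((a⁻¹ : GL (Fin m ⊕ Fin m) F) : Matrix (Fin m ⊕ Fin m) (Fin m ⊕ Fin m) F))).symm.eq, mul_assoc] at h4
    calc sJ ((a⁻¹ : GL (Fin m ⊕ Fin m) F) : Matrix (Fin m ⊕ Fin m) (Fin m ⊕ Fin m) F) * ((a⁻¹ : GL (Fin m ⊕ Fin m) F) : Matrix (Fin m ⊕ Fin m) (Fin m ⊕ Fin m) F)
        = Matrix.scalar (Fin m ⊕ Fin m) (((c⁻¹ : Fˣ) : F)) * (Matrix.scalar (Fin m ⊕ Fin m) (c : F) * (sJ ((a⁻¹ : GL (Fin m ⊕ Fin m) F) : Matrix (Fin m ⊕ Fin m) (Fin m ⊕ Fin m) F) * ((a⁻¹ : GL (Fin m ⊕ Fin m) F) : Matrix (Fin m ⊕ Fin m) (Fin m ⊕ Fin m) F))) := by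
          rw [← mul_assoc, ← map_mul, Units.inv_mul, map_one, one_mul]
      _ = _ := by rw [h4, mul_one]

theorem mem_GSpP {x : GL (Fin m ⊕ Fin m) F × Fˣ} : x ∈ GSpP m F ↔ sJ (x.1 : Matrix (Fin m ⊕ Fin m) (Fin m ⊕ Fin m) F) * x.1 = Matrix.scalar (Fin m ⊕ Fin m) (x.2 : F) := Iff.rfl

/-- regular unipotent matrices -/
def RU (A : Matrix (Fin m ⊕ Fin m) (Fin m ⊕ Fin m) F) : Prop := (A - 1) ^ (2 * m) = 0 ∧ (A - 1).rank = 2 * m - 1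

theorem card_mm : Fintype.card (Fin m ⊕ Fin m) = 2 * m := by rw [Fintype.card_sum, Fintype.card_fin]; ring

theorem RU.conj {A : GL (Fin m ⊕ Fin m) F} (h : RU (A : Matrix (Fin m ⊕ Fin m) (Fin m ⊕ Fin m) F)) (c : GL (Fin m ⊕ Fin m) F) :
    RU ((c * A * c⁻¹ : GL (Fin m ⊕ Fin m) F) : Matrix (Fin m ⊕ Fin m) (Fin m ⊕ Fin m) F) := by
  have e1 : ((c * A * c⁻¹ : GL (Fin m ⊕ Fin m) F) : Matrix (Fin m ⊕ Fin m) (Fin m ⊕ Fin m) F) - 1 = (c : Matrix (Fin m ⊕ Fin m) (Fin m ⊕ Fin m) F) * ((A : Matrix (Fin m ⊕ Fin m) (Fin m ⊕ Fin m) F) - 1) * ((c⁻¹ : GL (Fin m ⊕ Fin m) F) : Matrix (Fin m ⊕ Fin m) (Fin m ⊕ Fin m) F) := by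
    rw [Units.val_mul, Units.val_mul, mul_sub, sub_mul, mul_one, ← Units.val_mul c c⁻¹, mul_inv_cancel, Units.val_one]
  unfold RU
  rw [e1]
  refine ⟨?_, ?_⟩
  · rw [Units.conj_pow, h.1, mul_zero, zero_mul]
  · rw [Matrix.rank_mul_eq_left_of_isUnit_det _ _ ((Matrix.isUnit_iff_isUnit_det _).mp (c⁻¹).isUnit), Matrix.rank_mul_eq_right_of_isUnit_det _ _ ((Matrix.isUnit_iff_isUnit_det _).mp c.isUnit), h.2]

/-- an invertible self-adjoint element commuting with a regular unipotent is a scalar times a square -/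
theorem ru_sqrt {p : ℕ} [Fact p.Prime] [CharP F p] (hp : p ≠ 2) (hm : 1 ≤ m) {A : Matrix (Fin m ⊕ Fin m) (Fin m ⊕ Fin m) F} (hA : RU A)
    {P : Matrix (Fin m ⊕ Fin m) (Fin m ⊕ Fin m) F} (hP : P * A = A * P) (hPu : IsUnit P) :
    ∃ (c : F) (k : ℕ), c ≠ 0 ∧ IsNilpotent (P - Matrix.scalar (Fin m ⊕ Fin m) c) ∧ ((c⁻¹ • P) ^ k) ^ 2 = c⁻¹ • P := by
  obtain ⟨c, hc⟩ := reg_comm (card_mm (m := m)) (by omega) hA.1 hA.2 (C := P) (by rw [mul_sub, sub_mul, hP, mul_one, one_mul])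
  have hc0 : c ≠ 0 := by
    rintro rfl
    have h1 : P.det = 0 := by rw [det_of_nilp hc, card_mm, zero_pow (by omega)]
    exact ((Matrix.isUnit_iff_isUnit_det P).mp hPu).ne_zero h1
  have h1 : IsNilpotent (c⁻¹ • P - 1) := by
    have : c⁻¹ • P - 1 = c⁻¹ • (P - Matrix.scalar (Fin m ⊕ Fin m) c) := by
      rw [smul_sub]
      congr 1
      ext i j
      rw [Matrix.smul_apply, Matrix.scalar_apply, Matrix.one_apply, Matrix.diagonal_apply, smul_eq_mul]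
      split_ifs
      · rw [inv_mul_cancel₀ hc0]
      · rw [mul_zero]
    rw [this]
    exact hc.smul _
  obtain ⟨k, hk⟩ := unip_sqrt (F := F) p hp h1
  exact ⟨c, k, hc0, hc, hk⟩

theorem scalar_eq_smul (c : F) : Matrix.scalar (Fin m ⊕ Fin m) c = c • (1 : Matrix (Fin m ⊕ Fin m) (Fin m ⊕ Fin m) F) := by
  ext i j
  rw [Matrix.smul_apply, Matrix.scalar_apply, Matrix.one_apply, Matrix.diagonal_apply, smul_eq_mul]
  split_ifs
  · rw [mul_one]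
  · rw [mul_zero]

theorem sJ_smul (c : F) (X : Matrix (Fin m ⊕ Fin m) (Fin m ⊕ Fin m) F) : sJ (c • X) = c • sJ X := by
  unfold sJ
  rw [Matrix.transpose_smul, Matrix.mul_smul, Matrix.smul_mul, smul_neg]

/-- two regular unipotent elements of `Sp` are conjugate under a similarity -/
theorem ru_conj {p : ℕ} [Fact p.Prime] [CharP F p] (hp : p ≠ 2) (hm : 1 ≤ m) {A B : GL (Fin m ⊕ Fin m) F}
    (hA : RU (A : Matrix (Fin m ⊕ Fin m) (Fin m ⊕ Fin m) F)) (hB : RU (B : Matrix (Fin m ⊕ Fin m) (Fin m ⊕ Fin m) F))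
    (hA1 : sJ (A : Matrix (Fin m ⊕ Fin m) (Fin m ⊕ Fin m) F) * A = 1) (hB1 : sJ (B : Matrix (Fin m ⊕ Fin m) (Fin m ⊕ Fin m) F) * B = 1) :
    ∃ x ∈ GSpP m F, x.1 * A * x.1⁻¹ = B := by
  obtain ⟨g, hg⟩ := reg_similar (card_mm (m := m)) hA.1 hA.2 hB.1 hB.2
  have hg' : (g : Matrix (Fin m ⊕ Fin m) (Fin m ⊕ Fin m) F) * A = B * g := by
    rw [mul_sub, sub_mul, mul_one, one_mul] at hg
    exact sub_left_inj.mp hg
  set a : Matrix (Fin m ⊕ Fin m) (Fin m ⊕ Fin m) F := A.1 with ha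
  set b : Matrix (Fin m ⊕ Fin m) (Fin m ⊕ Fin m) F := B.1 with hb
  set γ : Matrix (Fin m ⊕ Fin m) (Fin m ⊕ Fin m) F := g.1 with hγ
  have ha2 : a * sJ a = 1 := mul_eq_one_comm.mp hA1
  have hb2 : b * sJ b = 1 := mul_eq_one_comm.mp hB1
  have h1 : sJ a * sJ γ = sJ γ * sJ b := by rw [← sJ_AI.mul, ← sJ_AI.mul, hg']
  have h2 : sJ γ * b = a * sJ γ := by
    calc sJ γ * b = (a * sJ a) * sJ γ * b := by rw [ha2, one_mul]
      _ = a * (sJ γ * sJ b) * b := by rw [mul_assoc a, h1]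
      _ = a * sJ γ := by rw [mul_assoc, mul_assoc, hB1, mul_one]
  set P : Matrix (Fin m ⊕ Fin m) (Fin m ⊕ Fin m) F := sJ γ * γ with hPdef
  have hPA : P * a = a * P := by
    rw [hPdef, mul_assoc, hg', ← mul_assoc, h2, mul_assoc]
  have hPs : sJ P = P := by rw [hPdef, sJ_AI.mul, sJ_AI.inv]
  have hPu : IsUnit P := ((sJ_AI.u g).isUnit).mul g.isUnit
  obtain ⟨c, k, hc0, -, hk⟩ := ru_sqrt hp hm hA hPA hPu
  set β : Matrix (Fin m ⊕ Fin m) (Fin m ⊕ Fin m) F := (c⁻¹ • P) ^ k with hβ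
  have hβu : IsUnit β := by
    have h3 : IsUnit (c⁻¹ • P) := hPu.smul (Units.mk0 c⁻¹ (inv_ne_zero hc0))
    exact h3.pow k
  obtain ⟨β', hβ'⟩ := hβu
  have hβs : sJ β = β := by rw [hβ, sJ_pow, sJ_smul, hPs]
  have hβa : β * a = a * β := by
    have h3 : Commute (c⁻¹ • P) a := by
      show (c⁻¹ • P) * a = a * (c⁻¹ • P)
      rw [smul_mul_assoc, mul_smul_comm, hPA]
    exact (h3.pow_left k).eq
  have hβP : β * P = P * β := by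
    have h3 : Commute (c⁻¹ • P) P := by
      show (c⁻¹ • P) * P = P * (c⁻¹ • P)
      rw [smul_mul_assoc, mul_smul_comm]
    exact (h3.pow_left k).eq
  have hββ : β * β = c⁻¹ • P := by rw [← pow_two, hk]
  -- the inverse of β
  set ν : Matrix (Fin m ⊕ Fin m) (Fin m ⊕ Fin m) F := ((β'⁻¹ : GL (Fin m ⊕ Fin m) F) : Matrix (Fin m ⊕ Fin m) (Fin m ⊕ Fin m) F) with hν
  have hν1 : ν * β = 1 := by rw [← hβ']; exact Units.inv_mul β'
  have hν2 : β * ν = 1 := by rw [← hβ']; exact Units.mul_inv β'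
  have hνs : sJ ν = ν := by
    have h3 : sJ ν * β = 1 := by
      rw [← hβs, ← sJ_AI.mul, hν2, sJ_AI.one]
    calc sJ ν = sJ ν * (β * ν) := by rw [hν2, mul_one]
      _ = ν := by rw [← mul_assoc, h3, one_mul]
  refine ⟨⟨g * β'⁻¹, Units.mk0 c hc0⟩, ?_, ?_⟩
  · rw [mem_GSpP]
    show sJ (γ * ν) * (γ * ν) = Matrix.scalar (Fin m ⊕ Fin m) c
    rw [sJ_AI.mul, hνs, mul_assoc, ← mul_assoc (sJ γ), ← hPdef]
    have h3 : P = c • (β * β) := by rw [hββ, smul_smul, mul_inv_cancel₀ hc0, one_smul]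
    rw [h3, smul_mul_assoc, mul_smul_comm, mul_assoc, hν2, mul_one, hν1, scalar_eq_smul]
  · apply Units.ext
    show γ * ν * a * ((((g * β'⁻¹)⁻¹ : GL (Fin m ⊕ Fin m) F)) : Matrix (Fin m ⊕ Fin m) (Fin m ⊕ Fin m) F) = b
    have h4 : ν * a = a * ν := by
      calc ν * a = ν * a * (β * ν) := by rw [hν2, mul_one]
        _ = ν * (a * β) * ν := by simp only [mul_assoc]
        _ = ν * (β * a) * ν := by rw [hβa]
        _ = a * ν := by rw [← mul_assoc, hν1, one_mul]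
    rw [mul_inv_rev, inv_inv, Units.val_mul]
    have h5 : ((β' : GL (Fin m ⊕ Fin m) F) : Matrix (Fin m ⊕ Fin m) (Fin m ⊕ Fin m) F) = β := hβ'
    have h6 : γ * ((g⁻¹ : GL (Fin m ⊕ Fin m) F) : Matrix (Fin m ⊕ Fin m) (Fin m ⊕ Fin m) F) = 1 := Units.mul_inv g
    rw [h5]
    calc γ * ν * a * (β * ((g⁻¹ : GL (Fin m ⊕ Fin m) F) : Matrix (Fin m ⊕ Fin m) (Fin m ⊕ Fin m) F)) = γ * (ν * a) * β * ((g⁻¹ : GL (Fin m ⊕ Fin m) F) : Matrix (Fin m ⊕ Fin m) (Fin m ⊕ Fin m) F) := by simp only [mul_assoc]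
      _ = γ * a * (ν * β) * ((g⁻¹ : GL (Fin m ⊕ Fin m) F) : Matrix (Fin m ⊕ Fin m) (Fin m ⊕ Fin m) F) := by rw [h4]; simp only [mul_assoc]
      _ = b * (γ * ((g⁻¹ : GL (Fin m ⊕ Fin m) F) : Matrix (Fin m ⊕ Fin m) (Fin m ⊕ Fin m) F)) := by rw [hν1, mul_one, hg', mul_assoc]
      _ = b := by rw [h6, mul_one]

/-- multipliers of similarities commuting with a regular unipotent are squares -/
theorem ru_mult_sq (hm : 1 ≤ m) {A : Matrix (Fin m ⊕ Fin m) (Fin m ⊕ Fin m) F} (hA : RU A)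
    {f : GL (Fin m ⊕ Fin m) F} (hf : (f : Matrix (Fin m ⊕ Fin m) (Fin m ⊕ Fin m) F) * A = A * f) {c : F}
    (hfc : sJ (f : Matrix (Fin m ⊕ Fin m) (Fin m ⊕ Fin m) F) * f = Matrix.scalar (Fin m ⊕ Fin m) c) : ∃ d : F, c = d * d := by
  set φ : Matrix (Fin m ⊕ Fin m) (Fin m ⊕ Fin m) F := f.1 with hφ
  obtain ⟨d, hd⟩ := reg_comm (card_mm (m := m)) (by omega) hA.1 hA.2 (C := φ) (by rw [mul_sub, sub_mul, hf, mul_one, one_mul])
  refine ⟨d, ?_⟩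
  haveI : Nonempty (Fin m ⊕ Fin m) := ⟨Sum.inl ⟨0, hm⟩⟩
  have hf2 : φ * sJ φ = Matrix.scalar (Fin m ⊕ Fin m) c := by
    -- `sJ φ` is `c φ⁻¹`
    set ψ : Matrix (Fin m ⊕ Fin m) (Fin m ⊕ Fin m) F := ((f⁻¹ : GL (Fin m ⊕ Fin m) F) : Matrix (Fin m ⊕ Fin m) (Fin m ⊕ Fin m) F) with hψ
    have h1 : φ * ψ = 1 := Units.mul_inv f
    have h2 : sJ φ = Matrix.scalar (Fin m ⊕ Fin m) c * ψ := by rw [← hfc, mul_assoc, h1, mul_one]
    rw [h2, (Matrix.scalar_commute c (fun r => mul_comm _ _) ψ).eq, ← mul_assoc, h1, one_mul]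
  have hsd : IsNilpotent (sJ φ - Matrix.scalar (Fin m ⊕ Fin m) d) := by
    obtain ⟨k, hk⟩ := hd
    refine ⟨k, ?_⟩
    have e1 : sJ φ - Matrix.scalar (Fin m ⊕ Fin m) d = sJ (φ - Matrix.scalar (Fin m ⊕ Fin m) d) := by rw [sJ_sub, sJ_scalar]
    rw [e1, ← sJ_pow, hk]
    unfold sJ
    rw [Matrix.transpose_zero]; simp
  have c2 : ∀ (a : F) (X : Matrix (Fin m ⊕ Fin m) (Fin m ⊕ Fin m) F), Commute (Matrix.scalar (Fin m ⊕ Fin m) a) X := fun a X => Matrix.scalar_commute a (fun r => mul_comm _ _) X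
  have c1 : Commute (sJ φ) φ := by
    show sJ φ * φ = φ * sJ φ
    rw [hfc, hf2]
  have h3 : IsNilpotent (Matrix.scalar (Fin m ⊕ Fin m) (c - d * d)) := by
    have e1 : Matrix.scalar (Fin m ⊕ Fin m) (c - d * d) = (sJ φ) * (φ - Matrix.scalar (Fin m ⊕ Fin m) d) + (sJ φ - Matrix.scalar (Fin m ⊕ Fin m) d) * Matrix.scalar (Fin m ⊕ Fin m) d := by
      rw [map_sub, map_mul, ← hfc, mul_sub, sub_mul]; abel
    rw [e1]
    have hn1 : IsNilpotent ((sJ φ) * (φ - Matrix.scalar (Fin m ⊕ Fin m) d)) := Commute.isNilpotent_mul_left (c1.sub_right (c2 _ _).symm) hd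
    have hn2 : IsNilpotent ((sJ φ - Matrix.scalar (Fin m ⊕ Fin m) d) * Matrix.scalar (Fin m ⊕ Fin m) d) := Commute.isNilpotent_mul_right (c2 _ _).symm hsd
    refine Commute.isNilpotent_add ?_ hn1 hn2
    have h5 : Commute (sJ φ * (φ - Matrix.scalar (Fin m ⊕ Fin m) d)) (sJ φ - Matrix.scalar (Fin m ⊕ Fin m) d) := by
      apply Commute.mul_left
      · exact (Commute.refl _).sub_right (c2 _ _).symm
      · exact (c1.symm.sub_left (c2 _ _)).sub_right (c2 _ _).symm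
    exact h5.mul_right (c2 _ _).symm
  exact sub_eq_zero.mp (scalar_nilp h3)

end Cfsg.Agent.H17
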