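import Mathlib
import Cfsg.Agent.H17.SpReg

set_option autoImplicit false

/-! The centralizer of a regular unipotent element of a symplectic group in odd characteristic. -/

namespace Cfsg.Agent.H17

open Module
open scoped MatrixGroups Matrix

section count

variable {F : Type*} [Field F] [Finite F] {W : Type*} [AddCommGroup W] [Module F W] [FiniteDimensional F W]

/-- number of vectors outside the kernel of a nonzero functional -/
theorem card_ne_zero (χ : W →ₗ[F] F) {x₀ : W} (hx₀ : χ x₀ ≠ 0) {d : ℕ} (hd : finrank F W = d + 1) {q : ℕ} (hq : Nat.card F = q) :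
    Nat.card {x : W // χ x ≠ 0} = (q - 1) * q ^ d := by
  classical
  haveI : Finite W := Module.finite_of_finite F
  letI : Fintype W := Fintype.ofFinite W
  have h1 : Nat.card W = q ^ (d + 1) := by rw [← hq, ← hd]; exact Module.natCard_eq_pow_finrank
  have hk : finrank F (LinearMap.ker χ) = d := by
    have h2 := LinearMap.finrank_range_add_finrank_ker χ
    have h3 : LinearMap.range χ = ⊤ := by
      rw [LinearMap.range_eq_top]
      intro a
      refine ⟨(a / χ x₀) • x₀, ?_⟩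
      rw [map_smul, smul_eq_mul, div_mul_cancel₀ _ hx₀]
    rw [h3, finrank_top, finrank_self, hd] at h2
    omega
  have h2 : Nat.card (LinearMap.ker χ) = q ^ d := by rw [← hq, ← hk]; exact Module.natCard_eq_pow_finrank
  have h3 : Nat.card {x : W // χ x = 0} + Nat.card {x : W // χ x ≠ 0} = Nat.card W := by
    rw [Nat.card_eq_fintype_card, Nat.card_eq_fintype_card, Nat.card_eq_fintype_card]
    have h5 : Fintype.card {x : W // χ x ≠ 0} = Fintype.card W - Fintype.card {x : W // χ x = 0} := Fintype.card_subtype_compl (fun x : W => χ x = 0)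
    have h4 := Fintype.card_subtype_le (fun x : W => χ x = 0)
    omega
  have h4 : Nat.card {x : W // χ x = 0} = q ^ d := by
    rw [← h2]
    exact Nat.card_congr (Equiv.subtypeEquivRight fun x => LinearMap.mem_ker.symm)
  rw [h1, h4, pow_succ] at h3
  rw [Nat.sub_mul, one_mul, mul_comm q]
  omega

end count

section main

variable {F : Type*} [Field F] {m : ℕ}

local notation "𝕄" => Matrix (Fin m ⊕ Fin m) (Fin m ⊕ Fin m) F

/-- the commutant -/
def comA (a : Matrix (Fin m ⊕ Fin m) (Fin m ⊕ Fin m) F) : Submodule F (Matrix (Fin m ⊕ Fin m) (Fin m ⊕ Fin m) F) where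
  carrier := {X | X * a = a * X}
  add_mem' := fun {x y} hx hy => by
    show (x + y) * a = a * (x + y)
    rw [add_mul, mul_add, hx, hy]
  zero_mem' := by
    show (0 : Matrix (Fin m ⊕ Fin m) (Fin m ⊕ Fin m) F) * a = a * 0
    rw [zero_mul, mul_zero]
  smul_mem' := fun c x hx => by
    show (c • x) * a = a * (c • x)
    rw [smul_mul_assoc, mul_smul_comm, hx]

theorem mem_comA {a X : Matrix (Fin m ⊕ Fin m) (Fin m ⊕ Fin m) F} : X ∈ comA a ↔ X * a = a * X := Iff.rfl

/-- eigen-submodules of the adjoint -/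
def symA (a : Matrix (Fin m ⊕ Fin m) (Fin m ⊕ Fin m) F) (ε : F) : Submodule F (Matrix (Fin m ⊕ Fin m) (Fin m ⊕ Fin m) F) where
  carrier := {X | X * a = a * X ∧ sJ X = ε • X}
  add_mem' := fun {x y} hx hy => by
    refine ⟨(comA a).add_mem hx.1 hy.1, ?_⟩
    rw [sJ_AI.add, hx.2, hy.2, smul_add]
  zero_mem' := by
    refine ⟨(comA a).zero_mem, ?_⟩
    unfold sJ
    rw [Matrix.transpose_zero]; simp
  smul_mem' := fun c x hx => by
    refine ⟨(comA a).smul_mem c hx.1, ?_⟩
    rw [sJ_smul, hx.2, smul_comm]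

theorem mem_symA {a X : Matrix (Fin m ⊕ Fin m) (Fin m ⊕ Fin m) F} {ε : F} : X ∈ symA a ε ↔ X * a = a * X ∧ sJ X = ε • X := Iff.rfl

theorem symA_le {a : Matrix (Fin m ⊕ Fin m) (Fin m ⊕ Fin m) F} {ε : F} : symA a ε ≤ comA a := fun _ h => h.1

theorem finrank_comA (hm : 1 ≤ m) {a : Matrix (Fin m ⊕ Fin m) (Fin m ⊕ Fin m) F} (ha : RU a) : finrank F (comA a) = 2 * m := by
  obtain ⟨v, hv⟩ := reg_cyclic (card_mm (m := m)) (by omega) ha.1 ha.2
  have hb := commutant_bijective (Matrix.toLin' (a - 1)) (n := 2 * m) (by omega) (by rw [Module.finrank_fintype_fun_eq_card, card_mm]) (by rw [← Matrix.toLin'_pow, ha.1, map_zero]) v hv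
  have hcomm : ∀ X : Matrix (Fin m ⊕ Fin m) (Fin m ⊕ Fin m) F, X ∈ comA a ↔ Commute (Matrix.toLin' X) (Matrix.toLin' (a - 1)) := by
    intro X
    rw [mem_comA]
    have h1 : Commute (Matrix.toLin' X) (Matrix.toLin' (a - 1)) ↔ X * (a - 1) = (a - 1) * X := by
      show Matrix.toLin' X ∘ₗ Matrix.toLin' (a - 1) = Matrix.toLin' (a - 1) ∘ₗ Matrix.toLin' X ↔ _
      rw [← Matrix.toLin'_mul, ← Matrix.toLin'_mul]
      exact Matrix.toLin'.injective.eq_iff
    rw [h1, mul_sub, sub_mul, mul_one, one_mul, sub_left_inj]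
  let E : comA a →ₗ[F] (Fin m ⊕ Fin m → F) :=
    { toFun := fun X => X.1 *ᵥ v
      map_add' := fun X Y => Matrix.add_mulVec _ _ _
      map_smul' := fun c X => Matrix.smul_mulVec _ _ _ }
  have hE : Function.Bijective E := by
    constructor
    · intro X Y h
      have h1 : (⟨Matrix.toLin' X.1, (hcomm _).mp X.2⟩ : {T : (Fin m ⊕ Fin m → F) →ₗ[F] (Fin m ⊕ Fin m → F) // Commute T (Matrix.toLin' (a - 1))}) = ⟨Matrix.toLin' Y.1, (hcomm _).mp Y.2⟩ := by
        apply hb.1
        show Matrix.toLin' X.1 v = Matrix.toLin' Y.1 v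
        rw [Matrix.toLin'_apply, Matrix.toLin'_apply]
        exact h
      exact Subtype.ext (Matrix.toLin'.injective (congrArg Subtype.val h1))
    · intro w
      obtain ⟨T, hT⟩ := hb.2 w
      refine ⟨⟨LinearMap.toMatrix' T.1, (hcomm _).mpr (by rw [Matrix.toLin'_toMatrix']; exact T.2)⟩, ?_⟩
      show LinearMap.toMatrix' T.1 *ᵥ v = w
      rw [← Matrix.toLin'_apply, Matrix.toLin'_toMatrix']
      exact hT
  rw [(LinearEquiv.ofBijective E hE).finrank_eq, Module.finrank_fintype_fun_eq_card, card_mm]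

/-- elements of the commutant killed by `a - 1` are multiples of the top power -/
theorem comA_ker (hm : 1 ≤ m) {a : Matrix (Fin m ⊕ Fin m) (Fin m ⊕ Fin m) F} (ha : RU a) {X : Matrix (Fin m ⊕ Fin m) (Fin m ⊕ Fin m) F} (hX : X ∈ comA a)
    (h0 : (a - 1) * X = 0) : ∃ c : F, X = c • (a - 1) ^ (2 * m - 1) := by
  have hX' : X * (a - 1) = (a - 1) * X := by rw [mul_sub, sub_mul, mem_comA.mp hX, mul_one, one_mul]
  obtain ⟨c, hc⟩ := reg_comm_sum (card_mm (m := m)) (by omega) ha.1 ha.2 hX'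
  obtain ⟨v, hv⟩ := reg_cyclic (card_mm (m := m)) (by omega) ha.1 ha.2
  have hli := linearIndependent_pow_apply (Matrix.toLin' (a - 1)) (n := 2 * m) (by rw [← Matrix.toLin'_pow, ha.1, map_zero]) v hv
  obtain ⟨k, hk⟩ : ∃ k, 2 * m = k + 1 := ⟨2 * m - 1, by omega⟩
  -- `0 = ∑ c i M^(i+1) v`
  have h1 : ∑ i : Fin (2 * m), c i • ((Matrix.toLin' (a - 1)) ^ ((i : ℕ) + 1)) v = 0 := by
    have h2 : ∑ i : Fin (2 * m), c i • (a - 1) ^ ((i : ℕ) + 1) = 0 := by
      rw [← h0, hc, Finset.mul_sum]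
      exact Finset.sum_congr rfl fun i _ => by rw [mul_smul_comm, pow_succ']
    have h3 := congrArg (fun Y => Matrix.toLin' Y v) h2
    simp only [map_sum, map_smul, LinearMap.sum_apply, LinearMap.smul_apply, map_zero, LinearMap.zero_apply, Matrix.toLin'_pow] at h3
    exact h3
  have hc0 : ∀ i : Fin (2 * m), (i : ℕ) + 1 < 2 * m → c i = 0 := by
    rw [Fintype.linearIndependent_iff] at hli
    let d : Fin (2 * m) → F := fun j => if h : (j : ℕ) = 0 then 0 else c ⟨(j : ℕ) - 1, by omega⟩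
    have hd : ∑ j : Fin (2 * m), d j • ((Matrix.toLin' (a - 1)) ^ (j : ℕ)) v = 0 := by
      revert h1
      have : ∀ (n k : ℕ) (hk : n = k + 1) (c : Fin n → F) (f : ℕ → (Fin m ⊕ Fin m → F)) (_ : f n = 0), ∑ i : Fin n, c i • f ((i : ℕ) + 1) = 0 →
          ∑ j : Fin n, (if h : (j : ℕ) = 0 then (0 : F) else c ⟨(j : ℕ) - 1, by omega⟩) • f j = 0 := by
        intro n k hk c f hf h
        subst hk
        rw [Fin.sum_univ_castSucc] at h
        rw [Fin.sum_univ_succ]
        rw [Fin.val_last, hf, smul_zero, add_zero] at h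
        rw [dif_pos (by rfl), zero_smul, zero_add, ← h]
        refine Finset.sum_congr rfl fun i _ => ?_
        rw [dif_neg (by rw [Fin.val_succ]; omega)]
        rfl
      exact this (2 * m) k hk c (fun i => ((Matrix.toLin' (a - 1)) ^ i) v) (by
        show ((Matrix.toLin' (a - 1)) ^ (2 * m)) v = 0
        rw [← Matrix.toLin'_pow, ha.1, map_zero, LinearMap.zero_apply])
    intro i hi
    have h2 := hli d hd ⟨(i : ℕ) + 1, hi⟩
    simpa [d] using h2
  refine ⟨c ⟨2 * m - 1, by omega⟩, ?_⟩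
  conv_lhs => rw [hc]
  rw [Finset.sum_eq_single (⟨2 * m - 1, by omega⟩ : Fin (2 * m))]
  · intro i _ hi
    rw [hc0 i, zero_smul]
    have h3 : (i : ℕ) ≠ 2 * m - 1 := fun h => hi (Fin.ext h)
    have := i.2
    omega
  · intro h
    exact absurd (Finset.mem_univ _) h

theorem comA_comm (hm : 1 ≤ m) {a : Matrix (Fin m ⊕ Fin m) (Fin m ⊕ Fin m) F} (ha : RU a) {X Y : Matrix (Fin m ⊕ Fin m) (Fin m ⊕ Fin m) F} (hX : X ∈ comA a) (hY : Y ∈ comA a) :
    X * Y = Y * X := by
  have hX' : X * (a - 1) = (a - 1) * X := by rw [mul_sub, sub_mul, mem_comA.mp hX, mul_one, one_mul]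
  have hY' : Y * (a - 1) = (a - 1) * Y := by rw [mul_sub, sub_mul, mem_comA.mp hY, mul_one, one_mul]
  obtain ⟨c, rfl⟩ := reg_comm_sum (card_mm (m := m)) (by omega) ha.1 ha.2 hX'
  have h1 : Commute (∑ i : Fin (2 * m), c i • (a - 1) ^ (i : ℕ)) Y :=
    Commute.sum_left _ _ _ fun i _ => ((show Commute (a - 1) Y from hY'.symm).pow_left _).smul_left _
  exact h1.eq

theorem sJ_comA {a : Matrix (Fin m ⊕ Fin m) (Fin m ⊕ Fin m) F} (ha1 : sJ a * a = 1) {X : Matrix (Fin m ⊕ Fin m) (Fin m ⊕ Fin m) F} (hX : X ∈ comA a) : sJ X ∈ comA a := by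
  rw [mem_comA] at hX ⊢
  have ha2 : a * sJ a = 1 := mul_eq_one_comm.mp ha1
  have h1 : sJ a * sJ X = sJ X * sJ a := by rw [← sJ_AI.mul, ← sJ_AI.mul, hX]
  calc sJ X * a = (a * sJ a) * sJ X * a := by rw [ha2, one_mul]
    _ = a * (sJ X * sJ a) * a := by rw [mul_assoc a, h1]
    _ = a * sJ X := by rw [mul_assoc, mul_assoc, ha1, mul_one]

theorem finrank_symA (h2 : (2 : F) ≠ 0) (hm : 1 ≤ m) {a : Matrix (Fin m ⊕ Fin m) (Fin m ⊕ Fin m) F} (ha : RU a) (ha1 : sJ a * a = 1) : finrank F (symA a 1) = m := by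
  have ha2 : a * sJ a = 1 := mul_eq_one_comm.mp ha1
  haveI : Nonempty (Fin m ⊕ Fin m) := ⟨Sum.inl ⟨0, hm⟩⟩
  set M : Matrix (Fin m ⊕ Fin m) (Fin m ⊕ Fin m) F := a - 1 with hM
  set z : Matrix (Fin m ⊕ Fin m) (Fin m ⊕ Fin m) F := M ^ (2 * m - 1) with hz
  set e : Matrix (Fin m ⊕ Fin m) (Fin m ⊕ Fin m) F := a - sJ a with he
  have hz0 : z ≠ 0 := by
    intro h
    have h1 := reg_rank_pow (card_mm (m := m)) ha.1 ha.2 (2 * m - 1)
    rw [← hM, ← hz, h, Matrix.rank_zero] at h1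
    omega
  have hMz : M * z = 0 := by rw [hz, ← pow_succ', show 2 * m - 1 + 1 = 2 * m by omega]; exact ha.1
  have hzM : z * M = 0 := by rw [hz, ← pow_succ, show 2 * m - 1 + 1 = 2 * m by omega]; exact ha.1
  have haM : a * M = M * a := by rw [hM, mul_sub, sub_mul, mul_one, one_mul]
  have haz : a * z = z := by
    have : a = M + 1 := by rw [hM]; abel
    rw [this, add_mul, hMz, zero_add, one_mul]
  have hsaz : sJ a * z = z := by
    calc sJ a * z = sJ a * (a * z) := by rw [haz]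
      _ = z := by rw [← mul_assoc, ha1, one_mul]
  have hsz : sJ z = -z := by
    have h1 : sJ M = -(sJ a * M) := by
      rw [hM, sJ_sub, sJ_AI.one, mul_sub, ha1, mul_one]; abel
    have hc : Commute (sJ a) M := by
      rw [hM]
      exact (show Commute (sJ a) a by show sJ a * a = a * sJ a; rw [ha1, ha2]).sub_right (Commute.one_right _)
    have h3 : ∀ k : ℕ, (sJ a) ^ k * z = z := by
      intro k
      induction k with
      | zero => rw [pow_zero, one_mul]
      | succ k ih => rw [pow_succ, mul_assoc, hsaz, ih]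
    have hodd : Odd (2 * m - 1) := ⟨m - 1, by omega⟩
    rw [hz, sJ_pow, h1, hodd.neg_pow, hc.mul_pow, ← hz, h3]
  have hse : sJ e = -e := by rw [he, sJ_sub, sJ_AI.inv]; abel
  have hea : e ∈ comA a := by
    rw [mem_comA, he, sub_mul, mul_sub, ha1, ha2]
  -- `e X = 0` forces `M X = 0` for `X` in the commutant
  have heM : e = sJ a * ((a + 1) * M) := by
    rw [hM, he]
    have : sJ a * ((a + 1) * (a - 1)) = (sJ a * a) * a - sJ a := by noncomm_ring
    rw [this, ha1, one_mul]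
  have hu : IsUnit (a + 1) := by
    have h1 : a + 1 = Matrix.scalar (Fin m ⊕ Fin m) (2 : F) + M := by
      rw [hM, scalar_eq_smul, two_smul]; abel
    have h3 : IsNilpotent (a + 1 - Matrix.scalar (Fin m ⊕ Fin m) (2 : F)) := by
      rw [h1, add_sub_cancel_left]
      exact ⟨2 * m, ha.1⟩
    rw [Matrix.isUnit_iff_isUnit_det, isUnit_iff_ne_zero, det_of_nilp h3]
    exact pow_ne_zero _ h2
  have hsau : IsUnit (sJ a) := IsUnit.of_mul_eq_one a ha1
  have heX : ∀ X, e * X = 0 → M * X = 0 := by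
    intro X h
    rw [heM, mul_assoc, mul_assoc] at h
    exact (hu.mul_right_eq_zero).mp ((hsau.mul_right_eq_zero).mp h)
  -- first injection
  have hS : ∀ X ∈ symA a 1, e * X ∈ symA a (-1) := by
    intro X hX
    refine ⟨?_, ?_⟩
    · rw [mul_assoc, hX.1, ← mul_assoc, mem_comA.mp hea, mul_assoc]
    · rw [sJ_AI.mul, hX.2, hse, one_smul, mul_neg, neg_smul, one_smul, comA_comm hm ha (symA_le hX) hea]
  have hK : ∀ X ∈ symA a (-1), e * X ∈ symA a 1 := by
    intro X hX
    refine ⟨?_, ?_⟩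
    · rw [mul_assoc, hX.1, ← mul_assoc, mem_comA.mp hea, mul_assoc]
    · rw [sJ_AI.mul, hX.2, hse, neg_smul, one_smul, neg_mul_neg, one_smul, comA_comm hm ha (symA_le hX) hea]
  have hle1 : finrank F (symA a 1) ≤ finrank F (symA a (-1)) := by
    let f : symA a 1 →ₗ[F] symA a (-1) :=
      { toFun := fun X => ⟨e * X.1, hS X.1 X.2⟩
        map_add' := fun X Y => Subtype.ext (mul_add _ _ _)
        map_smul' := fun c X => Subtype.ext (mul_smul_comm _ _ _) }
    apply LinearMap.finrank_le_finrank_of_injective (f := f)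
    rw [injective_iff_map_eq_zero]
    intro X hX
    have h1 : e * X.1 = 0 := congrArg Subtype.val hX
    obtain ⟨c, hc⟩ := comA_ker hm ha (symA_le X.2) (heX _ h1)
    have h3 := X.2.2
    rw [one_smul] at h3
    rw [← hM, ← hz] at hc
    rw [hc, sJ_smul, hsz, smul_neg] at h3
    have h4 : (2 : F) • (c • z) = 0 := by
      rw [two_smul]
      nth_rewrite 1 [← h3]
      rw [neg_add_cancel]
    apply Subtype.ext
    rw [hc]
    exact (smul_eq_zero.mp h4).resolve_left h2
  -- a functional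
  obtain ⟨i, j, hij⟩ : ∃ i j, z i j ≠ 0 := by
    by_contra h
    push Not at h
    exact hz0 (Matrix.ext h)
  have hle2 : finrank F (symA a (-1)) ≤ finrank F (symA a 1) := by
    have h1S : (1 : Matrix (Fin m ⊕ Fin m) (Fin m ⊕ Fin m) F) ∈ symA a 1 := ⟨by rw [one_mul, mul_one], by rw [sJ_AI.one, one_smul]⟩
    let f : symA a (-1) →ₗ[F] symA a 1 :=
      { toFun := fun X => ⟨e * X.1 + (X.1 i j) • 1, (symA a 1).add_mem (hK X.1 X.2) ((symA a 1).smul_mem _ h1S)⟩
        map_add' := fun X Y => Subtype.ext (by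
          show e * (X.1 + Y.1) + ((X.1 + Y.1) i j) • (1 : Matrix (Fin m ⊕ Fin m) (Fin m ⊕ Fin m) F) = (e * X.1 + (X.1 i j) • 1) + (e * Y.1 + (Y.1 i j) • 1)
          rw [Matrix.add_apply, add_smul, mul_add]; abel)
        map_smul' := fun c X => Subtype.ext (by
          show e * (c • X.1) + ((c • X.1) i j) • (1 : Matrix (Fin m ⊕ Fin m) (Fin m ⊕ Fin m) F) = c • (e * X.1 + (X.1 i j) • 1)
          rw [Matrix.smul_apply, smul_add, mul_smul_comm, smul_smul, smul_eq_mul]) }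
    apply LinearMap.finrank_le_finrank_of_injective (f := f)
    rw [injective_iff_map_eq_zero]
    intro X hX
    have h1 : e * X.1 + (X.1 i j) • (1 : Matrix (Fin m ⊕ Fin m) (Fin m ⊕ Fin m) F) = 0 := congrArg Subtype.val hX
    have h3 : IsNilpotent (Matrix.scalar (Fin m ⊕ Fin m) (-(X.1 i j))) := by
      have e1 : Matrix.scalar (Fin m ⊕ Fin m) (-(X.1 i j)) = e * X.1 := by
        rw [scalar_eq_smul, neg_smul, ← eq_neg_iff_add_eq_zero.mpr h1]
      rw [e1]
      apply Commute.isNilpotent_mul_right (comA_comm hm ha hea (symA_le X.2))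
      rw [heM, ← mul_assoc]
      apply Commute.isNilpotent_mul_left
      · have hc : Commute (sJ a) M := by
          rw [hM]
          exact (show Commute (sJ a) a by show sJ a * a = a * sJ a; rw [ha1, ha2]).sub_right (Commute.one_right _)
        exact hc.mul_left ((show Commute a M from haM).add_left (Commute.one_left _))
      · exact ⟨2 * m, ha.1⟩
    have h4 : X.1 i j = 0 := neg_eq_zero.mp (scalar_nilp h3)
    rw [h4, zero_smul, add_zero] at h1
    obtain ⟨c, hc⟩ := comA_ker hm ha (symA_le X.2) (heX _ h1)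
    rw [← hM, ← hz] at hc
    rw [hc, Matrix.smul_apply, smul_eq_mul] at h4
    apply Subtype.ext
    rw [hc, (mul_eq_zero.mp h4).resolve_right hij, zero_smul]
    rfl
  -- the sum decomposition
  have hsup : symA a 1 ⊔ symA a (-1) = comA a := by
    apply le_antisymm (sup_le symA_le symA_le)
    intro X hX
    rw [Submodule.mem_sup]
    have hsX := sJ_comA ha1 hX
    refine ⟨(2 : F)⁻¹ • (X + sJ X), ?_, (2 : F)⁻¹ • (X - sJ X), ?_, ?_⟩
    · apply Submodule.smul_mem
      refine ⟨(comA a).add_mem hX hsX, ?_⟩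
      rw [sJ_AI.add, sJ_AI.inv, one_smul, add_comm]
    · apply Submodule.smul_mem
      refine ⟨(comA a).sub_mem hX hsX, ?_⟩
      rw [sJ_sub, sJ_AI.inv, neg_smul, one_smul]; abel
    · rw [← smul_add]
      have : X + sJ X + (X - sJ X) = (2 : F) • X := by rw [two_smul]; abel
      rw [this, smul_smul, inv_mul_cancel₀ h2, one_smul]
  have hinf : symA a 1 ⊓ symA a (-1) = ⊥ := by
    rw [eq_bot_iff]
    rintro X ⟨h1, h3⟩
    have e1 := h1.2
    rw [h3.2, neg_smul, one_smul] at e1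
    have h4 : (2 : F) • X = 0 := by
      rw [two_smul]
      nth_rewrite 1 [← e1]
      rw [neg_add_cancel]
    exact (smul_eq_zero.mp h4).resolve_left h2
  have h3 := Submodule.finrank_sup_add_finrank_inf_eq (symA a 1) (symA a (-1))
  rw [hsup, hinf, finrank_bot, finrank_comA hm ha] at h3
  omega

/-- the eigenvalue functional on the commutant -/
theorem exists_chi (hm : 1 ≤ m) {a : Matrix (Fin m ⊕ Fin m) (Fin m ⊕ Fin m) F} (ha : RU a) :
    ∃ χ : Matrix (Fin m ⊕ Fin m) (Fin m ⊕ Fin m) F →ₗ[F] F, χ 1 = 1 ∧ (∀ X ∈ comA a, (IsUnit X ↔ χ X ≠ 0)) ∧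
      (∀ X ∈ comA a, ∀ Y ∈ comA a, χ (X * Y) = χ X * χ Y) ∧ ∀ X ∈ comA a, ∀ c, IsNilpotent (X - Matrix.scalar (Fin m ⊕ Fin m) c) ↔ χ X = c := by
  haveI : Nonempty (Fin m ⊕ Fin m) := ⟨Sum.inl ⟨0, hm⟩⟩
  have hk : finrank F (LinearMap.ker (Matrix.toLin' (a - 1))) = 1 := by
    have h1 := finrank_ker_toLin (a - 1)
    rw [card_mm, ha.2] at h1
    omega
  obtain ⟨⟨w, hw⟩, hw0, hw1⟩ := finrank_eq_one_iff'.mp hk
  have hw0' : w ≠ 0 := fun h => hw0 (Subtype.ext h)
  have hmem : ∀ x, (a - 1) *ᵥ x = 0 → ∃ c : F, x = c • w := by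
    intro x hx
    obtain ⟨c, hc⟩ := hw1 ⟨x, by rw [LinearMap.mem_ker, Matrix.toLin'_apply]; exact hx⟩
    exact ⟨c, (congrArg Subtype.val hc).symm⟩
  rw [LinearMap.mem_ker, Matrix.toLin'_apply] at hw
  obtain ⟨j, hj⟩ : ∃ j, w j ≠ 0 := by
    by_contra h
    push Not at h
    exact hw0' (funext h)
  have heig : ∀ X ∈ comA a, ∃ c : F, X *ᵥ w = c • w := by
    intro X hX
    apply hmem
    rw [Matrix.mulVec_mulVec, Matrix.sub_mul, ← mem_comA.mp hX, one_mul]
    have : X * a - X = X * (a - 1) := by rw [mul_sub, mul_one]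
    rw [this, ← Matrix.mulVec_mulVec, hw, Matrix.mulVec_zero]
  let χ : Matrix (Fin m ⊕ Fin m) (Fin m ⊕ Fin m) F →ₗ[F] F :=
    { toFun := fun X => (w j)⁻¹ * (X *ᵥ w) j
      map_add' := fun X Y => by rw [Matrix.add_mulVec, Pi.add_apply, mul_add]
      map_smul' := fun c X => by rw [Matrix.smul_mulVec, Pi.smul_apply, smul_eq_mul, RingHom.id_apply, smul_eq_mul]; ring }
  have hχ : ∀ X c, X *ᵥ w = c • w → χ X = c := by
    intro X c h
    show (w j)⁻¹ * (X *ᵥ w) j = c
    rw [h, Pi.smul_apply, smul_eq_mul]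
    field_simp
  have hχw : ∀ X ∈ comA a, X *ᵥ w = χ X • w := by
    intro X hX
    obtain ⟨c, hc⟩ := heig X hX
    rw [hc, hχ X c hc]
  have hnil : ∀ X ∈ comA a, ∀ c, IsNilpotent (X - Matrix.scalar (Fin m ⊕ Fin m) c) → χ X = c := by
    intro X hX c hc
    obtain ⟨k, hk⟩ := hc
    have h1 : ∀ k : ℕ, (X - Matrix.scalar (Fin m ⊕ Fin m) c) ^ k *ᵥ w = (χ X - c) ^ k • w := by
      intro k
      induction k with
      | zero => rw [pow_zero, pow_zero, Matrix.one_mulVec, one_smul]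
      | succ k ih =>
        rw [pow_succ', ← Matrix.mulVec_mulVec, ih, Matrix.mulVec_smul, Matrix.sub_mulVec, hχw X hX, scalar_eq_smul, Matrix.smul_mulVec, Matrix.one_mulVec,
          ← sub_smul, smul_smul, pow_succ]
    have h2 := h1 k
    rw [hk, Matrix.zero_mulVec] at h2
    exact sub_eq_zero.mp (eq_zero_of_pow_eq_zero ((smul_eq_zero.mp h2.symm).resolve_right hw0'))
  have hex : ∀ X ∈ comA a, IsNilpotent (X - Matrix.scalar (Fin m ⊕ Fin m) (χ X)) := by
    intro X hX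
    obtain ⟨c, hc⟩ := reg_comm (card_mm (m := m)) (by omega) ha.1 ha.2 (C := X) (by rw [mul_sub, sub_mul, mem_comA.mp hX, mul_one, one_mul])
    rw [hnil X hX c hc]
    exact hc
  refine ⟨χ, ?_, ?_, ?_, ?_⟩
  · apply hχ
    rw [Matrix.one_mulVec, one_smul]
  · intro X hX
    rw [Matrix.isUnit_iff_isUnit_det, isUnit_iff_ne_zero, det_of_nilp (hex X hX), card_mm]
    exact pow_ne_zero_iff (by omega)
  · intro X hX Y hY
    apply hχ
    rw [← Matrix.mulVec_mulVec, hχw Y hY, Matrix.mulVec_smul, hχw X hX, smul_smul, mul_comm]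
  · intro X hX c
    constructor
    · exact hnil X hX c
    · rintro rfl
      exact hex X hX

theorem inv_comA {a X Y : Matrix (Fin m ⊕ Fin m) (Fin m ⊕ Fin m) F} (hX : X ∈ comA a) (h1 : X * Y = 1) : Y ∈ comA a := by
  have h2 : Y * X = 1 := mul_eq_one_comm.mp h1
  rw [mem_comA] at hX ⊢
  calc Y * a = Y * (a * X) * Y := by rw [mul_assoc, mul_assoc, h1, mul_one]
    _ = Y * (X * a) * Y := by rw [hX]
    _ = a * Y := by rw [← mul_assoc, h2, one_mul]

theorem card_cent_reg [Finite F] {p : ℕ} [Fact p.Prime] [CharP F p] (hp : p ≠ 2) (hm : 1 ≤ m) {q : ℕ} (hq : Nat.card F = q)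
    {a : Matrix (Fin m ⊕ Fin m) (Fin m ⊕ Fin m) F} (ha : RU a) (ha1 : sJ a * a = 1) :
    Nat.card {X : Matrix (Fin m ⊕ Fin m) (Fin m ⊕ Fin m) F // X * a = a * X ∧ sJ X * X = 1} = 2 * q ^ m := by
  classical
  have h2 : (2 : F) ≠ 0 := by
    intro h
    have h3 : ((2 : ℕ) : F) = 0 := by exact_mod_cast h
    rw [CharP.cast_eq_zero_iff F p 2] at h3
    exact hp ((Nat.prime_dvd_prime_iff_eq Fact.out Nat.prime_two).mp h3)
  obtain ⟨χ, hχ1, hχu, hχm, hχn⟩ := exists_chi hm ha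
  have h1C : (1 : Matrix (Fin m ⊕ Fin m) (Fin m ⊕ Fin m) F) ∈ comA a := by rw [mem_comA, one_mul, mul_one]
  have h1S : (1 : Matrix (Fin m ⊕ Fin m) (Fin m ⊕ Fin m) F) ∈ symA a 1 := ⟨by rw [one_mul, mul_one], by rw [sJ_AI.one, one_smul]⟩
  have hmulC : ∀ X ∈ comA a, ∀ Y ∈ comA a, X * Y ∈ comA a := by
    intro X hX Y hY
    rw [mem_comA] at hX hY ⊢
    rw [mul_assoc, hY, ← mul_assoc, hX, mul_assoc]
  -- the three sets
  let CU := {X : Matrix (Fin m ⊕ Fin m) (Fin m ⊕ Fin m) F // X ∈ comA a ∧ IsUnit X}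
  let SU := {X : Matrix (Fin m ⊕ Fin m) (Fin m ⊕ Fin m) F // X ∈ symA a 1 ∧ IsUnit X}
  let UU := {X : Matrix (Fin m ⊕ Fin m) (Fin m ⊕ Fin m) F // X * a = a * X ∧ sJ X * X = 1}
  haveI : Finite (Matrix (Fin m ⊕ Fin m) (Fin m ⊕ Fin m) F) := inferInstance
  have hCU : Nat.card CU = (q - 1) * q ^ (2 * m - 1) := by
    rw [← card_ne_zero (F := F) (W := comA a) (χ.domRestrict (comA a)) (x₀ := ⟨1, h1C⟩) (by
      show χ 1 ≠ 0
      rw [hχ1]; exact one_ne_zero) (d := 2 * m - 1) (by rw [finrank_comA hm ha]; omega) hq]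
    exact Nat.card_congr
      { toFun := fun X => ⟨⟨X.1, X.2.1⟩, (hχu _ X.2.1).mp X.2.2⟩
        invFun := fun X => ⟨X.1.1, X.1.2, (hχu _ X.1.2).mpr X.2⟩
        left_inv := fun X => rfl
        right_inv := fun X => rfl }
  have hSU : Nat.card SU = (q - 1) * q ^ (m - 1) := by
    rw [← card_ne_zero (F := F) (W := symA a 1) (χ.domRestrict (symA a 1)) (x₀ := ⟨1, h1S⟩) (by
      show χ 1 ≠ 0
      rw [hχ1]; exact one_ne_zero) (d := m - 1) (by rw [finrank_symA h2 hm ha ha1]; omega) hq]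
    exact Nat.card_congr
      { toFun := fun X => ⟨⟨X.1, X.2.1⟩, (hχu _ (symA_le X.2.1)).mp X.2.2⟩
        invFun := fun X => ⟨X.1.1, X.1.2, (hχu _ (symA_le X.1.2)).mpr X.2⟩
        left_inv := fun X => rfl
        right_inv := fun X => rfl }
  -- decomposition
  have hdec : ∀ f : CU, ∃ (s : SU) (h : UU), f.1 = s.1 * h.1 := by
    rintro ⟨f, hf, hfu⟩
    have hsf := sJ_comA ha1 hf
    set g : Matrix (Fin m ⊕ Fin m) (Fin m ⊕ Fin m) F := sJ f * f with hg
    have hgC : g ∈ comA a := hmulC _ hsf _ hf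
    have hgs : sJ g = g := by rw [hg, sJ_AI.mul, sJ_AI.inv]
    have hχs : χ (sJ f) = χ f := by
      rw [← hχn _ hsf]
      obtain ⟨k, hk⟩ := (hχn f hf (χ f)).mpr rfl
      refine ⟨k, ?_⟩
      have e1 : sJ f - Matrix.scalar (Fin m ⊕ Fin m) (χ f) = sJ (f - Matrix.scalar (Fin m ⊕ Fin m) (χ f)) := by rw [sJ_sub, sJ_scalar]
      rw [e1, ← sJ_pow, hk]
      unfold sJ
      rw [Matrix.transpose_zero]; simp
    have hχg : χ g = χ f * χ f := by rw [hg, hχm _ hsf _ hf, hχs]
    have hgu : IsUnit g := by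
      rw [hχu g hgC, hχg]
      exact mul_ne_zero ((hχu f hf).mp hfu) ((hχu f hf).mp hfu)
    obtain ⟨c, k, hc0, hcn, hck⟩ := ru_sqrt hp hm ha hgC hgu
    have hc : c = χ f * χ f := by rw [← hχg]; exact ((hχn g hgC c).mp hcn).symm
    set s : Matrix (Fin m ⊕ Fin m) (Fin m ⊕ Fin m) F := χ f • (c⁻¹ • g) ^ k with hs
    have hss : s * s = g := by
      rw [hs, smul_mul_smul_comm, ← hc, ← pow_two, hck, smul_smul, mul_inv_cancel₀ hc0, one_smul]
    have hsC : s ∈ comA a := by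
      rw [hs]
      apply Submodule.smul_mem
      have h3 : Commute (c⁻¹ • g) a := by
        show (c⁻¹ • g) * a = a * (c⁻¹ • g)
        rw [smul_mul_assoc, mul_smul_comm, mem_comA.mp hgC]
      exact (h3.pow_left k).eq
    have hsS : sJ s = s := by rw [hs, sJ_smul, sJ_pow, sJ_smul, hgs]
    have hsu : IsUnit s := by
      rw [hχu s hsC]
      intro h
      rw [hχu g hgC, ← hss, hχm _ hsC _ hsC, h, mul_zero] at hgu
      exact hgu rfl
    obtain ⟨s', hs'⟩ := hsu
    obtain ⟨ν, hν1, hν2⟩ : ∃ ν : Matrix (Fin m ⊕ Fin m) (Fin m ⊕ Fin m) F, ν * s = 1 ∧ s * ν = 1 :=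
      ⟨((s'⁻¹ : (Matrix (Fin m ⊕ Fin m) (Fin m ⊕ Fin m) F)ˣ) : Matrix (Fin m ⊕ Fin m) (Fin m ⊕ Fin m) F), by rw [← hs']; exact Units.inv_mul s', by rw [← hs']; exact Units.mul_inv s'⟩
    have hνC : ν ∈ comA a := inv_comA hsC hν2
    have hνs : sJ ν = ν := by
      have h3 : sJ ν * s = 1 := by
        nth_rewrite 1 [← hsS]
        rw [← sJ_AI.mul, hν2, sJ_AI.one]
      calc sJ ν = sJ ν * (s * ν) := by rw [hν2, mul_one]
        _ = ν := by rw [← mul_assoc, h3, one_mul]
    refine ⟨⟨s, ⟨hsC, by rw [hsS, one_smul]⟩, ⟨s', hs'⟩⟩, ⟨ν * f, hmulC _ hνC _ hf, ?_⟩, ?_⟩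
    · rw [sJ_AI.mul, hνs]
      have e1 : sJ f * ν = ν * sJ f := comA_comm hm ha hsf hνC
      have e2 : sJ f * ν * (ν * f) = ν * ν * g := by
        rw [e1, hg]
        calc ν * sJ f * (ν * f) = ν * (sJ f * ν) * f := by simp only [mul_assoc]
          _ = ν * (ν * sJ f) * f := by rw [e1]
          _ = ν * ν * (sJ f * f) := by simp only [mul_assoc]
      rw [e2, ← hss]
      calc ν * ν * (s * s) = ν * (ν * s) * s := by simp only [mul_assoc]
        _ = 1 := by rw [hν1, mul_one, hν1]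
    · show f = s * (ν * f)
      rw [← mul_assoc, hν2, one_mul]
  choose sf hf hsfhf using hdec
  -- elements of order two
  have htwo : ∀ t ∈ comA a, t * t = 1 → t = 1 ∨ t = -1 := by
    intro t ht htt
    have h3 : χ t * χ t = 1 := by rw [← hχm t ht t ht, htt, hχ1]
    have h4 : (χ t - 1) * (χ t + 1) = 0 := by linear_combination h3
    rcases mul_eq_zero.mp h4 with h5 | h5
    · left
      have h6 : IsUnit (t + 1) := by
        rw [hχu _ ((comA a).add_mem ht h1C), map_add, hχ1, sub_eq_zero.mp h5]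
        intro h; apply h2; rw [← h]; ring
      have h7 : (t + 1) * (t - 1) = 0 := by
        have : (t + 1) * (t - 1) = t * t - 1 := by noncomm_ring
        rw [this, htt, sub_self]
      exact sub_eq_zero.mp ((h6.mul_right_eq_zero).mp h7)
    · right
      have h6 : IsUnit (t - 1) := by
        rw [hχu _ ((comA a).sub_mem ht h1C), map_sub, hχ1, eq_neg_of_add_eq_zero_left h5]
        intro h; apply h2; linear_combination -h
      have h7 : (t - 1) * (t + 1) = 0 := by
        have : (t - 1) * (t + 1) = t * t - 1 := by noncomm_ring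
        rw [this, htt, sub_self]
      exact eq_neg_of_add_eq_zero_left ((h6.mul_right_eq_zero).mp h7)
  haveI : Nonempty (Fin m ⊕ Fin m) := ⟨Sum.inl ⟨0, hm⟩⟩
  have hne : ∀ X : Matrix (Fin m ⊕ Fin m) (Fin m ⊕ Fin m) F, IsUnit X → X ≠ -X := by
    intro X hX h
    have h3 : (2 : F) • X = 0 := by
      rw [two_smul]
      nth_rewrite 1 [h]
      rw [neg_add_cancel]
    exact hX.ne_zero ((smul_eq_zero.mp h3).resolve_left h2)
  have hnegS : ∀ s : SU, -s.1 ∈ symA a 1 ∧ IsUnit (-s.1) := fun s => ⟨(symA a 1).neg_mem s.2.1, s.2.2.neg⟩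
  have hnegU : ∀ h : UU, -h.1 * a = a * -h.1 ∧ sJ (-h.1) * -h.1 = 1 := fun h => ⟨by rw [neg_mul, mul_neg, h.2.1], by rw [sJ_neg, neg_mul_neg, h.2.2]⟩
  have hbij : Nat.card (CU × Bool) = Nat.card (SU × UU) := by
    refine Nat.card_congr (Equiv.ofBijective (fun x => if x.2 then (sf x.1, hf x.1) else (⟨_, hnegS (sf x.1)⟩, ⟨_, hnegU (hf x.1)⟩)) ⟨?_, ?_⟩)
    · rintro ⟨f, b⟩ ⟨g, b'⟩ h
      have hprod : ∀ (f : CU) (b : Bool), (if b = true then (sf f, hf f) else ((⟨_, hnegS (sf f)⟩ : SU), (⟨_, hnegU (hf f)⟩ : UU))).1.1 *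
          (if b = true then (sf f, hf f) else ((⟨_, hnegS (sf f)⟩ : SU), (⟨_, hnegU (hf f)⟩ : UU))).2.1 = f.1 := by
        intro f b
        cases b
        · show -(sf f).1 * -(hf f).1 = f.1
          rw [neg_mul_neg, ← hsfhf]
        · show (sf f).1 * (hf f).1 = f.1
          rw [← hsfhf]
      have h3 : f = g := by
        apply Subtype.ext
        rw [← hprod f b, ← hprod g b']
        exact congrArg (fun y : SU × UU => y.1.1 * y.2.1) h
      subst h3
      have h4 : b = b' := by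
        have h5 := congrArg (fun y : SU × UU => y.1.1) h
        cases b <;> cases b'
        · rfl
        · exact absurd h5.symm (hne _ (sf f).2.2)
        · exact absurd h5 (hne _ (sf f).2.2)
        · rfl
      rw [h4]
    · rintro ⟨s, h⟩
      have hhu : IsUnit h.1 := IsUnit.of_mul_eq_one_right _ h.2.2
      let f : CU := ⟨s.1 * h.1, hmulC _ (symA_le s.2.1) _ h.2.1, s.2.2.mul hhu⟩
      have h3 := hsfhf f
      have h3' : s.1 * h.1 = (sf f).1 * (hf f).1 := h3
      -- `t = s⁻¹ s_f`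
      obtain ⟨s', hs'⟩ := s.2.2
      obtain ⟨ν, hν1, hν2⟩ : ∃ ν : Matrix (Fin m ⊕ Fin m) (Fin m ⊕ Fin m) F, ν * s.1 = 1 ∧ s.1 * ν = 1 :=
        ⟨((s'⁻¹ : (Matrix (Fin m ⊕ Fin m) (Fin m ⊕ Fin m) F)ˣ) : Matrix (Fin m ⊕ Fin m) (Fin m ⊕ Fin m) F), by rw [← hs']; exact Units.inv_mul s', by rw [← hs']; exact Units.mul_inv s'⟩
      have hsS : sJ s.1 = s.1 := by have := s.2.1.2; rwa [one_smul] at this
      have hsfS : sJ (sf f).1 = (sf f).1 := by have := (sf f).2.1.2; rwa [one_smul] at this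
      have hνC : ν ∈ comA a := inv_comA (symA_le s.2.1) hν2
      have hνs : sJ ν = ν := by
        have h3 : sJ ν * s.1 = 1 := by
          nth_rewrite 1 [← hsS]
          rw [← sJ_AI.mul, hν2, sJ_AI.one]
        calc sJ ν = sJ ν * (s.1 * ν) := by rw [hν2, mul_one]
          _ = ν := by rw [← mul_assoc, h3, one_mul]
      have hsfC : (sf f).1 ∈ comA a := symA_le (sf f).2.1
      have htC : ν * (sf f).1 ∈ comA a := hmulC _ hνC _ hsfC
      have hhf2 : (hf f).1 * sJ (hf f).1 = 1 := mul_eq_one_comm.mp (hf f).2.2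
      -- `t h_f = h`
      have ht1 : h.1 = ν * (sf f).1 * (hf f).1 := by
        rw [mul_assoc, ← h3', ← mul_assoc, hν1, one_mul]
      have hts : sJ (ν * (sf f).1) = ν * (sf f).1 := by
        rw [sJ_AI.mul, hνs, hsfS, comA_comm hm ha hsfC hνC]
      have htt : (ν * (sf f).1) * (ν * (sf f).1) = 1 := by
        have h5 := h.2.2
        rw [ht1, sJ_AI.mul, hts] at h5
        -- `sJ hf * t * (t * hf) = 1`
        set t := ν * (sf f).1 with ht
        have h6 : sJ (hf f).1 ∈ comA a := sJ_comA ha1 (hf f).2.1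
        have h7 : sJ (hf f).1 * t * (t * (hf f).1) = t * t * (sJ (hf f).1 * (hf f).1) := by
          have e1 : sJ (hf f).1 * (t * t) = (t * t) * sJ (hf f).1 := comA_comm hm ha h6 (hmulC _ htC _ htC)
          calc sJ (hf f).1 * t * (t * (hf f).1) = sJ (hf f).1 * (t * t) * (hf f).1 := by simp only [mul_assoc]
            _ = _ := by rw [e1, mul_assoc]
        rw [h7, (hf f).2.2, mul_one] at h5
        exact h5
      have hsft : (sf f).1 = s.1 * (ν * (sf f).1) := by rw [← mul_assoc, hν2, one_mul]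
      rcases htwo _ htC htt with h5 | h5
      · refine ⟨(f, true), ?_⟩
        show (sf f, hf f) = (s, h)
        rw [h5, mul_one] at hsft
        rw [h5, one_mul] at ht1
        exact Prod.ext (Subtype.ext hsft) (Subtype.ext ht1.symm)
      · refine ⟨(f, false), ?_⟩
        show ((⟨_, hnegS (sf f)⟩ : SU), (⟨_, hnegU (hf f)⟩ : UU)) = (s, h)
        rw [h5, mul_neg, mul_one] at hsft
        rw [h5, neg_mul, one_mul] at ht1
        refine Prod.ext (Subtype.ext ?_) (Subtype.ext ?_)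
        · show -(sf f).1 = s.1
          rw [hsft, neg_neg]
        · show -(hf f).1 = h.1
          exact ht1.symm
  rw [Nat.card_prod, Nat.card_prod, hCU, hSU, Nat.card_eq_fintype_card (α := Bool), Fintype.card_bool] at hbij
  have hq1 : 1 < q := by rw [← hq]; exact Finite.one_lt_card
  have h8 : (q - 1) * q ^ (m - 1) ≠ 0 := mul_ne_zero (by omega) (pow_ne_zero _ (by omega))
  apply Nat.eq_of_mul_eq_mul_left (Nat.pos_of_ne_zero h8)
  show (q - 1) * q ^ (m - 1) * Nat.card UU = _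
  rw [← hbij]
  have e1 : q ^ (2 * m - 1) = q ^ (m - 1) * q ^ m := by rw [← pow_add]; congr 1; omega
  rw [e1]
  ring

end main

end Cfsg.Agent.H17
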