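import Mathlib
import Cfsg.Agent.H17.InvTwoC
import Cfsg.Agent.H5.SpOrder

set_option autoImplicit false

/-! Counting isotropic tuples; centralisers of involutions of the symplectic group in characteristic two. -/

namespace Cfsg.Agent.H17

open Module Cfsg.Agent.H5

section iso

variable {F : Type*} [Field F] {V : Type*} [AddCommGroup V] [Module F V] [FiniteDimensional F V]

def IsoT (B : LinearMap.BilinForm F V) (ι : Type) := {e : ι → V // LinearIndependent F e ∧ ∀ i j, B (e i) (e j) = 0}

theorem card_perp [Finite F] {B : LinearMap.BilinForm F V} (hnd : ∀ x, (∀ y, B x y = 0) → x = 0) {s : ℕ} {e : Fin s → V} (he : LinearIndependent F e) :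
    Nat.card {v : V // ∀ i, B v (e i) = 0} * Nat.card F ^ s = Nat.card F ^ (finrank F V) := by
  classical
  let L : V →ₗ[F] (Fin s → F) := LinearMap.pi (fun i => B.flip (e i))
  have hL : Function.Surjective L := by
    intro c
    obtain ⟨v, hv⟩ := exists_dual_inv hnd he c
    exact ⟨v, funext hv⟩
  have h1 := LinearMap.finrank_range_add_finrank_ker L
  rw [LinearMap.range_eq_top.mpr hL, finrank_top, finrank_fintype_fun_eq_card, Fintype.card_fin] at h1
  haveI := Fintype.ofFinite F
  have h2 : Nat.card {v : V // ∀ i, B v (e i) = 0} = Nat.card (LinearMap.ker L) := by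
    apply Nat.card_congr
    apply Equiv.subtypeEquivRight
    intro v
    rw [LinearMap.mem_ker]
    exact ⟨fun h => funext h, fun h i => congrFun h i⟩
  rw [h2, Module.natCard_eq_pow_finrank (K := F), ← pow_add, add_comm, h1]

theorem card_IsoT [Finite F] {B : LinearMap.BilinForm F V} (halt : B.IsAlt) (hnd : ∀ x, (∀ y, B x y = 0) → x = 0) (s : ℕ) (hs : s ≤ finrank F V) :
    Nat.card (IsoT B (Fin s)) = ∏ i ∈ Finset.range s, (Nat.card F ^ (finrank F V - i) - Nat.card F ^ i) := by
  classical
  induction s with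
  | zero =>
    rw [Finset.range_zero, Finset.prod_empty, Nat.card_eq_one_iff_unique]
    refine ⟨⟨fun a b => Subtype.ext (Subsingleton.elim _ _)⟩, ⟨⟨fun i => i.elim0, linearIndependent_empty_type, fun i => i.elim0⟩⟩⟩
  | succ s ih =>
    rw [Finset.prod_range_succ, ← ih (by omega)]
    haveI : Finite V := Module.finite_of_finite F
    haveI : Finite (IsoT B (Fin s)) := Subtype.finite
    haveI := Fintype.ofFinite (IsoT B (Fin s))
    have e1 : IsoT B (Fin (s + 1)) ≃ Σ e : IsoT B (Fin s), {v : {v : V // ∀ i, B v (e.1 i) = 0} // v.1 ∉ Submodule.span F (Set.range e.1)} :=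
      { toFun := fun x => ⟨⟨Fin.tail x.1, by
            have h1 := x.2.1
            rw [← Fin.cons_self_tail x.1, linearIndependent_finCons] at h1
            exact h1.1, fun i j => x.2.2 _ _⟩, ⟨⟨x.1 0, fun i => x.2.2 _ _⟩, by
            have h1 := x.2.1
            rw [← Fin.cons_self_tail x.1, linearIndependent_finCons] at h1
            exact h1.2⟩⟩
        invFun := fun y => ⟨Fin.cons y.2.1.1 y.1.1, linearIndependent_finCons.mpr ⟨y.1.2.1, y.2.2⟩, by
            intro i j
            refine Fin.cases ?_ (fun i => ?_) i <;> refine Fin.cases ?_ (fun j => ?_) j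
            · exact halt _
            · exact y.2.1.2 j
            · show B (y.1.1 i) y.2.1.1 = 0
              rw [← halt.neg_eq, y.2.1.2 i, neg_zero]
            · exact y.1.2.2 i j⟩
        left_inv := fun x => Subtype.ext (Fin.cons_self_tail x.1)
        right_inv := fun y => rfl }
    have e2 : ∀ e : IsoT B (Fin s), Nat.card {v : {v : V // ∀ i, B v (e.1 i) = 0} // v.1 ∉ Submodule.span F (Set.range e.1)} =
        Nat.card F ^ (finrank F V - s) - Nat.card F ^ s := by
      intro e
      have h1 := card_perp hnd e.2.1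
      have h2 : Nat.card {v : V // ∀ i, B v (e.1 i) = 0} = Nat.card F ^ (finrank F V - s) := by
        have h3 : Nat.card F ^ (finrank F V) = Nat.card F ^ (finrank F V - s) * Nat.card F ^ s := by rw [← pow_add]; congr 1; omega
        rw [h3] at h1
        exact Nat.eq_of_mul_eq_mul_right (pow_pos Nat.card_pos _) h1
      have h4 : Nat.card {v : {v : V // ∀ i, B v (e.1 i) = 0} // v.1 ∈ Submodule.span F (Set.range e.1)} = Nat.card F ^ s := by
        have h5 : Nat.card {v : {v : V // ∀ i, B v (e.1 i) = 0} // v.1 ∈ Submodule.span F (Set.range e.1)} = Nat.card (Submodule.span F (Set.range e.1)) := by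
          apply Nat.card_congr
          refine ⟨fun v => ⟨v.1.1, v.2⟩, fun v => ⟨⟨v.1, fun i => ?_⟩, v.2⟩, fun _ => rfl, fun _ => rfl⟩
          have h6 : v.1 ∈ LinearMap.ker (B.flip (e.1 i)) := by
            have h7 : Submodule.span F (Set.range e.1) ≤ LinearMap.ker (B.flip (e.1 i)) := by
              rw [Submodule.span_le]
              rintro _ ⟨j, rfl⟩
              exact e.2.2 j i
            exact h7 v.2
          exact h6
        rw [h5, Module.natCard_eq_pow_finrank (K := F), finrank_span_eq_card e.2.1, Fintype.card_fin]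
      haveI : Finite {v : V // ∀ i, B v (e.1 i) = 0} := Subtype.finite
      haveI := Fintype.ofFinite {v : V // ∀ i, B v (e.1 i) = 0}
      rw [← h2, ← h4, Nat.card_eq_fintype_card, Nat.card_eq_fintype_card, Nat.card_eq_fintype_card, Fintype.card_subtype_compl]
    rw [Nat.card_congr e1, Nat.card_sigma, Finset.sum_congr rfl (fun e _ => e2 e), Finset.sum_const, Finset.card_univ, smul_eq_mul, ← Nat.card_eq_fintype_card (α := IsoT B (Fin s))]

end iso

section act

variable {F : Type*} [Field F] {V : Type*} [AddCommGroup V] [Module F V]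

def actI {B : LinearMap.BilinForm F V} {N : V → F} {ι : Type} (g : IG B N) (e : IsoT B ι) : IsoT B ι :=
  ⟨fun i => (g : V ≃ₗ[F] V) (e.1 i), e.2.1.map' (g : V ≃ₗ[F] V).toLinearMap (LinearEquiv.ker _), fun i j => by
    rw [g.2.1, e.2.2]⟩

theorem actI_mul {B : LinearMap.BilinForm F V} {N : V → F} {ι : Type} (g g' : IG B N) (e : IsoT B ι) : actI (g * g') e = actI g (actI g' e) := rfl

theorem actI_one {B : LinearMap.BilinForm F V} {N : V → F} {ι : Type} (e : IsoT B ι) : actI (1 : IG B N) e = e := rfl

theorem card_orb_IG {B : LinearMap.BilinForm F V} {N : V → F} {ι : Type} (e : IsoT B ι)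
    (hw : ∀ x : IsoT B ι, ∃ g : IG B N, actI g e = x) (P : IsoT B ι → Prop) :
    Nat.card {g : IG B N // P (actI g e)} = Nat.card {x : IsoT B ι // P x} * Nat.card {g : IG B N // actI g e = e} := by
  choose h hh using hw
  have h1 : ∀ (x : IsoT B ι) (g : {g : IG B N // actI g e = e}), actI (h x * g.1) e = x := by
    intro x g
    rw [actI_mul, g.2, hh]
  rw [← Nat.card_prod]
  symm
  apply Nat.card_congr
  refine ⟨fun p => ⟨h p.1.1 * p.2.1, ?_⟩, fun g => (⟨actI g.1 e, g.2⟩, ⟨(h (actI g.1 e))⁻¹ * g.1, ?_⟩), ?_, ?_⟩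
  · rw [h1]
    exact p.1.2
  · rw [actI_mul]
    have h2 : actI ((h (actI g.1 e))⁻¹ * h (actI g.1 e)) e = e := by rw [inv_mul_cancel, actI_one]
    rw [actI_mul, hh] at h2
    exact h2
  · rintro ⟨⟨x, hx⟩, g⟩
    have h3 := h1 x g
    apply Prod.ext
    · exact Subtype.ext h3
    · apply Subtype.ext
      show (h (actI (h x * g.1) e))⁻¹ * (h x * g.1) = g.1
      rw [h3, inv_mul_cancel_left]
  · intro g
    apply Subtype.ext
    show h (actI g.1 e) * ((h (actI g.1 e))⁻¹ * g.1) = g.1
    rw [mul_inv_cancel_left]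

end act

end Cfsg.Agent.H17
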