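import Mathlib
import Cfsg.Agent.H17.TcA

set_option autoImplicit false

/-! Tuples giving the same square zero map. -/

namespace Cfsg.Agent.H17

open Module Cfsg.Agent.H5 Matrix

section et

variable {F : Type*} [Field F] {V : Type*} [AddCommGroup V] [Module F V] {ι : Type} [Fintype ι] [DecidableEq ι] {B : LinearMap.BilinForm F V}

variable (F) in
def PiM (τ : ι → ι) : Matrix ι ι F := fun i j => if j = τ i then 1 else 0

theorem PiM_sq {τ : ι → ι} (hτ : Function.Involutive τ) : PiM F τ * PiM F τ = 1 := by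
  ext i l
  rw [Matrix.mul_apply, Finset.sum_eq_single (τ i)]
  · unfold PiM
    rw [if_pos rfl, hτ i, one_mul, Matrix.one_apply]
    by_cases h : i = l
    · rw [if_pos h, if_pos h.symm]
    · rw [if_neg h, if_neg (fun h' => h h'.symm)]
  · intro k _ hk
    unfold PiM
    rw [if_neg hk, zero_mul]
  · intro h; exact absurd (Finset.mem_univ _) h

theorem APA (A : Matrix ι ι F) (τ : ι → ι) (i l : ι) : (A * PiM F τ * Aᵀ) i l = ∑ j, A i j * A l (τ j) := by
  rw [Matrix.mul_assoc, Matrix.mul_apply]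
  apply Finset.sum_congr rfl
  intro j _
  congr 1
  rw [Matrix.mul_apply, Finset.sum_eq_single (τ j)]
  · unfold PiM
    rw [if_pos rfl, one_mul]
    rfl
  · intro k _ hk
    unfold PiM
    rw [if_neg hk, zero_mul]
  · intro h; exact absurd (Finset.mem_univ _) h

def TSm (B : LinearMap.BilinForm F V) (e : ι → V) (S : Matrix ι ι F) (v : V) : V := ∑ l, (∑ i, S i l * B v (e i)) • e l

theorem TSm_inj [FiniteDimensional F V] (hnd : ∀ x, (∀ y, B x y = 0) → x = 0) {e : ι → V} (he : LinearIndependent F e) {S S' : Matrix ι ι F}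
    (h : ∀ v, TSm B e S v = TSm B e S' v) : S = S' := by
  ext i0 l
  obtain ⟨v, hv⟩ := exists_dual_inv hnd he (fun i => if i = i0 then 1 else 0)
  have h1 := h v
  unfold TSm at h1
  have h2 : ∀ (S : Matrix ι ι F) l, ∑ i, S i l * B v (e i) = S i0 l := by
    intro S l
    rw [Finset.sum_eq_single i0]
    · rw [hv, if_pos rfl, mul_one]
    · intro i _ hi
      rw [hv, if_neg hi, mul_zero]
    · intro h; exact absurd (Finset.mem_univ _) h
  simp only [h2] at h1
  rw [← sub_eq_zero, ← Finset.sum_sub_distrib] at h1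
  simp only [← sub_smul] at h1
  exact sub_eq_zero.mp (Fintype.linearIndependent_iff.mp he _ h1 l)

theorem TT_eq_TSm (e : ι → V) (τ : ι → ι) (v : V) : TT B e τ v = TSm B e (PiM F τ) v := by
  rw [TT_apply]
  unfold TSm
  simp only [Finset.sum_smul]
  rw [Finset.sum_comm]
  apply Finset.sum_congr rfl
  intro i _
  rw [Finset.sum_eq_single (τ i)]
  · unfold PiM
    rw [if_pos rfl, one_mul]
  · intro k _ hk
    unfold PiM
    rw [if_neg hk, zero_mul, zero_smul]
  · intro h; exact absurd (Finset.mem_univ _) h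

theorem TT_comb (e : ι → V) (τ : ι → ι) (A : Matrix ι ι F) (v : V) :
    TT B (fun j => ∑ i, A i j • e i) τ v = TSm B e (A * PiM F τ * Aᵀ) v := by
  rw [TT_apply]
  unfold TSm
  simp only [map_sum, map_smul, smul_eq_mul, Finset.smul_sum, smul_smul]
  rw [Finset.sum_comm]
  apply Finset.sum_congr rfl
  intro l _
  rw [← Finset.sum_smul]
  congr 1
  simp only [APA, Finset.sum_mul]
  rw [Finset.sum_comm]
  apply Finset.sum_congr rfl
  intro i _
  apply Finset.sum_congr rfl
  intro j _
  ring

theorem card_ET [FiniteDimensional F V] (hnd : ∀ x, (∀ y, B x y = 0) → x = 0) (e : IsoT B ι) {τ : ι → ι} (hτ : Function.Involutive τ) :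
    Nat.card {x : IsoT B ι // TT B x.1 τ = TT B e.1 τ} = Nat.card {A : Matrix ι ι F // A * PiM F τ * Aᵀ = PiM F τ} := by
  symm
  have hun : ∀ A : Matrix ι ι F, A * PiM F τ * Aᵀ = PiM F τ → (PiM F τ * Aᵀ * PiM F τ) * A = 1 := by
    intro A hA
    apply mul_eq_one_comm.mp
    rw [← Matrix.mul_assoc, ← Matrix.mul_assoc, hA, PiM_sq hτ]
  have hind : ∀ A : Matrix ι ι F, A * PiM F τ * Aᵀ = PiM F τ → LinearIndependent F (fun j => ∑ i, A i j • e.1 i) := by
    intro A hA
    rw [Fintype.linearIndependent_iff]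
    intro c hc
    have h1 : ∑ i, (A *ᵥ c) i • e.1 i = 0 := by
      rw [← hc]
      simp only [Finset.smul_sum, smul_smul]
      rw [Finset.sum_comm]
      apply Finset.sum_congr rfl
      intro i _
      rw [← Finset.sum_smul]
      congr 1
      show ∑ j, A i j * c j = _
      exact Finset.sum_congr rfl (fun j _ => mul_comm _ _)
    have h2 : A *ᵥ c = 0 := funext (fun i => Fintype.linearIndependent_iff.mp e.2.1 _ h1 i)
    have h3 : ((PiM F τ * Aᵀ * PiM F τ) * A) *ᵥ c = 0 := by rw [← mulVec_mulVec, h2, mulVec_zero]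
    rw [hun A hA, one_mulVec] at h3
    exact fun i => congrFun h3 i
  apply Nat.card_congr
  apply Equiv.ofBijective (fun A : {A : Matrix ι ι F // A * PiM F τ * Aᵀ = PiM F τ} => (⟨⟨fun j => ∑ i, A.1 i j • e.1 i, hind A.1 A.2, fun j j' => by
      simp only [map_sum, map_smul, LinearMap.sum_apply, LinearMap.smul_apply, e.2.2, smul_zero, Finset.sum_const_zero]⟩, by
      apply LinearMap.ext
      intro v
      rw [TT_comb, A.2, TT_eq_TSm]⟩ : {x : IsoT B ι // TT B x.1 τ = TT B e.1 τ}))
  constructor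
  · intro A A' h
    apply Subtype.ext
    ext i j
    have h1 : ∑ i, A.1 i j • e.1 i = ∑ i, A'.1 i j • e.1 i := congrFun (congrArg (fun x => x.1.1) h) j
    rw [← sub_eq_zero, ← Finset.sum_sub_distrib] at h1
    simp only [← sub_smul] at h1
    exact sub_eq_zero.mp (Fintype.linearIndependent_iff.mp e.2.1 _ h1 i)
  · rintro ⟨x, hx⟩
    have h1 : ∀ j, ∃ a : ι → F, x.1 j = ∑ i, a i • e.1 i := by
      intro j
      obtain ⟨v, hv⟩ := exists_dual_inv hnd x.2.1 (fun i => if i = τ j then 1 else 0)
      have h2 : TT B x.1 τ v = x.1 j := by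
        rw [TT_apply, Finset.sum_eq_single (τ j)]
        · rw [hv, if_pos rfl, one_smul, hτ]
        · intro i _ hi
          rw [hv, if_neg hi, zero_smul]
        · intro h; exact absurd (Finset.mem_univ _) h
      rw [hx, TT_eq_TSm] at h2
      exact ⟨_, h2.symm⟩
    choose a ha using h1
    let A : Matrix ι ι F := fun i j => a j i
    have hxA : x.1 = fun j => ∑ i, A i j • e.1 i := funext ha
    have hA : A * PiM F τ * Aᵀ = PiM F τ := by
      apply TSm_inj hnd e.2.1
      intro v
      rw [← TT_comb, ← hxA, hx, TT_eq_TSm]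
    refine ⟨⟨A, hA⟩, ?_⟩
    apply Subtype.ext
    apply Subtype.ext
    exact hxA.symm

end et

end Cfsg.Agent.H17
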