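import Mathlib
import Cfsg.Agent.H17.TcB

set_option autoImplicit false

/-! Centraliser orders of involutions of the symplectic group in characteristic two. -/

namespace Cfsg.Agent.H17

open Module Cfsg.Agent.H5 Matrix

theorem prod_ar {q : ℕ} (hq : 2 ≤ q) (m s : ℕ) (hs : s ≤ m) :
    q ^ (m ^ 2) * ∏ i ∈ Finset.range m, (q ^ (2 * (i + 1)) - 1) =
      (∏ i ∈ Finset.range s, (q ^ (2 * m - i) - q ^ i)) *
        (q ^ (2 * m * s - (3 * s ^ 2 - s) / 2) * (q ^ ((m - s) ^ 2) * ∏ i ∈ Finset.range (m - s), (q ^ (2 * (i + 1)) - 1))) := by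
  obtain ⟨r, rfl⟩ : ∃ r, m = s + r := ⟨m - s, by omega⟩
  rw [Nat.add_sub_cancel_left]
  obtain ⟨b, hb⟩ : ∃ b, s * (s - 1) = 2 * b := (Nat.even_mul_pred_self s).two_dvd
  have hs2 : s ^ 2 = s + 2 * b := by
    rw [← hb]
    rcases s with _ | s
    · rfl
    · rw [Nat.add_sub_cancel]; ring
  have h1 : (3 * s ^ 2 - s) / 2 = s ^ 2 + b := by omega
  have h2 : ∏ i ∈ Finset.range s, (q ^ (2 * (s + r) - i) - q ^ i) = q ^ b * ∏ i ∈ Finset.range s, (q ^ (2 * (r + i + 1)) - 1) := by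
    have h3 : ∏ i ∈ Finset.range s, q ^ i = q ^ b := by
      rw [Finset.prod_pow_eq_pow_sum, Finset.sum_range_id]
      congr 1
      omega
    have h4 : ∏ i ∈ Finset.range s, (q ^ (2 * (r + i + 1)) - 1) = ∏ i ∈ Finset.range s, (q ^ (2 * (s + r - i)) - 1) := by
      rw [← Finset.prod_range_reflect]
      apply Finset.prod_congr rfl
      intro i hi
      rw [Finset.mem_range] at hi
      congr 3
      omega
    rw [h4, ← h3, ← Finset.prod_mul_distrib]
    apply Finset.prod_congr rfl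
    intro i hi
    rw [Finset.mem_range] at hi
    rw [Nat.mul_sub, mul_one, ← pow_add]
    congr 2
    omega
  have h5 : ∏ i ∈ Finset.range (s + r), (q ^ (2 * (i + 1)) - 1) = (∏ i ∈ Finset.range r, (q ^ (2 * (i + 1)) - 1)) * ∏ i ∈ Finset.range s, (q ^ (2 * (r + i + 1)) - 1) := by
    rw [add_comm s r, Finset.prod_range_add]
  have h6 : 2 * (s + r) * s - (s ^ 2 + b) = s ^ 2 + 2 * r * s - b := by
    have : 2 * (s + r) * s = 2 * s ^ 2 + 2 * r * s := by ring
    omega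
  have h7 : (s + r) ^ 2 = b + (s ^ 2 + 2 * r * s - b) + r ^ 2 := by
    have : (s + r) ^ 2 = s ^ 2 + 2 * r * s + r ^ 2 := by ring
    have : b ≤ s ^ 2 := by omega
    omega
  rw [h2, h5, h1, h6, h7, pow_add, pow_add]
  ring

section sp

variable {F : Type*} [Field F] [Fintype F] [CharP F 2] {ι : Type} [Fintype ι] [DecidableEq ι]

theorem spIG_apply (m : ℕ) (A : Matrix.symplecticGroup (Fin m) F) (v : Fin m ⊕ Fin m → F) : ((spIG m F A : IG (sympB m F) (fun _ => (0 : F))) : (Fin m ⊕ Fin m → F) ≃ₗ[F] _) v =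
    (A : Matrix (Fin m ⊕ Fin m) (Fin m ⊕ Fin m) F) *ᵥ v := mkE_apply (mem_Sp_sJ.mp A.2) v

theorem cent_formula {q : ℕ} (hF : Fintype.card F = q) (m : ℕ) (t : Matrix.symplecticGroup (Fin m) F) (e : IsoT (sympB m F) ι) {τ : ι → ι} (hτ : Function.Involutive τ)
    (ht : ∀ v, (t : Matrix (Fin m ⊕ Fin m) (Fin m ⊕ Fin m) F) *ᵥ v - v = TT (sympB m F) e.1 τ v) {s : ℕ} (hs : Fintype.card ι = s) :
    Nat.card ↥(Subgroup.centralizer ({t} : Set ↥(Matrix.symplecticGroup (Fin m) F))) =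
      Nat.card {A : Matrix ι ι F // A * PiM F τ * Aᵀ = PiM F τ} *
        (q ^ (2 * m * s - (3 * s ^ 2 - s) / 2) * (q ^ ((m - s) ^ 2) * ∏ i ∈ Finset.range (m - s), (q ^ (2 * (i + 1)) - 1))) := by
  have H := iset_sp (F := F) m
  have hfr : finrank F (Fin m ⊕ Fin m → F) = 2 * m := by
    rw [Module.finrank_fintype_fun_eq_card, Fintype.card_sum, Fintype.card_fin]; ring
  have hsm : s ≤ m := by
    rw [← hs]
    exact iso_bound sympB_isAlt.isRefl sympB_nondegenerate (m := m) hfr e.2.1 e.2.2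
  have hq : 2 ≤ q := by rw [← hF]; exact Fintype.one_lt_card
  have hw : ∀ x : IsoT (sympB m F) ι, ∃ g : IG (sympB m F) (fun _ => (0 : F)), actI g e = x := by
    intro x
    obtain ⟨g, hg, hgx⟩ := H.witt e.1 x.1 e.2.1 x.2.1 (fun i j => by rw [x.2.2, e.2.2]) (fun _ => rfl)
    exact ⟨⟨g, hg⟩, Subtype.ext (funext hgx)⟩
  have c1 := card_orb_IG e hw (fun x => TT (sympB m F) x.1 τ = TT (sympB m F) e.1 τ)
  have c2 := card_orb_IG e hw (fun _ => True)
  have e1 : Nat.card {g : IG (sympB m F) (fun _ => (0 : F)) // True} = Nat.card (Matrix.symplecticGroup (Fin m) F) := by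
    rw [Nat.card_congr (Equiv.subtypeUnivEquiv (fun _ => trivial)), Nat.card_congr (spIG m F).toEquiv]
  have e2 : Nat.card {x : IsoT (sympB m F) ι // True} = ∏ i ∈ Finset.range s, (q ^ (2 * m - i) - q ^ i) := by
    rw [Nat.card_congr (Equiv.subtypeUnivEquiv (fun _ => trivial))]
    have e' := Fintype.equivFinOfCardEq hs
    have h1 : Nat.card (IsoT (sympB m F) ι) = Nat.card (IsoT (sympB m F) (Fin s)) := by
      apply Nat.card_congr
      exact { toFun := fun x => ⟨x.1 ∘ e'.symm, x.2.1.comp _ e'.symm.injective, fun i j => x.2.2 _ _⟩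
              invFun := fun x => ⟨x.1 ∘ e', x.2.1.comp _ e'.injective, fun i j => x.2.2 _ _⟩
              left_inv := fun x => Subtype.ext (by funext i; simp)
              right_inv := fun x => Subtype.ext (by funext i; simp) }
    have h2 := card_IsoT (F := F) sympB_isAlt H.nd s (by rw [hfr]; omega)
    rw [h1, h2, hfr, Nat.card_eq_fintype_card (α := F), hF]
  have e3 : Nat.card ↥(Subgroup.centralizer ({t} : Set ↥(Matrix.symplecticGroup (Fin m) F))) =
      Nat.card {g : IG (sympB m F) (fun _ => (0 : F)) // TT (sympB m F) (actI g e).1 τ = TT (sympB m F) e.1 τ} := by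
    apply Nat.card_congr
    refine (spIG m F).toEquiv.subtypeEquiv ?_
    intro g
    rw [Subgroup.mem_centralizer_singleton_iff]
    have hT : ∀ v, TT (sympB m F) e.1 τ v = (t : Matrix (Fin m ⊕ Fin m) (Fin m ⊕ Fin m) F) *ᵥ v - v := fun v => (ht v).symm
    have h3 : ∀ v, TT (sympB m F) (actI (spIG m F g) e).1 τ ((g : Matrix (Fin m ⊕ Fin m) (Fin m ⊕ Fin m) F) *ᵥ v) =
        (g : Matrix (Fin m ⊕ Fin m) (Fin m ⊕ Fin m) F) *ᵥ (TT (sympB m F) e.1 τ v) := by
      intro v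
      have h4 := TT_conj (B := sympB m F) (e := e.1) (e' := (actI (spIG m F g) e).1) (τ := τ)
        (g := ((spIG m F g : IG (sympB m F) (fun _ => (0 : F))) : (Fin m ⊕ Fin m → F) ≃ₗ[F] _)) (spIG m F g).2.1 (fun i => rfl) v
      rw [spIG_apply, spIG_apply] at h4
      exact h4.symm
    constructor
    · intro hg
      have hg' : (g : Matrix (Fin m ⊕ Fin m) (Fin m ⊕ Fin m) F) * (t : Matrix (Fin m ⊕ Fin m) (Fin m ⊕ Fin m) F) = (t : Matrix (Fin m ⊕ Fin m) (Fin m ⊕ Fin m) F) * g :=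
        congrArg (fun x : Matrix.symplecticGroup (Fin m) F => (x : Matrix (Fin m ⊕ Fin m) (Fin m ⊕ Fin m) F)) hg
      apply LinearMap.ext
      intro w
      obtain ⟨v, rfl⟩ : ∃ v, (g : Matrix (Fin m ⊕ Fin m) (Fin m ⊕ Fin m) F) *ᵥ v = w := by
        refine ⟨((g⁻¹ : Matrix.symplecticGroup (Fin m) F) : Matrix (Fin m ⊕ Fin m) (Fin m ⊕ Fin m) F) *ᵥ w, ?_⟩
        rw [mulVec_mulVec]
        have h5 : (g : Matrix (Fin m ⊕ Fin m) (Fin m ⊕ Fin m) F) * ((g⁻¹ : Matrix.symplecticGroup (Fin m) F) : Matrix (Fin m ⊕ Fin m) (Fin m ⊕ Fin m) F) = 1 :=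
          congrArg (fun x : Matrix.symplecticGroup (Fin m) F => (x : Matrix (Fin m ⊕ Fin m) (Fin m ⊕ Fin m) F)) (mul_inv_cancel g)
        rw [h5, one_mulVec]
      show TT (sympB m F) (actI (spIG m F g) e).1 τ _ = _
      rw [h3, hT, hT, mulVec_sub, mulVec_mulVec, hg', ← mulVec_mulVec]
    · intro hg
      apply Subtype.ext
      show (g : Matrix (Fin m ⊕ Fin m) (Fin m ⊕ Fin m) F) * (t : Matrix (Fin m ⊕ Fin m) (Fin m ⊕ Fin m) F) = (t : Matrix (Fin m ⊕ Fin m) (Fin m ⊕ Fin m) F) * g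
      apply Matrix.toLin'.injective
      apply LinearMap.ext
      intro v
      rw [Matrix.toLin'_apply, Matrix.toLin'_apply, ← mulVec_mulVec, ← mulVec_mulVec]
      have h4 := h3 v
      have hg' : TT (sympB m F) (actI (spIG m F g) e).1 τ = TT (sympB m F) e.1 τ := hg
      rw [hg', hT, hT, mulVec_sub] at h4
      exact (sub_left_inj.mp h4).symm
  rw [e1, e2] at c2
  rw [e3, c1, card_ET H.nd e hτ]
  rw [card_Sp hF, prod_ar hq m s hsm] at c2
  have hpos : 0 < ∏ i ∈ Finset.range s, (q ^ (2 * m - i) - q ^ i) := by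
    apply Finset.prod_pos
    intro i hi
    rw [Finset.mem_range] at hi
    exact Nat.sub_pos_of_lt (Nat.pow_lt_pow_right (by omega) (by omega))
  rw [← Nat.eq_of_mul_eq_mul_left hpos c2]

end sp

end Cfsg.Agent.H17
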