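import Mathlib
import Cfsg.Agent.H17.TcC

set_option autoImplicit false

/-! The two kinds of involutions of the symplectic group in characteristic two. -/

namespace Cfsg.Agent.H17

open Module Cfsg.Agent.H5 Matrix

section sp

variable {F : Type*} [Field F] [Fintype F] [CharP F 2]

theorem mat_cases (m : ℕ) (t : Matrix.symplecticGroup (Fin m) F) (ht : t ^ 2 = 1) :
    (∃ (s : ℕ) (e : IsoT (sympB m F) (Fin s)), 0 < s ∧ ∀ v, (t : Matrix (Fin m ⊕ Fin m) (Fin m ⊕ Fin m) F) *ᵥ v - v = TT (sympB m F) e.1 id v) ∨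
    (∃ (k : ℕ) (e : IsoT (sympB m F) (Fin k ⊕ Fin k)), ∀ v, (t : Matrix (Fin m ⊕ Fin m) (Fin m ⊕ Fin m) F) *ᵥ v - v = TT (sympB m F) e.1 Sum.swap v) := by
  have H := iset_sp (F := F) m
  rcases invol_cases H (spIG m F t).2 (fun v => by
    rw [spIG_apply, spIG_apply, mulVec_mulVec]
    have h5 : (t : Matrix (Fin m ⊕ Fin m) (Fin m ⊕ Fin m) F) * (t : Matrix (Fin m ⊕ Fin m) (Fin m ⊕ Fin m) F) = 1 := by
      have h6 : t * t = 1 := by rw [← pow_two]; exact ht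
      exact congrArg (fun x : Matrix.symplecticGroup (Fin m) F => (x : Matrix (Fin m ⊕ Fin m) (Fin m ⊕ Fin m) F)) h6
    rw [h5, one_mulVec]) with ⟨s, e, h1, h2, _, h3, h4⟩ | ⟨k, e, h1, h2, _, h4⟩
  · left
    refine ⟨s, ⟨e, h1, h2⟩, h3, fun v => ?_⟩
    have := h4 v
    rwa [spIG_apply] at this
  · right
    refine ⟨k, ⟨e, h1, h2⟩, fun v => ?_⟩
    have := h4 v
    rwa [spIG_apply] at this

theorem rank_TT (m : ℕ) (t : Matrix.symplecticGroup (Fin m) F) {ι : Type} [Fintype ι] (e : IsoT (sympB m F) ι) {τ : ι → ι} (hτ : Function.Involutive τ)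
    (ht : ∀ v, (t : Matrix (Fin m ⊕ Fin m) (Fin m ⊕ Fin m) F) *ᵥ v - v = TT (sympB m F) e.1 τ v) :
    ((t : Matrix (Fin m ⊕ Fin m) (Fin m ⊕ Fin m) F) - 1).rank = Fintype.card ι := by
  rw [← TT_rank (iset_sp (F := F) m).nd e.2.1 hτ]
  have h1 : ((t : Matrix (Fin m ⊕ Fin m) (Fin m ⊕ Fin m) F) - 1).mulVecLin = TT (sympB m F) e.1 τ := by
    apply LinearMap.ext
    intro v
    rw [mulVecLin_apply, sub_mulVec, one_mulVec, ht]
  unfold Matrix.rank
  rw [h1]

theorem PiM_swap (k : ℕ) : PiM F (Sum.swap : Fin k ⊕ Fin k → Fin k ⊕ Fin k) = J (Fin k) F := by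
  unfold PiM J
  ext (i | i) (j | j)
  · simp
  · simp only [fromBlocks_apply₁₂, Sum.swap_inl, Sum.inr.injEq]
    rw [Matrix.neg_apply, neg_self2, Matrix.one_apply]
    by_cases h : j = i
    · rw [if_pos h, if_pos h.symm]
    · rw [if_neg h, if_neg (fun h' => h h'.symm)]
  · simp only [fromBlocks_apply₂₁, Sum.swap_inr, Sum.inl.injEq]
    rw [Matrix.one_apply]
    by_cases h : j = i
    · rw [if_pos h, if_pos h.symm]
    · rw [if_neg h, if_neg (fun h' => h h'.symm)]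
  · simp

theorem card_swap {q : ℕ} (hF : Fintype.card F = q) (k : ℕ) :
    Nat.card {A : Matrix (Fin k ⊕ Fin k) (Fin k ⊕ Fin k) F // A * PiM F Sum.swap * Aᵀ = PiM F Sum.swap} = q ^ (k ^ 2) * ∏ i ∈ Finset.range k, (q ^ (2 * (i + 1)) - 1) := by
  rw [← card_Sp hF k]
  apply Nat.card_congr
  apply Equiv.subtypeEquivRight
  intro A
  rw [PiM_swap, ← SymplecticGroup.mem_iff]

end sp

end Cfsg.Agent.H17
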