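import Mathlib
import Cfsg.Agent.H17.SymTwo
import Cfsg.Agent.H17.TcD

set_option autoImplicit false

/-! The number of orthonormal bases of a symmetric form in characteristic two. -/

namespace Cfsg.Agent.H17

open Module Matrix

section on

variable {F : Type*} [Field F] [Finite F] [CharP F 2]

def ONb {V : Type*} [AddCommGroup V] [Module F V] (B : LinearMap.BilinForm F V) (s : ℕ) := {b : Fin s → V // ∀ i j, B (b i) (b j) = if i = j then 1 else 0}

def fON (q : ℕ) : ℕ → ℕ
  | 0 => 1
  | (s + 1) => (if Odd (s + 1) ∧ s ≠ 0 then q ^ s - 1 else q ^ s) * fON q s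

theorem sq_one_iff (a : F) : a ^ 2 = 1 ↔ a = 1 := by
  constructor
  · intro h
    have h1 : (a - 1) ^ 2 = 0 := by
      have h2 : (2 : F) = 0 := two_zero F
      linear_combination h + (1 - a) * h2
    exact sub_eq_zero.mp (pow_eq_zero_iff (two_ne_zero) |>.mp h1)
  · rintro rfl
    ring

theorem card_ONb : ∀ (s : ℕ) {V : Type*} [AddCommGroup V] [Module F V] [FiniteDimensional F V] (_ : finrank F V = s) (B : LinearMap.BilinForm F V)
    (_ : ∀ x y, B x y = B y x) (_ : ∀ x, (∀ y, B x y = 0) → x = 0) (_ : 0 < s → ∃ v : V, B v v ≠ 0), Nat.card (ONb B s) = fON (Nat.card F) s := by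
  classical
  intro s
  induction s with
  | zero =>
    intro V _ _ _ _ B _ _ _
    show Nat.card (ONb B 0) = 1
    rw [Nat.card_eq_one_iff_unique]
    exact ⟨⟨fun a b => Subtype.ext (Subsingleton.elim _ _)⟩, ⟨⟨fun i => i.elim0, fun i => i.elim0⟩⟩⟩
  | succ s ih =>
    intro V _ _ _ hV B hsym hnd hna
    obtain ⟨b, hb⟩ := orthonormal_two (F := F) (s + 1) hV B hsym hnd hna
    let w : V := ∑ i, b i
    have hx : ∀ x : V, x = ∑ i, B x (b i) • b i := by
      intro x
      have h1 : (LinearMap.id : V →ₗ[F] V) = ∑ i, (B.flip (b i)).smulRight (b i) := by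
        apply b.ext
        intro j
        rw [LinearMap.sum_apply, Finset.sum_eq_single j]
        · show b j = B (b j) (b j) • b j
          rw [hb, if_pos rfl, one_smul]
        · intro i _ hi
          show B (b j) (b i) • b i = 0
          rw [hb, if_neg (Ne.symm hi), zero_smul]
        · intro h; exact absurd (Finset.mem_univ _) h
      have h2 := LinearMap.congr_fun h1 x
      rw [LinearMap.sum_apply] at h2
      exact h2
    have hw : ∀ x : V, B x x = (B x w) ^ 2 := by
      intro x
      have h1 : B x w = ∑ i, B x (b i) := by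
        show B x (∑ i, b i) = _
        rw [map_sum]
      rw [h1, sum_pow_char 2]
      have h3 : B x x = B x (∑ i, B x (b i) • b i) := congrArg (B x) (hx x)
      rw [h3, map_sum]
      apply Finset.sum_congr rfl
      intro i _
      rw [map_smul, smul_eq_mul, pow_two]
    have hwb : ∀ j, B w (b j) = 1 := by
      intro j
      rw [hsym]
      show B (b j) (∑ i, b i) = 1
      rw [map_sum, Finset.sum_eq_single j]
      · rw [hb, if_pos rfl]
      · intro i _ hi
        rw [hb, if_neg (Ne.symm hi)]
      · intro h; exact absurd (Finset.mem_univ _) h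
    have hww : B w w = ((s + 1 : ℕ) : F) := by
      have h1 : B w w = ∑ i, B w (b i) := by
        show B w (∑ i, b i) = _
        rw [map_sum]
      rw [h1, Finset.sum_congr rfl (fun j _ => hwb j), Finset.sum_const, Finset.card_univ, Fintype.card_fin, nsmul_eq_mul, mul_one]
    have hone : ∀ v : V, B v v = 1 ↔ B v w = 1 := fun v => by rw [hw, sq_one_iff]
    have hw0 : B (b 0) w = 1 := by rw [← hone, hb, if_pos rfl]
    haveI : Finite V := Module.finite_of_finite F
    -- number of v
    have hN : Nat.card {v : V // B v v = 1} = Nat.card F ^ s := by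
      have h1 : Nat.card {v : V // B v v = 1} = Nat.card (LinearMap.ker (B w)) := by
        apply Nat.card_congr
        refine ⟨fun v => ⟨v.1 - b 0, ?_⟩, fun v => ⟨v.1 + b 0, ?_⟩, fun v => ?_, fun v => ?_⟩
        · rw [LinearMap.mem_ker, map_sub, hsym w v.1, hsym w (b 0), (hone _).mp v.2, hw0, sub_self]
        · have h2 := LinearMap.mem_ker.mp v.2
          rw [hone, map_add, LinearMap.add_apply, hw0, hsym, h2, zero_add]
        · apply Subtype.ext
          show v.1 - b 0 + b 0 = v.1
          abel
        · apply Subtype.ext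
          show v.1 + b 0 - b 0 = v.1
          abel
      rw [h1, Module.natCard_eq_pow_finrank (K := F)]
      congr 1
      have h2 : LinearMap.range (B w) = ⊤ := by
        rw [LinearMap.range_eq_top]
        intro c
        refine ⟨c • b 0, ?_⟩
        rw [map_smul, hsym w, hw0, smul_eq_mul, mul_one]
      have h3 := LinearMap.finrank_range_add_finrank_ker (B w)
      rw [h2, finrank_top, Module.finrank_self, hV] at h3
      omega
    have hdec : ∀ v : V, B v v = 1 → ∀ z : V, ∃ x ∈ LinearMap.ker (B v), z = B v z • v + x := by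
      intro v hv z
      refine ⟨z - B v z • v, ?_, by abel⟩
      rw [LinearMap.mem_ker, map_sub, map_smul, hv, smul_eq_mul, mul_one, sub_self]
    let Bv : (v : V) → LinearMap.BilinForm F (LinearMap.ker (B v)) := fun v => B.domRestrict₁₂ (LinearMap.ker (B v)) (LinearMap.ker (B v))
    have hBv : ∀ v (x y : LinearMap.ker (B v)), Bv v x y = B x.1 y.1 := fun v x y => rfl
    have e1 : ONb B (s + 1) ≃ Σ v : {v : V // B v v = 1}, ONb (Bv v.1) s :=
      { toFun := fun x => ⟨⟨x.1 0, by rw [x.2, if_pos rfl]⟩, ⟨fun i => ⟨x.1 i.succ, by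
            rw [LinearMap.mem_ker, x.2, if_neg (Fin.succ_ne_zero i).symm]⟩, fun i j => by
            rw [hBv]
            show B (x.1 i.succ) (x.1 j.succ) = _
            rw [x.2]
            by_cases h : i = j
            · rw [if_pos h, if_pos (by rw [h])]
            · rw [if_neg h, if_neg (fun h' => h (Fin.succ_injective _ h'))]⟩⟩
        invFun := fun y => ⟨Fin.cons y.1.1 (fun i => (y.2.1 i).1), by
            intro i j
            refine Fin.cases ?_ (fun i => ?_) i <;> refine Fin.cases ?_ (fun j => ?_) j
            · rw [if_pos rfl]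
              exact y.1.2
            · rw [if_neg (Fin.succ_ne_zero j).symm]
              exact LinearMap.mem_ker.mp (y.2.1 j).2
            · rw [if_neg (Fin.succ_ne_zero i)]
              show B (y.2.1 i).1 y.1.1 = 0
              rw [hsym]
              exact LinearMap.mem_ker.mp (y.2.1 i).2
            · show B (y.2.1 i).1 (y.2.1 j).1 = _
              have h1 := y.2.2 i j
              rw [hBv] at h1
              rw [h1]
              by_cases h : i = j
              · rw [if_pos h, if_pos (by rw [h])]
              · rw [if_neg h, if_neg (fun h' => h (Fin.succ_injective _ h'))]⟩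
        left_inv := fun x => Subtype.ext (Fin.cons_self_tail x.1)
        right_inv := fun y => rfl }
    haveI : Finite {v : V // B v v = 1} := Subtype.finite
    haveI : Fintype {v : V // B v v = 1} := Fintype.ofFinite _
    have hfin : ∀ v : {v : V // B v v = 1}, Finite (ONb (Bv v.1) s) := by
      intro v
      haveI : Finite (LinearMap.ker (B v.1)) := Subtype.finite
      exact Subtype.finite
    have hdim : ∀ v : {v : V // B v v = 1}, finrank F (LinearMap.ker (B v.1)) = s := by
      intro v
      have h2 : LinearMap.range (B v.1) = ⊤ := by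
        rw [LinearMap.range_eq_top]
        intro c
        refine ⟨c • v.1, ?_⟩
        rw [map_smul, v.2, smul_eq_mul, mul_one]
      have h3 := LinearMap.finrank_range_add_finrank_ker (B v.1)
      rw [h2, finrank_top, Module.finrank_self, hV] at h3
      omega
    have hndv : ∀ v : {v : V // B v v = 1}, ∀ x, (∀ y, Bv v.1 x y = 0) → x = 0 := by
      intro v x hxy
      apply Subtype.ext
      apply hnd
      intro z
      obtain ⟨y, hy, hz⟩ := hdec v.1 v.2 z
      rw [hz, map_add, map_smul, hsym x.1 v.1, LinearMap.mem_ker.mp x.2, smul_zero, zero_add]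
      exact hxy ⟨y, hy⟩
    have hgood : ∀ v : {v : V // B v v = 1}, v.1 ≠ w → Nat.card (ONb (Bv v.1) s) = fON (Nat.card F) s := by
      intro v hvw
      apply ih (hdim v) (Bv v.1) (fun x y => hsym _ _) (hndv v)
      intro _
      by_contra hcon
      push Not at hcon
      apply hvw
      have h1 : ∀ x ∈ LinearMap.ker (B v.1), B x w = 0 := by
        intro x hx
        have h2 := hcon ⟨x, hx⟩
        rw [hBv] at h2
        have h3 : B x x = 0 := h2
        rw [hw] at h3
        exact pow_eq_zero_iff (two_ne_zero) |>.mp h3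
      have h2 : B v.1 w = 1 := (hone _).mp v.2
      have h4 : v.1 - w = 0 := by
        apply hnd
        intro z
        obtain ⟨y, hy, hz⟩ := hdec v.1 v.2 z
        have h5 : B w y = 0 := by rw [hsym]; exact h1 y hy
        rw [hz, map_add, map_smul, map_sub, LinearMap.sub_apply, LinearMap.sub_apply, v.2, hsym w v.1, h2, LinearMap.mem_ker.mp hy, h5]
        simp
      exact sub_eq_zero.mp h4
    rw [Nat.card_congr e1, Nat.card_sigma]
    show _ = (if Odd (s + 1) ∧ s ≠ 0 then Nat.card F ^ s - 1 else Nat.card F ^ s) * fON (Nat.card F) s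
    split_ifs with hcase
    · -- w is a vector of norm one and its complement is alternating
      have hw1 : B w w = 1 := by
        rw [hww]
        obtain ⟨k, hk⟩ := hcase.1
        rw [hk]
        push_cast
        rw [two_zero, zero_mul, zero_add]
      rw [← Finset.add_sum_erase _ _ (Finset.mem_univ (⟨w, hw1⟩ : {v : V // B v v = 1}))]
      have h1 : Nat.card (ONb (Bv w) s) = 0 := by
        rw [Nat.card_eq_zero]
        left
        constructor
        intro x
        obtain ⟨k, hk⟩ : ∃ k, s = k + 1 := ⟨s - 1, by have := hcase.2; omega⟩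
        subst hk
        have h2 := x.2 0 0
        rw [if_pos rfl, hBv, hw, hsym, LinearMap.mem_ker.mp (x.1 0).2] at h2
        simp at h2
      rw [Finset.sum_congr rfl (fun v hv => hgood v (fun h => Finset.ne_of_mem_erase hv (Subtype.ext h))), Finset.sum_const, Finset.card_erase_of_mem (Finset.mem_univ _),
        Finset.card_univ, ← Nat.card_eq_fintype_card, hN, smul_eq_mul]
      show Nat.card (ONb (Bv w) s) + _ = _
      rw [h1, zero_add]
    · have h1 : ∀ v : {v : V // B v v = 1}, Nat.card (ONb (Bv v.1) s) = fON (Nat.card F) s := by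
        intro v
        by_cases hvw : v.1 = w
        · -- then B w w = 1 so s + 1 odd so s = 0
          have hodd : Odd (s + 1) := by
            by_contra he
            rw [Nat.not_odd_iff_even] at he
            obtain ⟨k, hk⟩ := he
            have h2 := v.2
            rw [hvw, hww, hk, ← two_mul, Nat.cast_mul, Nat.cast_two, two_zero, zero_mul] at h2
            exact zero_ne_one h2
          have hs0 : s = 0 := by
            by_contra h3
            exact hcase ⟨hodd, h3⟩
          apply ih (hdim v) (Bv v.1) (fun x y => hsym _ _) (hndv v)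
          intro h; omega
        · exact hgood v hvw
      rw [Finset.sum_congr rfl (fun v _ => h1 v), Finset.sum_const, Finset.card_univ, ← Nat.card_eq_fintype_card, hN, smul_eq_mul]

theorem card_id (s : ℕ) : Nat.card {A : Matrix (Fin s) (Fin s) F // A * PiM F id * Aᵀ = PiM F id} = fON (Nat.card F) s := by
  have h1 : PiM F (id : Fin s → Fin s) = 1 := by
    ext i j
    unfold PiM
    rw [Matrix.one_apply]
    by_cases h : j = i
    · rw [if_pos (by exact h), if_pos h.symm]
    · rw [if_neg (by exact h), if_neg (fun h' => h h'.symm)]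
  let B : LinearMap.BilinForm F (Fin s → F) := Matrix.toBilin' (1 : Matrix (Fin s) (Fin s) F)
  have hB : ∀ x y, B x y = x ⬝ᵥ y := by
    intro x y
    show Matrix.toBilin' (1 : Matrix (Fin s) (Fin s) F) x y = _
    rw [Matrix.toBilin'_apply', one_mulVec]
  rw [← card_ONb s (V := Fin s → F) (by rw [Module.finrank_fintype_fun_eq_card, Fintype.card_fin]) B (fun x y => by rw [hB, hB, dotProduct_comm])
    (fun x h => by
      funext i
      have := h (Pi.single i 1)
      rw [hB, dotProduct_single_one] at this
      exact this)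
    (fun hs => ⟨Pi.single ⟨0, hs⟩ 1, by rw [hB, dotProduct_single_one, Pi.single_eq_same]; exact one_ne_zero⟩)]
  apply Nat.card_congr
  apply Equiv.subtypeEquivRight
  intro A
  rw [h1, Matrix.mul_one, ← Matrix.ext_iff]
  apply forall_congr'
  intro i
  apply forall_congr'
  intro j
  rw [hB, Matrix.one_apply]
  exact Iff.rfl

end on

theorem fON_odd {q : ℕ} (k : ℕ) : fON q (2 * k + 1) = q ^ (k ^ 2) * ∏ i ∈ Finset.range k, (q ^ (2 * (i + 1)) - 1) := by
  induction k with
  | zero =>
    show (if Odd (0 + 1) ∧ (0 : ℕ) ≠ 0 then q ^ 0 - 1 else q ^ 0) * 1 = _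
    rw [if_neg (fun h => h.2 rfl)]
    simp
  | succ k ih =>
    have h1 : fON q (2 * (k + 1) + 1) = (q ^ (2 * k + 2) - 1) * (q ^ (2 * k + 1) * fON q (2 * k + 1)) := by
      show (if Odd (2 * k + 2 + 1) ∧ 2 * k + 2 ≠ 0 then q ^ (2 * k + 2) - 1 else q ^ (2 * k + 2)) *
        ((if Odd (2 * k + 1 + 1) ∧ 2 * k + 1 ≠ 0 then q ^ (2 * k + 1) - 1 else q ^ (2 * k + 1)) * fON q (2 * k + 1)) = _
      rw [if_pos ⟨⟨k + 1, by ring⟩, by omega⟩, if_neg (fun h => by
        have := h.1
        rw [← Nat.not_even_iff_odd] at this
        exact this ⟨k + 1, by ring⟩)]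
    rw [h1, ih, Finset.prod_range_succ]
    have h2 : (k + 1) ^ 2 = k ^ 2 + (2 * k + 1) := by ring
    rw [h2, pow_add, show 2 * (k + 1) = 2 * k + 2 by ring]
    ring

theorem fON_even {q : ℕ} (k : ℕ) : fON q (2 * k + 2) = q ^ (2 * k + 1) * (q ^ (k ^ 2) * ∏ i ∈ Finset.range k, (q ^ (2 * (i + 1)) - 1)) := by
  rw [← fON_odd]
  show (if Odd (2 * k + 1 + 1) ∧ 2 * k + 1 ≠ 0 then q ^ (2 * k + 1) - 1 else q ^ (2 * k + 1)) * fON q (2 * k + 1) = _
  rw [if_neg (fun h => by
    have := h.1
    rw [← Nat.not_even_iff_odd] at this
    exact this ⟨k + 1, by ring⟩)]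

end Cfsg.Agent.H17
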