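import Mathlib
import Cfsg.Agent.H17.TcE

set_option autoImplicit false

/-! Isotropic tuples of vectors of given norm in characteristic two. -/

namespace Cfsg.Agent.H17

open Module Cfsg.Agent.H5 Matrix

section gen

variable {F : Type*} [Field F] {V : Type*} [AddCommGroup V] [Module F V]

def IsoN (B : LinearMap.BilinForm F V) (N : V → F) (c : F) (ι : Type) := {e : ι → V // LinearIndependent F e ∧ (∀ i j, B (e i) (e j) = 0) ∧ ∀ i, N (e i) = c}

def actN {B : LinearMap.BilinForm F V} {N : V → F} {c : F} {ι : Type} (g : IG B N) (e : IsoN B N c ι) : IsoN B N c ι :=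
  ⟨fun i => (g : V ≃ₗ[F] V) (e.1 i), e.2.1.map' (g : V ≃ₗ[F] V).toLinearMap (LinearEquiv.ker _), fun i j => by
    rw [g.2.1, e.2.2.1], fun i => by rw [g.2.2, e.2.2.2]⟩

theorem card_orb_N {B : LinearMap.BilinForm F V} {N : V → F} {c : F} {ι : Type} (e : IsoN B N c ι)
    (hw : ∀ x : IsoN B N c ι, ∃ g : IG B N, actN g e = x) (P : IsoN B N c ι → Prop) :
    Nat.card {g : IG B N // P (actN g e)} = Nat.card {x : IsoN B N c ι // P x} * Nat.card {g : IG B N // actN g e = e} := by
  choose h hh using hw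
  have hm : ∀ g g' : IG B N, actN (g * g') e = actN g (actN g' e) := fun _ _ => rfl
  have h1 : ∀ (x : IsoN B N c ι) (g : {g : IG B N // actN g e = e}), actN (h x * g.1) e = x := by
    intro x g
    rw [hm, g.2, hh]
  rw [← Nat.card_prod]
  symm
  apply Nat.card_congr
  refine ⟨fun p => ⟨h p.1.1 * p.2.1, ?_⟩, fun g => (⟨actN g.1 e, g.2⟩, ⟨(h (actN g.1 e))⁻¹ * g.1, ?_⟩), ?_, ?_⟩
  · rw [h1]
    exact p.1.2
  · rw [hm]
    have h2 : actN ((h (actN g.1 e))⁻¹ * h (actN g.1 e)) e = e := by rw [inv_mul_cancel]; rfl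
    rw [hm, hh] at h2
    exact h2
  · rintro ⟨⟨x, hx⟩, g⟩
    have h3 := h1 x g
    apply Prod.ext
    · exact Subtype.ext h3
    · apply Subtype.ext
      show (h (actN (h x * g.1) e))⁻¹ * (h x * g.1) = g.1
      rw [h3, inv_mul_cancel_left]
  · intro g
    apply Subtype.ext
    show h (actN g.1 e) * ((h (actN g.1 e))⁻¹ * g.1) = g.1
    rw [mul_inv_cancel_left]

end gen

section quad

variable {F : Type*} [Field F] [Finite F] [CharP F 2] {V : Type*} [AddCommGroup V] [Module F V] [FiniteDimensional F V] {Q : QuadraticForm F V}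

/-- vectors of norm one in a subspace having a radical vector of norm one -/
theorem card_level_one {U : Submodule F V} {e0 : V} (he : e0 ∈ U) (h0 : ∀ u ∈ U, pB Q u e0 = 0) (h1 : Q e0 = 1) :
    Nat.card {u : V // u ∈ U ∧ Q u = 1} * Nat.card F = Nat.card U := by
  classical
  have hadd : ∀ u ∈ U, ∀ c : F, Q (u + c • e0) = Q u + c * c := by
    intro u hu c
    rw [q_add, QuadraticMap.map_smul, h1, map_smul, h0 u hu, smul_zero, add_zero, smul_eq_mul, mul_one]
  have hsq : ∀ a : F, ∃ c : F, c * c = a := fun a => char_two_sqrt a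
  choose r hr using hsq
  have hinj : ∀ a b : F, a * a = b * b → a = b := by
    intro a b hab
    have h2 : (a - b) ^ 2 = 0 := by linear_combination hab + (b * b - a * b) * two_zero F
    exact sub_eq_zero.mp (pow_eq_zero_iff (two_ne_zero) |>.mp h2)
  rw [← Nat.card_prod]
  apply Nat.card_congr
  apply Equiv.ofBijective (fun p : {u : V // u ∈ U ∧ Q u = 1} × F => (⟨p.1.1 + p.2 • e0, U.add_mem p.1.2.1 (U.smul_mem _ he)⟩ : U))
  constructor
  · intro p p' h
    have h3 : p.1.1 + p.2 • e0 = p'.1.1 + p'.2 • e0 := congrArg Subtype.val h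
    have h4 := congrArg Q h3
    rw [hadd _ p.1.2.1, hadd _ p'.1.2.1, p.1.2.2, p'.1.2.2] at h4
    have h5 := hinj _ _ (add_left_cancel h4)
    rw [h5] at h3
    exact Prod.ext (Subtype.ext (add_right_cancel h3)) h5
  · intro u
    have h3 : Q (u.1 + r (Q u.1 + 1) • e0) = 1 := by
      rw [hadd _ u.2, hr]
      linear_combination (Q u.1) * two_zero F
    refine ⟨(⟨u.1 + r (Q u.1 + 1) • e0, U.add_mem u.2 (U.smul_mem _ he), h3⟩, r (Q u.1 + 1)), ?_⟩
    apply Subtype.ext
    show u.1 + r (Q u.1 + 1) • e0 + r (Q u.1 + 1) • e0 = u.1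
    rw [add_assoc, ← add_smul, ← two_mul, two_zero, zero_mul, zero_smul, add_zero]

theorem card_IsoN (hnd : ∀ x, (∀ y, pB Q x y = 0) → x = 0) {q N0 : ℕ} (hq : Nat.card F = q) (h0 : Nat.card {v : V // Q v = 1} = N0)
    (s : ℕ) (hs : s + 1 ≤ finrank F V) (hs2 : 2 * s + 1 ≤ finrank F V) :
    Nat.card (IsoN (pB Q) (fun v => Q v) 1 (Fin (s + 1))) = N0 * ∏ i ∈ Finset.range s, (q ^ (finrank F V - i - 2) - q ^ i) := by
  classical
  haveI : Finite V := Module.finite_of_finite F
  have hstep : ∀ s : ℕ, IsoN (pB Q) (fun v => Q v) 1 (Fin (s + 1)) ≃ Σ e : IsoN (pB Q) (fun v => Q v) 1 (Fin s),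
      {v : {v : V // (∀ i, pB Q v (e.1 i) = 0) ∧ Q v = 1} // v.1 ∉ Submodule.span F (Set.range e.1)} := fun s =>
    { toFun := fun x => ⟨⟨Fin.tail x.1, by
            have h1 := x.2.1
            rw [← Fin.cons_self_tail x.1, linearIndependent_finCons] at h1
            exact h1.1, fun i j => x.2.2.1 _ _, fun i => x.2.2.2 _⟩, ⟨⟨x.1 0, fun i => x.2.2.1 _ _, x.2.2.2 _⟩, by
            have h1 := x.2.1
            rw [← Fin.cons_self_tail x.1, linearIndependent_finCons] at h1
            exact h1.2⟩⟩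
      invFun := fun y => ⟨Fin.cons y.2.1.1 y.1.1, linearIndependent_finCons.mpr ⟨y.1.2.1, y.2.2⟩, by
            intro i j
            refine Fin.cases ?_ (fun i => ?_) i <;> refine Fin.cases ?_ (fun j => ?_) j
            · exact pB_alt2 (two_zero F) Q _
            · exact y.2.1.2.1 j
            · show pB Q (y.1.1 i) y.2.1.1 = 0
              rw [pB_symm, y.2.1.2.1 i]
            · exact y.1.2.2.1 i j, by
            intro i
            refine Fin.cases ?_ (fun i => ?_) i
            · exact y.2.1.2.2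
            · exact y.1.2.2.2 i⟩
      left_inv := fun x => Subtype.ext (Fin.cons_self_tail x.1)
      right_inv := fun y => rfl }
  have hFpos : 0 < Nat.card F := Nat.card_pos
  induction s with
  | zero =>
    rw [Finset.range_zero, Finset.prod_empty, mul_one, ← h0]
    apply Nat.card_congr
    refine ⟨fun x => ⟨x.1 0, x.2.2.2 0⟩, fun v => ⟨fun _ => v.1, ?_, fun i j => pB_alt2 (two_zero F) Q _, fun _ => v.2⟩, fun x => ?_, fun v => rfl⟩
    · haveI : Unique (Fin (0 + 1)) := inferInstanceAs (Unique (Fin 1))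
      rw [linearIndependent_unique_iff]
      intro h
      have h1 := v.2
      have h2 : v.1 = 0 := h
      rw [h2, QuadraticMap.map_zero] at h1
      exact zero_ne_one h1
    · apply Subtype.ext
      funext i
      show x.1 0 = x.1 i
      have hi : i = (0 : Fin 1) := Subsingleton.elim (α := Fin 1) _ _
      rw [hi]
  | succ s ih =>
    rw [Finset.prod_range_succ, ← mul_assoc, ← ih (by omega) (by omega)]
    haveI : Finite (IsoN (pB Q) (fun v => Q v) 1 (Fin (s + 1))) := Subtype.finite
    haveI := Fintype.ofFinite (IsoN (pB Q) (fun v => Q v) 1 (Fin (s + 1)))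
    have e2 : ∀ e : IsoN (pB Q) (fun v => Q v) 1 (Fin (s + 1)), Nat.card {v : {v : V // (∀ i, pB Q v (e.1 i) = 0) ∧ Q v = 1} // v.1 ∉ Submodule.span F (Set.range e.1)} =
        q ^ (finrank F V - s - 2) - q ^ s := by
      intro e
      let U : Submodule F V := ⨅ i, LinearMap.ker ((pB Q).flip (e.1 i))
      have hU : ∀ v, v ∈ U ↔ ∀ i, pB Q v (e.1 i) = 0 := by
        intro v
        rw [Submodule.mem_iInf]
        exact Iff.rfl
      have h2 : Nat.card {v : V // (∀ i, pB Q v (e.1 i) = 0) ∧ Q v = 1} = q ^ (finrank F V - s - 2) := by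
        have h3 := card_level_one (Q := Q) (U := U) (e0 := e.1 0) ((hU _).mpr (fun i => e.2.2.1 _ _)) (fun u hu => (hU u).mp hu 0) (e.2.2.2 0)
        have h4 := card_perp hnd e.2.1
        have h5 : Nat.card {v : V // ∀ i, pB Q v (e.1 i) = 0} = Nat.card U := Nat.card_congr (Equiv.subtypeEquivRight (fun v => (hU v).symm))
        rw [h5, ← h3, hq] at h4
        have h6 : Nat.card {v : V // (∀ i, pB Q v (e.1 i) = 0) ∧ Q v = 1} = Nat.card {u : V // u ∈ U ∧ Q u = 1} :=
          Nat.card_congr (Equiv.subtypeEquivRight (fun v => by rw [hU]))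
        rw [h6]
        have hqp : 0 < q := by rw [← hq]; exact hFpos
        apply Nat.eq_of_mul_eq_mul_right (pow_pos hqp (s + 2))
        rw [← pow_add, show finrank F V - s - 2 + (s + 2) = finrank F V by omega, ← h4]
        ring
      have h4 : Nat.card {v : {v : V // (∀ i, pB Q v (e.1 i) = 0) ∧ Q v = 1} // v.1 ∈ Submodule.span F (Set.range e.1)} = q ^ s := by
        have hle : Submodule.span F (Set.range e.1) ≤ U := by
          rw [Submodule.span_le]
          rintro _ ⟨j, rfl⟩
          exact (hU _).mpr (fun i => e.2.2.1 _ _)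
        have h3 := card_level_one (Q := Q) (U := Submodule.span F (Set.range e.1)) (e0 := e.1 0) (Submodule.subset_span ⟨0, rfl⟩)
          (fun u hu => (hU u).mp (hle hu) 0) (e.2.2.2 0)
        have h3' : Nat.card (Submodule.span F (Set.range e.1)) = q ^ (s + 1) := by
          rw [Module.natCard_eq_pow_finrank (K := F), finrank_span_eq_card e.2.1, Fintype.card_fin, hq]
        rw [h3', hq, pow_succ] at h3
        have hqp : 0 < q := by rw [← hq]; exact hFpos
        rw [← Nat.eq_of_mul_eq_mul_right hqp h3]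
        apply Nat.card_congr
        refine ⟨fun v => ⟨v.1.1, v.2, v.1.2.2⟩, fun v => ⟨⟨v.1, (hU _).mp (hle v.2.1), v.2.2⟩, v.2.1⟩, fun _ => rfl, fun _ => rfl⟩
      haveI : Finite {v : V // (∀ i, pB Q v (e.1 i) = 0) ∧ Q v = 1} := Subtype.finite
      haveI := Fintype.ofFinite {v : V // (∀ i, pB Q v (e.1 i) = 0) ∧ Q v = 1}
      rw [← h2, ← h4, Nat.card_eq_fintype_card, Nat.card_eq_fintype_card, Nat.card_eq_fintype_card, Fintype.card_subtype_compl]
    rw [Nat.card_congr (hstep (s + 1)), Nat.card_sigma, Finset.sum_congr rfl (fun e _ => e2 e), Finset.sum_const, Finset.card_univ, smul_eq_mul,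
      ← Nat.card_eq_fintype_card (α := IsoN (pB Q) (fun v => Q v) 1 (Fin (s + 1)))]

end quad

end Cfsg.Agent.H17
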