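import Mathlib
import Cfsg.Agent.H17.TdA

import Cfsg.Agent.H5.OrthIndex2
import Cfsg.Agent.H5.OrthOrder2

set_option autoImplicit false

/-! Centralisers in `Ω` of involutions of the orthogonal group of plus type in characteristic two. -/

namespace Cfsg.Agent.H17

open Module Cfsg.Agent.H5 Matrix

theorem half_card {G : Type*} [Group G] (K : Subgroup G) (hK : K.index = 2) (x h : G) (hx : h * x = x * h) (hh : h ∉ K) [Finite G] :
    Nat.card {g : G // g * x = x * g} = 2 * Nat.card {g : K // (g : G) * x = x * g} := by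
  rw [two_mul, ← Nat.card_sum]
  symm
  apply Nat.card_congr
  apply Equiv.ofBijective (Sum.elim (fun k : {g : K // (g : G) * x = x * g} => (⟨k.1.1, k.2⟩ : {g : G // g * x = x * g}))
    (fun k : {g : K // (g : G) * x = x * g} => (⟨k.1.1 * h, by rw [mul_assoc, hx, ← mul_assoc, k.2, mul_assoc]⟩ : {g : G // g * x = x * g})))
  constructor
  · rintro (k | k) (k' | k') hkk
    · have h1 : k.1.1 = k'.1.1 := congrArg (fun y : {g : G // g * x = x * g} => y.1) hkk
      exact congrArg Sum.inl (Subtype.ext (Subtype.ext h1))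
    · exfalso
      have h1 : k.1.1 = k'.1.1 * h := congrArg (fun y : {g : G // g * x = x * g} => y.1) hkk
      apply hh
      rw [← mul_mem_cancel_left (k'.1.2), ← h1]
      exact k.1.2
    · exfalso
      have h1 : k.1.1 * h = k'.1.1 := congrArg (fun y : {g : G // g * x = x * g} => y.1) hkk
      apply hh
      rw [← mul_mem_cancel_left (k.1.2), h1]
      exact k'.1.2
    · have h1 : k.1.1 * h = k'.1.1 * h := congrArg (fun y : {g : G // g * x = x * g} => y.1) hkk
      exact congrArg Sum.inr (Subtype.ext (Subtype.ext (mul_right_cancel h1)))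
  · rintro ⟨g, hg⟩
    by_cases hgK : g ∈ K
    · exact ⟨Sum.inl ⟨⟨g, hgK⟩, hg⟩, rfl⟩
    · have h1 : g * h⁻¹ ∈ K := by
        rw [Subgroup.mul_mem_iff_of_index_two hK, inv_mem_iff]
        exact ⟨fun h => absurd h hgK, fun h => absurd h hh⟩
      refine ⟨Sum.inr ⟨⟨g * h⁻¹, h1⟩, ?_⟩, ?_⟩
      · show g * h⁻¹ * x = x * (g * h⁻¹)
        have h2 : h⁻¹ * x = x * h⁻¹ := by rw [inv_mul_eq_iff_eq_mul, ← mul_assoc, hx, mul_inv_cancel_right]
        rw [mul_assoc, h2, ← mul_assoc, hg, mul_assoc]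
      · apply Subtype.ext
        show g * h⁻¹ * h = g
        rw [inv_mul_cancel_right]

section plus

variable {F : Type*} [Field F] [Fintype F] [CharP F 2]

theorem card_O_plus {q : ℕ} (hq : Nat.card F = q) (k : ℕ) :
    Nat.card (OG (qPlus (k + 1) F)) = 2 * q ^ ((k + 1) * k) * (q ^ (k + 1) - 1) * ∏ i ∈ Finset.range k, (q ^ (2 * (i + 1)) - 1) := by
  have hq1 : 1 ≤ q := by rw [← hq]; exact Nat.card_pos
  apply card_OG_plus hq k (qPlus (k + 1) F) nd_plus (by rw [Module.finrank_fintype_fun_eq_card, Fintype.card_sum, Fintype.card_fin]; ring)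
  rw [zn_plus hq, Nat.add_sub_cancel]
  have h1 : q ^ (2 * k + 1) = q ^ (k + 1) * q ^ k := by rw [← pow_add]; congr 1; ring
  have h2 : (q ^ (k + 1) - 1) * q ^ k + q ^ k = q ^ (k + 1) * q ^ k := by
    rw [Nat.sub_mul, one_mul, Nat.sub_add_cancel]
    exact Nat.le_mul_of_pos_left _ (pow_pos hq1 _)
  omega

theorem cent_quad {q : ℕ} (hF : Fintype.card F = q) (m s0 : ℕ) (g : IG (pB (qPlus m F)) (fun v => qPlus m F v))
    (e : IsoN (pB (qPlus m F)) (fun v => qPlus m F v) 1 (Fin (s0 + 1)))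
    (hT : ∀ v, g.1 v - v = TT (pB (qPlus m F)) e.1 id v) :
    Nat.card {g' : IG (pB (qPlus m F)) (fun v => qPlus m F v) // g' * g = g * g'} = 2 * (fON q (s0 + 1) *
      (q ^ (2 * (m - 1) * s0 - (3 * s0 ^ 2 - s0) / 2) * (q ^ ((m - 1 - s0) ^ 2) * ∏ i ∈ Finset.range (m - 1 - s0), (q ^ (2 * (i + 1)) - 1)))) := by
  classical
  have H := iset_plus (F := F) m
  have hsm : s0 + 1 ≤ m := H.bc e.1 e.2.1 e.2.2.1
  obtain ⟨k, rfl⟩ : ∃ k, m = k + 1 := ⟨m - 1, by omega⟩
  have hq : 2 ≤ q := by rw [← hF]; exact Fintype.one_lt_card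
  have hqN : Nat.card F = q := by rw [Nat.card_eq_fintype_card, hF]
  have hw : ∀ x : IsoN (pB (qPlus (k + 1) F)) (fun v => qPlus (k + 1) F v) 1 (Fin (s0 + 1)), ∃ g : IG (pB (qPlus (k + 1) F)) (fun v => qPlus (k + 1) F v), actN g e = x := by
    intro x
    obtain ⟨g, hg, hgx⟩ := H.witt e.1 x.1 e.2.1 x.2.1 (fun i j => by rw [x.2.2.1, e.2.2.1]) (fun i => (x.2.2.2 i).trans (e.2.2.2 i).symm)
    exact ⟨⟨g, hg⟩, Subtype.ext (funext hgx)⟩
  have c1 := card_orb_N e hw (fun x => TT (pB (qPlus (k + 1) F)) x.1 id = TT (pB (qPlus (k + 1) F)) e.1 id)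
  have c2 := card_orb_N e hw (fun _ => True)
  have hlev : Nat.card {v : Fin (k + 1) ⊕ Fin (k + 1) → F // qPlus (k + 1) F v = 1} = (q ^ (k + 1) - 1) * q ^ k := by
    have h1 := card_plus_level (m := k + 1) (1 : F) hqN
    rw [Nat.add_sub_cancel] at h1
    have h2 : Nat.card {t : Unit // (0 : F) = 1} = 0 := by
      rw [Nat.card_eq_zero]
      left
      exact ⟨fun t => zero_ne_one t.2⟩
    rw [h2, mul_zero, add_zero, ← qPlus_coe] at h1
    exact h1
  have hfr : finrank F (Fin (k + 1) ⊕ Fin (k + 1) → F) = 2 * (k + 1) := by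
    rw [Module.finrank_fintype_fun_eq_card, Fintype.card_sum, Fintype.card_fin]; ring
  have e1 : Nat.card {g : IG (pB (qPlus (k + 1) F)) (fun v => qPlus (k + 1) F v) // True} = Nat.card (OG (qPlus (k + 1) F)) := by
    rw [Nat.card_congr (Equiv.subtypeUnivEquiv (fun _ => trivial)), Nat.card_congr (ogIG (qPlus (k + 1) F)).toEquiv]
  have e2 : Nat.card {x : IsoN (pB (qPlus (k + 1) F)) (fun v => qPlus (k + 1) F v) 1 (Fin (s0 + 1)) // True} =
      (q ^ (k + 1) - 1) * q ^ k * ∏ i ∈ Finset.range s0, (q ^ (2 * k - i) - q ^ i) := by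
    rw [Nat.card_congr (Equiv.subtypeUnivEquiv (fun _ => trivial)), card_IsoN H.nd hqN hlev s0 (by rw [hfr]; omega) (by rw [hfr]; omega), hfr]
    congr 1
    apply Finset.prod_congr rfl
    intro i _
    congr 2
    omega
  have e3 : Nat.card {x : IsoN (pB (qPlus (k + 1) F)) (fun v => qPlus (k + 1) F v) 1 (Fin (s0 + 1)) // TT (pB (qPlus (k + 1) F)) x.1 id = TT (pB (qPlus (k + 1) F)) e.1 id} =
      fON q (s0 + 1) := by
    rw [← hqN, ← card_id (F := F) (s0 + 1), ← card_ET H.nd (⟨e.1, e.2.1, e.2.2.1⟩ : IsoT (pB (qPlus (k + 1) F)) (Fin (s0 + 1))) (τ := id) (fun x => rfl)]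
    apply Nat.card_congr
    refine ⟨fun x => ⟨⟨x.1.1, x.1.2.1, x.1.2.2.1⟩, x.2⟩, fun x => ⟨⟨x.1.1, x.1.2.1, x.1.2.2, fun j => ?_⟩, x.2⟩, fun _ => rfl, fun _ => rfl⟩
    obtain ⟨v, hv⟩ := exists_dual_inv H.nd x.1.2.1 (fun i => if i = j then 1 else 0)
    have h2 : TT (pB (qPlus (k + 1) F)) x.1.1 id v = x.1.1 j := by
      rw [TT_apply, Finset.sum_eq_single j]
      · rw [hv, if_pos rfl, one_smul]; rfl
      · intro i _ hi
        rw [hv, if_neg hi, zero_smul]
      · intro h; exact absurd (Finset.mem_univ _) h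
    have h3 := H.nT g.1 g.2 v
    have hx2 : TT (pB (qPlus (k + 1) F)) x.1.1 id = TT (pB (qPlus (k + 1) F)) e.1 id := x.2
    rw [hT v, ← hx2, h2] at h3
    show qPlus (k + 1) F (x.1.1 j) = 1
    rw [h3, hv, if_pos rfl]
    rfl
  have e4 : Nat.card {g' : IG (pB (qPlus (k + 1) F)) (fun v => qPlus (k + 1) F v) // g' * g = g * g'} =
      Nat.card {g' : IG (pB (qPlus (k + 1) F)) (fun v => qPlus (k + 1) F v) // TT (pB (qPlus (k + 1) F)) (actN g' e).1 id = TT (pB (qPlus (k + 1) F)) e.1 id} := by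
    apply Nat.card_congr
    apply Equiv.subtypeEquivRight
    intro g'
    have h3 : ∀ v, TT (pB (qPlus (k + 1) F)) (actN g' e).1 id (g'.1 v) =
        g'.1 (TT (pB (qPlus (k + 1) F)) e.1 id v) := fun v =>
      (TT_conj (B := pB (qPlus (k + 1) F)) (e := e.1) (e' := (actN g' e).1) (τ := id)
        (g := g'.1) g'.2.1 (fun i => rfl) v).symm
    constructor
    · intro hg
      apply LinearMap.ext
      intro w
      obtain ⟨v, rfl⟩ := g'.1.surjective w
      have h5 : g'.1 (g.1 v) = g.1 (g'.1 v) :=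
        congrArg (fun y : IG (pB (qPlus (k + 1) F)) (fun v => qPlus (k + 1) F v) => y.1 v) hg
      rw [h3, ← hT, ← hT, map_sub, h5]
    · intro hg
      apply Subtype.ext
      apply LinearEquiv.ext
      intro v
      show g'.1 (g.1 v) = g.1 (g'.1 v)
      have h4 := h3 v
      rw [hg, ← hT, ← hT, map_sub] at h4
      exact (sub_left_inj.mp h4).symm
  rw [e1, e2, card_O_plus hqN k] at c2
  have har := prod_ar hq k s0 (by omega)
  have h5 : 2 * q ^ ((k + 1) * k) * (q ^ (k + 1) - 1) * ∏ i ∈ Finset.range k, (q ^ (2 * (i + 1)) - 1) =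
      ((q ^ (k + 1) - 1) * q ^ k * ∏ i ∈ Finset.range s0, (q ^ (2 * k - i) - q ^ i)) *
        (2 * (q ^ (2 * k * s0 - (3 * s0 ^ 2 - s0) / 2) * (q ^ ((k - s0) ^ 2) * ∏ i ∈ Finset.range (k - s0), (q ^ (2 * (i + 1)) - 1)))) := by
    calc 2 * q ^ ((k + 1) * k) * (q ^ (k + 1) - 1) * ∏ i ∈ Finset.range k, (q ^ (2 * (i + 1)) - 1) =
        2 * ((q ^ (k + 1) - 1) * q ^ k) * (q ^ (k ^ 2) * ∏ i ∈ Finset.range k, (q ^ (2 * (i + 1)) - 1)) := by
          rw [show (k + 1) * k = k ^ 2 + k by ring, pow_add]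
          generalize q ^ (k + 1) - 1 = X
          ring
      _ = _ := by
          rw [har]
          generalize q ^ (k + 1) - 1 = X
          ring
  have hpos : 0 < (q ^ (k + 1) - 1) * q ^ k * ∏ i ∈ Finset.range s0, (q ^ (2 * k - i) - q ^ i) := by
    apply Nat.mul_pos
    · apply Nat.mul_pos
      · exact Nat.sub_pos_of_lt (Nat.one_lt_pow (by omega) (by omega))
      · exact pow_pos (by omega) _
    · apply Finset.prod_pos
      intro i hi
      rw [Finset.mem_range] at hi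
      exact Nat.sub_pos_of_lt (Nat.pow_lt_pow_right (by omega) (by omega))
  rw [h5] at c2
  have h6 := Nat.eq_of_mul_eq_mul_left hpos c2
  rw [e4, c1, e3, ← h6, Nat.add_sub_cancel]
  ring

end plus

end Cfsg.Agent.H17
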