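import Mathlib
import Cfsg.Agent.H17.TdB

set_option autoImplicit false

/-! Centralisers in `Ω` of involutions of the orthogonal group of plus type in characteristic two: the result. -/

namespace Cfsg.Agent.H17

open Module Cfsg.Agent.H5 Matrix

section plus

variable {F : Type*} [Field F] [Fintype F] [CharP F 2]

theorem omega_cent {q : ℕ} (hF : Fintype.card F = q) {m s : ℕ} (hex : Fintype.card F ≠ 2 ∨ m ≠ 2) (x : ↥(Cfsg.isometryGroup F ⇑(qPlus m F))) (hx : x ^ 2 = 1)
    (hs : (((x : GL (Fin m ⊕ Fin m) F) : Matrix (Fin m ⊕ Fin m) (Fin m ⊕ Fin m) F) - 1).rank = s)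
    (hna : Odd s ∨ ∃ v, qPlus m F ((((x : GL (Fin m ⊕ Fin m) F) : Matrix (Fin m ⊕ Fin m) (Fin m ⊕ Fin m) F) - 1).mulVec v) ≠ 0) :
    1 ≤ s ∧ s ≤ m ∧ Nat.card {g : ↥(Cfsg.Omega F ⇑(qPlus m F)) // (g : ↥(Cfsg.isometryGroup F ⇑(qPlus m F))) * x = x * (g : ↥(Cfsg.isometryGroup F ⇑(qPlus m F)))} =
      fON q s * (q ^ (2 * (m - 1) * (s - 1) - (3 * (s - 1) ^ 2 - (s - 1)) / 2) * (q ^ ((m - s) ^ 2) * ∏ i ∈ Finset.range (m - s), (q ^ (2 * (i + 1)) - 1))) := by
  classical
  have H := iset_plus (F := F) m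
  let E := ogEquiv (qPlus m F)
  let g := ogIG (qPlus m F) (E x)
  have hgv : ∀ v, g.1 v = ((x : GL (Fin m ⊕ Fin m) F) : Matrix (Fin m ⊕ Fin m) (Fin m ⊕ Fin m) F) *ᵥ v := fun v => rfl
  have hg2 : ∀ v, g.1 (g.1 v) = v := by
    intro v
    have h6 : x * x = 1 := by rw [← pow_two]; exact hx
    have h7 : ((x : GL (Fin m ⊕ Fin m) F) : Matrix (Fin m ⊕ Fin m) (Fin m ⊕ Fin m) F) * ((x : GL (Fin m ⊕ Fin m) F) : Matrix (Fin m ⊕ Fin m) (Fin m ⊕ Fin m) F) = 1 :=
      congrArg (fun y : ↥(Cfsg.isometryGroup F ⇑(qPlus m F)) => ((y : GL (Fin m ⊕ Fin m) F) : Matrix (Fin m ⊕ Fin m) (Fin m ⊕ Fin m) F)) h6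
    rw [hgv, hgv, mulVec_mulVec, h7, one_mulVec]
  have hrk : ∀ {ι : Type} [Fintype ι] (e : ι → (Fin m ⊕ Fin m → F)) (τ : ι → ι), LinearIndependent F e → Function.Involutive τ →
      (∀ v, g.1 v - v = TT (pB (qPlus m F)) e τ v) → s = Fintype.card ι := by
    intro ι _ e τ he hτ ht
    rw [← hs, ← TT_rank H.nd he hτ]
    have h1 : (((x : GL (Fin m ⊕ Fin m) F) : Matrix (Fin m ⊕ Fin m) (Fin m ⊕ Fin m) F) - 1).mulVecLin = TT (pB (qPlus m F)) e τ := by
      apply LinearMap.ext
      intro v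
      rw [mulVecLin_apply, sub_mulVec, one_mulVec, ← ht, hgv]
    unfold Matrix.rank
    rw [h1]
  rcases invol_cases H g.2 hg2 with ⟨s', e, h1, h2, h3, h4, h5⟩ | ⟨k, e, h1, h2, h3, h4⟩
  · have hss := hrk e id h1 (fun x => rfl) h5
    rw [Fintype.card_fin] at hss
    subst hss
    have hsm := H.bc e h1 h2
    obtain ⟨s0, rfl⟩ : ∃ s0, s = s0 + 1 := ⟨s - 1, by omega⟩
    refine ⟨by omega, hsm, ?_⟩
    have hmain := cent_quad hF m s0 g ⟨e, h1, h2, h3⟩ h5
    have hu1 : qPlus m F (e 0) = 1 := h3 0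
    have hu : qPlus m F (e 0) ≠ 0 := by rw [hu1]; exact one_ne_zero
    have hrg : RG (qPlus m F) = ⊤ := by
      apply rg_top nd_plus
      intro hF2
      rcases hex with h6 | h6
      · exfalso
        apply h6
        apply le_antisymm
        · have h7 : (Finset.univ : Finset F) ⊆ {0, 1} := by
            intro a _
            rcases hF2 a with h | h <;> simp [h]
          exact (Finset.card_le_card h7).trans Finset.card_le_two
        · exact Fintype.one_lt_card
      · rw [Module.finrank_fintype_fun_eq_card, Fintype.card_sum, Fintype.card_fin]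
        omega
    have hdg := comm_eq_dg_even (Q := qPlus m F) (two_zero F) nd_plus hrg hu
    have hidx : (Cfsg.Omega F ⇑(qPlus m F)).index = 2 := by
      show (commutator ↥(Cfsg.isometryGroup F ⇑(qPlus m F))).index = 2
      rw [comm_index_equiv E, hdg]
      exact dg_index nd_plus hrg hu
    have hfixe : g.1 (e 0) = e 0 := by
      have h6 := h5 (e 0)
      rw [TT_apply, Finset.sum_eq_zero (fun j _ => by rw [h2, zero_smul]), sub_eq_zero] at h6
      exact h6
    have hcomm : E.symm (refl hu) * x = x * E.symm (refl hu) := by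
      apply E.injective
      rw [map_mul, map_mul, MulEquiv.apply_symm_apply]
      apply Subtype.ext
      apply LinearEquiv.ext
      intro v
      show refl hu (g.1 v) = g.1 (refl hu v)
      rw [refl_apply, refl_apply, map_sub, map_smul, hfixe]
      have h7 : pB (qPlus m F) (e 0) (g.1 v) = pB (qPlus m F) (e 0) v := by
        conv_lhs => rw [← hfixe]
        exact g.2.1 _ _
      rw [h7]
    have hnot : E.symm (refl hu) ∉ Cfsg.Omega F ⇑(qPlus m F) := by
      show E.symm (refl hu) ∉ commutator ↥(Cfsg.isometryGroup F ⇑(qPlus m F))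
      rw [mem_comm_equiv E, MulEquiv.apply_symm_apply, hdg]
      exact refl_notMem_dg nd_plus hu
    haveI : Finite ↥(Cfsg.isometryGroup F ⇑(qPlus m F)) := inferInstance
    have hhalf := half_card (Cfsg.Omega F ⇑(qPlus m F)) hidx x _ hcomm hnot
    have hcc : Nat.card {y : ↥(Cfsg.isometryGroup F ⇑(qPlus m F)) // y * x = x * y} = Nat.card {g' : IG (pB (qPlus m F)) (fun v => qPlus m F v) // g' * g = g * g'} := by
      apply Nat.card_congr
      refine (E.trans (ogIG (qPlus m F))).toEquiv.subtypeEquiv ?_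
      intro y
      show y * x = x * y ↔ (E.trans (ogIG (qPlus m F))) y * (E.trans (ogIG (qPlus m F))) x = (E.trans (ogIG (qPlus m F))) x * (E.trans (ogIG (qPlus m F))) y
      rw [← map_mul, ← map_mul, (E.trans (ogIG (qPlus m F))).injective.eq_iff]
    rw [hcc, hmain] at hhalf
    have h8 := Nat.eq_of_mul_eq_mul_left (by norm_num) hhalf
    rw [← h8, Nat.add_sub_cancel, show m - (s0 + 1) = m - 1 - s0 by omega]
  · exfalso
    have hss := hrk e Sum.swap h1 Sum.swap_swap h4
    rw [Fintype.card_sum, Fintype.card_fin] at hss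
    rcases hna with ⟨j, hj⟩ | ⟨v, hv⟩
    · omega
    · apply hv
      have h6 : (((x : GL (Fin m ⊕ Fin m) F) : Matrix (Fin m ⊕ Fin m) (Fin m ⊕ Fin m) F) - 1).mulVec v = g.1 v - v := by
        rw [sub_mulVec, one_mulVec, hgv]
      rw [h6]
      have h7 : qPlus m F (g.1 v - v) = pB (qPlus m F) v (g.1 v - v) := H.nT g.1 g.2 v
      rw [h7, h4, TT_apply, map_sum, Fintype.sum_sum_type]
      simp only [map_smul, smul_eq_mul, Sum.swap_inl, Sum.swap_inr]
      rw [← Finset.sum_add_distrib]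
      apply Finset.sum_eq_zero
      intro j _
      rw [mul_comm (pB (qPlus m F) v (e (Sum.inr j))), ← two_mul, two_zero, zero_mul]

end plus

end Cfsg.Agent.H17
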