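import Mathlib

set_option autoImplicit false

/-! Abstract construction of an automorphism from two representations with the same kernel. -/

namespace Cfsg.Agent.H17

variable {T S : Type*} [Group T] [Group S]

theorem conj_aut (α : MulAut T) (t : T) : α * MulAut.conj t * α⁻¹ = MulAut.conj (α t) := by
  ext x
  show α (t * α⁻¹ x * t⁻¹) = α t * x * (α t)⁻¹
  rw [map_mul, map_mul, map_inv, MulAut.apply_inv_self]

theorem conj_inj_of_center (hZ : Subgroup.center T = ⊥) {s t : T} (h : MulAut.conj s = MulAut.conj t) : s = t := by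
  have h1 : t⁻¹ * s ∈ Subgroup.center T := by
    rw [Subgroup.mem_center_iff]
    intro x
    have h2 := congrArg (fun f : MulAut T => f x) h
    simp only [MulAut.conj_apply] at h2
    have h3 : t⁻¹ * (s * x * s⁻¹) * s = t⁻¹ * (t * x * t⁻¹) * s := by rw [h2]
    have h4 : t⁻¹ * (s * x * s⁻¹) * s = t⁻¹ * s * x := by group
    have h5 : t⁻¹ * (t * x * t⁻¹) * s = x * (t⁻¹ * s) := by group
    rw [h4, h5] at h3
    exact h3.symm
  rw [hZ, Subgroup.mem_bot] at h1
  rw [inv_mul_eq_one] at h1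
  exact h1.symm

theorem exists_triality [Finite T] [IsSimpleGroup T] (hZ : Subgroup.center T = ⊥) (f3 f1 : S →* MulAut T) (hker : ∀ x, f3 x = 1 ↔ f1 x = 1)
    (h3 : ∀ t, ∃ x, f3 x = MulAut.conj t) (h1 : ∀ t, ∃ x, f1 x = MulAut.conj t) : ∃ ρ : MulAut T, ∀ x, ρ * f3 x = f1 x * ρ := by
  classical
  haveI : Finite (MulAut T) := inferInstance
  -- the image of the inner automorphisms
  let N : Subgroup T :=
    { carrier := {k | ∃ x t, f3 x = MulAut.conj t ∧ f1 x = MulAut.conj k}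
      one_mem' := ⟨1, 1, by rw [map_one, map_one], by rw [map_one, map_one]⟩
      mul_mem' := by
        rintro a b ⟨x, t, hx, hx'⟩ ⟨y, s, hy, hy'⟩
        exact ⟨x * y, t * s, by rw [map_mul, map_mul, hx, hy], by rw [map_mul, map_mul, hx', hy']⟩
      inv_mem' := by
        rintro a ⟨x, t, hx, hx'⟩
        exact ⟨x⁻¹, t⁻¹, by rw [map_inv, map_inv, hx], by rw [map_inv, map_inv, hx']⟩ }
  have hN : N.Normal := by
    constructor
    rintro k ⟨x, t, hx, hx'⟩ g
    obtain ⟨y, hy⟩ := h1 g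
    refine ⟨y * x * y⁻¹, f3 y t, ?_, ?_⟩
    · rw [map_mul, map_mul, map_inv, hx, conj_aut]
    · rw [map_mul, map_mul, map_inv, hx', hy, ← map_inv, ← map_mul, ← map_mul]
  have hNne : N ≠ ⊥ := by
    intro h0
    obtain ⟨t, ht⟩ := exists_ne (1 : T)
    obtain ⟨x, hx⟩ := h3 t
    have hx1 : f1 x ≠ 1 := by
      intro h
      have h2 := (hker x).mpr h
      rw [hx] at h2
      exact ht (conj_inj_of_center hZ (by rw [h2, map_one]))
    obtain ⟨k, hk⟩ : ∃ k, f1 x k ≠ k := by
      by_contra hcon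
      push Not at hcon
      exact hx1 (MulEquiv.ext hcon)
    obtain ⟨y, hy⟩ := h1 k
    have hmem : f1 x k * k⁻¹ ∈ N := by
      refine ⟨x * y * x⁻¹ * y⁻¹, t * (f3 y t)⁻¹, ?_, ?_⟩
      · have e1 : x * y * x⁻¹ * y⁻¹ = x * (y * x⁻¹ * y⁻¹) := by group
        rw [e1, map_mul, map_mul, map_mul, map_inv, map_inv, hx, ← map_inv, conj_aut, map_inv, ← map_mul]
      · rw [map_mul, map_mul, map_mul, map_inv, map_inv, hy, conj_aut, ← map_inv, ← map_mul]
    rw [h0, Subgroup.mem_bot, mul_inv_eq_one] at hmem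
    exact hk hmem
  have hNtop : N = ⊤ := (hN.eq_bot_or_eq_top).resolve_left hNne
  -- the correspondence
  have hex : ∀ k : T, ∃ t : T, ∃ x, f3 x = MulAut.conj t ∧ f1 x = MulAut.conj k := by
    intro k
    have : k ∈ N := by rw [hNtop]; trivial
    obtain ⟨x, t, hx⟩ := this
    exact ⟨t, x, hx⟩
  choose g hg using hex
  have hrel : ∀ {x y : S}, f3 x = f3 y ↔ f1 x = f1 y := by
    intro x y
    have := hker (x * y⁻¹)
    rw [map_mul, map_mul, map_inv, map_inv, mul_inv_eq_one, mul_inv_eq_one] at this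
    exact this
  have hmul : ∀ k l, g (k * l) = g k * g l := by
    intro k l
    obtain ⟨x, hx, hx'⟩ := hg k
    obtain ⟨y, hy, hy'⟩ := hg l
    obtain ⟨z, hz, hz'⟩ := hg (k * l)
    apply conj_inj_of_center hZ
    rw [map_mul, ← hz, ← hx, ← hy, ← map_mul, hrel, hz', map_mul f1, hx', hy', map_mul]
  have hinj : Function.Injective g := by
    intro k l hkl
    obtain ⟨x, hx, hx'⟩ := hg k
    obtain ⟨y, hy, hy'⟩ := hg l
    apply conj_inj_of_center hZ
    rw [← hx', ← hy', ← hrel, hx, hy, hkl]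
  let e : T ≃* T := MulEquiv.ofBijective (MonoidHom.mk' g hmul) (Finite.injective_iff_bijective.mp hinj)
  have he : ∀ k, e k = g k := fun k => rfl
  refine ⟨e⁻¹, fun x => ?_⟩
  have key : f3 x * e = e * f1 x := by
    ext k
    show f3 x (e k) = e (f1 x k)
    rw [he, he]
    obtain ⟨y, hy, hy'⟩ := hg k
    obtain ⟨z, hz, hz'⟩ := hg (f1 x k)
    apply conj_inj_of_center hZ
    rw [← hz, ← conj_aut, ← hy, ← map_inv, ← map_mul, ← map_mul, hrel, hz', map_mul f1, map_mul f1, map_inv, hy', conj_aut]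
  rw [inv_mul_eq_iff_eq_mul, ← mul_assoc, ← key, mul_inv_cancel_right]

theorem triality_unique (hZ : Subgroup.center T = ⊥) (f3 : S →* MulAut T)
    (h3 : ∀ t, ∃ x, f3 x = MulAut.conj t) {γ : MulAut T} (h : ∀ x, γ * f3 x = f3 x * γ) : γ = 1 := by
  ext t
  obtain ⟨x, hx⟩ := h3 t
  have h1 := h x
  rw [hx] at h1
  have h2 : γ * MulAut.conj t * γ⁻¹ = MulAut.conj t := by rw [h1, mul_inv_cancel_right]
  rw [conj_aut] at h2
  exact conj_inj_of_center hZ h2

end Cfsg.Agent.H17
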