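import Mathlib
import Cfsg.Agent.H5.Orth1

set_option autoImplicit false

/-! Composition algebras: Moufang identities and the trilinear form. -/

namespace Cfsg.Agent.H17

open Cfsg Cfsg.Agent.H5

/-- a composition algebra structure on a quadratic space -/
structure CompAlg {F V : Type*} [Field F] [AddCommGroup V] [Module F V] (Q : QuadraticForm F V) where
  μ : V →ₗ[F] V →ₗ[F] V
  i : V
  il : ∀ x, μ i x = x
  ir : ∀ x, μ x i = x
  comp : ∀ x y, Q (μ x y) = Q x * Q y
  nd : ND Q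
  qi : Q i = 1

variable {F V : Type*} [Field F] [AddCommGroup V] [Module F V] {Q : QuadraticForm F V} (A : CompAlg Q)

namespace CompAlg

theorem c1 (x y z : V) : pB Q (A.μ x y) (A.μ x z) = Q x * pB Q y z := by
  have h := A.comp x (y + z)
  rw [map_add, q_add, q_add, A.comp, A.comp] at h
  linear_combination h

theorem c2 (x y z : V) : pB Q (A.μ x z) (A.μ y z) = pB Q x y * Q z := by
  have h := A.comp (x + y) z
  rw [map_add, LinearMap.add_apply, q_add, q_add, A.comp, A.comp] at h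
  linear_combination h

theorem c3 (x y w z : V) : pB Q (A.μ x y) (A.μ w z) + pB Q (A.μ x z) (A.μ w y) = pB Q x w * pB Q y z := by
  have h := A.c1 (x + w) y z
  rw [map_add, LinearMap.add_apply, LinearMap.add_apply, pl_add, pr_add, pr_add, q_add, A.c1, A.c1, pB_symm Q (A.μ w y)] at h
  linear_combination h

/-- conjugation -/
noncomputable def cj (x : V) : V := pB Q x A.i • A.i - x

theorem cj_add (x y : V) : A.cj (x + y) = A.cj x + A.cj y := by
  unfold cj
  rw [pl_add]; module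

theorem cj_smul (c : F) (x : V) : A.cj (c • x) = c • A.cj x := by
  unfold cj
  rw [pl_smul]; module

theorem pii : pB Q A.i A.i = 2 := by rw [pB_self, A.qi, mul_one]

theorem cj_cj (x : V) : A.cj (A.cj x) = x := by
  unfold cj
  rw [pl_sub, pl_smul, A.pii]; module

theorem q_cj (x : V) : Q (A.cj x) = Q x := by
  unfold cj
  rw [q_sub, q_smul, A.qi, pl_smul, pB_symm Q A.i]; ring

theorem p_cj (x y : V) : pB Q (A.cj x) (A.cj y) = pB Q x y := by
  have h := A.q_cj (x + y)
  rw [cj_add, q_add, q_add, q_cj, q_cj] at h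
  linear_combination h

theorem p_cj' (x y : V) : pB Q (A.cj x) y = pB Q x (A.cj y) := by
  rw [← A.p_cj, cj_cj]

theorem c4 (x y z : V) : pB Q (A.μ x y) z = pB Q y (A.μ (A.cj x) z) := by
  have h := A.c3 x y A.i z
  rw [A.il, A.il] at h
  unfold cj
  rw [map_sub, map_smul, LinearMap.sub_apply, LinearMap.smul_apply, A.il, pr_sub, pr_smul, pB_symm Q y (A.μ x z)]
  linear_combination h

theorem c5 (x y z : V) : pB Q (A.μ x y) z = pB Q x (A.μ z (A.cj y)) := by
  have h := A.c3 x y z A.i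
  rw [A.ir, A.ir] at h
  unfold cj
  rw [map_sub, map_smul, A.ir, pr_sub, pr_smul]
  linear_combination h

include A in
theorem ext_p {x y : V} (h : ∀ z, pB Q x z = pB Q y z) : x = y := by
  rw [← sub_eq_zero]
  apply A.nd
  intro z
  rw [pl_sub, h, sub_self]

theorem c7 (x y : V) : A.μ (A.cj x) (A.μ x y) = Q x • y := by
  apply A.ext_p
  intro z
  rw [A.c4, A.cj_cj, A.c1, pl_smul]

theorem c8 (x y : V) : A.μ (A.μ y x) (A.cj x) = Q x • y := by
  apply A.ext_p
  intro z
  rw [A.c5, A.cj_cj, A.c2, pl_smul, mul_comm]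

theorem c8' (x y : V) : A.μ (A.μ y (A.cj x)) x = Q x • y := by
  have := A.c8 (A.cj x) y
  rwa [A.cj_cj, A.q_cj] at this

theorem c7' (x y : V) : A.μ x (A.μ (A.cj x) y) = Q x • y := by
  have := A.c7 (A.cj x) y
  rwa [A.cj_cj, A.q_cj] at this

theorem c10 (x y : V) : A.cj (A.μ x y) = A.μ (A.cj y) (A.cj x) := by
  apply A.ext_p
  intro z
  rw [A.p_cj', A.c4, pB_symm, A.c5, A.cj_cj, pB_symm, A.c4, pB_symm]

theorem m1 (a x y : V) : A.μ (A.μ a x) (A.μ y a) = pB Q (A.μ x y) (A.cj a) • a - Q a • A.cj (A.μ x y) := by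
  apply A.ext_p
  intro z
  rw [A.c4, A.c10]
  have h := A.c3 y a (A.μ (A.cj x) (A.cj a)) z
  rw [A.c8'] at h
  have h2 : pB Q (A.μ y z) (A.cj x) = pB Q z (A.cj (A.μ x y)) := by rw [A.c4, A.c10]
  rw [pr_smul, h2] at h
  rw [pl_sub, pl_smul, pl_smul, A.c4 x y, pB_symm Q (A.cj (A.μ x y)) z]
  linear_combination h

/-- the map `u ↦ a u a` -/
noncomputable def Ba (a u : V) : V := A.μ (A.μ a u) a

theorem m2 (a u : V) : A.Ba a u = pB Q u (A.cj a) • a - Q a • A.cj u := by
  have := A.m1 a u A.i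
  rw [A.il, A.ir] at this
  exact this

theorem m2' (a u : V) : A.μ a (A.μ u a) = A.Ba a u := by
  have := A.m1 a A.i u
  rw [A.ir, A.il] at this
  rw [this, m2]

theorem m3 (a x y : V) : A.μ (A.μ a x) (A.μ y a) = A.Ba a (A.μ x y) := by
  rw [A.m1, A.m2]

theorem q_Ba (a u : V) : Q (A.Ba a u) = Q a * Q a * Q u := by
  unfold Ba
  rw [A.comp, A.comp]; ring

theorem p_Ba (a u v : V) : pB Q (A.Ba a u) (A.Ba a v) = Q a * Q a * pB Q u v := by
  unfold Ba
  rw [A.c2, A.c1]; ring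

theorem cj_Ba (a u : V) : A.cj (A.Ba a u) = A.Ba (A.cj a) (A.cj u) := by
  rw [← A.m2']
  unfold Ba
  rw [A.c10, A.c10]

/-- the trilinear form -/
noncomputable def T (x y z : V) : F := pB Q (A.μ x y) (A.cj z)

theorem T_def (x y z : V) : A.T x y z = pB Q (A.μ x y) (A.cj z) := rfl

theorem T_cyc (x y z : V) : A.T x y z = A.T y z x := by
  rw [T_def, T_def, A.c4 y z, ← A.c10, pB_symm, ← A.p_cj, A.cj_cj]

theorem T_cj (x y z : V) : A.T (A.cj x) (A.cj y) (A.cj z) = A.T y x z := by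
  rw [T_def, T_def, A.cj_cj, ← A.c10, A.p_cj']

theorem T_L (a x y z : V) : A.T (A.μ a x) (A.μ y a) (A.Ba (A.cj a) z) = Q a * Q a * A.T x y z := by
  rw [T_def, T_def, A.m3, A.cj_Ba, A.cj_cj, A.p_Ba]

theorem T_nd {x y : V} (h : ∀ z w, A.T x z w = A.T y z w) : x = y := by
  have h1 := h A.i
  rw [← A.cj_cj x, ← A.cj_cj y]
  congr 1
  apply A.ext_p
  intro z
  have := h1 z
  rw [T_def, T_def, A.ir, A.ir, ← A.p_cj', ← A.p_cj'] at this
  exact this

theorem cj_i : A.cj A.i = A.i := by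
  unfold cj
  rw [A.pii]; module

end CompAlg

end Cfsg.Agent.H17
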