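import Mathlib
import Cfsg.Agent.H17.Tri1
import Cfsg.Agent.H17.SSGStd

set_option autoImplicit false

/-! The split octonions on the standard quadratic space of plus type and dimension eight. -/

namespace Cfsg.Agent.H17

open Cfsg Cfsg.Agent.H5

variable {F : Type*} [Field F]

/-- multiplication of split octonions (Zorn's vector matrices) -/
def om (x y : Fin 4 ⊕ Fin 4 → F) : Fin 4 ⊕ Fin 4 → F := Sum.elim
  ![x (Sum.inl 0) * y (Sum.inl 0) - (x (Sum.inl 1) * y (Sum.inr 1) + x (Sum.inl 2) * y (Sum.inr 2) + x (Sum.inl 3) * y (Sum.inr 3)),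
    x (Sum.inl 0) * y (Sum.inl 1) + y (Sum.inr 0) * x (Sum.inl 1) - (x (Sum.inr 2) * y (Sum.inr 3) - x (Sum.inr 3) * y (Sum.inr 2)),
    x (Sum.inl 0) * y (Sum.inl 2) + y (Sum.inr 0) * x (Sum.inl 2) - (x (Sum.inr 3) * y (Sum.inr 1) - x (Sum.inr 1) * y (Sum.inr 3)),
    x (Sum.inl 0) * y (Sum.inl 3) + y (Sum.inr 0) * x (Sum.inl 3) - (x (Sum.inr 1) * y (Sum.inr 2) - x (Sum.inr 2) * y (Sum.inr 1))]
  ![x (Sum.inr 0) * y (Sum.inr 0) - (x (Sum.inr 1) * y (Sum.inl 1) + x (Sum.inr 2) * y (Sum.inl 2) + x (Sum.inr 3) * y (Sum.inl 3)),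
    y (Sum.inl 0) * x (Sum.inr 1) + x (Sum.inr 0) * y (Sum.inr 1) - (x (Sum.inl 2) * y (Sum.inl 3) - x (Sum.inl 3) * y (Sum.inl 2)),
    y (Sum.inl 0) * x (Sum.inr 2) + x (Sum.inr 0) * y (Sum.inr 2) - (x (Sum.inl 3) * y (Sum.inl 1) - x (Sum.inl 1) * y (Sum.inl 3)),
    y (Sum.inl 0) * x (Sum.inr 3) + x (Sum.inr 0) * y (Sum.inr 3) - (x (Sum.inl 1) * y (Sum.inl 2) - x (Sum.inl 2) * y (Sum.inl 1))]

theorem om_l0 (x y : Fin 4 ⊕ Fin 4 → F) : om x y (Sum.inl 0) = x (Sum.inl 0) * y (Sum.inl 0) - (x (Sum.inl 1) * y (Sum.inr 1) + x (Sum.inl 2) * y (Sum.inr 2) + x (Sum.inl 3) * y (Sum.inr 3)) := rfl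
theorem om_l1 (x y : Fin 4 ⊕ Fin 4 → F) : om x y (Sum.inl 1) = x (Sum.inl 0) * y (Sum.inl 1) + y (Sum.inr 0) * x (Sum.inl 1) - (x (Sum.inr 2) * y (Sum.inr 3) - x (Sum.inr 3) * y (Sum.inr 2)) := rfl
theorem om_l2 (x y : Fin 4 ⊕ Fin 4 → F) : om x y (Sum.inl 2) = x (Sum.inl 0) * y (Sum.inl 2) + y (Sum.inr 0) * x (Sum.inl 2) - (x (Sum.inr 3) * y (Sum.inr 1) - x (Sum.inr 1) * y (Sum.inr 3)) := rfl
theorem om_l3 (x y : Fin 4 ⊕ Fin 4 → F) : om x y (Sum.inl 3) = x (Sum.inl 0) * y (Sum.inl 3) + y (Sum.inr 0) * x (Sum.inl 3) - (x (Sum.inr 1) * y (Sum.inr 2) - x (Sum.inr 2) * y (Sum.inr 1)) := rfl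
theorem om_r0 (x y : Fin 4 ⊕ Fin 4 → F) : om x y (Sum.inr 0) = x (Sum.inr 0) * y (Sum.inr 0) - (x (Sum.inr 1) * y (Sum.inl 1) + x (Sum.inr 2) * y (Sum.inl 2) + x (Sum.inr 3) * y (Sum.inl 3)) := rfl
theorem om_r1 (x y : Fin 4 ⊕ Fin 4 → F) : om x y (Sum.inr 1) = y (Sum.inl 0) * x (Sum.inr 1) + x (Sum.inr 0) * y (Sum.inr 1) - (x (Sum.inl 2) * y (Sum.inl 3) - x (Sum.inl 3) * y (Sum.inl 2)) := rfl
theorem om_r2 (x y : Fin 4 ⊕ Fin 4 → F) : om x y (Sum.inr 2) = y (Sum.inl 0) * x (Sum.inr 2) + x (Sum.inr 0) * y (Sum.inr 2) - (x (Sum.inl 3) * y (Sum.inl 1) - x (Sum.inl 1) * y (Sum.inl 3)) := rfl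
theorem om_r3 (x y : Fin 4 ⊕ Fin 4 → F) : om x y (Sum.inr 3) = y (Sum.inl 0) * x (Sum.inr 3) + x (Sum.inr 0) * y (Sum.inr 3) - (x (Sum.inl 1) * y (Sum.inl 2) - x (Sum.inl 2) * y (Sum.inl 1)) := rfl

theorem oct_ext {x y : Fin 4 ⊕ Fin 4 → F} (h0 : x (Sum.inl 0) = y (Sum.inl 0)) (h1 : x (Sum.inl 1) = y (Sum.inl 1)) (h2 : x (Sum.inl 2) = y (Sum.inl 2)) (h3 : x (Sum.inl 3) = y (Sum.inl 3))
    (k0 : x (Sum.inr 0) = y (Sum.inr 0)) (k1 : x (Sum.inr 1) = y (Sum.inr 1)) (k2 : x (Sum.inr 2) = y (Sum.inr 2)) (k3 : x (Sum.inr 3) = y (Sum.inr 3)) : x = y := by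
  funext i
  rcases i with i | i
  · fin_cases i
    · exact h0
    · exact h1
    · exact h2
    · exact h3
  · fin_cases i
    · exact k0
    · exact k1
    · exact k2
    · exact k3

noncomputable def omμ (F : Type*) [Field F] : (Fin 4 ⊕ Fin 4 → F) →ₗ[F] (Fin 4 ⊕ Fin 4 → F) →ₗ[F] (Fin 4 ⊕ Fin 4 → F) :=
  LinearMap.mk₂ F om
    (by intro x y z; apply oct_ext <;> simp only [om_l0, om_l1, om_l2, om_l3, om_r0, om_r1, om_r2, om_r3, Pi.add_apply] <;> ring)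
    (by intro c x y; apply oct_ext <;> simp only [om_l0, om_l1, om_l2, om_l3, om_r0, om_r1, om_r2, om_r3, Pi.smul_apply, smul_eq_mul] <;> ring)
    (by intro x y z; apply oct_ext <;> simp only [om_l0, om_l1, om_l2, om_l3, om_r0, om_r1, om_r2, om_r3, Pi.add_apply] <;> ring)
    (by intro c x y; apply oct_ext <;> simp only [om_l0, om_l1, om_l2, om_l3, om_r0, om_r1, om_r2, om_r3, Pi.smul_apply, smul_eq_mul] <;> ring)

theorem omμ_apply (x y : Fin 4 ⊕ Fin 4 → F) : omμ F x y = om x y := rfl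

/-- the unit octonion -/
def o1 (F : Type*) [Field F] : Fin 4 ⊕ Fin 4 → F := Sum.elim ![1, 0, 0, 0] ![1, 0, 0, 0]

theorem qPlus4 (x : Fin 4 ⊕ Fin 4 → F) : qPlus 4 F x = x (Sum.inl 0) * x (Sum.inr 0) + x (Sum.inl 1) * x (Sum.inr 1) + x (Sum.inl 2) * x (Sum.inr 2) + x (Sum.inl 3) * x (Sum.inr 3) := by
  rw [qPlus_coe]
  show ∑ i : Fin 4, x (Sum.inl i) * x (Sum.inr i) = _
  rw [Fin.sum_univ_four]

theorem om_one_left (x : Fin 4 ⊕ Fin 4 → F) : om (o1 F) x = x := by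
  apply oct_ext <;> simp [om_l0, om_l1, om_l2, om_l3, om_r0, om_r1, om_r2, om_r3, o1]

theorem om_one_right (x : Fin 4 ⊕ Fin 4 → F) : om x (o1 F) = x := by
  apply oct_ext <;> simp [om_l0, om_l1, om_l2, om_l3, om_r0, om_r1, om_r2, om_r3, o1]

theorem om_comp (x y : Fin 4 ⊕ Fin 4 → F) : qPlus 4 F (om x y) = qPlus 4 F x * qPlus 4 F y := by
  rw [qPlus4, qPlus4, qPlus4, om_l0, om_l1, om_l2, om_l3, om_r0, om_r1, om_r2, om_r3]
  ring

/-- the split octonion algebra -/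
noncomputable def octA (F : Type*) [Field F] : CompAlg (qPlus 4 F) where
  μ := omμ F
  i := o1 F
  il := om_one_left
  ir := om_one_right
  comp := om_comp
  nd := nd_plus
  qi := by rw [qPlus4]; simp [o1]

theorem octA_μ (x y : Fin 4 ⊕ Fin 4 → F) : (octA F).μ x y = om x y := rfl

theorem om_svI (σ : F ≃+* F) (x y : Fin 4 ⊕ Fin 4 → F) : svI σ (om x y) = om (svI σ x) (svI σ y) := by
  apply oct_ext
  · show σ (om x y (Sum.inl 0)) = _
    rw [om_l0, om_l0]; simp only [map_sub, map_add, map_mul]; rfl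
  · show σ (om x y (Sum.inl 1)) = _
    rw [om_l1, om_l1]; simp only [map_sub, map_add, map_mul]; rfl
  · show σ (om x y (Sum.inl 2)) = _
    rw [om_l2, om_l2]; simp only [map_sub, map_add, map_mul]; rfl
  · show σ (om x y (Sum.inl 3)) = _
    rw [om_l3, om_l3]; simp only [map_sub, map_add, map_mul]; rfl
  · show σ (om x y (Sum.inr 0)) = _
    rw [om_r0, om_r0]; simp only [map_sub, map_add, map_mul]; rfl
  · show σ (om x y (Sum.inr 1)) = _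
    rw [om_r1, om_r1]; simp only [map_sub, map_add, map_mul]; rfl
  · show σ (om x y (Sum.inr 2)) = _
    rw [om_r2, om_r2]; simp only [map_sub, map_add, map_mul]; rfl
  · show σ (om x y (Sum.inr 3)) = _
    rw [om_r3, om_r3]; simp only [map_sub, map_add, map_mul]; rfl

/-- the nucleus is the base field -/
theorem nucleus {b : Fin 4 ⊕ Fin 4 → F} (h : ∀ u y, om u (om b y) = om (om u b) y) : ∃ c : F, b = c • o1 F := by
  have k3 := congrFun (h (Pi.single (Sum.inl 0) 1) (Pi.single (Sum.inl 1) 1)) (Sum.inr 2)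
  have k2 := congrFun (h (Pi.single (Sum.inl 0) 1) (Pi.single (Sum.inl 3) 1)) (Sum.inr 1)
  have k1 := congrFun (h (Pi.single (Sum.inl 0) 1) (Pi.single (Sum.inl 2) 1)) (Sum.inr 3)
  have r3 := congrFun (h (Pi.single (Sum.inl 0) 1) (Pi.single (Sum.inr 2) 1)) (Sum.inl 1)
  have r2 := congrFun (h (Pi.single (Sum.inl 0) 1) (Pi.single (Sum.inr 1) 1)) (Sum.inl 3)
  have r1 := congrFun (h (Pi.single (Sum.inl 0) 1) (Pi.single (Sum.inr 3) 1)) (Sum.inl 2)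
  have r0 := congrFun (h (Pi.single (Sum.inl 1) 1) (Pi.single (Sum.inl 2) 1)) (Sum.inr 3)
  simp [om_l0, om_l1, om_l2, om_l3, om_r0, om_r1, om_r2, om_r3] at k3 k2 k1 r3 r2 r1 r0
  refine ⟨b (Sum.inl 0), ?_⟩
  apply oct_ext
  · simp [o1]
  · simp [o1]; first | exact k1 | exact k1.symm
  · simp [o1]; first | exact k2 | exact k2.symm
  · simp [o1]; first | exact k3 | exact k3.symm
  · simp [o1]; first | exact r0 | exact r0.symm
  · simp [o1]; first | exact r1 | exact r1.symm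
  · simp [o1]; first | exact r2 | exact r2.symm
  · simp [o1]; first | exact r3 | exact r3.symm

end Cfsg.Agent.H17
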