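import Mathlib
import Cfsg.Agent.H17.Tri0
import Cfsg.Agent.H17.Tri2
import Cfsg.Agent.H17.QModel2
import Cfsg.Agent.H17.SSGCount

set_option autoImplicit false

/-! Related triples of semisimilarities. -/

namespace Cfsg.Agent.H17

open Cfsg Cfsg.Agent.H5

/-- a similarity from a linear map -/
noncomputable def mkS {F V : Type*} [Field F] [AddCommGroup V] [Module F V] [FiniteDimensional F V] {Q : QuadraticForm F V} (hnd : ND Q) (f : V →ₗ[F] V) (c : Fˣ)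
    (h : ∀ x, Q (f x) = c * Q x) : SSG Q :=
  ⟨((LinearEquiv.ofInjectiveEndo f (by
      intro x y hxy
      rw [← sub_eq_zero]
      apply hnd
      intro z
      have h1 : ∀ u v, pB Q (f u) (f v) = c * pB Q u v := by
        intro u v
        have := h (u + v)
        rw [map_add, q_add, q_add, h, h] at this
        linear_combination this
      have h2 := h1 (x - y) z
      rw [map_sub, hxy, sub_self, map_zero, LinearMap.zero_apply] at h2
      exact (mul_eq_zero.mp h2.symm).resolve_left (Units.ne_zero c))).toEquiv, 1),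
    fun x y => map_add f x y, fun a x => map_smul f a x, c, fun x => h x⟩

theorem mkS_apply {F V : Type*} [Field F] [AddCommGroup V] [Module F V] [FiniteDimensional F V] {Q : QuadraticForm F V} (hnd : ND Q) (f : V →ₗ[F] V) (c : Fˣ)
    (h : ∀ x, Q (f x) = c * Q x) (x : V) : (mkS hnd f c h).1.1 x = f x := rfl

theorem mkS_snd {F V : Type*} [Field F] [AddCommGroup V] [Module F V] [FiniteDimensional F V] {Q : QuadraticForm F V} (hnd : ND Q) (f : V →ₗ[F] V) (c : Fˣ)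
    (h : ∀ x, Q (f x) = c * Q x) : (mkS hnd f c h).1.2 = 1 := rfl

variable {F : Type*} [Field F]

local notation "V8" => (Fin 4 ⊕ Fin 4 → F)
local notation "A8" => octA F
local notation "Q8" => qPlus 4 F

/-- related triples -/
def Rel (p1 p2 p3 : SSG Q8) : Prop :=
  p1.1.2 = p3.1.2 ∧ p2.1.2 = p3.1.2 ∧ ∃ c : F, c ≠ 0 ∧ ∀ x y z, (A8).T (p1.1.1 x) (p2.1.1 y) (p3.1.1 z) = c * p3.1.2 ((A8).T x y z)

theorem Rel.cyc {p1 p2 p3 : SSG Q8} (h : Rel p1 p2 p3) : Rel p2 p3 p1 := by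
  obtain ⟨h1, h2, c, hc, h3⟩ := h
  refine ⟨h2.trans h1.symm, h1.symm, c, hc, fun x y z => ?_⟩
  rw [← (A8).T_cyc, h3, h1, (A8).T_cyc z x y]

theorem Rel.mul {p1 p2 p3 q1 q2 q3 : SSG Q8} (hp : Rel p1 p2 p3) (hq : Rel q1 q2 q3) : Rel (p1 * q1) (p2 * q2) (p3 * q3) := by
  obtain ⟨h1, h2, c, hc, h3⟩ := hp
  obtain ⟨k1, k2, d, hd, k3⟩ := hq
  refine ⟨?_, ?_, c * p3.1.2 d, mul_ne_zero hc (fun h => hd ((map_eq_zero_iff _ (RingEquiv.injective p3.1.2)).mp h)), fun x y z => ?_⟩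
  · show p1.1.2 * q1.1.2 = p3.1.2 * q3.1.2
    rw [h1, k1]
  · show p2.1.2 * q2.1.2 = p3.1.2 * q3.1.2
    rw [h2, k2]
  · show (A8).T (p1.1.1 (q1.1.1 x)) (p2.1.1 (q2.1.1 y)) (p3.1.1 (q3.1.1 z)) = c * p3.1.2 d * (p3.1.2 (q3.1.2 ((A8).T x y z)))
    rw [h3, k3, map_mul, mul_assoc]

theorem ss_inv_apply {F V : Type*} [Field F] [AddCommGroup V] [Module F V] {Q : QuadraticForm F V} (p : SSG Q) (x : V) : p.1.1 ((p⁻¹ : SSG Q).1.1 x) = x :=
  p.1.1.apply_symm_apply x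

theorem Rel.inv {p1 p2 p3 : SSG Q8} (hp : Rel p1 p2 p3) : Rel p1⁻¹ p2⁻¹ p3⁻¹ := by
  obtain ⟨h1, h2, c, hc, h3⟩ := hp
  have e3 : ∀ a, p3.1.2 ((p3⁻¹ : SSG Q8).1.2 a) = a := fun a => p3.1.2.apply_symm_apply a
  refine ⟨?_, ?_, (p3⁻¹ : SSG Q8).1.2 c⁻¹, fun h => inv_ne_zero hc ((map_eq_zero_iff _ (RingEquiv.injective (p3⁻¹ : SSG Q8).1.2)).mp h), fun x y z => ?_⟩
  · show p1.1.2⁻¹ = p3.1.2⁻¹
    rw [h1]
  · show p2.1.2⁻¹ = p3.1.2⁻¹
    rw [h2]
  · apply (RingEquiv.injective p3.1.2)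
    rw [map_mul, e3, e3]
    have h4 := h3 ((p1⁻¹ : SSG Q8).1.1 x) ((p2⁻¹ : SSG Q8).1.1 y) ((p3⁻¹ : SSG Q8).1.1 z)
    rw [ss_inv_apply, ss_inv_apply, ss_inv_apply] at h4
    rw [h4, ← mul_assoc, inv_mul_cancel₀ hc, one_mul]

theorem Rel.one : Rel (F := F) 1 1 1 := ⟨rfl, rfl, 1, one_ne_zero, fun x y z => by rw [one_mul]; rfl⟩

/-- the group of related triples -/
def RT (F : Type*) [Field F] : Subgroup (SSG (qPlus 4 F) × SSG (qPlus 4 F) × SSG (qPlus 4 F)) where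
  carrier := {t | Rel t.1 t.2.1 t.2.2}
  mul_mem' h h' := Rel.mul h h'
  one_mem' := Rel.one
  inv_mem' h := Rel.inv h

/-- cyclic rotation -/
def cycT (t : RT F) : RT F := ⟨(t.1.2.1, t.1.2.2, t.1.1), Rel.cyc t.2⟩

theorem cycT3 (t : RT F) : cycT (cycT (cycT t)) = t := rfl

noncomputable def r3 (F : Type*) [Field F] : RT F →* SSG (qPlus 4 F) := ((MonoidHom.snd _ _).comp (MonoidHom.snd _ _)).comp (RT F).subtype
noncomputable def r1 (F : Type*) [Field F] : RT F →* SSG (qPlus 4 F) := (MonoidHom.fst _ _).comp (RT F).subtype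

theorem r3_cyc (t : RT F) : r3 F (cycT t) = r1 F t := rfl

/-- multiplication maps -/
theorem q_ne_unit {a : V8} (ha : Q8 a ≠ 0) : ∃ c : Fˣ, (c : F) = Q8 a := ⟨Units.mk0 _ ha, rfl⟩

noncomputable def sL (a : V8) (c : Fˣ) (hc : (c : F) = Q8 a) : SSG Q8 :=
  mkS nd_plus ((A8).μ a) c (fun x => by rw [(A8).comp, hc])

noncomputable def sR (a : V8) (c : Fˣ) (hc : (c : F) = Q8 a) : SSG Q8 :=
  mkS nd_plus ((A8).μ.flip a) c (fun x => by rw [LinearMap.flip_apply, (A8).comp, hc, mul_comm])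

noncomputable def sB (a : V8) (c : Fˣ) (hc : (c : F) = Q8 a) : SSG Q8 :=
  mkS nd_plus (((A8).μ.flip a).comp ((A8).μ a)) (c * c) (fun x => by
    rw [LinearMap.comp_apply, LinearMap.flip_apply, (A8).comp, (A8).comp, Units.val_mul, hc]; ring)

theorem sL_apply (a : V8) (c : Fˣ) (hc : (c : F) = Q8 a) (x : V8) : (sL a c hc).1.1 x = (A8).μ a x := rfl
theorem sR_apply (a : V8) (c : Fˣ) (hc : (c : F) = Q8 a) (x : V8) : (sR a c hc).1.1 x = (A8).μ x a := rfl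
theorem sB_apply (a : V8) (c : Fˣ) (hc : (c : F) = Q8 a) (x : V8) : (sB a c hc).1.1 x = (A8).Ba a x := rfl

theorem rel_L (a : V8) (c : Fˣ) (hc : (c : F) = Q8 a) (hc' : (c : F) = Q8 ((A8).cj a)) : Rel (sL a c hc) (sR a c hc) (sB ((A8).cj a) c hc') := by
  refine ⟨rfl, rfl, c * c, mul_ne_zero (Units.ne_zero c) (Units.ne_zero c), fun x y z => ?_⟩
  rw [sL_apply, sR_apply, sB_apply, (A8).T_L, hc]
  rfl

theorem T_smul1 (c : F) (x y z : V8) : (A8).T (c • x) y z = c * (A8).T x y z := by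
  rw [(A8).T_def, (A8).T_def, map_smul, LinearMap.smul_apply, pl_smul]

theorem T_smul2 (c : F) (x y z : V8) : (A8).T x (c • y) z = c * (A8).T x y z := by
  rw [(A8).T_cyc, T_smul1, ← (A8).T_cyc]

theorem T_smul3 (c : F) (x y z : V8) : (A8).T x y (c • z) = c * (A8).T x y z := by
  rw [← (A8).T_cyc, T_smul1, (A8).T_cyc]

theorem rel_sc (c d e : Fˣ) : Rel (scSS Q8 c) (scSS Q8 d) (scSS Q8 e) := by
  refine ⟨rfl, rfl, c * d * e, mul_ne_zero (mul_ne_zero (Units.ne_zero c) (Units.ne_zero d)) (Units.ne_zero e), fun x y z => ?_⟩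
  rw [scSS_apply, scSS_apply, scSS_apply, Units.smul_def, Units.smul_def, Units.smul_def, T_smul1, T_smul2, T_smul3]
  show _ = _ * (A8).T x y z
  ring

/-- field automorphisms -/
noncomputable def fO8 (F : Type*) [Field F] : (F ≃+* F) →* SSG (qPlus 4 F) := stdSS (qPlus 4 F) qPlus_svI

theorem fO8_apply (σ : F ≃+* F) (x : V8) : (fO8 F σ).1.1 x = svI σ x := rfl
theorem fO8_snd (σ : F ≃+* F) : (fO8 F σ).1.2 = σ := rfl

theorem pB_svI (σ : F ≃+* F) (x y : V8) : pB Q8 (svI σ x) (svI σ y) = σ (pB Q8 x y) := by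
  have h := qPlus_svI σ (x + y)
  rw [svI_add, q_add, q_add, map_add, map_add, qPlus_svI, qPlus_svI] at h
  linear_combination h

theorem svI_i (σ : F ≃+* F) : svI σ (o1 F) = o1 F := by
  apply oct_ext <;> simp [svI, o1]

theorem cj_svI (σ : F ≃+* F) (x : V8) : (A8).cj (svI σ x) = svI σ ((A8).cj x) := by
  have hi : svI σ (A8).i = (A8).i := svI_i σ
  unfold CompAlg.cj
  have h1 : pB Q8 (svI σ x) (A8).i = σ (pB Q8 x (A8).i) := by
    conv_lhs => rw [← hi]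
    rw [pB_svI]
  rw [h1]
  have h2 : ∀ u v : V8, svI σ (u - v) = svI σ u - svI σ v := fun u v => by
    funext j; exact map_sub σ _ _
  rw [h2, svI_smul, hi]

theorem rel_f (σ : F ≃+* F) : Rel (fO8 F σ) (fO8 F σ) (fO8 F σ) := by
  refine ⟨rfl, rfl, 1, one_ne_zero, fun x y z => ?_⟩
  rw [fO8_apply, fO8_apply, fO8_apply, (A8).T_def, (A8).T_def, one_mul, octA_μ, ← om_svI, cj_svI, pB_svI, octA_μ]
  rfl

/-- conjugation -/
noncomputable def kS (F : Type*) [Field F] : SSG (qPlus 4 F) :=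
  ⟨({ toFun := (octA F).cj, invFun := (octA F).cj, left_inv := (octA F).cj_cj, right_inv := (octA F).cj_cj }, 1),
    (octA F).cj_add, fun a x => (octA F).cj_smul a x, 1, fun x => by
      show qPlus 4 F ((octA F).cj x) = _
      rw [(octA F).q_cj, Units.val_one, one_mul]; rfl⟩

theorem kS_apply (x : V8) : (kS F).1.1 x = (A8).cj x := rfl

theorem kS_mul : kS F * kS F = 1 := ss_ext (fun x => (A8).cj_cj x) rfl

theorem Rel.swap {p1 p2 p3 : SSG Q8} (h : Rel p1 p2 p3) : Rel (kS F * p2 * kS F) (kS F * p1 * kS F) (kS F * p3 * kS F) := by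
  obtain ⟨h1, h2, c, hc, h3⟩ := h
  refine ⟨?_, ?_, c, hc, fun x y z => ?_⟩
  · show 1 * p2.1.2 * 1 = 1 * p3.1.2 * 1
    rw [h2]
  · show 1 * p1.1.2 * 1 = 1 * p3.1.2 * 1
    rw [h1]
  · show (A8).T ((A8).cj (p2.1.1 ((A8).cj x))) ((A8).cj (p1.1.1 ((A8).cj y))) ((A8).cj (p3.1.1 ((A8).cj z))) = c * p3.1.2 ((A8).T x y z)
    rw [(A8).T_cj, h3, (A8).T_cj]

/-- swapping -/
noncomputable def swT (t : RT F) : RT F := ⟨(kS F * t.1.2.1 * kS F, kS F * t.1.1 * kS F, kS F * t.1.2.2 * kS F), Rel.swap t.2⟩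

theorem r3_sw (t : RT F) : r3 F (swT t) = kS F * r3 F t * kS F := rfl
theorem r1_sw (t : RT F) : r1 F (swT t) = kS F * r1 F (cycT t) * kS F := rfl

/-- kernel -/
theorem rel_scalar {p1 p2 p3 : SSG Q8} (h : Rel p1 p2 p3) (h3 : p3.1.2 = 1) {c : Fˣ} (hc : ∀ x, p3.1.1 x = c • x) :
    (∃ d : Fˣ, ∀ x, p1.1.1 x = d • x) ∧ ∃ d : Fˣ, ∀ x, p2.1.1 x = d • x := by
  obtain ⟨k1, k2, c0, hc0, k3⟩ := h
  obtain ⟨d, hd⟩ : ∃ d : F, d = c0 * (c : F)⁻¹ := ⟨_, rfl⟩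
  have hd0 : d ≠ 0 := by rw [hd]; exact mul_ne_zero hc0 (inv_ne_zero (Units.ne_zero c))
  have hm : ∀ x y, (A8).μ (p1.1.1 x) (p2.1.1 y) = d • (A8).μ x y := by
    intro x y
    apply (A8).ext_p
    intro z
    have h4 := k3 x y ((A8).cj z)
    rw [hc, Units.smul_def, T_smul3, h3, (A8).T_def, (A8).T_def, (A8).cj_cj] at h4
    rw [pl_smul, hd]
    have h5 : (c : F) * pB Q8 ((A8).μ (p1.1.1 x) (p2.1.1 y)) z = c0 * pB Q8 ((A8).μ x y) z := h4
    have hc1 : (c : F)⁻¹ * c = 1 := inv_mul_cancel₀ (Units.ne_zero c)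
    calc pB Q8 ((A8).μ (p1.1.1 x) (p2.1.1 y)) z = (c : F)⁻¹ * ((c : F) * pB Q8 ((A8).μ (p1.1.1 x) (p2.1.1 y)) z) := by rw [← mul_assoc, hc1, one_mul]
      _ = c0 * (c : F)⁻¹ * pB Q8 ((A8).μ x y) z := by rw [h5]; ring
  obtain ⟨a, ha⟩ : ∃ a, a = p1.1.1 (A8).i := ⟨_, rfl⟩
  obtain ⟨b, hb⟩ : ∃ b, b = p2.1.1 (A8).i := ⟨_, rfl⟩
  have h1 : ∀ x, (A8).μ (p1.1.1 x) b = d • x := fun x => by rw [hb, hm, (A8).ir]
  have h2 : ∀ y, (A8).μ a (p2.1.1 y) = d • y := fun y => by rw [ha, hm, (A8).il]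
  have hab : (A8).μ a b = d • (A8).i := by rw [ha, h1]
  have hqab : Q8 a * Q8 b = d * d := by
    have h4 := congrArg Q8 hab
    rw [(A8).comp, q_smul, (A8).qi, mul_one] at h4
    exact h4
  have hqa : Q8 a ≠ 0 := fun h => mul_ne_zero hd0 hd0 (by rw [← hqab, h, zero_mul])
  have hqb : Q8 b ≠ 0 := fun h => mul_ne_zero hd0 hd0 (by rw [← hqab, h, mul_zero])
  have h1' : ∀ x, Q8 b • p1.1.1 x = d • (A8).μ x ((A8).cj b) := by
    intro x
    rw [← (A8).c8, h1, map_smul, LinearMap.smul_apply]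
  have h2' : ∀ y, Q8 a • p2.1.1 y = d • (A8).μ ((A8).cj a) y := by
    intro y
    rw [← (A8).c7, h2, map_smul]
  have hca : Q8 a • b = d • (A8).cj a := by
    rw [← (A8).c7, hab, map_smul, (A8).ir]
  have hca' : (A8).cj a = (d⁻¹ * Q8 a) • b := by
    rw [← smul_smul, hca, smul_smul, inv_mul_cancel₀ hd0, one_smul]
  have hH : ∀ x y, (A8).μ ((A8).μ x ((A8).cj b)) ((A8).μ b y) = Q8 b • (A8).μ x y := by
    intro x y
    have e1 : (A8).μ (Q8 b • p1.1.1 x) (Q8 a • p2.1.1 y) = (Q8 a * Q8 b * d) • (A8).μ x y := by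
      rw [map_smul, map_smul, LinearMap.smul_apply, hm, smul_smul, smul_smul, mul_assoc]
    rw [h1', h2', map_smul, map_smul, LinearMap.smul_apply, hca', map_smul, LinearMap.smul_apply, map_smul, hqab, smul_smul, smul_smul] at e1
    have e2 : d * d * (d⁻¹ * Q8 a) = d * Q8 a := by field_simp
    rw [e2] at e1
    have e3 : (d * Q8 a) • (A8).μ ((A8).μ x ((A8).cj b)) ((A8).μ b y) = (d * Q8 a) • (Q8 b • (A8).μ x y) := by
      rw [e1, smul_smul, mul_assoc d, mul_assoc d, hqab]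
    exact smul_right_injective _ (mul_ne_zero hd0 hqa) e3
  obtain ⟨β, hβ⟩ := nucleus (b := b) (fun u y => by
    have h4 := hH ((A8).μ u b) y
    rw [(A8).c8, map_smul, LinearMap.smul_apply] at h4
    exact smul_right_injective _ hqb h4)
  have hβ0 : β ≠ 0 := by
    rintro rfl
    rw [zero_smul] at hβ
    exact hqb (by rw [hβ, q_zero])
  have hβ' : b = β • (A8).i := hβ
  have hp1 : ∀ x, p1.1.1 x = (β⁻¹ * d) • x := by
    intro x
    have h4 := h1 x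
    rw [hβ', map_smul, (A8).ir] at h4
    rw [← smul_smul, ← h4, smul_smul, inv_mul_cancel₀ hβ0, one_smul]
  have ha' : a = (β⁻¹ * d) • (A8).i := by rw [ha, hp1]
  have hg0 : β⁻¹ * d ≠ 0 := mul_ne_zero (inv_ne_zero hβ0) hd0
  refine ⟨⟨Units.mk0 _ hg0, hp1⟩, ⟨Units.mk0 β hβ0, fun y => ?_⟩⟩
  have h4 := h2 y
  rw [ha', map_smul, LinearMap.smul_apply, (A8).il] at h4
  show p2.1.1 y = β • y
  have h5 : (β⁻¹ * d) • p2.1.1 y = (β⁻¹ * d) • (β • y) := by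
    rw [h4, smul_smul]
    congr 1
    field_simp
  exact smul_right_injective _ hg0 h5

end Cfsg.Agent.H17
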