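import Mathlib
import Cfsg.Agent.H17.Tri3
import Cfsg.Agent.H17.SSGOut

set_option autoImplicit false

/-! The triality automorphism. -/

namespace Cfsg.Agent.H17

open Cfsg Cfsg.Agent.H5

variable {F : Type*} [Field F] [Finite F]

local notation "V8" => (Fin 4 ⊕ Fin 4 → F)
local notation "A8" => octA F
local notation "Q8" => qPlus 4 F

omit [Finite F] in
theorem fr8 : Module.finrank F V8 = 8 := by
  rw [Module.finrank_fintype_fun_eq_card]; simp

omit [Finite F] in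
theorem fr8' : 5 ≤ Module.finrank F V8 := by rw [fr8]; norm_num

omit [Finite F] in
theorem o1_ne : Q8 (A8).i ≠ 0 := by rw [(A8).qi]; exact one_ne_zero

omit [Finite F] in
theorem refl1_apply (x : V8) : H5.refl (o1_ne (F := F)) x = -(A8).cj x := by
  rw [refl_apply, (A8).qi, inv_one, one_mul, pB_symm]
  unfold CompAlg.cj
  module

omit [Finite F] in
theorem kS_eq : kS F = scSS Q8 (-1) * ogSS Q8 (H5.refl (o1_ne (F := F))) := by
  apply ss_ext
  · intro x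
    show (A8).cj x = ((-1 : Fˣ)) • (H5.refl (o1_ne (F := F)) x)
    rw [refl1_apply, Units.smul_def, Units.val_neg, Units.val_one, neg_smul, one_smul, neg_neg]
  · rfl

omit [Finite F] in
theorem sB_eq (a : V8) (c : Fˣ) (hc : (c : F) = Q8 a) (ha : Q8 a ≠ 0) : sB a c hc = scSS Q8 c * ogSS Q8 (H5.refl ha * H5.refl (o1_ne (F := F))) := by
  apply ss_ext
  · intro x
    show (A8).Ba a x = c • (H5.refl (Q := Q8) ha (H5.refl (o1_ne (F := F)) x))
    rw [refl1_apply, refl_apply, (A8).m2, Units.smul_def, hc, pr_neg, ← (A8).p_cj', pB_symm Q8 ((A8).cj x) a, smul_sub, smul_smul]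
    have : Q8 a * ((Q8 a)⁻¹ * -(pB Q8 a ((A8).cj x))) = -(pB Q8 a ((A8).cj x)) := by
      rw [← mul_assoc, mul_inv_cancel₀ ha, one_mul]
    rw [this]
    module
  · rfl

omit [Finite F] in
theorem mem_sc (c : Fˣ) : scSS Q8 c ∈ (r3 F).range := ⟨⟨(scSS Q8 1, scSS Q8 1, scSS Q8 c), rel_sc 1 1 c⟩, rfl⟩
omit [Finite F] in
theorem mem_f (σ : F ≃+* F) : fO8 F σ ∈ (r3 F).range := ⟨⟨(fO8 F σ, fO8 F σ, fO8 F σ), rel_f σ⟩, rfl⟩
omit [Finite F] in
theorem mem_L (a : V8) (c : Fˣ) (hc : (c : F) = Q8 a) : sL a c hc ∈ (r3 F).range :=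
by
  have hc' : (c : F) = Q8 ((A8).cj a) := by rw [(A8).q_cj, hc]
  exact ⟨cycT ⟨(sL a c hc, sR a c hc, sB ((A8).cj a) c hc'), rel_L a c hc hc'⟩, rfl⟩
omit [Finite F] in
theorem sB_snd (a : V8) (c : Fˣ) (hc : (c : F) = Q8 a) : (sB a c hc).1.2 = 1 := rfl

omit [Finite F] in
theorem mem_B (a : V8) (c : Fˣ) (hc : (c : F) = Q8 a) : sB a c hc ∈ (r3 F).range := by
  have hc' : (c : F) = Q8 ((A8).cj a) := by rw [(A8).q_cj, hc]
  have h : Rel (sL ((A8).cj a) c hc') (sR ((A8).cj a) c hc') (sB a c hc) := by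
    have h1 := rel_L ((A8).cj a) c hc' (by rw [(A8).cj_cj]; exact hc)
    have h2 : sB ((A8).cj ((A8).cj a)) c (by rw [(A8).cj_cj]; exact hc) = sB a c hc := ss_ext (fun x => by rw [sB_apply, sB_apply, (A8).cj_cj]) ((sB_snd _ _ _).trans (sB_snd _ _ _).symm)
    rwa [h2] at h1
  exact ⟨⟨(sL ((A8).cj a) c hc', sR ((A8).cj a) c hc', sB a c hc), h⟩, rfl⟩

omit [Finite F] in
theorem mem_dg {g : OG Q8} (hg : g ∈ DG Q8) : ogSS Q8 g ∈ (r3 F).range := by
  have key : ∀ (u : V8) (hu : Q8 u ≠ 0), ogSS Q8 (H5.refl hu * H5.refl (o1_ne (F := F))) ∈ (r3 F).range := by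
    intro u hu
    have h1 := mem_B u (Units.mk0 _ hu) rfl
    rw [sB_eq u _ rfl hu] at h1
    exact (Subgroup.mul_mem_cancel_left _ (mem_sc _)).mp h1
  have hle : DG Q8 ≤ (r3 F).range.comap (ogSS Q8) := by
    unfold DG
    rw [Subgroup.closure_le]
    rintro _ ⟨u, v, hu, hv, rfl⟩
    show ogSS Q8 (H5.refl hu * H5.refl hv) ∈ (r3 F).range
    have e1 : H5.refl hu * H5.refl hv = (H5.refl (Q := Q8) hu * H5.refl (o1_ne (F := F))) * (H5.refl hv * H5.refl (o1_ne (F := F)))⁻¹ := by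
      rw [mul_inv_rev, refl_inv, refl_inv]
      rw [mul_assoc, ← mul_assoc (H5.refl (o1_ne (F := F))), refl_mul_self, one_mul]
    rw [e1, map_mul, map_inv]
    exact mul_mem (key u hu) (inv_mem (key v hv))
  exact hle hg

omit [Finite F] in
theorem mem_sw {p : SSG Q8} (hp : p ∈ (r3 F).range) : kS F * p * kS F ∈ (r3 F).range := by
  obtain ⟨t, rfl⟩ := hp
  exact ⟨swT t, r3_sw t⟩

theorem mem_or (p : SSG Q8) : p ∈ (r3 F).range ∨ kS F * p ∈ (r3 F).range := by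
  obtain ⟨p', hp'⟩ : ∃ p', p' = p * (fO8 F p.1.2)⁻¹ := ⟨_, rfl⟩
  have hp1 : p'.1.2 = 1 := by
    rw [hp']
    show p.1.2 * (fO8 F p.1.2).1.2⁻¹ = 1
    rw [fO8_snd, mul_inv_cancel]
  obtain ⟨a, ha⟩ : ∃ a : V8, ((ssK p' : Fˣ) : F) = Q8 a := by
    refine ⟨Sum.elim ![(ssK p' : F), 0, 0, 0] ![1, 0, 0, 0], ?_⟩
    rw [qPlus4]; simp
  obtain ⟨p'', hp''⟩ : ∃ p'', p'' = (sL a (ssK p') ha)⁻¹ * p' := ⟨_, rfl⟩
  have hpe : p = sL a (ssK p') ha * p'' * fO8 F p.1.2 := by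
    rw [hp'', mul_inv_cancel_left, hp', inv_mul_cancel_right]
  have hsec : p''.1.2 = 1 := by
    rw [hp'']
    show (sL a (ssK p') ha).1.2⁻¹ * p'.1.2 = 1
    rw [hp1]; rfl
  obtain ⟨g, hg⟩ := exists_og p'' hsec (fun x => by
    have h1 : Q8 ((sL a (ssK p') ha).1.1 (p''.1.1 x)) = Q8 (p'.1.1 x) := by
      rw [hp'']
      congr 1
      exact ss_inv_apply _ _
    rw [sL_apply, (A8).comp, ss_Q p', ← ha] at h1
    have h2 := mul_left_cancel₀ (Units.ne_zero _) h1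
    rw [h2, hp1]; rfl)
  have hrg : g ∈ RG Q8 := by
    rw [rg_top nd_plus (fun _ => by rw [fr8]; norm_num)]; trivial
  rcases rg_dg g hrg with h | h
  · left
    rw [hpe, ← hg]
    exact mul_mem (mul_mem (mem_L _ _ _) (mem_dg h)) (mem_f _)
  · right
    have h1 : kS F * ogSS Q8 g ∈ (r3 F).range := by
      rw [kS_eq, mul_assoc, ← map_mul]
      exact mul_mem (mem_sc _) (mem_dg (h _ o1_ne))
    have h2 := mem_sw (mem_L a (ssK p') ha)
    have h3 := mul_mem (mul_mem h2 h1) (mem_f p.1.2)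
    have h4 : kS F * sL a (ssK p') ha * kS F * (kS F * ogSS Q8 g) * fO8 F p.1.2 = kS F * p := by
      have e1 : kS F * sL a (ssK p') ha * kS F * (kS F * ogSS Q8 g) = kS F * sL a (ssK p') ha * (kS F * kS F) * ogSS Q8 g := by group
      rw [e1, kS_mul, mul_one, hg]
      conv_rhs => rw [hpe]
      simp only [mul_assoc]
    rw [← h4]
    exact h3

/-- the two projections -/
noncomputable def f3 (F : Type*) [Field F] : RT F →* MulAut (PE (qPlus 4 F)) := (aE (qPlus 4 F)).comp (r3 F)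
noncomputable def f1 (F : Type*) [Field F] : RT F →* MulAut (PE (qPlus 4 F)) := (aE (qPlus 4 F)).comp (r1 F)

omit [Finite F] in
theorem f3_apply (t : RT F) : f3 F t = aE Q8 t.1.2.2 := rfl
omit [Finite F] in
theorem f1_apply (t : RT F) : f1 F t = aE Q8 t.1.1 := rfl
omit [Finite F] in
theorem f3_cyc (t : RT F) : f3 F (cycT t) = f1 F t := by rw [f3_apply, f1_apply]; rfl

theorem fker (t : RT F) : f3 F t = 1 ↔ f1 F t = 1 := by
  have key : ∀ {p1 p2 p3 : SSG Q8}, Rel p1 p2 p3 → aE Q8 p3 = 1 → aE Q8 p1 = 1 ∧ aE Q8 p2 = 1 := by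
    intro p1 p2 p3 h h1
    obtain ⟨h2, c, hc⟩ := (aE_eq_one_iff nd_plus fr8' p3).mp h1
    obtain ⟨h4, h5⟩ := rel_scalar h h2 hc
    exact ⟨(aE_eq_one_iff nd_plus fr8' p1).mpr ⟨h.1.trans h2, h4⟩, (aE_eq_one_iff nd_plus fr8' p2).mpr ⟨h.2.1.trans h2, h5⟩⟩
  rw [f3_apply, f1_apply]
  exact ⟨fun h => (key t.2 h).1, fun h => (key (Rel.cyc t.2) h).2⟩

theorem f3_conj (t : PE Q8) : ∃ x, f3 F x = MulAut.conj t := by
  obtain ⟨g, rfl⟩ := QuotientGroup.mk_surjective t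
  obtain ⟨x, hx⟩ := mem_dg (EG_le_DG nd_plus fr8' g.2)
  refine ⟨x, ?_⟩
  have hx' : x.1.2.2 = ogSS Q8 g.1 := hx
  rw [f3_apply, hx', aE_ogSS]

theorem f1_conj (t : PE Q8) : ∃ x, f1 F x = MulAut.conj t := by
  obtain ⟨x, hx⟩ := f3_conj t
  refine ⟨cycT (cycT x), ?_⟩
  rw [← f3_cyc, cycT3, hx]

theorem finPE : Finite (PE Q8) := by
  haveI : Finite (EG Q8) := Finite.of_injective (fun g : EG Q8 => fun x : V8 => g.1 x)
    (fun g g' hgg => Subtype.ext (og_ext fun x => congrFun hgg x))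
  infer_instance

theorem exists_rho (F : Type*) [Field F] [Finite F] : ∃ ρ : MulAut (PE (qPlus 4 F)), ∀ x, ρ * f3 F x = f3 F (cycT x) * ρ := by
  haveI := finPE (F := F)
  haveI := eg_simple (Q := qPlus 4 F) nd_plus fr8'
  exact exists_triality (PE_center nd_plus fr8') (f3 F) (f1 F) fker f3_conj f1_conj

/-- the triality automorphism -/
noncomputable def rho (F : Type*) [Field F] [Finite F] : MulAut (PE (qPlus 4 F)) := (exists_rho F).choose

theorem rho_spec (x : RT F) : rho F * f3 F x = f3 F (cycT x) * rho F := (exists_rho F).choose_spec x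

theorem rho_rel {p1 p2 p3 : SSG Q8} (h : Rel p1 p2 p3) : rho F * aE Q8 p3 = aE Q8 p1 * rho F := by
  have h1 := rho_spec ⟨(p1, p2, p3), h⟩
  rw [f3_cyc, f3_apply, f1_apply] at h1
  exact h1

theorem rho_cube : rho F * rho F * rho F = 1 := by
  apply triality_unique (PE_center nd_plus fr8') (f3 F) f3_conj
  intro x
  rw [mul_assoc, rho_spec, mul_assoc (rho F), ← mul_assoc (rho F) (f3 F _), rho_spec, ← mul_assoc, ← mul_assoc, rho_spec, cycT3, mul_assoc, mul_assoc, mul_assoc]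

theorem rho_field (σ : F ≃+* F) : rho F * aE Q8 (fO8 F σ) = aE Q8 (fO8 F σ) * rho F := rho_rel (rel_f σ)

theorem k_mul : aE Q8 (kS F) * aE Q8 (kS F) = 1 := by rw [← map_mul, kS_mul, map_one]

omit [Field F] [Finite F] in
theorem comm_of_rel {G : Type*} [Group G] {X Y f Z : G} (e1 : Y * f = Z * Y) (e2 : X * f = Z * X) : X⁻¹ * Y * f = f * (X⁻¹ * Y) := by
  have e3 : Z = X * f * X⁻¹ := by rw [e2, mul_inv_cancel_right]
  rw [mul_assoc, e1, e3]; group

theorem rho_k : rho F * aE Q8 (kS F) = aE Q8 (kS F) * (rho F * rho F) := by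
  obtain ⟨γ, hγ⟩ : ∃ γ, γ = aE Q8 (kS F) := ⟨_, rfl⟩
  have hγγ : γ * γ = 1 := by rw [hγ, k_mul]
  rw [← hγ]
  have h1 : ∀ x, f3 F (swT x) = γ * f3 F x * γ := by
    intro x
    have e1 : (swT x).1.2.2 = kS F * x.1.2.2 * kS F := rfl
    rw [f3_apply, f3_apply, e1, map_mul, map_mul, ← hγ]
  have h2 : ∀ x, f3 F (cycT (swT x)) = γ * f3 F (cycT (cycT x)) * γ := by
    intro x
    have e1 : (swT x).1.1 = kS F * x.1.2.1 * kS F := rfl
    have e2 : (cycT x).1.1 = x.1.2.1 := rfl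
    rw [f3_cyc, f3_cyc, f1_apply, f1_apply, e1, e2, map_mul, map_mul, ← hγ]
  have h3 : (γ * (rho F * rho F))⁻¹ * (rho F * γ) = 1 := by
    apply triality_unique (PE_center nd_plus fr8') (f3 F) f3_conj
    intro x
    have e1 : (rho F * γ) * f3 F x = (γ * f3 F (cycT (cycT x)) * γ) * (rho F * γ) := by
      calc (rho F * γ) * f3 F x = rho F * (γ * f3 F x * γ) * γ := by
            have : γ * f3 F x * γ * γ = γ * f3 F x := by rw [mul_assoc, hγγ, mul_one]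
            rw [mul_assoc (rho F) (γ * f3 F x * γ) γ, this, mul_assoc]
        _ = _ := by rw [← h1, rho_spec, h2, mul_assoc (γ * f3 F (cycT (cycT x)) * γ)]
    have e2 : (γ * (rho F * rho F)) * f3 F x = (γ * f3 F (cycT (cycT x)) * γ) * (γ * (rho F * rho F)) := by
      calc (γ * (rho F * rho F)) * f3 F x = γ * (rho F * (rho F * f3 F x)) := by simp only [mul_assoc]
        _ = γ * (f3 F (cycT (cycT x)) * rho F * rho F) := by rw [rho_spec, ← mul_assoc (rho F), rho_spec]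
        _ = γ * f3 F (cycT (cycT x)) * (γ * γ) * (rho F * rho F) := by rw [hγγ, mul_one]; simp only [mul_assoc]
        _ = _ := by simp only [mul_assoc]
    exact comm_of_rel e1 e2
  exact (inv_mul_eq_one.mp h3).symm

theorem rho_not_mem : rho F ∉ (aE Q8).range := by
  rintro ⟨p, hp⟩
  obtain ⟨a, ha⟩ : ∃ a : V8, a = Sum.elim ![1, 1, 0, 0] ![1, 0, 0, 0] := ⟨_, rfl⟩
  obtain ⟨w, hw⟩ : ∃ w : V8, w = Sum.elim ![0, 0, 1, 0] ![0, 0, 1, 0] := ⟨_, rfl⟩
  have hqa : ((1 : Fˣ) : F) = Q8 a := by rw [qPlus4, ha]; simp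
  have hqa' : ((1 : Fˣ) : F) = Q8 ((A8).cj a) := by rw [(A8).q_cj]; exact hqa
  have hqw : Q8 w ≠ 0 := by rw [qPlus4, hw]; simp
  have hwi : pB Q8 w (A8).i = 0 := by
    rw [pB_plus, Fin.sum_univ_four, hw]
    show _ = (0 : F)
    simp [octA, o1]
  have hwa : pB Q8 w a = 0 := by
    rw [pB_plus, Fin.sum_univ_four, hw, ha]
    simp
  have hcw : (A8).cj w = -w := by
    unfold CompAlg.cj
    rw [hwi, zero_smul, zero_sub]
  have hB : (A8).Ba ((A8).cj a) w = w := by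
    rw [(A8).m2, (A8).cj_cj, hwa, ← hqa', hcw, zero_smul, Units.val_one, one_smul, zero_sub, neg_neg]
  have h1 := rho_rel (rel_L a 1 hqa hqa')
  rw [← hp, ← map_mul, ← map_mul] at h1
  have h2 : aE Q8 ((sL a 1 hqa * p)⁻¹ * (p * sB ((A8).cj a) 1 hqa')) = 1 := by
    rw [map_mul, h1, map_inv, inv_mul_cancel]
  obtain ⟨-, c, hc⟩ := (aE_eq_one_iff nd_plus fr8' _).mp h2
  have h3 : p.1.1 w = (A8).μ a (p.1.1 (c • w)) := by
    have h4 := hc w
    have h5 := congrArg (sL a 1 hqa * p).1.1 h4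
    have h6 : (sL a 1 hqa * p).1.1 (((sL a 1 hqa * p)⁻¹ * (p * sB ((A8).cj a) 1 hqa')).1.1 w) = p.1.1 ((sB ((A8).cj a) 1 hqa').1.1 w) :=
      ss_inv_apply _ _
    rw [h6, sB_apply, hB] at h5
    exact h5
  rw [Units.smul_def, ss_smul, map_smul] at h3
  obtain ⟨d, hd⟩ : ∃ d : F, d = p.1.2 (c : F) := ⟨_, rfl⟩
  rw [← hd] at h3
  have hd0 : d ≠ 0 := by
    rw [hd]
    intro h
    exact Units.ne_zero c ((map_eq_zero_iff _ (RingEquiv.injective p.1.2)).mp h)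
  have h4 : (A8).μ (d • a - (A8).i) (p.1.1 w) = 0 := by
    rw [map_sub, map_smul, LinearMap.sub_apply, LinearMap.smul_apply, (A8).il, ← h3, sub_self]
  have h5 : Q8 (p.1.1 w) ≠ 0 := by
    rw [ss_Q]
    exact mul_ne_zero (Units.ne_zero _) (fun h => hqw ((map_eq_zero_iff _ (RingEquiv.injective p.1.2)).mp h))
  have h6 := (A8).c8 (p.1.1 w) (d • a - (A8).i)
  rw [h4, map_zero, LinearMap.zero_apply] at h6
  have h7 : d • a - (A8).i = 0 := (smul_eq_zero.mp h6.symm).resolve_left h5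
  have h8 := congrFun h7 (Sum.inl 1)
  rw [ha] at h8
  have h9 : d * 1 - 0 = (0 : F) := h8
  rw [mul_one, sub_zero] at h9
  exact hd0 h9

end Cfsg.Agent.H17
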