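import Mathlib
import Cfsg.Agent.H17.UH90

set_option autoImplicit false

/-! Field automorphisms of `PSU`: conjugacy, centralizers and class splitting. -/

open scoped MatrixGroups Matrix

namespace Cfsg.Agent.H17

open Cfsg

variable {F : Type*} [Field F] {q n : ℕ}

theorem gfM_eq_of_mem {κ : F ≃+* F} (hκ : ∀ x, κ x = x ^ q) [Finite F] (g : GU n F q) : gfM κ (g : GL (Fin n) F) = g :=
  (mem_GU_iff_gfM hκ _).mp g.2

theorem cU_eq_one_iff' [Fintype F] (hF : Fintype.card F = q ^ 2) (hn : 3 ≤ n) (g : GU n F q) :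
    cU n F q g = 1 ↔ ∃ c : Fˣ, (g : GL (Fin n) F) = sGL n c := by
  rw [cU_eq_one_iff hF hn]
  constructor
  · rintro ⟨c, hc⟩
    have hc0 : c ≠ 0 := by
      rintro rfl
      rw [zero_smul] at hc
      have h1 := Matrix.isUnits_det_units (g : GL (Fin n) F)
      haveI : NeZero n := ⟨by omega⟩
      rw [hc, Matrix.det_zero] at h1
      exact not_isUnit_zero h1
    refine ⟨Units.mk0 c hc0, Units.ext ?_⟩
    rw [hc, coe_sGL, Matrix.scalar_apply, Units.val_mk0, Matrix.smul_one_eq_diagonal]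
  · rintro ⟨c, hc⟩
    exact ⟨c, by rw [hc, coe_sGL, Matrix.scalar_apply, Matrix.smul_one_eq_diagonal]⟩

theorem cU_fU_pow (τ : F ≃+* F) (a : GU n F q) (i : ℕ) :
    ∃ t : GU n F q, (t : GL (Fin n) F) = tN τ a i ∧ (cU n F q a * fU n F q τ) ^ i = cU n F q t * fU n F q (τ ^ i) := by
  induction i with
  | zero => exact ⟨1, rfl, by rw [pow_zero, pow_zero, map_one, map_one, one_mul]⟩
  | succ i ih =>
    obtain ⟨t, ht, h⟩ := ih
    refine ⟨a * guMap n q τ t, ?_, ?_⟩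
    · rw [tN_succ, ← ht]; rfl
    · rw [pow_succ', h, pow_succ', map_mul, map_mul]
      calc cU n F q a * fU n F q τ * (cU n F q t * fU n F q (τ ^ i)) =
          cU n F q a * (fU n F q τ * cU n F q t) * fU n F q (τ ^ i) := by simp only [mul_assoc]
        _ = _ := by rw [fU_cU]; simp only [mul_assoc]

theorem norm_one_of_mem {κ : F ≃+* F} (hκ : ∀ x, κ x = x ^ q) [Finite F] (hn : n ≠ 0) {c : Fˣ} (h : sGL n c ∈ GU n F q) :
    c * uM κ c = 1 := by
  have h1 := (mem_GU_iff_gfM hκ _).mp h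
  rw [gfM_sGL, inv_eq_iff_mul_eq_one, ← map_mul, ← map_one (sGL n)] at h1
  rw [mul_comm]
  exact sGL_inj hn h1

theorem mem_of_norm_one {κ : F ≃+* F} (hκ : ∀ x, κ x = x ^ q) [Finite F] {c : Fˣ} (h : c * uM κ c = 1) :
    sGL n c ∈ GU n F q := by
  rw [mem_GU_iff_gfM hκ, gfM_sGL, inv_eq_iff_mul_eq_one, ← map_mul, mul_comm, h, map_one]

theorem cU_sGL [Fintype F] (hF : Fintype.card F = q ^ 2) (hn : 3 ≤ n) {c : Fˣ} (h : sGL n c ∈ GU n F q) :
    cU n F q ⟨sGL n c, h⟩ = 1 := (cU_eq_one_iff' hF hn _).mpr ⟨c, rfl⟩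

variable {F₀ : Type*} [Field F₀] {q0 r : ℕ}

theorem UFix.τpow (U : UFix F F₀ q q0 r) : U.τ ^ r = 1 := by
  have h := pow_orderOf_eq_one U.τ
  rwa [U.hτ] at h

theorem field_conj_U [Fintype F] [Finite F₀] (hF : Fintype.card F = q ^ 2) (hn : 3 ≤ n) (U : UFix F F₀ q q0 r)
    (a : GU n F q) (h : (cU n F q a * fU n F q U.τ) ^ r = 1) :
    ∃ b : GU n F q, cU n F q a * fU n F q U.τ = cU n F q b * fU n F q U.τ * (cU n F q b)⁻¹ := by
  obtain ⟨t, ht, hpow⟩ := cU_fU_pow U.τ a r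
  have hτr : U.τ ^ r = 1 := U.τpow
  rw [hpow, hτr, map_one, mul_one, cU_eq_one_iff' hF hn] at h
  obtain ⟨c, hc⟩ := h
  rw [ht] at hc
  have h1 := tN_succ U.τ (a : GL (Fin n) F) r
  have h2 := tN_succ' U.τ (a : GL (Fin n) F) r
  rw [hτr, glMap_one, hc] at h2
  rw [h2, hc, glMap_sGL, ← sGL_comm] at h1
  have h3 := sGL_inj (by omega) (mul_right_cancel h1)
  have hcn : c * uM U.κ c = 1 := norm_one_of_mem (n := n) U.hκ (by omega) (by rw [← hc, ← ht]; exact t.2)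
  obtain ⟨y, hy1, hy2⟩ := U.exists_norm_scale hcn h3.symm
  have hyG : sGL n y ∈ GU n F q := mem_of_norm_one U.hκ hy1
  obtain ⟨b, hb1, hb2⟩ := U.hilbert90_GU (a := sGL n y * (a : GL (Fin n) F)) (by
    rw [map_mul, (mem_GU_iff_gfM U.hκ _).mp hyG, gfM_eq_of_mem U.hκ]) (by
    rw [tN_sGL_mul, hy2, hc, ← map_mul, inv_mul_cancel, map_one])
  have hbG : b ∈ GU n F q := (mem_GU_iff_gfM U.hκ _).mpr hb1
  refine ⟨⟨b, hbG⟩, ?_⟩
  have h4 : cU n F q a = cU n F q (⟨sGL n y, hyG⟩ * a) := by rw [map_mul, cU_sGL hF hn, one_mul]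
  have h5 : (⟨sGL n y, hyG⟩ * a) * guMap n q U.τ ⟨b, hbG⟩ = ⟨b, hbG⟩ := Subtype.ext hb2
  rw [h4, eq_mul_inv_iff_mul_eq, mul_assoc, fU_cU, ← mul_assoc, ← map_mul, h5]

theorem comm_fU_iff [Fintype F] [Finite F₀] (hF : Fintype.card F = q ^ 2) (hn : 3 ≤ n) (U : UFix F F₀ q q0 r)
    (g : GU n F q) : fU n F q U.τ * cU n F q g = cU n F q g * fU n F q U.τ ↔
      ∃ (c : Fˣ) (h : GL (Fin n) F), c * uM U.κ c = 1 ∧ gfM U.κ h = h ∧ glMap U.τ h = h ∧ (g : GL (Fin n) F) = sGL n c * h := by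
  constructor
  · intro h
    rw [fU_cU] at h
    have h1 : cU n F q (guMap n q U.τ g * g⁻¹) = 1 := by
      rw [map_mul, map_inv, mul_inv_eq_one]
      exact mul_right_cancel h
    rw [cU_eq_one_iff' hF hn] at h1
    obtain ⟨c, hc⟩ := h1
    have hcn : c * uM U.κ c = 1 := norm_one_of_mem (n := n) U.hκ (by omega) (by rw [← hc]; exact (guMap n q U.τ g * g⁻¹).2)
    have hc' : glMap U.τ (g : GL (Fin n) F) = sGL n c * (g : GL (Fin n) F) := by
      rw [← mul_inv_eq_iff_eq_mul]; exact hc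
    have h2 : ∀ i, glMap (U.τ ^ i) (g : GL (Fin n) F) = sGL n (uN U.τ c i) * (g : GL (Fin n) F) := by
      intro i
      induction i with
      | zero => rw [pow_zero, glMap_one, uN_zero, map_one, one_mul]
      | succ i ih =>
        rw [glMap_pow_succ, ih, map_mul, glMap_sGL, hc', uN_succ, ← mul_assoc, ← map_mul, mul_comm c]
    have h3 := h2 r
    rw [U.τpow, glMap_one] at h3
    have h4 : uN U.τ c r = 1 := by
      apply sGL_inj (n := n) (by omega)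
      rw [map_one]
      exact (right_eq_mul.mp h3)
    obtain ⟨y, hy1, hy2⟩ := U.exists_norm_split hcn h4
    refine ⟨y⁻¹, sGL n y * g, ?_, ?_, ?_, ?_⟩
    · rw [map_inv, ← mul_inv, hy1, inv_one]
    · rw [map_mul, (mem_GU_iff_gfM U.hκ _).mp (mem_of_norm_one U.hκ hy1), gfM_eq_of_mem U.hκ]
    · rw [map_mul, glMap_sGL, hc', ← mul_assoc, ← map_mul, mul_comm (uM U.τ y), hy2]
    · rw [← mul_assoc, ← map_mul, inv_mul_cancel, map_one, one_mul]
  · rintro ⟨c, h, hc, h1, h2, hg⟩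
    have hcG : sGL n c ∈ GU n F q := mem_of_norm_one U.hκ hc
    have hhG : h ∈ GU n F q := (mem_GU_iff_gfM U.hκ _).mpr h1
    have h3 : g = ⟨sGL n c, hcG⟩ * ⟨h, hhG⟩ := Subtype.ext hg
    have h4 : guMap n q U.τ ⟨h, hhG⟩ = ⟨h, hhG⟩ := Subtype.ext h2
    rw [h3, map_mul, cU_sGL hF hn, one_mul, fU_cU, h4]

/-- extension of scalars for unitary groups -/
def jU [Finite F] [Finite F₀] (n : ℕ) (U : UFix F F₀ q q0 r) : GU n F₀ q0 →* GU n F q where
  toFun g := ⟨jM n U.j g, by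
    rw [mem_GU_iff_gfM U.hκ, gfM_jM U.κj, gfM_eq_of_mem U.hκ₀]⟩
  map_one' := Subtype.ext (map_one (jM n U.j))
  map_mul' a b := Subtype.ext (map_mul (jM n U.j) _ _)

theorem jM_sGL (j : F₀ →+* F) (c : F₀ˣ) : jM n j (sGL n c) = sGL n (Units.map (j : F₀ →* F) c) :=
  Matrix.GeneralLinearGroup.map_scalar _ _

theorem jM_eq_sGL {j : F₀ →+* F} (hn : n ≠ 0) {h : GL (Fin n) F₀} {c : Fˣ} (hc : jM n j h = sGL n c) :
    ∃ c0 : F₀ˣ, h = sGL n c0 := by
  haveI : NeZero n := ⟨hn⟩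
  have h1 : ∀ a b, j ((h : Matrix (Fin n) (Fin n) F₀) a b) = Matrix.scalar (Fin n) (c : F) a b := by
    intro a b
    exact congrFun (congrFun (congrArg (fun z : GL (Fin n) F => (z : Matrix (Fin n) (Fin n) F)) hc) a) b
  have h2 : ∀ a b, (h : Matrix (Fin n) (Fin n) F₀) a b =
      Matrix.scalar (Fin n) ((h : Matrix (Fin n) (Fin n) F₀) 0 0) a b := by
    intro a b
    apply j.injective
    rw [h1, Matrix.scalar_apply, Matrix.scalar_apply, Matrix.diagonal_apply, Matrix.diagonal_apply]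
    split_ifs with hab
    · rw [h1, Matrix.scalar_apply, Matrix.diagonal_apply, if_pos rfl]
    · rw [map_zero]
  have h3 : (h : Matrix (Fin n) (Fin n) F₀) 0 0 ≠ 0 := by
    intro h0
    have h4 := h1 0 0
    rw [h0, map_zero, Matrix.scalar_apply, Matrix.diagonal_apply, if_pos rfl] at h4
    exact c.ne_zero h4.symm
  refine ⟨Units.mk0 _ h3, ?_⟩
  apply Units.ext
  ext a b
  exact h2 a b

theorem cent_field_U [Fintype F] [Finite F₀] (hF : Fintype.card F = q ^ 2) (hn : 3 ≤ n) (U : UFix F F₀ q q0 r)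
    (g : GU n F q) :
    Nonempty (↥(inndiagPSU n F q ⊓ Subgroup.centralizer {cU n F q g * fU n F q U.τ * (cU n F q g)⁻¹}) ≃* PGU n F₀ q0) := by
  rw [inndiagPSU_eq]
  refine cent_equiv (cU n F q).range (fU n F q U.τ) (cU n F q g) ⟨g, rfl⟩ ((cU n F q).comp (jU n U)) ?_
    ((Geo.scalars (Fin n) F₀).subgroupOf (GU n F₀ q0)) ?_
  · ext y
    constructor
    · rintro ⟨h, rfl⟩
      refine ⟨⟨_, rfl⟩, ?_⟩
      refine Subgroup.mem_centralizer_singleton_iff.mpr ?_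
      symm
      change fU n F q U.τ * cU n F q (jU n U h) = cU n F q (jU n U h) * fU n F q U.τ
      rw [comm_fU_iff hF hn U]
      exact ⟨1, jM n U.j h, by rw [map_one, mul_one], (mem_GU_iff_gfM U.hκ _).mp (jU n U h).2, glMap_jM U.τj _, by
        rw [map_one, one_mul]; rfl⟩
    · rintro ⟨⟨h, rfl⟩, hh⟩
      replace hh := Subgroup.mem_centralizer_singleton_iff.mp hh
      obtain ⟨c, k, hc, hk1, hk2, he⟩ := (comm_fU_iff hF hn U h).mp hh.symm
      obtain ⟨k0, hk0⟩ := exists_descend U.hj hk2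
      have hk0G : k0 ∈ GU n F₀ q0 := by
        rw [mem_GU_iff_gfM U.hκ₀]
        apply jM_injective U.j
        rw [← gfM_jM U.κj, hk0, hk1]
      refine ⟨⟨k0, hk0G⟩, ?_⟩
      change cU n F q (jU n U ⟨k0, hk0G⟩) = cU n F q h
      have hcG : sGL n c ∈ GU n F q := mem_of_norm_one U.hκ hc
      have h3 : h = ⟨sGL n c, hcG⟩ * jU n U ⟨k0, hk0G⟩ := Subtype.ext (by rw [he, ← hk0]; rfl)
      rw [h3, map_mul, cU_sGL hF hn, one_mul]
  · ext h
    rw [MonoidHom.mem_ker, Subgroup.mem_subgroupOf, mem_scalars_iff']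
    change cU n F q (jU n U h) = 1 ↔ _
    rw [cU_eq_one_iff' hF hn]
    constructor
    · rintro ⟨c, hc⟩
      exact jM_eq_sGL (by omega) hc
    · rintro ⟨c, hc⟩
      refine ⟨Units.map (U.j : F₀ →* F) c, ?_⟩
      change jM n U.j (h : GL (Fin n) F₀) = _
      rw [hc, jM_sGL]

end Cfsg.Agent.H17
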