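import Mathlib
import Cfsg.Agent.H17.UFieldConj

set_option autoImplicit false

/-! Field automorphisms of `PSU`: class splitting and normal forms. -/

open scoped MatrixGroups Matrix

namespace Cfsg.Agent.H17

open Cfsg

variable {F : Type*} [Field F] {q n : ℕ}

theorem cU_mem_Inn_iff' [Fintype F] (hF : Fintype.card F = q ^ 2) (hn : 3 ≤ n) (g : GU n F q) :
    cU n F q g ∈ Inn (PSU n F q) ↔
      (H5.detGU n F q).rangeRestrict g ∈ (powMonoidHom n : (H5.detGU n F q).range →* (H5.detGU n F q).range).range := by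
  obtain ⟨σ, hσ, hσ2, hσ1⟩ := H5.exists_frob hF
  rw [cU_mem_Inn_iff hF hσ hn]
  constructor
  · rintro ⟨c, hc1, hc2⟩
    refine ⟨⟨H5.unitOfNorm hc1, (H5.detGU_range hσ (by omega) _).mpr hc1⟩, ?_⟩
    apply Subtype.ext
    apply Units.ext
    change ((H5.unitOfNorm hc1 ^ n : Fˣ) : F) = _
    rw [Units.val_pow_eq_pow_val]
    exact hc2.symm
  · rintro ⟨⟨u, hu⟩, hg⟩
    refine ⟨u, (H5.detGU_range hσ (by omega) _).mp hu, ?_⟩
    have h2 := congrArg (fun x : (H5.detGU n F q).range => ((x : Fˣ) : F)) hg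
    change ((u ^ n : Fˣ) : F) = _ at h2
    rw [Units.val_pow_eq_pow_val] at h2
    exact h2.symm

theorem Inn_le_rangeU : Inn (PSU n F q) ≤ (cU n F q).range := by
  rintro _ ⟨x, rfl⟩
  induction x using QuotientGroup.induction_on with
  | H s => exact ⟨_, (conj_mkU s).symm⟩

/-- elements of the determinant group fixed by `τ`. -/
def fixD (n : ℕ) (F : Type*) [Field F] (q : ℕ) (τ : F ≃+* F) : Subgroup (H5.detGU n F q).range where
  carrier := {x | uM τ (x : Fˣ) = x}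
  one_mem' := map_one _
  mul_mem' := fun {a b} ha hb => by
    simp only [Set.mem_setOf_eq, Subgroup.coe_mul] at *
    rw [map_mul, ha, hb]
  inv_mem' := fun {a} ha => by
    simp only [Set.mem_setOf_eq, Subgroup.coe_inv] at *
    rw [map_inv, ha]

variable {F₀ : Type*} [Field F₀] {q0 r : ℕ}

theorem mem_det_iff [Fintype F] (U : UFix F F₀ q q0 r) (hn : 1 ≤ n) (u : Fˣ) :
    u ∈ (H5.detGU n F q).range ↔ u * uM U.κ u = 1 := by
  rw [H5.detGU_range (σ := (U.κ : F →+* F)) U.hκ hn]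
  constructor
  · intro h
    apply Units.ext
    rw [Units.val_mul, mul_comm]
    exact h
  · intro h
    have := congrArg Units.val h
    rw [Units.val_mul, mul_comm] at this
    exact this

theorem card_fixD [Fintype F] [Fintype F₀] (hF₀ : Fintype.card F₀ = q0 ^ 2) (U : UFix F F₀ q q0 r) (hn : 1 ≤ n) :
    Nat.card (fixD n F q U.τ) = q0 + 1 := by
  rw [← H5.card_norm_eq (σ := (U.κ₀ : F₀ →+* F₀)) hF₀ U.hκ₀ (map_one _) one_ne_zero]
  symm
  apply Nat.card_congr
  have hne : ∀ u : {x : F₀ // (U.κ₀ : F₀ →+* F₀) x * x = 1}, U.j u ≠ 0 := by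
    intro u h0
    have h1 : (u : F₀) = 0 := (map_eq_zero U.j).mp h0
    have h2 := u.2
    rw [h1, mul_zero] at h2
    exact zero_ne_one h2
  have hmem : ∀ u : {x : F₀ // (U.κ₀ : F₀ →+* F₀) x * x = 1}, Units.mk0 _ (hne u) ∈ (H5.detGU n F q).range := by
    intro u
    rw [mem_det_iff U hn]
    apply Units.ext
    rw [Units.val_mul, coe_uM, Units.val_mk0, U.κj, ← map_mul, mul_comm]
    have := u.2
    change U.j (U.κ₀ (u : F₀) * u) = 1
    rw [← map_one U.j]
    exact congrArg U.j this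
  refine Equiv.ofBijective (fun u => ⟨⟨Units.mk0 _ (hne u), hmem u⟩, ?_⟩) ⟨?_, ?_⟩
  · apply Units.ext
    change U.τ (U.j u) = U.j u
    exact U.τj _
  · intro u v huv
    have h2 := congrArg (fun z : fixD n F q U.τ => (((z : (H5.detGU n F q).range) : Fˣ) : F)) huv
    exact Subtype.ext (U.j.injective h2)
  · rintro ⟨⟨x, hx⟩, hxτ⟩
    have h2 : U.τ (x : F) = x := congrArg Units.val hxτ
    obtain ⟨y, hy⟩ := (U.hj _).mp h2
    have h3 := (mem_det_iff U hn x).mp hx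
    refine ⟨⟨y, ?_⟩, ?_⟩
    · apply U.j.injective
      rw [map_mul, map_one]
      change U.j (U.κ₀ y) * U.j y = 1
      rw [← U.κj, hy, mul_comm]
      exact congrArg Units.val h3
    · apply Subtype.ext
      apply Subtype.ext
      apply Units.ext
      exact hy

theorem dSec_mem_GU [Fintype F] (U : UFix F F₀ q q0 r) (i : Fin n) {e : Fˣ} (he : e * uM U.κ e = 1) :
    dSec i e ∈ GU n F q := by
  rw [mem_GU_iff_gfM U.hκ, gfM_dSec]
  congr 1
  exact inv_eq_of_mul_eq_one_left he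

theorem split_field_U [Fintype F] [Fintype F₀] (hF : Fintype.card F = q ^ 2) (hn : 3 ≤ n) (U : UFix F F₀ q q0 r) :
    splitClassCount (inndiagPSU n F q) (Inn (PSU n F q)) (fU n F q U.τ) = Nat.gcd n (fixD n F q U.τ).index := by
  haveI := Inn_normal (G := PSU n F q)
  rw [inndiagPSU_eq]
  refine splitCount_gen (cU n F q) (Inn (PSU n F q)) Inn_le_rangeU (H5.detGU n F q).rangeRestrict
    (H5.detGU n F q).rangeRestrict_surjective n (cU_mem_Inn_iff' hF hn) (fU n F q U.τ) (fixD n F q U.τ) ?_ ?_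
  · intro g hg
    obtain ⟨c, h, hc, h1, h2, he⟩ := (comm_fU_iff hF hn U g).mp hg
    have hcG : sGL n c ∈ GU n F q := mem_of_norm_one U.hκ hc
    have hhG : h ∈ GU n F q := (mem_GU_iff_gfM U.hκ _).mpr h1
    have h3 : g = ⟨sGL n c, hcG⟩ * ⟨h, hhG⟩ := Subtype.ext he
    rw [h3, map_mul]
    refine Subgroup.mul_mem_sup ?_ ?_
    · refine ⟨⟨c, (mem_det_iff U (by omega) c).mpr hc⟩, ?_⟩
      apply Subtype.ext
      exact (det_sGL c).symm
    · change uM U.τ (Matrix.GeneralLinearGroup.det h) = Matrix.GeneralLinearGroup.det h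
      rw [← det_glMap', h2]
  · rintro ⟨e, he⟩ heτ
    have he' := (mem_det_iff U (by omega) e).mp he
    have hG : dSec ⟨0, by omega⟩ e ∈ GU n F q := dSec_mem_GU U _ he'
    refine ⟨⟨dSec ⟨0, by omega⟩ e, hG⟩, ?_, ?_⟩
    · rw [comm_fU_iff hF hn U]
      refine ⟨1, dSec ⟨0, by omega⟩ e, by rw [map_one, mul_one], (mem_GU_iff_gfM U.hκ _).mp hG, ?_, by rw [map_one, one_mul]⟩
      rw [glMap_dSec]
      congr 1
    · apply Subtype.ext
      exact det_dSec _ _

theorem fU_injective [Fintype F] (hF : Fintype.card F = q ^ 2) (hn : 3 ≤ n) : Function.Injective (fU n F q) := by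
  rw [injective_iff_map_eq_one]
  intro σ h
  exact (cU_fU_eq_one hF hn 1 σ (by rw [map_one, one_mul]; exact h)).1

theorem conj_field_U [Fintype F] (hF : Fintype.card F = q ^ 2) (hn : 3 ≤ n) (h32 : ¬ (n = 3 ∧ q = 2))
    (α : MulAut (PSU n F q)) (σ : F ≃+* F) :
    ∃ g : GU n F q, α * fU n F q σ * α⁻¹ = cU n F q g * fU n F q σ * (cU n F q g)⁻¹ := by
  obtain ⟨g, τ, h⟩ := aut_PSU hF hn h32 α
  refine ⟨g, ?_⟩
  rw [h, _root_.mul_inv_rev]
  have h1 : fU n F q τ * fU n F q σ = fU n F q σ * fU n F q τ := by rw [← map_mul, ← map_mul, fP_comm]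
  calc cU n F q g * fU n F q τ * fU n F q σ * ((fU n F q τ)⁻¹ * (cU n F q g)⁻¹) =
      cU n F q g * (fU n F q τ * fU n F q σ) * ((fU n F q τ)⁻¹ * (cU n F q g)⁻¹) := by simp only [mul_assoc]
    _ = cU n F q g * (fU n F q σ * fU n F q τ) * ((fU n F q τ)⁻¹ * (cU n F q g)⁻¹) := by rw [h1]
    _ = _ := by group

theorem field_form_U [Fintype F] (hF : Fintype.card F = q ^ 2) (hn : 3 ≤ n) (h32 : ¬ (n = 3 ∧ q = 2))
    {x : MulAut (PSU n F q)} (hx : IsFieldAutClassPSU x) :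
    ∃ (g : GU n F q) (σ : F ≃+* F), σ ≠ 1 ∧ Odd (orderOf σ) ∧ x = cU n F q g * fU n F q σ * (cU n F q g)⁻¹ := by
  obtain ⟨α, φ, σ, hσ, hodd, hφ, h⟩ := hx
  rw [fieldU_iff] at hφ
  obtain ⟨g, hg⟩ := conj_field_U hF hn h32 α⁻¹ σ
  refine ⟨g, σ, hσ, hodd, ?_⟩
  rw [← hg, ← hφ, ← h]
  group

theorem orderOf_fU [Fintype F] (hF : Fintype.card F = q ^ 2) (hn : 3 ≤ n) (σ : F ≃+* F) :
    orderOf (fU n F q σ) = orderOf σ := orderOf_injective (fU n F q) (fU_injective hF hn) σ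

end Cfsg.Agent.H17
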