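import Mathlib
import Cfsg.Prelude.Def_JordanBlocks

set_option autoImplicit false

/-! The matrices commuting with a unipotent matrix of given Jordan type. -/

namespace Cfsg.Agent.H17

open Matrix

section uc

variable {F : Type*} [Field F] {t : ℕ} (d : Fin t → ℕ)

abbrev JI := (k : Fin t) × Fin (d k)

variable (F) in
def Nm : Matrix (JI d) (JI d) F := fun x y => if x.1 = y.1 ∧ (x.2 : ℕ) = y.2 + 1 then 1 else 0

variable {d}

theorem jtm_eq : jordanTypeMatrix d F = 1 + Nm F d := by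
  ext ⟨l, i⟩ ⟨k, j⟩
  unfold jordanTypeMatrix
  rw [blockDiagonal'_apply, Matrix.add_apply]
  by_cases h : l = k
  · subst h
    simp only [dite_true, cast_eq, Nm, true_and, jordanBlock, Matrix.of_apply]
    by_cases h1 : (i : ℕ) = j
    · have h2 : i = j := Fin.ext h1
      subst h2
      rw [if_pos rfl, Matrix.one_apply_eq, if_neg (by omega), add_zero]
    · rw [if_neg h1, Matrix.one_apply_ne (by
        intro h2
        apply h1
        have := (Sigma.mk.inj_iff.mp h2).2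
        rw [eq_of_heq this]), zero_add]
  · rw [dif_neg h, Matrix.one_apply_ne (by
      intro h2
      exact h (Sigma.mk.inj_iff.mp h2).1)]
    simp only [Nm]
    rw [if_neg (fun h2 => h h2.1), add_zero]

theorem Nm_mulVec (y : JI d → F) (k : Fin t) (j : Fin (d k)) :
    (Nm F d *ᵥ y) ⟨k, j⟩ = if h : 0 < (j : ℕ) then y ⟨k, ⟨j - 1, by omega⟩⟩ else 0 := by
  show ∑ x : JI d, Nm F d ⟨k, j⟩ x * y x = _
  split_ifs with h
  · rw [Finset.sum_eq_single (⟨k, ⟨j - 1, by omega⟩⟩ : JI d)]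
    · have h1 : Nm F d ⟨k, j⟩ ⟨k, ⟨j - 1, by omega⟩⟩ = 1 := if_pos ⟨rfl, by show (j : ℕ) = j - 1 + 1; omega⟩
      rw [h1, one_mul]
    · rintro ⟨l, i⟩ _ hne
      have h0 : Nm F d ⟨k, j⟩ ⟨l, i⟩ = 0 := if_neg (by
        rintro ⟨h1, h2⟩
        apply hne
        have h1' : k = l := h1
        subst h1'
        have h2' : (j : ℕ) = i + 1 := h2
        congr 1
        apply Fin.ext
        show (i : ℕ) = j - 1
        omega)
      rw [h0, zero_mul]
    · intro h; exact absurd (Finset.mem_univ _) h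
  · apply Finset.sum_eq_zero
    rintro ⟨l, i⟩ _
    have h0 : Nm F d ⟨k, j⟩ ⟨l, i⟩ = 0 := if_neg (by
      rintro ⟨_, h2⟩
      have h2' : (j : ℕ) = i + 1 := h2
      omega)
    rw [h0, zero_mul]

theorem Nm_mul (M : Matrix (JI d) (JI d) F) (k : Fin t) (j : Fin (d k)) (y : JI d) :
    (Nm F d * M) ⟨k, j⟩ y = if h : 0 < (j : ℕ) then M ⟨k, ⟨j - 1, by omega⟩⟩ y else 0 := by
  have h1 : (Nm F d * M) ⟨k, j⟩ y = (Nm F d *ᵥ (fun x => M x y)) ⟨k, j⟩ := rfl
  rw [h1, Nm_mulVec]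

theorem mul_Nm (M : Matrix (JI d) (JI d) F) (x : JI d) (k : Fin t) (j : Fin (d k)) :
    (M * Nm F d) x ⟨k, j⟩ = if h : (j : ℕ) + 1 < d k then M x ⟨k, ⟨j + 1, h⟩⟩ else 0 := by
  rw [Matrix.mul_apply]
  unfold Nm
  split_ifs with h
  · rw [Finset.sum_eq_single (⟨k, ⟨j + 1, h⟩⟩ : JI d)]
    · rw [if_pos ⟨rfl, rfl⟩, mul_one]
    · rintro ⟨l, i⟩ _ hne
      rw [if_neg, mul_zero]
      rintro ⟨h1, h2⟩
      apply hne
      have h1' : l = k := h1
      subst h1'
      congr 1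
      exact Fin.ext h2
    · intro h; exact absurd (Finset.mem_univ _) h
  · apply Finset.sum_eq_zero
    rintro ⟨l, i⟩ _
    rw [if_neg, mul_zero]
    rintro ⟨h1, h2⟩
    have h1' : l = k := h1
    subst h1'
    have h2' : (i : ℕ) = j + 1 := h2
    exact h (by rw [← h2']; exact i.2)

/-- entries extended by zero -/
def ex (M : Matrix (JI d) (JI d) F) (l : Fin t) (i : ℕ) (k : Fin t) (j : ℕ) : F :=
  if h : i < d l ∧ j < d k then M ⟨l, ⟨i, h.1⟩⟩ ⟨k, ⟨j, h.2⟩⟩ else 0

theorem ex_eq (M : Matrix (JI d) (JI d) F) (l : Fin t) (i : Fin (d l)) (k : Fin t) (j : Fin (d k)) : ex M l i k j = M ⟨l, i⟩ ⟨k, j⟩ := by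
  unfold ex
  rw [dif_pos ⟨i.2, j.2⟩]

theorem com_iff (M : Matrix (JI d) (JI d) F) : M * jordanTypeMatrix d F = jordanTypeMatrix d F * M ↔
    ∀ l k i j, i < d l → j < d k → ex M l i k (j + 1) = if i = 0 then 0 else ex M l (i - 1) k j := by
  rw [jtm_eq, mul_add, add_mul, mul_one, one_mul, add_left_cancel_iff]
  have key : ∀ l k (i : Fin (d l)) (j : Fin (d k)), ((M * Nm F d) ⟨l, i⟩ ⟨k, j⟩ = (Nm F d * M) ⟨l, i⟩ ⟨k, j⟩) ↔
      (ex M l i k (j + 1) = if (i : ℕ) = 0 then 0 else ex M l (i - 1) k j) := by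
    intro l k i j
    rw [mul_Nm, Nm_mul]
    have e1 : (if h : (j : ℕ) + 1 < d k then M ⟨l, i⟩ ⟨k, ⟨j + 1, h⟩⟩ else 0) = ex M l i k (j + 1) := by
      unfold ex
      by_cases h : (j : ℕ) + 1 < d k
      · rw [dif_pos h, dif_pos ⟨i.2, h⟩]
      · rw [dif_neg h, dif_neg (fun h' => h h'.2)]
    have e2 : (if h : 0 < (i : ℕ) then M ⟨l, ⟨i - 1, by omega⟩⟩ ⟨k, j⟩ else 0) = (if (i : ℕ) = 0 then 0 else ex M l (i - 1) k j) := by
      unfold ex
      by_cases h : (i : ℕ) = 0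
      · rw [dif_neg (by omega), if_pos h]
      · rw [dif_pos (by omega), if_neg h, dif_pos ⟨by omega, j.2⟩]
    rw [e1, e2]
  constructor
  · intro h l k i j hi hj
    exact (key l k ⟨i, hi⟩ ⟨j, hj⟩).mp (by rw [h])
  · intro h
    ext ⟨l, i⟩ ⟨k, j⟩
    exact (key l k i j).mpr (h l k i j i.2 j.2)

theorem ex_out {M : Matrix (JI d) (JI d) F} {l : Fin t} {i : ℕ} {k : Fin t} {j : ℕ} (h : d k ≤ j) : ex M l i k j = 0 := by
  unfold ex
  rw [dif_neg (by omega)]

variable {M : Matrix (JI d) (JI d) F} (hM : ∀ l k i j, i < d l → j < d k → ex M l i k (j + 1) = if i = 0 then 0 else ex M l (i - 1) k j)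

include hM

theorem ex_S {l k : Fin t} {i j : ℕ} (hi : i + 1 < d l) (hj : j < d k) : ex M l (i + 1) k (j + 1) = ex M l i k j := by
  have h := hM l k (i + 1) j hi hj
  rwa [if_neg (by omega)] at h

theorem ex_up {l k : Fin t} : ∀ (i j : ℕ), i < d l → j < d k → i < j → ex M l i k j = 0 := by
  intro i
  induction i with
  | zero =>
    intro j hi hj hij
    obtain ⟨j', rfl⟩ : ∃ j', j = j' + 1 := ⟨j - 1, by omega⟩
    have h := hM l k 0 j' hi (by omega)
    rwa [if_pos rfl] at h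
  | succ i ih =>
    intro j hi hj hij
    obtain ⟨j', rfl⟩ : ∃ j', j = j' + 1 := ⟨j - 1, by omega⟩
    rw [ex_S hM hi (by omega)]
    exact ih j' (by omega) (by omega) (by omega)

theorem ex_par {l k : Fin t} : ∀ (m i j : ℕ), m = d l - 1 - i → i < d l → j < d k →
    ex M l i k j = if m + j < min (d k) (d l) then ex M l (d l - 1) k (m + j) else 0 := by
  intro m
  induction m with
  | zero =>
    intro i j hm hi hj
    have hi' : i = d l - 1 := by omega
    subst hi'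
    rw [zero_add]
    split_ifs with h
    · rfl
    · exact ex_up hM _ _ hi hj (by omega)
  | succ m ih =>
    intro i j hm hi hj
    rw [← ex_S hM (by omega) hj]
    by_cases hj1 : j + 1 < d k
    · rw [ih (i + 1) (j + 1) (by omega) (by omega) hj1, show m + (j + 1) = m + 1 + j by omega]
    · rw [ex_out (by omega), if_neg (by omega)]

theorem ex_last {l k : Fin t} {i : ℕ} (hi : i + 1 < d l) (hk : 0 < d k) : ex M l i k (d k - 1) = 0 := by
  rw [← ex_S hM hi (by omega), ex_out (by omega)]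

end uc

end Cfsg.Agent.H17
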