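import Mathlib
import Cfsg.Agent.H17.UcA

set_option autoImplicit false

/-! The commutant of a unipotent matrix of given Jordan type: order and invertible elements. -/

namespace Cfsg.Agent.H17

open Matrix

section uc

variable {F : Type*} [Field F] {t : ℕ} {d : Fin t → ℕ}

def Pe (P : (l k : Fin t) → Fin (min (d k) (d l)) → F) (l k : Fin t) (s : ℕ) : F :=
  if h : s < min (d k) (d l) then P l k ⟨s, h⟩ else 0

def pM (P : (l k : Fin t) → Fin (min (d k) (d l)) → F) : Matrix (JI d) (JI d) F := fun x y =>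
  Pe P x.1 y.1 (d x.1 - 1 - x.2 + y.2)

theorem ex_pM (P : (l k : Fin t) → Fin (min (d k) (d l)) → F) {l : Fin t} {i : ℕ} {k : Fin t} {j : ℕ} (hi : i < d l) (hj : j < d k) :
    ex (pM P) l i k j = Pe P l k (d l - 1 - i + j) := by
  unfold ex
  rw [dif_pos ⟨hi, hj⟩]
  rfl

theorem Pe_out (P : (l k : Fin t) → Fin (min (d k) (d l)) → F) {l k : Fin t} {s : ℕ} (h : ¬ s < min (d k) (d l)) : Pe P l k s = 0 := dif_neg h

theorem pM_com (P : (l k : Fin t) → Fin (min (d k) (d l)) → F) (l k : Fin t) (i j : ℕ) (hi : i < d l) (hj : j < d k) :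
    ex (pM P) l i k (j + 1) = if i = 0 then 0 else ex (pM P) l (i - 1) k j := by
  by_cases hj1 : j + 1 < d k
  · rw [ex_pM P hi hj1]
    split_ifs with h
    · exact Pe_out P (by omega)
    · rw [ex_pM P (by omega) hj]
      congr 1
      omega
  · rw [ex_out (by omega)]
    split_ifs with h
    · rfl
    · rw [ex_pM P (by omega) hj, Pe_out P (by omega)]

variable (F d) in
def Com : AddSubgroup (Matrix (JI d) (JI d) F) where
  carrier := {M | M * jordanTypeMatrix d F = jordanTypeMatrix d F * M}
  zero_mem' := by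
    show (0 : Matrix (JI d) (JI d) F) * _ = _ * 0
    rw [zero_mul, mul_zero]
  add_mem' := by
    intro a b ha hb
    show (a + b) * _ = _ * (a + b)
    rw [add_mul, mul_add, ha, hb]
  neg_mem' := by
    intro a ha
    show (-a) * _ = _ * (-a)
    rw [neg_mul, mul_neg, ha]

theorem mem_Com (M : Matrix (JI d) (JI d) F) : M ∈ Com F d ↔ M * jordanTypeMatrix d F = jordanTypeMatrix d F * M := Iff.rfl

theorem Com.h (M : Com F d) : ∀ l k i j, i < d l → j < d k → ex M.1 l i k (j + 1) = if i = 0 then 0 else ex M.1 l (i - 1) k j :=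
  (com_iff M.1).mp M.2

noncomputable def comEquiv : Com F d ≃ ((l k : Fin t) → Fin (min (d k) (d l)) → F) where
  toFun M := fun l k s => ex M.1 l (d l - 1) k s
  invFun P := ⟨pM P, (com_iff _).mpr (pM_com P)⟩
  left_inv M := by
    apply Subtype.ext
    ext ⟨l, i⟩ ⟨k, j⟩
    show Pe (fun (l k : Fin t) (s : Fin (min (d k) (d l))) => ex M.1 l (d l - 1) k (s : ℕ)) l k (d l - 1 - i + j) = M.1 ⟨l, i⟩ ⟨k, j⟩
    rw [← ex_eq M.1 l i k j, ex_par (Com.h M) _ i j rfl i.2 j.2]
    unfold Pe
    split_ifs with h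
    · rfl
    · rfl
  right_inv P := by
    funext l k s
    have hs := s.2
    show ex (pM P) l (d l - 1) k s = P l k s
    rw [ex_pM P (by omega) (by omega), Nat.sub_self, zero_add]
    unfold Pe
    rw [dif_pos hs]

theorem card_Com [Fintype F] : Nat.card (Com F d) = Fintype.card F ^ (∑ l : Fin t, ∑ k : Fin t, min (d k) (d l)) := by
  rw [Nat.card_congr comEquiv, Nat.card_pi, ← Finset.prod_pow_eq_pow_sum]
  apply Finset.prod_congr rfl
  intro l _
  rw [Nat.card_pi, ← Finset.prod_pow_eq_pow_sum]
  apply Finset.prod_congr rfl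
  intro k _
  rw [Nat.card_fun, Nat.card_eq_fintype_card, Nat.card_eq_fintype_card, Fintype.card_fin]

def lastA (M : Matrix (JI d) (JI d) F) : Matrix (Fin t) (Fin t) F := fun l k => ex M l (d l - 1) k (d k - 1)

def lastV (d : Fin t → ℕ) (x : Fin t → F) : JI d → F := fun z => if (z.2 : ℕ) = d z.1 - 1 then x z.1 else 0

theorem mulVec_lastV (hd : ∀ k, 1 ≤ d k) (M : Com F d) (x : Fin t → F) (l : Fin t) (i : Fin (d l)) :
    (M.1 *ᵥ lastV d x) ⟨l, i⟩ = if (i : ℕ) = d l - 1 then (lastA M.1 *ᵥ x) l else 0 := by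
  have h1 : (M.1 *ᵥ lastV d x) ⟨l, i⟩ = ∑ k, ex M.1 l i k (d k - 1) * x k := by
    show ∑ z : JI d, M.1 ⟨l, i⟩ z * lastV d x z = _
    rw [Fintype.sum_sigma]
    apply Finset.sum_congr rfl
    intro k _
    have hk := hd k
    rw [Finset.sum_eq_single (⟨d k - 1, by omega⟩ : Fin (d k))]
    · unfold lastV
      rw [if_pos rfl]
      congr 1
      exact (ex_eq M.1 l i k ⟨d k - 1, by omega⟩).symm
    · intro j _ hj
      unfold lastV
      rw [if_neg (fun h => hj (Fin.ext h)), mul_zero]
    · intro h; exact absurd (Finset.mem_univ _) h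
  rw [h1]
  split_ifs with h
  · rw [h]
    rfl
  · apply Finset.sum_eq_zero
    intro k _
    have hk := hd k
    rw [ex_last (Com.h M) (by omega) (by omega), zero_mul]

theorem com_Nm (M : Com F d) : M.1 * Nm F d = Nm F d * M.1 := by
  have h := M.2
  rw [mem_Com, jtm_eq, mul_add, add_mul, mul_one, one_mul, add_left_cancel_iff] at h
  exact h

theorem isUnit_iff (hd : ∀ k, 1 ≤ d k) (M : Com F d) : IsUnit M.1 ↔ IsUnit (lastA M.1) := by
  rw [← mulVec_injective_iff_isUnit, ← mulVec_injective_iff_isUnit]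
  constructor
  · intro h
    rw [← coe_mulVecLin, injective_iff_map_eq_zero]
    intro x hx
    have hx' : lastA M.1 *ᵥ x = 0 := hx
    have h1 : M.1 *ᵥ lastV d x = M.1 *ᵥ 0 := by
      rw [mulVec_zero]
      funext ⟨l, i⟩
      rw [mulVec_lastV hd, hx']
      split_ifs <;> rfl
    have h2 := h h1
    funext k
    have hk := hd k
    have h3 := congrFun h2 (⟨k, ⟨d k - 1, by omega⟩⟩ : JI d)
    unfold lastV at h3
    rwa [if_pos rfl] at h3
  · intro h
    rw [← coe_mulVecLin, injective_iff_map_eq_zero]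
    have key : ∀ (m : ℕ) (y : JI d → F), M.1 *ᵥ y = 0 → (∀ k (j : Fin (d k)), y ⟨k, j⟩ ≠ 0 → d k ≤ j + m) → y = 0 := by
      intro m
      induction m with
      | zero =>
        intro y _ hy
        funext ⟨k, j⟩
        by_contra h0
        have := hy k j h0
        omega
      | succ m ih =>
        intro y hMy hy
        have hz : Nm F d *ᵥ y = 0 := by
          apply ih
          · rw [mulVec_mulVec, com_Nm, ← mulVec_mulVec, hMy, mulVec_zero]
          · intro k j hkj
            rw [Nm_mulVec] at hkj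
            by_cases hj : 0 < (j : ℕ)
            · rw [dif_pos hj] at hkj
              have := hy k _ hkj
              have h5 : d k ≤ (j : ℕ) - 1 + (m + 1) := this
              omega
            · rw [dif_neg hj] at hkj
              exact absurd rfl hkj
        have hy0 : ∀ k (j : Fin (d k)), (j : ℕ) + 1 < d k → y ⟨k, j⟩ = 0 := by
          intro k j hj
          have h1 := congrFun hz (⟨k, ⟨j + 1, hj⟩⟩ : JI d)
          rw [Nm_mulVec, dif_pos (by show 0 < (j : ℕ) + 1; omega)] at h1
          exact h1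
        have hyl : y = lastV d (fun k => y ⟨k, ⟨d k - 1, by have := hd k; omega⟩⟩) := by
          funext ⟨k, j⟩
          unfold lastV
          by_cases hj : (j : ℕ) = d k - 1
          · rw [if_pos hj]
            congr 2
            exact Fin.ext hj
          · rw [if_neg hj, hy0 k j (by omega)]
        rw [hyl] at hMy
        have hx : (fun k => y ⟨k, ⟨d k - 1, by have := hd k; omega⟩⟩) = (0 : Fin t → F) := by
          apply h
          rw [mulVec_zero]
          funext l
          have hl := hd l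
          have h1 := congrFun hMy (⟨l, ⟨d l - 1, by omega⟩⟩ : JI d)
          rw [mulVec_lastV hd, if_pos rfl] at h1
          exact h1
        rw [hyl, hx]
        funext z
        unfold lastV
        split_ifs <;> rfl
    intro y hy
    refine key (Finset.univ.sup d) y hy (fun k j _ => ?_)
    have := Finset.le_sup (f := d) (Finset.mem_univ k)
    omega

end uc

end Cfsg.Agent.H17
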