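import Mathlib
import Cfsg.Agent.H17.UcB

set_option autoImplicit false

/-! The number of invertible matrices commuting with a unipotent matrix of given Jordan type. -/

namespace Cfsg.Agent.H17

open Matrix

theorem card_hom_fiber {C B : Type*} [AddCommGroup C] [AddCommGroup B] (φ : C →+ B) (hφ : Function.Surjective φ) (p : B → Prop) :
    Nat.card {c : C // p (φ c)} = Nat.card {b : B // p b} * Nat.card φ.ker := by
  choose s hs using hφ
  rw [← Nat.card_prod]
  apply Nat.card_congr
  refine ⟨fun c => (⟨φ c.1, c.2⟩, ⟨c.1 - s (φ c.1), ?_⟩), fun x => ⟨s x.1.1 + x.2.1, ?_⟩, ?_, ?_⟩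
  · rw [AddMonoidHom.mem_ker, map_sub, hs, sub_self]
  · have h := (AddMonoidHom.mem_ker).mp x.2.2
    rw [map_add, hs, h, add_zero]
    exact x.1.2
  · intro c
    apply Subtype.ext
    show s (φ c.1) + (c.1 - s (φ c.1)) = c.1
    abel
  · rintro ⟨⟨b, hb⟩, ⟨k, hk⟩⟩
    have h := (AddMonoidHom.mem_ker).mp hk
    have h1 : φ (s b + k) = b := by rw [map_add, hs, h, add_zero]
    apply Prod.ext
    · exact Subtype.ext h1
    · apply Subtype.ext
      show s b + k - s (φ (s b + k)) = k
      rw [h1]
      abel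

section uc

variable {F : Type*} [Field F] {t : ℕ} {d : Fin t → ℕ}

theorem ex_add (M M' : Matrix (JI d) (JI d) F) (l : Fin t) (i : ℕ) (k : Fin t) (j : ℕ) : ex (M + M') l i k j = ex M l i k j + ex M' l i k j := by
  unfold ex
  split_ifs
  · rfl
  · rw [add_zero]

def bb (d : Fin t → ℕ) (k : Fin t) : Fin (Finset.univ.sup d + 1) := ⟨d k, Nat.lt_succ_of_le (Finset.le_sup (Finset.mem_univ k))⟩

theorem bb_eq {d : Fin t → ℕ} {k l : Fin t} (h : bb d k = bb d l) : d k = d l := congrArg Fin.val h

variable (F d) in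
def Psi : Com F d →+ ((a : Fin (Finset.univ.sup d + 1)) → Matrix {k // bb d k = a} {k // bb d k = a} F) where
  toFun M := fun a => ((lastA M.1)ᵀ).toSquareBlock (bb d) a
  map_zero' := by
    funext a
    ext k l
    show ex 0 l.1 (d l.1 - 1) k.1 (d k.1 - 1) = 0
    unfold ex
    split_ifs <;> rfl
  map_add' M M' := by
    funext a
    ext k l
    exact ex_add M.1 M'.1 l.1 (d l.1 - 1) k.1 (d k.1 - 1)

theorem Psi_surj (hd : ∀ k, 1 ≤ d k) : Function.Surjective (Psi F d) := by
  classical
  intro B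
  let P : (l k : Fin t) → Fin (min (d k) (d l)) → F := fun l k s => if h : bb d l = bb d k ∧ (s : ℕ) = d k - 1 then B (bb d k) ⟨k, rfl⟩ ⟨l, h.1⟩ else 0
  refine ⟨⟨pM P, (com_iff _).mpr (pM_com P)⟩, ?_⟩
  funext a
  ext ⟨k, hk⟩ ⟨l, hl⟩
  show ex (pM P) l (d l - 1) k (d k - 1) = B a ⟨k, hk⟩ ⟨l, hl⟩
  have hdl := hd l
  have hdk := hd k
  have hlk : d l = d k := bb_eq (hl.trans hk.symm)
  rw [ex_pM P (by omega) (by omega)]
  unfold Pe
  rw [dif_pos (by omega)]
  show (if h : bb d l = bb d k ∧ (d l - 1 - (d l - 1) + (d k - 1)) = d k - 1 then B (bb d k) ⟨k, rfl⟩ ⟨l, h.1⟩ else 0) = _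
  rw [dif_pos ⟨hl.trans hk.symm, by omega⟩]
  subst hk
  rfl

theorem isUnit_iff_Psi (hd : ∀ k, 1 ≤ d k) (M : Com F d) : IsUnit M.1 ↔ ∀ a, IsUnit (Psi F d M a) := by
  rw [isUnit_iff hd, isUnit_iff_isUnit_det, ← det_transpose]
  have hT : BlockTriangular (lastA M.1)ᵀ (bb d) := by
    intro i j hij
    show ex M.1 j (d j - 1) i (d i - 1) = 0
    have h1 : d j < d i := hij
    have := hd j
    have := hd i
    exact ex_up (Com.h M) _ _ (by omega) (by omega) (by omega)
  rw [hT.det_fintype, isUnit_iff_ne_zero, Finset.prod_ne_zero_iff]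
  constructor
  · intro h a
    rw [isUnit_iff_isUnit_det, isUnit_iff_ne_zero]
    exact h a (Finset.mem_univ _)
  · intro h a _
    have := h a
    rw [isUnit_iff_isUnit_det, isUnit_iff_ne_zero] at this
    exact this

theorem card_units_matrix [Fintype F] (α : Type*) [Fintype α] [DecidableEq α] {c : ℕ} (hc : Fintype.card α = c) :
    Nat.card {M : Matrix α α F // IsUnit M} = ∏ j : Fin c, (Fintype.card F ^ c - Fintype.card F ^ (j : ℕ)) := by
  rw [← card_GL_field (𝔽 := F) c]
  have e1 : {M : Matrix α α F // IsUnit M} ≃ (Matrix α α F)ˣ := by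
    symm
    apply Equiv.ofBijective (fun u : (Matrix α α F)ˣ => (⟨u.1, u.isUnit⟩ : {M : Matrix α α F // IsUnit M}))
    constructor
    · intro u v h
      exact Units.ext (congrArg Subtype.val h)
    · rintro ⟨M, u, rfl⟩
      exact ⟨u, rfl⟩
  have e2 := Fintype.equivFinOfCardEq hc
  rw [Nat.card_congr e1, Nat.card_congr (Units.mapEquiv (Matrix.reindexAlgEquiv F F e2).toMulEquiv).toEquiv]

theorem card_Com_units [Fintype F] (hd : ∀ k, 1 ≤ d k) :
    Nat.card {M : Com F d // IsUnit M.1} * Fintype.card F ^ (∑ a : Fin (Finset.univ.sup d + 1), (Finset.univ.filter (fun k : Fin t => d k = a)).card ^ 2) =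
      (∏ a : Fin (Finset.univ.sup d + 1), ∏ j : Fin (Finset.univ.filter (fun k : Fin t => d k = a)).card,
        (Fintype.card F ^ (Finset.univ.filter (fun k : Fin t => d k = a)).card - Fintype.card F ^ (j : ℕ))) *
      Fintype.card F ^ (∑ l : Fin t, ∑ k : Fin t, min (d k) (d l)) := by
  classical
  have hca : ∀ a : Fin (Finset.univ.sup d + 1), Fintype.card {k // bb d k = a} = (Finset.univ.filter (fun k : Fin t => d k = a)).card := by
    intro a
    rw [Fintype.card_subtype]
    congr 1
    ext k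
    simp only [Finset.mem_filter, Finset.mem_univ, true_and]
    exact Fin.ext_iff
  have h1 : Nat.card {M : Com F d // IsUnit M.1} = Nat.card {M : Com F d // ∀ a, IsUnit (Psi F d M a)} :=
    Nat.card_congr (Equiv.subtypeEquivRight fun M => isUnit_iff_Psi hd M)
  have h2 := card_hom_fiber (Psi F d) (Psi_surj hd) (fun B => ∀ a, IsUnit (B a))
  have h3 := card_hom_fiber (Psi F d) (Psi_surj hd) (fun _ => True)
  have h4 : Nat.card {B : (a : Fin (Finset.univ.sup d + 1)) → Matrix {k // bb d k = a} {k // bb d k = a} F // ∀ a, IsUnit (B a)} =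
      ∏ a : Fin (Finset.univ.sup d + 1), ∏ j : Fin (Finset.univ.filter (fun k : Fin t => d k = a)).card,
        (Fintype.card F ^ (Finset.univ.filter (fun k : Fin t => d k = a)).card - Fintype.card F ^ (j : ℕ)) := by
    rw [Nat.card_congr (Equiv.subtypePiEquivPi (p := fun {a} (B : Matrix {k // bb d k = a} {k // bb d k = a} F) => IsUnit B)), Nat.card_pi]
    apply Finset.prod_congr rfl
    intro a _
    exact card_units_matrix _ (hca a)
  have h5 : Nat.card ((a : Fin (Finset.univ.sup d + 1)) → Matrix {k // bb d k = a} {k // bb d k = a} F) =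
      Fintype.card F ^ (∑ a : Fin (Finset.univ.sup d + 1), (Finset.univ.filter (fun k : Fin t => d k = a)).card ^ 2) := by
    rw [Nat.card_pi, ← Finset.prod_pow_eq_pow_sum]
    apply Finset.prod_congr rfl
    intro a _
    rw [Nat.card_eq_fintype_card, ← hca a]
    show Fintype.card ({k // bb d k = a} → {k // bb d k = a} → F) = _
    rw [Fintype.card_fun, Fintype.card_fun, ← pow_mul, pow_two]
  have h6 : Nat.card {M : Com F d // True} = Nat.card (Com F d) := Nat.card_congr (Equiv.subtypeUnivEquiv (fun _ => trivial))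
  have h7 : Nat.card {B : (a : Fin (Finset.univ.sup d + 1)) → Matrix {k // bb d k = a} {k // bb d k = a} F // True} =
    Nat.card ((a : Fin (Finset.univ.sup d + 1)) → Matrix {k // bb d k = a} {k // bb d k = a} F) := Nat.card_congr (Equiv.subtypeUnivEquiv (fun _ => trivial))
  rw [h6, h7, h5, card_Com] at h3
  rw [h1, h2, h4, h3]
  ring

end uc

section arith

variable {t : ℕ} (d : Fin t → ℕ)

theorem sum_fib (n : ℕ) (hn : ∀ k, d k < n) (f : ℕ → ℕ) :
    ∑ k, f (d k) = ∑ i ∈ Finset.range n, (Finset.univ.filter (fun k : Fin t => d k = i)).card * f i := by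
  rw [← Finset.sum_fiberwise_of_maps_to (s := Finset.univ) (t := Finset.range n) (g := d) (fun k _ => Finset.mem_range.mpr (hn k))]
  apply Finset.sum_congr rfl
  intro i _
  rw [Finset.sum_congr rfl (g := fun _ => f i) (fun k hk => by rw [(Finset.mem_filter.mp hk).2]), Finset.sum_const, smul_eq_mul]

theorem exp_eq (hd : ∀ k, 1 ≤ d k) (n : ℕ) (hn : ∀ k, d k < n) :
    ∑ l : Fin t, ∑ k : Fin t, min (d k) (d l) =
      (2 * (∑ i ∈ Finset.range n, ∑ j ∈ Finset.range n, if i < j then i * (Finset.univ.filter (fun k : Fin t => d k = i)).card * (Finset.univ.filter (fun k : Fin t => d k = j)).card else 0) +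
        ∑ i ∈ Finset.range n, (i - 1) * (Finset.univ.filter (fun k : Fin t => d k = i)).card ^ 2) +
        ∑ i ∈ Finset.range n, (Finset.univ.filter (fun k : Fin t => d k = i)).card ^ 2 := by
  have h0 : (Finset.univ.filter (fun k : Fin t => d k = 0)).card = 0 := by
    rw [Finset.card_eq_zero, Finset.filter_eq_empty_iff]
    intro k _ h
    have := hd k
    omega
  rw [sum_fib d n hn (fun y => ∑ k : Fin t, min (d k) y)]
  have h1 : ∀ i, ∑ k : Fin t, min (d k) i = ∑ j ∈ Finset.range n, (Finset.univ.filter (fun k : Fin t => d k = j)).card * min j i := by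
    intro i
    exact sum_fib d n hn (fun y => min y i)
  simp only [h1]
  generalize hA : (fun i : ℕ => (Finset.univ.filter (fun k : Fin t => d k = i)).card) = A
  have hA' : ∀ i, (Finset.univ.filter (fun k : Fin t => d k = i)).card = A i := fun i => congrFun hA i
  simp only [hA'] at h0 ⊢
  have h3 : ∀ i, A i * ∑ j ∈ Finset.range n, A j * min j i =
      ∑ j ∈ Finset.range n, ((if i < j then i * A i * A j else 0) + (if j < i then j * A j * A i else 0) + (if i = j then i * A i ^ 2 else 0)) := by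
    intro i
    rw [Finset.mul_sum]
    apply Finset.sum_congr rfl
    intro j _
    rcases lt_trichotomy i j with h | h | h
    · rw [if_pos h, if_neg (by omega), if_neg (by omega), min_eq_right h.le]; ring
    · subst h
      rw [if_neg (lt_irrefl _), if_pos rfl, min_self]; ring
    · rw [if_neg (by omega), if_pos h, if_neg (by omega), min_eq_left h.le]; ring
  simp only [h3, Finset.sum_add_distrib]
  have h4 : ∑ i ∈ Finset.range n, ∑ j ∈ Finset.range n, (if j < i then j * A j * A i else 0) =
      ∑ i ∈ Finset.range n, ∑ j ∈ Finset.range n, (if i < j then i * A i * A j else 0) := Finset.sum_comm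
  have h5 : ∑ i ∈ Finset.range n, ∑ j ∈ Finset.range n, (if i = j then i * A i ^ 2 else 0) =
      ∑ i ∈ Finset.range n, (i - 1) * A i ^ 2 + ∑ i ∈ Finset.range n, A i ^ 2 := by
    rw [← Finset.sum_add_distrib]
    apply Finset.sum_congr rfl
    intro i hi
    rw [Finset.sum_ite_eq, if_pos hi]
    rcases Nat.eq_zero_or_pos i with h | h
    · subst h
      rw [h0]; ring
    · obtain ⟨i', rfl⟩ : ∃ i', i = i' + 1 := ⟨i - 1, by omega⟩
      rw [Nat.add_sub_cancel]
      ring
  rw [h4, h5]
  ring

end arith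

end Cfsg.Agent.H17
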