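import Mathlib
import Cfsg.Agent.H17.UcC
import Cfsg.Agent.H17.GUConj

set_option autoImplicit false

/-! Counting fixed points of semilinear involutions; hermitian units. -/

namespace Cfsg.Agent.H17

open Matrix

section semi

variable {K : Type*} [Field K] {σ : K →+* K}

theorem card_fixed_sq {V : Type*} [AddCommGroup V] [Module K V] (hσ2 : ∀ x, σ (σ x) = x) {η : K} (hη : η - σ η ≠ 0)
    (τ : V →+ V) (hτ2 : ∀ v, τ (τ v) = v) (hτ : ∀ (k : K) (v : V), τ (k • v) = σ k • τ v) :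
    Nat.card {v : V // τ v = v} ^ 2 = Nat.card V := by
  rw [pow_two, ← Nat.card_prod]
  apply Nat.card_congr
  have hη' : σ η - η ≠ 0 := by
    intro h
    apply hη
    rw [← neg_sub, h, neg_zero]
  apply Equiv.ofBijective (fun p : {v : V // τ v = v} × {v : V // τ v = v} => p.1.1 + η • p.2.1)
  have hrec : ∀ p : {v : V // τ v = v} × {v : V // τ v = v}, (p.1.1 + η • p.2.1) - τ (p.1.1 + η • p.2.1) = (η - σ η) • p.2.1 := by
    intro p
    rw [map_add, hτ, p.1.2, p.2.2, sub_smul]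
    abel
  constructor
  · intro p p' h
    have h' : p.1.1 + η • p.2.1 = p'.1.1 + η • p'.2.1 := h
    have h1 := hrec p
    rw [h', hrec p'] at h1
    have h2 : p'.2.1 = p.2.1 := smul_right_injective V hη h1
    have h3 : p.1.1 = p'.1.1 := by
      rw [h2] at h'
      exact add_right_cancel h'
    exact Prod.ext (Subtype.ext h3) (Subtype.ext h2.symm)
  · intro v
    have hy : τ ((η - σ η)⁻¹ • (v - τ v)) = (η - σ η)⁻¹ • (v - τ v) := by
      rw [hτ, map_sub, hτ2, map_inv₀, map_sub, hσ2, ← neg_sub η (σ η), inv_neg, neg_smul, ← smul_neg, neg_sub]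
    have hx : τ (v - η • ((η - σ η)⁻¹ • (v - τ v))) = v - η • ((η - σ η)⁻¹ • (v - τ v)) := by
      rw [map_sub, hτ, hy, ← sub_eq_zero]
      have h1 : (η - σ η) • ((η - σ η)⁻¹ • (v - τ v)) = v - τ v := by rw [smul_smul, mul_inv_cancel₀ hη, one_smul]
      rw [sub_smul] at h1
      have h2 : τ v - σ η • ((η - σ η)⁻¹ • (v - τ v)) - (v - η • ((η - σ η)⁻¹ • (v - τ v))) =
        (η • ((η - σ η)⁻¹ • (v - τ v)) - σ η • ((η - σ η)⁻¹ • (v - τ v))) - (v - τ v) := by abel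
      rw [h2, h1, sub_self]
    refine ⟨(⟨_, hx⟩, ⟨_, hy⟩), ?_⟩
    show v - η • ((η - σ η)⁻¹ • (v - τ v)) + η • ((η - σ η)⁻¹ • (v - τ v)) = v
    abel

def fixS {V : Type*} [AddCommGroup V] (τ : V →+ V) : AddSubgroup V where
  carrier := {v | τ v = v}
  zero_mem' := map_zero τ
  add_mem' := by
    intro a b ha hb
    show τ (a + b) = a + b
    rw [map_add, ha, hb]
  neg_mem' := by
    intro a ha
    show τ (-a) = -a
    rw [map_neg, ha]

theorem semi_count {V W : Type*} [AddCommGroup V] [Module K V] [AddCommGroup W] [Module K W] [Finite V] (hσ2 : ∀ x, σ (σ x) = x) {η : K} (hη : η - σ η ≠ 0)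
    {ζ : K} (hζ : ζ + σ ζ = 1)
    (τ : V →+ V) (hτ2 : ∀ v, τ (τ v) = v) (hτ : ∀ (k : K) (v : V), τ (k • v) = σ k • τ v)
    (τ' : W →+ W) (hτ2' : ∀ v, τ' (τ' v) = v) (hτ' : ∀ (k : K) (v : W), τ' (k • v) = σ k • τ' v)
    (φ : V →ₗ[K] W) (hφ : Function.Surjective φ) (hc : ∀ v, φ (τ v) = τ' (φ v)) :
    ∃ c : ℕ, c ^ 2 * Nat.card W = Nat.card V ∧ ∀ p : W → Prop, Nat.card {v : V // τ v = v ∧ p (φ v)} = Nat.card {w : W // τ' w = w ∧ p w} * c := by
  let Φ : fixS τ →+ fixS τ' :=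
    { toFun := fun v => ⟨φ v.1, by
        show τ' (φ v.1) = φ v.1
        rw [← hc]
        congr 1
        exact v.2⟩
      map_zero' := Subtype.ext (map_zero φ)
      map_add' := fun a b => Subtype.ext (map_add φ _ _) }
  have hΦ : Function.Surjective Φ := by
    rintro ⟨w, hw⟩
    obtain ⟨v, rfl⟩ := hφ w
    have hw' : τ' (φ v) = φ v := hw
    refine ⟨⟨ζ • v + σ ζ • τ v, ?_⟩, ?_⟩
    · show τ (ζ • v + σ ζ • τ v) = ζ • v + σ ζ • τ v
      rw [map_add, hτ, hτ, hτ2, hσ2, add_comm]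
    · apply Subtype.ext
      show φ (ζ • v + σ ζ • τ v) = φ v
      rw [map_add, map_smul, map_smul, hc, hw', ← add_smul, hζ, one_smul]
  refine ⟨Nat.card Φ.ker, ?_, ?_⟩
  · have h1 := card_hom_fiber Φ hΦ (fun _ => True)
    have e1 : Nat.card {c : fixS τ // True} = Nat.card {v : V // τ v = v} := Nat.card_congr (Equiv.subtypeUnivEquiv (fun _ => trivial))
    have e2 : Nat.card {c : fixS τ' // True} = Nat.card {v : W // τ' v = v} := Nat.card_congr (Equiv.subtypeUnivEquiv (fun _ => trivial))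
    rw [e1, e2] at h1
    rw [← card_fixed_sq hσ2 hη τ hτ2 hτ, h1, ← card_fixed_sq hσ2 hη τ' hτ2' hτ']
    ring
  · intro p
    have h1 := card_hom_fiber Φ hΦ (fun w => p w.1)
    have e1 : Nat.card {c : fixS τ // p (Φ c).1} = Nat.card {v : V // τ v = v ∧ p (φ v)} := by
      apply Nat.card_congr
      exact Equiv.subtypeSubtypeEquivSubtypeInter (fun v => τ v = v) (fun v => p (φ v))
    have e2 : Nat.card {w : fixS τ' // p w.1} = Nat.card {w : W // τ' w = w ∧ p w} := by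
      apply Nat.card_congr
      exact Equiv.subtypeSubtypeEquivSubtypeInter (fun w => τ' w = w) p
    rw [e1, e2] at h1
    exact h1

theorem exists_zeta (hσ2 : ∀ x, σ (σ x) = x) {η : K} (hη : η - σ η ≠ 0) : ∃ ζ : K, ζ + σ ζ = 1 := by
  have h0 : ∃ k : K, k + σ k ≠ 0 := by
    by_cases h : (1 : K) + σ 1 = 0
    · refine ⟨η, ?_⟩
      rw [map_one] at h
      have h2 : (1 : K) = -1 := eq_neg_of_add_eq_zero_left h
      have h3 : σ η = - σ η := by
        calc σ η = 1 * σ η := (one_mul _).symm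
          _ = -1 * σ η := by rw [← h2]
          _ = - σ η := by ring
      rw [h3, ← sub_eq_add_neg]
      exact hη
    · exact ⟨1, h⟩
  obtain ⟨k, hk⟩ := h0
  refine ⟨k / (k + σ k), ?_⟩
  rw [map_div₀, map_add, hσ2, add_comm (σ k) k, ← add_div, div_self hk]

end semi

section herm

variable {K : Type*} [Field K] [Fintype K] {n q : ℕ}

theorem card_cent_gu {σ : K →+* K} (hσ : ∀ x, σ x = x ^ q) (hσ2 : ∀ x, σ (σ x) = x) (hσ1 : σ ≠ RingHom.id K) (A : ↥(Cfsg.GU n K q)) :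
    Nat.card {x : GL (Fin n) K // (x : Matrix (Fin n) (Fin n) K) * (A : GL (Fin n) K) = (A : GL (Fin n) K) * x} =
      Nat.card {c : Matrix (Fin n) (Fin n) K // (c * (A : GL (Fin n) K) = (A : GL (Fin n) K) * c ∧ sT n σ c = c) ∧ IsUnit c} *
        Nat.card ↥(Subgroup.centralizer ({A} : Set ↥(Cfsg.GU n K q))) := by
  have HS := sT_AI (n := n) hσ2
  have hA := (mem_GU_sT hσ hσ2 (A : GL (Fin n) K)).mp A.2
  have hA2 : ((A : GL (Fin n) K) : Matrix (Fin n) (Fin n) K) * sT n σ (A : GL (Fin n) K) = 1 := mul_eq_one_comm.mp hA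
  have hsA : ∀ x : Matrix (Fin n) (Fin n) K, x * (A : GL (Fin n) K) = (A : GL (Fin n) K) * x → sT n σ x * (A : GL (Fin n) K) = (A : GL (Fin n) K) * sT n σ x := by
    intro x hx
    have h1 := congrArg (sT n σ) hx
    rw [HS.mul, HS.mul] at h1
    calc sT n σ x * (A : GL (Fin n) K) = ((A : GL (Fin n) K) * sT n σ (A : GL (Fin n) K)) * (sT n σ x * (A : GL (Fin n) K)) := by rw [hA2, one_mul]
      _ = (A : GL (Fin n) K) * (sT n σ (A : GL (Fin n) K) * sT n σ x) * (A : GL (Fin n) K) := by noncomm_ring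
      _ = (A : GL (Fin n) K) * sT n σ x * (sT n σ (A : GL (Fin n) K) * (A : GL (Fin n) K)) := by rw [h1]; noncomm_ring
      _ = _ := by rw [hA, mul_one]
  have hex : ∀ c : {c : Matrix (Fin n) (Fin n) K // (c * (A : GL (Fin n) K) = (A : GL (Fin n) K) * c ∧ sT n σ c = c) ∧ IsUnit c},
      ∃ x : GL (Fin n) K, (x : Matrix (Fin n) (Fin n) K) * (A : GL (Fin n) K) = (A : GL (Fin n) K) * x ∧ sT n σ x * x = c.1 := by
    rintro ⟨c, ⟨hc1, hc2⟩, hc3⟩
    obtain ⟨x, hx1, hx2⟩ := (uni_main hσ1 hσ2 (1 : GL (Fin n) K) (A : GL (Fin n) K) (by rw [Units.val_one, mul_one]; rw [hA]) hc1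
      (by
        have h1 : sT n σ ((1 : GL (Fin n) K) : Matrix (Fin n) (Fin n) K) = 1 := by
          unfold sT
          rw [Units.val_one, Matrix.map_one _ (map_zero σ) (map_one σ), Matrix.transpose_one]
        rw [h1]; simp) (by rw [Units.val_one, mul_one, one_mul]; exact hc2)).1 hc3
    refine ⟨x, hx1, ?_⟩
    rw [Units.val_one, mul_one, one_mul] at hx2
    exact hx2
  choose s hs1 hs2 using hex
  rw [← Nat.card_prod]
  symm
  apply Nat.card_congr
  apply Equiv.ofBijective (fun p : {c : Matrix (Fin n) (Fin n) K // (c * (A : GL (Fin n) K) = (A : GL (Fin n) K) * c ∧ sT n σ c = c) ∧ IsUnit c} ×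
      ↥(Subgroup.centralizer ({A} : Set ↥(Cfsg.GU n K q))) =>
    (⟨((p.2 : ↥(Cfsg.GU n K q)) : GL (Fin n) K) * s p.1, by
      have h1 : (A : ↥(Cfsg.GU n K q)) * p.2 = p.2 * A := (Subgroup.mem_centralizer_singleton_iff.mp p.2.2).symm
      have h2 : ((A : GL (Fin n) K) : Matrix (Fin n) (Fin n) K) * ((p.2 : ↥(Cfsg.GU n K q)) : GL (Fin n) K) = ((p.2 : ↥(Cfsg.GU n K q)) : GL (Fin n) K) * (A : GL (Fin n) K) :=
        congrArg (fun y : ↥(Cfsg.GU n K q) => ((y : GL (Fin n) K) : Matrix (Fin n) (Fin n) K)) h1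
      rw [Units.val_mul, mul_assoc, hs1, ← mul_assoc, ← h2, mul_assoc]⟩ :
      {x : GL (Fin n) K // (x : Matrix (Fin n) (Fin n) K) * (A : GL (Fin n) K) = (A : GL (Fin n) K) * x}))
  constructor
  · rintro ⟨c, g⟩ ⟨c', g'⟩ h
    have h1 : ((g : ↥(Cfsg.GU n K q)) : GL (Fin n) K) * s c = ((g' : ↥(Cfsg.GU n K q)) : GL (Fin n) K) * s c' := congrArg Subtype.val h
    have key : ∀ (c) (g : ↥(Subgroup.centralizer ({A} : Set ↥(Cfsg.GU n K q)))),
        sT n σ ((((g : ↥(Cfsg.GU n K q)) : GL (Fin n) K) * s c : GL (Fin n) K)) * (((g : ↥(Cfsg.GU n K q)) : GL (Fin n) K) * s c : GL (Fin n) K) = c.1 := by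
      intro c g
      have hg := (mem_GU_sT hσ hσ2 ((g : ↥(Cfsg.GU n K q)) : GL (Fin n) K)).mp (g : ↥(Cfsg.GU n K q)).2
      rw [Units.val_mul, HS.mul]
      calc sT n σ (s c) * sT n σ ((g : ↥(Cfsg.GU n K q)) : GL (Fin n) K) * ((((g : ↥(Cfsg.GU n K q)) : GL (Fin n) K) : Matrix (Fin n) (Fin n) K) * (s c))
          = sT n σ (s c) * (sT n σ ((g : ↥(Cfsg.GU n K q)) : GL (Fin n) K) * ((g : ↥(Cfsg.GU n K q)) : GL (Fin n) K)) * (s c) := by noncomm_ring
        _ = c.1 := by rw [hg, mul_one, hs2]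
    have hcc : c = c' := by
      apply Subtype.ext
      rw [← key c g, h1, key c' g']
    subst hcc
    have h2 : ((g : ↥(Cfsg.GU n K q)) : GL (Fin n) K) = ((g' : ↥(Cfsg.GU n K q)) : GL (Fin n) K) := mul_right_cancel h1
    exact Prod.ext rfl (Subtype.ext (Subtype.ext h2))
  · rintro ⟨x, hx⟩
    have hc : (sT n σ x * x * (A : GL (Fin n) K) = (A : GL (Fin n) K) * (sT n σ x * x) ∧ sT n σ (sT n σ x * x) = sT n σ x * x) ∧ IsUnit (sT n σ x * (x : Matrix (Fin n) (Fin n) K)) := by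
      refine ⟨⟨?_, ?_⟩, ?_⟩
      · rw [mul_assoc, hx, ← mul_assoc, hsA _ hx, mul_assoc]
      · rw [HS.mul, HS.inv]
      · rw [isUnit_iff_isUnit_det, det_mul]
        apply IsUnit.mul
        · unfold sT
          rw [det_transpose, ← RingHom.mapMatrix_apply, ← RingHom.map_det]
          exact ((isUnit_iff_isUnit_det _).mp x.isUnit).map σ
        · exact (isUnit_iff_isUnit_det _).mp x.isUnit
    let c : {c : Matrix (Fin n) (Fin n) K // (c * (A : GL (Fin n) K) = (A : GL (Fin n) K) * c ∧ sT n σ c = c) ∧ IsUnit c} := ⟨_, hc⟩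
    have h1 : sT n σ (s c) * (s c : Matrix (Fin n) (Fin n) K) = sT n σ x * x := hs2 c
    have hxG : x * (A : GL (Fin n) K) = (A : GL (Fin n) K) * x := Units.ext hx
    have hsG : s c * (A : GL (Fin n) K) = (A : GL (Fin n) K) * s c := Units.ext (hs1 c)
    have hsG' : (s c)⁻¹ * (A : GL (Fin n) K) = (A : GL (Fin n) K) * (s c)⁻¹ := by
      rw [inv_mul_eq_iff_eq_mul, ← mul_assoc, hsG, mul_inv_cancel_right]
    have hg : x * (s c)⁻¹ ∈ Cfsg.GU n K q := by
      rw [mem_GU_sT hσ hσ2, Units.val_mul, HS.mul]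
      have h3 : sT n σ (((s c)⁻¹ : GL (Fin n) K) : Matrix (Fin n) (Fin n) K) * sT n σ (s c) = 1 := by
        rw [← HS.mul, ← Units.val_mul, mul_inv_cancel, Units.val_one, HS.one]
      calc sT n σ (((s c)⁻¹ : GL (Fin n) K) : Matrix (Fin n) (Fin n) K) * sT n σ x * ((x : Matrix (Fin n) (Fin n) K) * (((s c)⁻¹ : GL (Fin n) K) : Matrix (Fin n) (Fin n) K))
          = sT n σ (((s c)⁻¹ : GL (Fin n) K) : Matrix (Fin n) (Fin n) K) * (sT n σ x * x) * (((s c)⁻¹ : GL (Fin n) K) : Matrix (Fin n) (Fin n) K) := by noncomm_ring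
        _ = (sT n σ (((s c)⁻¹ : GL (Fin n) K) : Matrix (Fin n) (Fin n) K) * sT n σ (s c)) * ((s c : Matrix (Fin n) (Fin n) K) * (((s c)⁻¹ : GL (Fin n) K) : Matrix (Fin n) (Fin n) K)) := by
            rw [← h1]; noncomm_ring
        _ = 1 := by rw [h3, ← Units.val_mul, mul_inv_cancel, Units.val_one, mul_one]
    have hcen : (⟨x * (s c)⁻¹, hg⟩ : ↥(Cfsg.GU n K q)) ∈ Subgroup.centralizer ({A} : Set ↥(Cfsg.GU n K q)) := by
      rw [Subgroup.mem_centralizer_singleton_iff]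
      apply Subtype.ext
      show x * (s c)⁻¹ * (A : GL (Fin n) K) = (A : GL (Fin n) K) * (x * (s c)⁻¹)
      rw [mul_assoc, hsG', ← mul_assoc, hxG, mul_assoc]
    refine ⟨(c, ⟨_, hcen⟩), ?_⟩
    apply Subtype.ext
    show x * (s c)⁻¹ * s c = x
    rw [inv_mul_cancel_right]

theorem card_gl_gu {σ : K →+* K} (hσ : ∀ x, σ x = x ^ q) (hσ2 : ∀ x, σ (σ x) = x) (hσ1 : σ ≠ RingHom.id K) :
    Nat.card (GL (Fin n) K) = Nat.card {c : Matrix (Fin n) (Fin n) K // sT n σ c = c ∧ IsUnit c} * Nat.card ↥(Cfsg.GU n K q) := by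
  have h := card_cent_gu (n := n) hσ hσ2 hσ1 (1 : ↥(Cfsg.GU n K q))
  have e1 : Nat.card {x : GL (Fin n) K // (x : Matrix (Fin n) (Fin n) K) * ((1 : ↥(Cfsg.GU n K q)) : GL (Fin n) K) = ((1 : ↥(Cfsg.GU n K q)) : GL (Fin n) K) * x} = Nat.card (GL (Fin n) K) :=
    Nat.card_congr (Equiv.subtypeUnivEquiv (fun x => by
      show (x : Matrix (Fin n) (Fin n) K) * 1 = 1 * x
      rw [mul_one, one_mul]))
  have e2 : Nat.card {c : Matrix (Fin n) (Fin n) K // (c * ((1 : ↥(Cfsg.GU n K q)) : GL (Fin n) K) = ((1 : ↥(Cfsg.GU n K q)) : GL (Fin n) K) * c ∧ sT n σ c = c) ∧ IsUnit c} =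
      Nat.card {c : Matrix (Fin n) (Fin n) K // sT n σ c = c ∧ IsUnit c} :=
    Nat.card_congr (Equiv.subtypeEquivRight (fun c => ⟨fun h => ⟨h.1.2, h.2⟩, fun h => ⟨⟨by
      show c * 1 = 1 * c
      rw [mul_one, one_mul], h.1⟩, h.2⟩⟩))
  have e3 : Nat.card ↥(Subgroup.centralizer ({(1 : ↥(Cfsg.GU n K q))} : Set ↥(Cfsg.GU n K q))) = Nat.card ↥(Cfsg.GU n K q) :=
    Nat.card_congr (Equiv.subtypeUnivEquiv (fun x => by
      rw [Subgroup.mem_centralizer_singleton_iff, mul_one, one_mul]))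
  rw [e1, e2, e3] at h
  exact h

end herm

end Cfsg.Agent.H17
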