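import Mathlib
import Cfsg.Agent.H17.UcD

set_option autoImplicit false

/-! A hermitian form invariant under a unipotent matrix in Jordan form. -/

namespace Cfsg.Agent.H17

open Matrix

section st

variable {K : Type*} [Field K] {σ : K →+* K}

def st {α β : Type*} (σ : K →+* K) (X : Matrix α β K) : Matrix β α K := (X.map σ)ᵀ

theorem st_mul {α β γ : Type*} [Fintype β] (X : Matrix α β K) (Y : Matrix β γ K) : st σ (X * Y) = st σ Y * st σ X := by
  unfold st
  rw [Matrix.map_mul, transpose_mul]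

theorem st_st {α β : Type*} (hσ2 : ∀ x, σ (σ x) = x) (X : Matrix α β K) : st σ (st σ X) = X := by
  ext i j
  exact hσ2 _

theorem st_one {α : Type*} [DecidableEq α] : st σ (1 : Matrix α α K) = 1 := by
  unfold st
  rw [Matrix.map_one _ (map_zero σ) (map_one σ), transpose_one]

theorem st_isUnit {α : Type*} [Fintype α] [DecidableEq α] {X : Matrix α α K} (h : IsUnit X) : IsUnit (st σ X) := by
  unfold st
  rw [isUnit_iff_isUnit_det, det_transpose, ← RingHom.mapMatrix_apply, ← RingHom.map_det]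
  exact ((isUnit_iff_isUnit_det _).mp h).map σ

end st

section qa

variable {K : Type*} [Field K] {σ : K →+* K} {t : ℕ} {d : Fin t → ℕ}

theorem st_jtm : st σ (jordanTypeMatrix d K) = (jordanTypeMatrix d K)ᵀ := by
  have h1 : (Nm K d).map σ = Nm K d := by
    ext x y
    show σ (if x.1 = y.1 ∧ (x.2 : ℕ) = y.2 + 1 then 1 else 0) = if x.1 = y.1 ∧ (x.2 : ℕ) = y.2 + 1 then 1 else 0
    split_ifs
    · exact map_one σ
    · exact map_zero σ
  unfold st
  rw [jtm_eq, Matrix.map_add _ (map_add σ), h1, Matrix.map_one _ (map_zero σ) (map_one σ)]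

theorem ex_mulN (M : Matrix (JI d) (JI d) K) {l k : Fin t} {i j : ℕ} (hi : i < d l) (hj : j < d k) : ex (M * Nm K d) l i k j = ex M l i k (j + 1) := by
  have h1 : ex (M * Nm K d) l i k j = (M * Nm K d) ⟨l, ⟨i, hi⟩⟩ ⟨k, ⟨j, hj⟩⟩ := by
    unfold ex
    rw [dif_pos ⟨hi, hj⟩]
  rw [h1, mul_Nm]
  unfold ex
  by_cases h : j + 1 < d k
  · rw [dif_pos h, dif_pos ⟨hi, h⟩]
  · rw [dif_neg h, dif_neg (fun h' => h h'.2)]

theorem ex_T (M : Matrix (JI d) (JI d) K) {l k : Fin t} {i j : ℕ} : ex Mᵀ l i k j = ex M k j l i := by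
  unfold ex
  by_cases h : i < d l ∧ j < d k
  · rw [dif_pos h, dif_pos h.symm]
    rfl
  · rw [dif_neg h, dif_neg (fun h' => h h'.symm)]

theorem ex_NT (M : Matrix (JI d) (JI d) K) {l k : Fin t} {i j : ℕ} (hi : i < d l) (hj : j < d k) : ex ((Nm K d)ᵀ * M) l i k j = ex M l (i + 1) k j := by
  have h1 : (Nm K d)ᵀ * M = (Mᵀ * Nm K d)ᵀ := by rw [transpose_mul, transpose_transpose]
  rw [h1, ex_T, ex_mulN _ hj hi, ex_T]

variable {Q : Matrix (JI d) (JI d) K}

theorem ex_R (hJ : (jordanTypeMatrix d K)ᵀ * Q * jordanTypeMatrix d K = Q) {l' l : Fin t} {i j : ℕ} (hi : i < d l') (hj : j < d l) :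
    ex Q l' (i + 1) l j + ex Q l' i l (j + 1) + ex Q l' (i + 1) l (j + 1) = 0 := by
  have h1 : (Nm K d)ᵀ * Q + Q * Nm K d + (Nm K d)ᵀ * Q * Nm K d = 0 := by
    rw [jtm_eq, transpose_add, transpose_one] at hJ
    have h2 : (1 + (Nm K d)ᵀ) * Q * (1 + Nm K d) = Q + ((Nm K d)ᵀ * Q + Q * Nm K d + (Nm K d)ᵀ * Q * Nm K d) := by noncomm_ring
    rw [h2] at hJ
    exact add_eq_left.mp hJ
  have h3 : ex ((Nm K d)ᵀ * Q + Q * Nm K d + (Nm K d)ᵀ * Q * Nm K d) l' i l j = 0 := by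
    rw [h1]
    unfold ex
    split_ifs <;> rfl
  rw [ex_add, ex_add, ex_NT _ hi hj, ex_mulN _ hi hj, ex_mulN _ hi hj] at h3
  have h4 : ex ((Nm K d)ᵀ * Q) l' i l (j + 1) = ex Q l' (i + 1) l (j + 1) := by
    by_cases hj1 : j + 1 < d l
    · exact ex_NT _ hi hj1
    · rw [ex_out (by omega), ex_out (by omega)]
  rw [h4] at h3
  exact h3

theorem ex_herm (hQ : st σ Q = Q) {l' l : Fin t} {i j : ℕ} : ex Q l' i l j = σ (ex Q l j l' i) := by
  unfold ex
  by_cases h : i < d l' ∧ j < d l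
  · rw [dif_pos h, dif_pos h.symm]
    conv_lhs => rw [← hQ]
    rfl
  · rw [dif_neg h, dif_neg (fun h' => h h'.symm), map_zero]

theorem ex_out' {M : Matrix (JI d) (JI d) K} {l : Fin t} {i : ℕ} {k : Fin t} {j : ℕ} (h : d l ≤ i) : ex M l i k j = 0 := by
  unfold ex
  rw [dif_neg (by omega)]

theorem ex_V1 (hJ : (jordanTypeMatrix d K)ᵀ * Q * jordanTypeMatrix d K = Q) {l' l : Fin t} : ∀ (m i j : ℕ), d l' - i = m → d l' ≤ i + j → ex Q l' i l j = 0 := by
  intro m
  induction m with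
  | zero =>
    intro i j hm _
    exact ex_out' (by omega)
  | succ m ih =>
    intro i j hm hij
    by_cases hj : d l ≤ j
    · exact ex_out hj
    · obtain ⟨j', rfl⟩ : ∃ j', j = j' + 1 := ⟨j - 1, by omega⟩
      have h1 := ex_R hJ (l' := l') (l := l) (i := i) (j := j') (by omega) (by omega)
      rw [ih (i + 1) j' (by omega) (by omega), ih (i + 1) (j' + 1) (by omega) (by omega), zero_add, add_zero] at h1
      exact h1

theorem ex_V2 (hJ : (jordanTypeMatrix d K)ᵀ * Q * jordanTypeMatrix d K = Q) (hQ : st σ Q = Q) {l' l : Fin t} {i j : ℕ} (h : d l ≤ i + j) : ex Q l' i l j = 0 := by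
  rw [ex_herm hQ, ex_V1 hJ _ j i rfl (by omega), map_zero]

theorem ex_anti (hJ : (jordanTypeMatrix d K)ᵀ * Q * jordanTypeMatrix d K = Q) {l' l : Fin t} (hll : d l' = d l) :
    ∀ i : ℕ, i < d l → ex Q l' i l (d l - 1 - i) = (-1) ^ i * ex Q l' 0 l (d l - 1) := by
  intro i
  induction i with
  | zero =>
    intro _
    rw [pow_zero, one_mul, Nat.sub_zero]
  | succ i ih =>
    intro hi
    have h1 := ex_R hJ (l' := l') (l := l) (i := i) (j := d l - 1 - (i + 1)) (by omega) (by omega)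
    rw [show d l - 1 - (i + 1) + 1 = d l - 1 - i by omega, ex_V1 hJ _ (i + 1) (d l - 1 - i) rfl (by omega), add_zero, ih (by omega)] at h1
    rw [eq_neg_of_add_eq_zero_left h1, pow_succ]
    ring

def TT (Q : Matrix (JI d) (JI d) K) : Matrix (Fin t) (Fin t) K := fun k l => ex Q k 0 l (d l - 1)

theorem mulVec_lastV' (hd : ∀ k, 1 ≤ d k) (M : Matrix (JI d) (JI d) K) (x : Fin t → K) (l : Fin t) (i : Fin (d l)) :
    (M *ᵥ lastV d x) ⟨l, i⟩ = ∑ k, ex M l i k (d k - 1) * x k := by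
  show ∑ z : JI d, M ⟨l, i⟩ z * lastV d x z = _
  rw [Fintype.sum_sigma]
  apply Finset.sum_congr rfl
  intro k _
  have hk := hd k
  rw [Finset.sum_eq_single (⟨d k - 1, by omega⟩ : Fin (d k))]
  · unfold lastV
    rw [if_pos rfl]
    congr 1
    exact (ex_eq M l i k ⟨d k - 1, by omega⟩).symm
  · intro j _ hj
    unfold lastV
    rw [if_neg (fun h => hj (Fin.ext h)), mul_zero]
  · intro h; exact absurd (Finset.mem_univ _) h

theorem TT_isUnit (hd : ∀ k, 1 ≤ d k) (hJ : (jordanTypeMatrix d K)ᵀ * Q * jordanTypeMatrix d K = Q) (hQ : st σ Q = Q) (hu : IsUnit Q) : IsUnit (TT Q) := by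
  rw [← mulVec_injective_iff_isUnit] at hu ⊢
  rw [← coe_mulVecLin, injective_iff_map_eq_zero]
  intro x hx
  have hx' : TT Q *ᵥ x = 0 := hx
  have h1 : Q *ᵥ lastV d x = Q *ᵥ 0 := by
    rw [mulVec_zero]
    funext ⟨l, i⟩
    rw [mulVec_lastV' hd]
    rcases Nat.eq_zero_or_pos (i : ℕ) with hi | hi
    · rw [hi]
      exact congrFun hx' l
    · apply Finset.sum_eq_zero
      intro k _
      have := hd k
      rw [ex_V2 hJ hQ (by omega), zero_mul]
  have h2 := hu h1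
  funext k
  have hk := hd k
  have h3 := congrFun h2 (⟨k, ⟨d k - 1, by omega⟩⟩ : JI d)
  unfold lastV at h3
  rwa [if_pos rfl] at h3

theorem TT_tri (hd : ∀ k, 1 ≤ d k) (hJ : (jordanTypeMatrix d K)ᵀ * Q * jordanTypeMatrix d K = Q) {k l : Fin t} (h : d k < d l) : TT Q k l = 0 := by
  have := hd k
  exact ex_V1 hJ _ 0 (d l - 1) rfl (by omega)

/-- diagonal block of a matrix -/
abbrev blk (d : Fin t → ℕ) (X : Matrix (Fin t) (Fin t) K) (a : Fin (Finset.univ.sup d + 1)) : Matrix {k // bb d k = a} {k // bb d k = a} K := X.toSquareBlock (bb d) a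

theorem blk_isUnit {X : Matrix (Fin t) (Fin t) K} (hX : ∀ k l, d k < d l → X k l = 0) (hu : IsUnit X) (a : Fin (Finset.univ.sup d + 1)) : IsUnit (blk d X a) := by
  have hT : BlockTriangular Xᵀ (bb d) := by
    intro i j hij
    exact hX j i hij
  rw [isUnit_iff_isUnit_det, ← det_transpose, hT.det_fintype, isUnit_iff_ne_zero, Finset.prod_ne_zero_iff] at hu
  have h1 := hu a (Finset.mem_univ _)
  rw [isUnit_iff_isUnit_det, ← det_transpose, isUnit_iff_ne_zero]
  exact h1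

theorem blk_mul {X Y : Matrix (Fin t) (Fin t) K} (hX : ∀ k l, d k < d l → X k l = 0) (hY : ∀ k l, d k < d l → Y k l = 0) (a : Fin (Finset.univ.sup d + 1)) :
    blk d (X * Y) a = blk d X a * blk d Y a := by
  ext ⟨k, hk⟩ ⟨l, hl⟩
  show (X * Y) k l = ∑ j : {k // bb d k = a}, X k j.1 * Y j.1 l
  rw [Matrix.mul_apply, ← Fintype.sum_subtype_add_sum_subtype (fun j => bb d j = a)]
  have h0 : ∑ j : {x // ¬ bb d x = a}, X k j.1 * Y j.1 l = 0 := by
    apply Finset.sum_eq_zero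
    rintro ⟨j, hj⟩ _
    have hkl : d k = d l := bb_eq (hk.trans hl.symm)
    rcases lt_trichotomy (d k) (d j) with h | h | h
    · rw [hX k j h, zero_mul]
    · exact absurd ((Fin.ext (by show d j = d k; exact h.symm) : bb d j = bb d k).trans hk) hj
    · rw [hY j l (by omega), mul_zero]
  rw [h0, add_zero]

theorem ex_mul_aux (A B : Matrix (JI d) (JI d) K) {l k : Fin t} {i j : ℕ} (hi : i < d l) (hj : j < d k) :
    ex (A * B) l i k j = ∑ k', ∑ s : Fin (d k'), ex A l i k' s * ex B k' s k j := by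
  have h1 : ex (A * B) l i k j = (A * B) ⟨l, ⟨i, hi⟩⟩ ⟨k, ⟨j, hj⟩⟩ := by
    unfold ex
    rw [dif_pos ⟨hi, hj⟩]
  rw [h1, Matrix.mul_apply, Fintype.sum_sigma]
  apply Finset.sum_congr rfl
  intro k' _
  apply Finset.sum_congr rfl
  intro s _
  unfold ex
  rw [dif_pos ⟨hi, s.2⟩, dif_pos ⟨s.2, hj⟩]

theorem ex_mul_last (hd : ∀ k, 1 ≤ d k) (A B : Matrix (JI d) (JI d) K) {l k : Fin t} {i j : ℕ} (hi : i < d l) (hj : j < d k)
    (hB : ∀ k' s, s + 1 < d k' → ex B k' s k j = 0) :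
    ex (A * B) l i k j = ∑ k', ex A l i k' (d k' - 1) * ex B k' (d k' - 1) k j := by
  rw [ex_mul_aux A B hi hj]
  apply Finset.sum_congr rfl
  intro k' _
  have := hd k'
  rw [Finset.sum_eq_single (⟨d k' - 1, by omega⟩ : Fin (d k'))]
  · intro s _ hs
    have h1 : (s : ℕ) ≠ d k' - 1 := fun h => hs (Fin.ext h)
    rw [hB k' s (by omega), mul_zero]
  · intro h; exact absurd (Finset.mem_univ _) h

theorem ex_mul_first (hd : ∀ k, 1 ≤ d k) (A B : Matrix (JI d) (JI d) K) {l k : Fin t} {i j : ℕ} (hi : i < d l) (hj : j < d k)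
    (hB : ∀ k' s, 0 < s → ex B k' s k j = 0) :
    ex (A * B) l i k j = ∑ k', ex A l i k' 0 * ex B k' 0 k j := by
  rw [ex_mul_aux A B hi hj]
  apply Finset.sum_congr rfl
  intro k' _
  have := hd k'
  rw [Finset.sum_eq_single (⟨0, by omega⟩ : Fin (d k'))]
  · intro s _ hs
    have h1 : (s : ℕ) ≠ 0 := fun h => hs (Fin.ext h)
    rw [hB k' s (by omega), mul_zero]
  · intro h; exact absurd (Finset.mem_univ _) h

def firstA (M : Matrix (JI d) (JI d) K) : Matrix (Fin t) (Fin t) K := fun l k => ex M l 0 k 0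

theorem lastA_tri (hd : ∀ k, 1 ≤ d k) (M : Com K d) {k l : Fin t} (h : d k < d l) : lastA M.1 k l = 0 := by
  have := hd k
  exact ex_up (Com.h M) _ _ (by omega) (by omega) (by omega)

theorem firstA_tri (hd : ∀ k, 1 ≤ d k) (M : Com K d) {k l : Fin t} (h : d l < d k) : firstA M.1 k l = 0 := by
  have := hd k
  have := hd l
  show ex M.1 k 0 l 0 = 0
  rw [ex_par (Com.h M) _ 0 0 rfl (by omega) (by omega), if_neg (by omega)]

theorem firstA_eq (hd : ∀ k, 1 ≤ d k) (M : Com K d) {k l : Fin t} (h : d k = d l) : firstA M.1 k l = lastA M.1 k l := by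
  have := hd k
  have := hd l
  show ex M.1 k 0 l 0 = ex M.1 k (d k - 1) l (d l - 1)
  rw [ex_par (Com.h M) _ 0 0 rfl (by omega) (by omega), if_pos (by omega)]
  congr 1
  omega

theorem rel_full (hd : ∀ k, 1 ≤ d k) (hJ : (jordanTypeMatrix d K)ᵀ * Q * jordanTypeMatrix d K = Q) (hQ : st σ Q = Q) (M M' : Com K d)
    (h : st σ M.1 * Q = Q * M'.1) : TT Q * lastA M'.1 = st σ (firstA M.1) * TT Q := by
  ext k l
  have hk := hd k
  have hl := hd l
  have h1 : (TT Q * lastA M'.1) k l = ex (Q * M'.1) k 0 l (d l - 1) := by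
    rw [ex_mul_last hd Q M'.1 (by omega) (by omega) (fun k' s hs => ex_last (Com.h M') hs (by omega)), Matrix.mul_apply]
    rfl
  have h2 : (st σ (firstA M.1) * TT Q) k l = ex (st σ M.1 * Q) k 0 l (d l - 1) := by
    rw [ex_mul_first hd (st σ M.1) Q (by omega) (by omega) (fun k' s hs => ex_V2 hJ hQ (by omega)), Matrix.mul_apply]
    apply Finset.sum_congr rfl
    intro k' _
    congr 1
    show σ (ex M.1 k' 0 k 0) = ex (st σ M.1) k 0 k' 0
    have hk' := hd k'
    unfold ex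
    rw [dif_pos ⟨by omega, by omega⟩, dif_pos ⟨by omega, by omega⟩]
    rfl
  rw [h1, h2, h]

theorem rel_blk (hd : ∀ k, 1 ≤ d k) (hJ : (jordanTypeMatrix d K)ᵀ * Q * jordanTypeMatrix d K = Q) (hQ : st σ Q = Q) (M M' : Com K d)
    (h : st σ M.1 * Q = Q * M'.1) (a : Fin (Finset.univ.sup d + 1)) :
    blk d (TT Q) a * blk d (lastA M'.1) a = st σ (blk d (lastA M.1) a) * blk d (TT Q) a := by
  rw [← blk_mul (X := TT Q) (Y := lastA M'.1) (fun k l h => TT_tri hd hJ h) (fun k l h => lastA_tri hd M' h), rel_full hd hJ hQ M M' h,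
    blk_mul (X := st σ (firstA M.1)) (Y := TT Q) (fun k l h => by
      show σ (firstA M.1 l k) = 0
      rw [firstA_tri hd M h, map_zero]) (fun k l h => TT_tri hd hJ h)]
  congr 1
  ext ⟨k, hk⟩ ⟨l, hl⟩
  show σ (firstA M.1 l k) = σ (lastA M.1 l k)
  rw [firstA_eq hd M (bb_eq (hl.trans hk.symm))]

theorem blk_TT_herm (hd : ∀ k, 1 ≤ d k) (hJ : (jordanTypeMatrix d K)ᵀ * Q * jordanTypeMatrix d K = Q) (hQ : st σ Q = Q) (a : Fin (Finset.univ.sup d + 1)) :
    st σ (blk d (TT Q) a) = ((-1 : K) ^ ((a : ℕ) - 1)) • blk d (TT Q) a := by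
  ext ⟨k, hk⟩ ⟨l, hl⟩
  show σ (ex Q l 0 k (d k - 1)) = (-1 : K) ^ ((a : ℕ) - 1) * ex Q k 0 l (d l - 1)
  have hkl : d k = d l := bb_eq (hk.trans hl.symm)
  have hla : (a : ℕ) = d l := (congrArg Fin.val hl).symm
  have h1 := ex_anti hJ hkl (d l - 1) (by have := hd l; omega)
  rw [Nat.sub_self] at h1
  rw [← ex_herm hQ, hla, hkl, h1]

end qa

end Cfsg.Agent.H17
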