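import Mathlib
import Cfsg.Agent.H17.UcE

set_option autoImplicit false

/-! Counting hermitian units in the commutant. -/

namespace Cfsg.Agent.H17

open Matrix

section invol

variable {K : Type*} [Field K] {σ : K →+* K} {α : Type*} [Fintype α] [DecidableEq α]

theorem st_smul {β γ : Type*} (c : K) (X : Matrix β γ K) : st σ (c • X) = σ c • st σ X := by
  ext i j
  exact map_mul σ _ _

theorem st_add {β γ : Type*} (X Y : Matrix β γ K) : st σ (X + Y) = st σ X + st σ Y := by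
  ext i j
  exact map_add σ _ _

theorem st_zero {β γ : Type*} : st σ (0 : Matrix β γ K) = 0 := by
  ext i j
  exact map_zero σ

theorem invol (hσ2 : ∀ x, σ (σ x) = x) (h : (Matrix α α K)ˣ) {ε : K} (hε : ε * ε = 1) (hh : st σ h.1 = ε • h.1) (B : Matrix α α K) :
    (h⁻¹).1 * st σ ((h⁻¹).1 * st σ B * h.1) * h.1 = B := by
  have h1 : st σ (h⁻¹).1 * h.1 = ε • 1 := by
    have h2 : st σ (h.1 * (h⁻¹).1) = 1 := by rw [← Units.val_mul, mul_inv_cancel, Units.val_one, st_one]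
    rw [st_mul, hh, Matrix.mul_smul] at h2
    rw [← h2, smul_smul, hε, one_smul]
  rw [st_mul, st_mul, st_st hσ2, hh]
  calc (h⁻¹).1 * ((ε • h.1) * (B * st σ (h⁻¹).1)) * h.1 = ε • (((h⁻¹).1 * h.1) * (B * (st σ (h⁻¹).1 * h.1))) := by
        rw [Matrix.smul_mul, Matrix.mul_smul, Matrix.smul_mul]
        congr 1
        noncomm_ring
    _ = B := by rw [h1, ← Units.val_mul, inv_mul_cancel, Units.val_one, one_mul, Matrix.mul_smul, mul_one, smul_smul, hε, one_smul]

theorem fix_iff (h : (Matrix α α K)ˣ) (B : Matrix α α K) : (h⁻¹).1 * st σ B * h.1 = B ↔ st σ B * h.1 = h.1 * B := by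
  constructor
  · intro h1
    conv_rhs => rw [← h1]
    rw [← mul_assoc, ← mul_assoc, ← Units.val_mul, mul_inv_cancel, Units.val_one, one_mul]
  · intro h1
    rw [mul_assoc, h1, ← mul_assoc, ← Units.val_mul, inv_mul_cancel, Units.val_one, one_mul]

theorem card_HG {c : ℕ} (hc : Fintype.card α = c) (h : (Matrix α α K)ˣ) {ε : K} (hh : st σ h.1 = ε • h.1)
    {ζ : K} (hζ0 : ζ ≠ 0) (hζ : σ ζ * ε = ζ) :
    Nat.card {B : Matrix α α K // (h⁻¹).1 * st σ B * h.1 = B ∧ IsUnit B} = Nat.card {X : Matrix (Fin c) (Fin c) K // sT c σ X = X ∧ IsUnit X} := by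
  have e1 : Nat.card {B : Matrix α α K // (h⁻¹).1 * st σ B * h.1 = B ∧ IsUnit B} = Nat.card {X : Matrix α α K // st σ X = X ∧ IsUnit X} := by
    have hst : ∀ B : Matrix α α K, st σ (ζ • (h.1 * B)) = ζ • (st σ B * h.1) := by
      intro B
      rw [st_smul, st_mul, hh, Matrix.mul_smul, smul_smul, hζ]
    have hun : ∀ B : Matrix α α K, IsUnit (ζ • (h.1 * B)) ↔ IsUnit B := by
      intro B
      rw [isUnit_iff_isUnit_det, isUnit_iff_isUnit_det B, det_smul, det_mul, isUnit_iff_ne_zero, isUnit_iff_ne_zero]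
      have h1 : h.1.det ≠ 0 := ((isUnit_iff_isUnit_det _).mp h.isUnit).ne_zero
      constructor
      · intro h2 h3
        apply h2
        rw [h3, mul_zero, mul_zero]
      · intro h2
        exact mul_ne_zero (pow_ne_zero _ hζ0) (mul_ne_zero h1 h2)
    apply Nat.card_congr
    apply Equiv.ofBijective (fun B => (⟨ζ • (h.1 * B.1), by
      rw [hst, (fix_iff h B.1).mp B.2.1], (hun _).mpr B.2.2⟩ : {X : Matrix α α K // st σ X = X ∧ IsUnit X}))
    constructor
    · intro B B' hB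
      have h1 : ζ • (h.1 * B.1) = ζ • (h.1 * B'.1) := congrArg Subtype.val hB
      have h2 := smul_right_injective _ hζ0 h1
      exact Subtype.ext (h.isUnit.mul_left_cancel h2)
    · rintro ⟨X, hX, hXu⟩
      have hX1 : ζ • (h.1 * ((h⁻¹).1 * (ζ⁻¹ • X))) = X := by
        rw [← mul_assoc, ← Units.val_mul, mul_inv_cancel, Units.val_one, one_mul, smul_smul, mul_inv_cancel₀ hζ0, one_smul]
      refine ⟨⟨(h⁻¹).1 * (ζ⁻¹ • X), ?_, ?_⟩, Subtype.ext hX1⟩
      · rw [fix_iff]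
        have h3 := hst ((h⁻¹).1 * (ζ⁻¹ • X))
        rw [hX1, hX] at h3
        have h4 : ζ • (h.1 * ((h⁻¹).1 * (ζ⁻¹ • X))) = ζ • (st σ ((h⁻¹).1 * (ζ⁻¹ • X)) * h.1) := by rw [hX1]; exact h3
        exact (smul_right_injective _ hζ0 h4).symm
      · rw [← hun, hX1]
        exact hXu
  rw [e1]
  have e := Fintype.equivFinOfCardEq hc
  apply Nat.card_congr
  apply (Matrix.reindex e e).subtypeEquiv
  intro X
  have h1 : sT c σ (Matrix.reindex e e X) = Matrix.reindex e e (st σ X) := rfl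
  rw [h1, (Matrix.reindex e e).injective.eq_iff]
  have h2 : IsUnit (Matrix.reindex e e X) ↔ IsUnit X := by
    rw [isUnit_iff_isUnit_det, isUnit_iff_isUnit_det X, Matrix.reindex_apply, Matrix.det_submatrix_equiv_self]
  rw [h2]

end invol

section comS

variable {K : Type*} [Field K] {σ : K →+* K} {t : ℕ} {d : Fin t → ℕ}

variable (K d) in
def ComS : Submodule K (Matrix (JI d) (JI d) K) where
  carrier := {M | M * jordanTypeMatrix d K = jordanTypeMatrix d K * M}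
  zero_mem' := by
    show (0 : Matrix (JI d) (JI d) K) * _ = _ * 0
    rw [zero_mul, mul_zero]
  add_mem' := by
    intro a b ha hb
    show (a + b) * _ = _ * (a + b)
    rw [add_mul, mul_add, ha, hb]
  smul_mem' := by
    intro c M hM
    show (c • M) * _ = _ * (c • M)
    rw [Matrix.smul_mul, Matrix.mul_smul, hM]

def toCom (M : ComS K d) : Com K d := ⟨M.1, M.2⟩

theorem ex_smul (c : K) (M : Matrix (JI d) (JI d) K) (l : Fin t) (i : ℕ) (k : Fin t) (j : ℕ) : ex (c • M) l i k j = c * ex M l i k j := by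
  unfold ex
  split_ifs
  · rfl
  · rw [mul_zero]

def phi : ComS K d →ₗ[K] ((a : Fin (Finset.univ.sup d + 1)) → Matrix {k // bb d k = a} {k // bb d k = a} K) where
  toFun M := fun a => blk d (lastA M.1) a
  map_add' M M' := by
    funext a
    ext k l
    exact ex_add M.1 M'.1 _ _ _ _
  map_smul' c M := by
    funext a
    ext k l
    exact ex_smul c M.1 _ _ _ _

theorem phi_surj (hd : ∀ k, 1 ≤ d k) : Function.Surjective (phi (K := K) (d := d)) := by
  intro B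
  obtain ⟨M, hM⟩ := Psi_surj (F := K) hd (fun a => (B a)ᵀ)
  refine ⟨⟨M.1, M.2⟩, ?_⟩
  funext a
  have h := congrFun hM a
  ext k l
  exact congrFun (congrFun h l) k

theorem isUnit_iff_phi (hd : ∀ k, 1 ≤ d k) (M : ComS K d) : IsUnit M.1 ↔ ∀ a, IsUnit (phi M a) := by
  refine Iff.trans (isUnit_iff_Psi hd (toCom M)) ?_
  apply forall_congr'
  intro a
  have h1 : Psi K d (toCom M) a = (phi M a)ᵀ := rfl
  rw [h1, Matrix.isUnit_transpose]

def tau (σ : K →+* K) (Qu : (Matrix (JI d) (JI d) K)ˣ) (hJ : (jordanTypeMatrix d K)ᵀ * Qu.1 * jordanTypeMatrix d K = Qu.1) : ComS K d →+ ComS K d where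
  toFun M := ⟨(Qu⁻¹).1 * st σ M.1 * Qu.1, by
    show (Qu⁻¹).1 * st σ M.1 * Qu.1 * jordanTypeMatrix d K = jordanTypeMatrix d K * ((Qu⁻¹).1 * st σ M.1 * Qu.1)
    have hM : M.1 * jordanTypeMatrix d K = jordanTypeMatrix d K * M.1 := M.2
    have h1 := congrArg (st σ) hM
    rw [st_mul, st_mul, st_jtm] at h1
    have hQQ : Qu.1 * (Qu⁻¹).1 = 1 := by rw [← Units.val_mul, mul_inv_cancel, Units.val_one]
    have h2 : ((jordanTypeMatrix d K)ᵀ * Qu.1) * (jordanTypeMatrix d K * (Qu⁻¹).1) = 1 := by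
      rw [← mul_assoc, hJ, hQQ]
    have h3 := mul_eq_one_comm.mp h2
    have h4 : ((jordanTypeMatrix d K)ᵀ * Qu.1) * ((Qu⁻¹).1 * st σ M.1 * Qu.1 * jordanTypeMatrix d K) =
        ((jordanTypeMatrix d K)ᵀ * Qu.1) * (jordanTypeMatrix d K * ((Qu⁻¹).1 * st σ M.1 * Qu.1)) := by
      calc ((jordanTypeMatrix d K)ᵀ * Qu.1) * ((Qu⁻¹).1 * st σ M.1 * Qu.1 * jordanTypeMatrix d K)
          = ((jordanTypeMatrix d K)ᵀ * (Qu.1 * (Qu⁻¹).1) * st σ M.1) * Qu.1 * jordanTypeMatrix d K := by noncomm_ring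
        _ = st σ M.1 * ((jordanTypeMatrix d K)ᵀ * Qu.1 * jordanTypeMatrix d K) := by rw [hQQ, mul_one, h1]; noncomm_ring
        _ = st σ M.1 * Qu.1 := by rw [hJ]
        _ = (Qu.1 * (Qu⁻¹).1) * st σ M.1 * Qu.1 := by rw [hQQ, one_mul]
        _ = ((jordanTypeMatrix d K)ᵀ * Qu.1 * jordanTypeMatrix d K) * ((Qu⁻¹).1 * st σ M.1 * Qu.1) := by rw [hJ]; noncomm_ring
        _ = _ := by noncomm_ring
    have hun : IsUnit ((jordanTypeMatrix d K)ᵀ * Qu.1) := ⟨⟨_, _, h2, h3⟩, rfl⟩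
    exact hun.mul_left_cancel h4⟩
  map_zero' := by
    apply Subtype.ext
    show (Qu⁻¹).1 * st σ 0 * Qu.1 = 0
    rw [st_zero, mul_zero, zero_mul]
  map_add' M M' := by
    apply Subtype.ext
    show (Qu⁻¹).1 * st σ (M.1 + M'.1) * Qu.1 = (Qu⁻¹).1 * st σ M.1 * Qu.1 + (Qu⁻¹).1 * st σ M'.1 * Qu.1
    rw [st_add, mul_add, add_mul]

def tau' (σ : K →+* K) (hh : (a : Fin (Finset.univ.sup d + 1)) → (Matrix {k // bb d k = a} {k // bb d k = a} K)ˣ) :
    ((a : Fin (Finset.univ.sup d + 1)) → Matrix {k // bb d k = a} {k // bb d k = a} K) →+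
      ((a : Fin (Finset.univ.sup d + 1)) → Matrix {k // bb d k = a} {k // bb d k = a} K) where
  toFun B := fun a => ((hh a)⁻¹).1 * st σ (B a) * (hh a).1
  map_zero' := by
    funext a
    show ((hh a)⁻¹).1 * st σ 0 * (hh a).1 = 0
    rw [st_zero, mul_zero, zero_mul]
  map_add' B B' := by
    funext a
    show ((hh a)⁻¹).1 * st σ (B a + B' a) * (hh a).1 = ((hh a)⁻¹).1 * st σ (B a) * (hh a).1 + ((hh a)⁻¹).1 * st σ (B' a) * (hh a).1
    rw [st_add, mul_add, add_mul]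

theorem herm_count [Fintype K] (hσ2 : ∀ x, σ (σ x) = x) {η : K} (hη : η - σ η ≠ 0) (hd : ∀ k, 1 ≤ d k) (Qu : (Matrix (JI d) (JI d) K)ˣ)
    (hJ : (jordanTypeMatrix d K)ᵀ * Qu.1 * jordanTypeMatrix d K = Qu.1) (hQ : st σ Qu.1 = Qu.1) :
    ∃ c : ℕ, c ^ 2 * Nat.card ((a : Fin (Finset.univ.sup d + 1)) → Matrix {k // bb d k = a} {k // bb d k = a} K) = Nat.card (ComS K d) ∧
      Nat.card {M : ComS K d // st σ M.1 * Qu.1 = Qu.1 * M.1 ∧ IsUnit M.1} =
        (∏ a : Fin (Finset.univ.sup d + 1), Nat.card {X : Matrix (Fin (Fintype.card {k // bb d k = a})) (Fin (Fintype.card {k // bb d k = a})) K //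
          sT (Fintype.card {k // bb d k = a}) σ X = X ∧ IsUnit X}) * c := by
  have hTu : ∀ a, IsUnit (blk d (TT Qu.1) a) := fun a => blk_isUnit (X := TT Qu.1) (fun k l h => TT_tri hd hJ h) (TT_isUnit hd hJ hQ Qu.isUnit) a
  choose hh hhv using hTu
  have hst : ∀ a : Fin (Finset.univ.sup d + 1), st σ (hh a).1 = ((-1 : K) ^ ((a : ℕ) - 1)) • (hh a).1 := by
    intro a
    rw [hhv a]
    exact blk_TT_herm hd hJ hQ a
  have hε : ∀ m : ℕ, ((-1 : K) ^ m) * ((-1 : K) ^ m) = 1 := by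
    intro m
    rw [← mul_pow]
    simp
  obtain ⟨ζ, hζ⟩ := exists_zeta hσ2 hη
  obtain ⟨c, hc1, hc2⟩ := semi_count (V := ComS K d) (W := (a : Fin (Finset.univ.sup d + 1)) → Matrix {k // bb d k = a} {k // bb d k = a} K) hσ2 hη hζ
    (tau σ Qu hJ) (fun M => by
      apply Subtype.ext
      exact invol hσ2 Qu (ε := 1) (by ring) (by rw [one_smul]; exact hQ) M.1)
    (fun k M => by
      apply Subtype.ext
      show (Qu⁻¹).1 * st σ (k • M.1) * Qu.1 = σ k • ((Qu⁻¹).1 * st σ M.1 * Qu.1)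
      rw [st_smul, Matrix.mul_smul, Matrix.smul_mul])
    (tau' σ hh) (fun B => by
      funext a
      exact invol hσ2 (hh a) (hε _) (hst a) (B a))
    (fun k B => by
      funext a
      show ((hh a)⁻¹).1 * st σ (k • B a) * (hh a).1 = σ k • (((hh a)⁻¹).1 * st σ (B a) * (hh a).1)
      rw [st_smul, Matrix.mul_smul, Matrix.smul_mul])
    phi (phi_surj hd) (fun M => by
      funext a
      show blk d (lastA (tau σ Qu hJ M).1) a = ((hh a)⁻¹).1 * st σ (blk d (lastA M.1) a) * (hh a).1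
      have h1 := rel_blk hd hJ hQ (toCom M) (toCom (tau σ Qu hJ M)) (by
        show st σ M.1 * Qu.1 = Qu.1 * ((Qu⁻¹).1 * st σ M.1 * Qu.1)
        rw [← mul_assoc, ← mul_assoc, ← Units.val_mul, mul_inv_cancel, Units.val_one, one_mul]) a
      rw [← hhv a] at h1
      have h2 : (hh a).1 * blk d (lastA (tau σ Qu hJ M).1) a = st σ (blk d (lastA M.1) a) * (hh a).1 := h1
      rw [mul_assoc, ← h2, ← mul_assoc, ← Units.val_mul, inv_mul_cancel, Units.val_one, one_mul])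
  refine ⟨c, hc1, ?_⟩
  have e1 : Nat.card {M : ComS K d // st σ M.1 * Qu.1 = Qu.1 * M.1 ∧ IsUnit M.1} = Nat.card {M : ComS K d // tau σ Qu hJ M = M ∧ ∀ a, IsUnit (phi M a)} := by
    apply Nat.card_congr
    apply Equiv.subtypeEquivRight
    intro M
    rw [isUnit_iff_phi hd M, ← fix_iff Qu M.1]
    constructor
    · rintro ⟨h1, h2⟩
      exact ⟨Subtype.ext h1, h2⟩
    · rintro ⟨h1, h2⟩
      exact ⟨congrArg Subtype.val h1, h2⟩
  rw [e1, hc2 (fun w => ∀ a, IsUnit (w a))]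
  congr 1
  have e2 : Nat.card {w : (a : Fin (Finset.univ.sup d + 1)) → Matrix {k // bb d k = a} {k // bb d k = a} K // tau' σ hh w = w ∧ ∀ a, IsUnit (w a)} =
      Nat.card {w : (a : Fin (Finset.univ.sup d + 1)) → Matrix {k // bb d k = a} {k // bb d k = a} K // ∀ a, (((hh a)⁻¹).1 * st σ (w a) * (hh a).1 = w a ∧ IsUnit (w a))} := by
    apply Nat.card_congr
    apply Equiv.subtypeEquivRight
    intro w
    constructor
    · rintro ⟨h1, h2⟩ a
      exact ⟨congrFun h1 a, h2 a⟩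
    · intro h
      exact ⟨funext fun a => (h a).1, fun a => (h a).2⟩
  rw [e2, Nat.card_congr (Equiv.subtypePiEquivPi (p := fun {a} (B : Matrix {k // bb d k = a} {k // bb d k = a} K) =>
    ((hh a)⁻¹).1 * st σ B * (hh a).1 = B ∧ IsUnit B)), Nat.card_pi]
  apply Finset.prod_congr rfl
  intro a _
  rcases Nat.even_or_odd ((a : ℕ) - 1) with h | h
  · exact card_HG rfl (hh a) (hst a) (ζ := 1) one_ne_zero (by rw [map_one, h.neg_one_pow, mul_one])
  · exact card_HG rfl (hh a) (hst a) (ζ := η - σ η) hη (by rw [map_sub, hσ2, h.neg_one_pow]; ring)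

end comS

end Cfsg.Agent.H17
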