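import Mathlib
import Cfsg.Agent.H17.UcF

set_option autoImplicit false

/-! Order of the centraliser of a unipotent element of the general unitary group. -/

namespace Cfsg.Agent.H17

open Matrix

section main

variable {K : Type*} [Field K] [Fintype K] {q n t : ℕ} {d : Fin t → ℕ}

theorem gu_cent (hK : Fintype.card K = q ^ 2) (hd : ∀ k, 1 ≤ d k) (e : JI d ≃ Fin n) (u : ↥(Cfsg.GU n K q))
    (hu : IsConj (Matrix.reindex e e (jordanTypeMatrix d K)) ((u : GL (Fin n) K) : Matrix (Fin n) (Fin n) K)) :
    ∃ c : ℕ, c ^ 2 * (Fintype.card K) ^ (∑ a : Fin (Finset.univ.sup d + 1), (Finset.univ.filter (fun k : Fin t => d k = a)).card ^ 2) =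
        (Fintype.card K) ^ (∑ l : Fin t, ∑ k : Fin t, min (d k) (d l)) ∧
      Nat.card ↥(Subgroup.centralizer ({u} : Set ↥(Cfsg.GU n K q))) * c ^ 2 =
        c ^ 3 * ∏ a : Fin (Finset.univ.sup d + 1), Nat.card ↥(Cfsg.GU (Finset.univ.filter (fun k : Fin t => d k = a)).card K q) := by
  classical
  obtain ⟨σ, hσ, hσ2, hσ1⟩ := H5.exists_frob hK
  obtain ⟨η, hη⟩ := exists_zK hσ1
  obtain ⟨C, hC⟩ := hu
  have hC' : C.1 * Matrix.reindex e e (jordanTypeMatrix d K) = ((u : GL (Fin n) K) : Matrix (Fin n) (Fin n) K) * C.1 := hC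
  -- rectangular transition matrices
  set A : Matrix (Fin n) (Fin n) K := ((u : GL (Fin n) K) : Matrix (Fin n) (Fin n) K) with hA
  let P : Matrix (Fin n) (JI d) K := C.1.submatrix id e
  let P' : Matrix (JI d) (Fin n) K := (C⁻¹).1.submatrix e id
  have hPP' : P * P' = 1 := by
    have h1 : P * P' = (C.1 * (C⁻¹).1).submatrix id id := Matrix.submatrix_mul_equiv _ _ id e id
    rw [h1, ← Units.val_mul, mul_inv_cancel, Units.val_one, Matrix.submatrix_id_id]
  have hP'P : P' * P = 1 := by
    have h1 : P' * P = ((C⁻¹).1 * C.1).submatrix e e := (Matrix.submatrix_mul_equiv (C⁻¹).1 C.1 e (Equiv.refl _) e)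
    rw [h1, ← Units.val_mul, inv_mul_cancel, Units.val_one, Matrix.submatrix_one_equiv]
  have hPJ : P * jordanTypeMatrix d K = A * P := by
    have h1 : P * jordanTypeMatrix d K = (C.1 * Matrix.reindex e e (jordanTypeMatrix d K)).submatrix id e := by
      have h2 : jordanTypeMatrix d K = (Matrix.reindex e e (jordanTypeMatrix d K)).submatrix e e := by
        ext x y
        simp
      conv_lhs => rw [h2]
      exact Matrix.submatrix_mul_equiv C.1 (Matrix.reindex e e (jordanTypeMatrix d K)) id e e
    rw [h1, hC']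
    exact (Matrix.submatrix_mul_equiv A C.1 id (Equiv.refl _) e).symm
  have hAu : st σ A * A = 1 := (mem_GU_sT hσ hσ2 (u : GL (Fin n) K)).mp u.2
  let Q : Matrix (JI d) (JI d) K := st σ P * P
  have hsPP' : st σ P' * st σ P = 1 := by rw [← st_mul, hPP', st_one]
  have hsP'P : st σ P * st σ P' = 1 := by rw [← st_mul, hP'P, st_one]
  have hQ1 : Q * (P' * st σ P') = 1 := by
    show st σ P * P * (P' * st σ P') = 1
    calc st σ P * P * (P' * st σ P') = st σ P * (P * P') * st σ P' := by simp only [Matrix.mul_assoc]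
      _ = 1 := by rw [hPP', Matrix.mul_one, hsP'P]
  let Qu : (Matrix (JI d) (JI d) K)ˣ := ⟨Q, P' * st σ P', hQ1, mul_eq_one_comm.mp hQ1⟩
  have hQs : st σ Qu.1 = Qu.1 := by
    show st σ (st σ P * P) = st σ P * P
    rw [st_mul, st_st hσ2]
  have hJ : (jordanTypeMatrix d K)ᵀ * Qu.1 * jordanTypeMatrix d K = Qu.1 := by
    show (jordanTypeMatrix d K)ᵀ * (st σ P * P) * jordanTypeMatrix d K = st σ P * P
    rw [← st_jtm (σ := σ)]
    calc st σ (jordanTypeMatrix d K) * (st σ P * P) * jordanTypeMatrix d K = (st σ (jordanTypeMatrix d K) * st σ P) * (P * jordanTypeMatrix d K) := by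
          simp only [Matrix.mul_assoc]
      _ = st σ P * (st σ A * A) * P := by rw [← st_mul, hPJ, st_mul]; simp only [Matrix.mul_assoc]
      _ = st σ P * P := by rw [hAu, Matrix.mul_one]
  -- transport
  let T : Matrix (Fin n) (Fin n) K → Matrix (JI d) (JI d) K := fun c => P' * c * P
  let T' : Matrix (JI d) (JI d) K → Matrix (Fin n) (Fin n) K := fun M => P * M * P'
  have hTT' : ∀ c, T' (T c) = c := by
    intro c
    show P * (P' * c * P) * P' = c
    calc P * (P' * c * P) * P' = (P * P') * c * (P * P') := by simp only [Matrix.mul_assoc]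
      _ = c := by rw [hPP', Matrix.one_mul, Matrix.mul_one]
  have hT'T : ∀ M, T (T' M) = M := by
    intro M
    show P' * (P * M * P') * P = M
    calc P' * (P * M * P') * P = (P' * P) * M * (P' * P) := by simp only [Matrix.mul_assoc]
      _ = M := by rw [hP'P, Matrix.one_mul, Matrix.mul_one]
  have hTmul : ∀ c c', T (c * c') = T c * T c' := by
    intro c c'
    show P' * (c * c') * P = (P' * c * P) * (P' * c' * P)
    calc P' * (c * c') * P = P' * c * (1 * c') * P := by rw [Matrix.one_mul]; simp only [Matrix.mul_assoc]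
      _ = P' * c * ((P * P') * c') * P := by rw [hPP']
      _ = _ := by simp only [Matrix.mul_assoc]
  have hTinj : Function.Injective T := fun c c' h => by rw [← hTT' c, h, hTT']
  have hT1 : T 1 = 1 := by
    show P' * 1 * P = 1
    rw [Matrix.mul_one, hP'P]
  have hTA : T A = jordanTypeMatrix d K := by
    show P' * A * P = _
    rw [Matrix.mul_assoc, ← hPJ, ← Matrix.mul_assoc, hP'P, Matrix.one_mul]
  have hTcom : ∀ c, c * A = A * c ↔ T c * jordanTypeMatrix d K = jordanTypeMatrix d K * T c := by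
    intro c
    rw [← hTA, ← hTmul, ← hTmul]
    exact ⟨fun h => by rw [h], fun h => hTinj h⟩
  have hTun : ∀ c, IsUnit c ↔ IsUnit (T c) := by
    intro c
    constructor
    · rintro ⟨x, rfl⟩
      exact ⟨⟨T x.1, T (x⁻¹).1, by rw [← hTmul, ← Units.val_mul, mul_inv_cancel, Units.val_one, hT1],
        by rw [← hTmul, ← Units.val_mul, inv_mul_cancel, Units.val_one, hT1]⟩, rfl⟩
    · rintro ⟨x, hx⟩
      have h1 : c * T' (x⁻¹).1 = 1 := by
        apply hTinj
        rw [hTmul, hT'T, ← hx, ← Units.val_mul, mul_inv_cancel, Units.val_one, hT1]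
      exact IsUnit.of_mul_eq_one _ h1
  have hTst : ∀ c, st σ c = c ↔ st σ (T c) * Qu.1 = Qu.1 * T c := by
    intro c
    have h1 : st σ (T c) * Qu.1 = st σ P * st σ c * P := by
      show st σ (P' * c * P) * (st σ P * P) = _
      rw [st_mul, st_mul]
      calc st σ P * (st σ c * st σ P') * (st σ P * P) = st σ P * st σ c * (st σ P' * st σ P) * P := by simp only [Matrix.mul_assoc]
        _ = _ := by rw [hsPP', Matrix.mul_one]
    have h2 : Qu.1 * T c = st σ P * c * P := by
      show st σ P * P * (P' * c * P) = _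
      calc st σ P * P * (P' * c * P) = st σ P * (P * P') * c * P := by simp only [Matrix.mul_assoc]
        _ = _ := by rw [hPP', Matrix.mul_one]
    rw [h1, h2]
    constructor
    · intro h; rw [h]
    · intro h
      have h3 : st σ P' * (st σ P * st σ c * P) * P' = st σ P' * (st σ P * c * P) * P' := by rw [h]
      have h4 : ∀ x : Matrix (Fin n) (Fin n) K, st σ P' * (st σ P * x * P) * P' = x := by
        intro x
        calc st σ P' * (st σ P * x * P) * P' = (st σ P' * st σ P) * x * (P * P') := by simp only [Matrix.mul_assoc]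
          _ = x := by rw [hsPP', hPP', Matrix.one_mul, Matrix.mul_one]
      rwa [h4, h4] at h3
  -- counting
  obtain ⟨c, hc1, hc2⟩ := herm_count hσ2 hη hd Qu hJ hQs
  have hcent := card_cent_gu (n := n) hσ hσ2 hσ1 u
  have E1 : Nat.card {x : GL (Fin n) K // (x : Matrix (Fin n) (Fin n) K) * (u : GL (Fin n) K) = (u : GL (Fin n) K) * x} = Nat.card {M : Com K d // IsUnit M.1} := by
    apply Nat.card_congr
    apply Equiv.ofBijective (fun x => (⟨⟨T x.1.1, (hTcom _).mp x.2⟩, (hTun _).mp x.1.isUnit⟩ : {M : Com K d // IsUnit M.1}))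
    constructor
    · intro x x' h
      apply Subtype.ext
      apply Units.ext
      exact hTinj (congrArg (fun y => y.1.1) h)
    · rintro ⟨⟨M, hM⟩, hu⟩
      have h1 : T (T' M) = M := hT'T M
      have h2 : IsUnit (T' M) := by rw [hTun, h1]; exact hu
      obtain ⟨x, hx⟩ := h2
      refine ⟨⟨x, ?_⟩, ?_⟩
      · show x.1 * A = A * x.1
        rw [hTcom, hx, h1]
        exact hM
      · apply Subtype.ext
        apply Subtype.ext
        show T x.1 = M
        rw [hx, h1]
  have E2 : Nat.card {c : Matrix (Fin n) (Fin n) K // (c * (u : GL (Fin n) K) = (u : GL (Fin n) K) * c ∧ sT n σ c = c) ∧ IsUnit c} =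
      Nat.card {M : ComS K d // st σ M.1 * Qu.1 = Qu.1 * M.1 ∧ IsUnit M.1} := by
    apply Nat.card_congr
    apply Equiv.ofBijective (fun x => (⟨⟨T x.1, (hTcom _).mp x.2.1.1⟩, (hTst _).mp x.2.1.2, (hTun _).mp x.2.2⟩ :
      {M : ComS K d // st σ M.1 * Qu.1 = Qu.1 * M.1 ∧ IsUnit M.1}))
    constructor
    · intro x x' h
      apply Subtype.ext
      exact hTinj (congrArg (fun y => y.1.1) h)
    · rintro ⟨⟨M, hM⟩, hM1, hu⟩
      have h1 : T (T' M) = M := hT'T M
      refine ⟨⟨T' M, ⟨?_, ?_⟩, ?_⟩, ?_⟩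
      · show T' M * A = A * T' M
        rw [hTcom, h1]
        exact hM
      · show st σ (T' M) = T' M
        rw [hTst, h1]
        exact hM1
      · rw [hTun, h1]
        exact hu
      · apply Subtype.ext
        apply Subtype.ext
        exact h1
  have hca : ∀ a : Fin (Finset.univ.sup d + 1), Fintype.card {k // bb d k = a} = (Finset.univ.filter (fun k : Fin t => d k = a)).card := by
    intro a
    rw [Fintype.card_subtype]
    congr 1
    ext k
    simp only [Finset.mem_filter, Finset.mem_univ, true_and]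
    exact Fin.ext_iff
  have h5 : Nat.card ((a : Fin (Finset.univ.sup d + 1)) → Matrix {k // bb d k = a} {k // bb d k = a} K) =
      Fintype.card K ^ (∑ a : Fin (Finset.univ.sup d + 1), (Finset.univ.filter (fun k : Fin t => d k = a)).card ^ 2) := by
    rw [Nat.card_pi, ← Finset.prod_pow_eq_pow_sum]
    apply Finset.prod_congr rfl
    intro a _
    rw [Nat.card_eq_fintype_card, ← hca a]
    show Fintype.card ({k // bb d k = a} → {k // bb d k = a} → K) = _
    rw [Fintype.card_fun, Fintype.card_fun, ← pow_mul, pow_two]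
  have h6 : Nat.card (ComS K d) = Fintype.card K ^ (∑ l : Fin t, ∑ k : Fin t, min (d k) (d l)) := by
    rw [← card_Com]
    rfl
  rw [h5, h6] at hc1
  refine ⟨c, hc1, ?_⟩
  rw [E1, E2, hc2] at hcent
  have hu1 := card_Com_units (F := K) hd
  rw [hcent, ← hc1] at hu1
  have hgl : ∀ m : ℕ, ∏ j : Fin m, (Fintype.card K ^ m - Fintype.card K ^ (j : ℕ)) =
      Nat.card {X : Matrix (Fin m) (Fin m) K // sT m σ X = X ∧ IsUnit X} * Nat.card ↥(Cfsg.GU m K q) := by
    intro m
    rw [← card_gl_gu hσ hσ2 hσ1, card_GL_field]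
  rw [Finset.prod_congr rfl (fun a _ => hgl _), Finset.prod_mul_distrib] at hu1
  have h7 : (∏ a : Fin (Finset.univ.sup d + 1), Nat.card {X : Matrix (Fin (Fintype.card {k // bb d k = a})) (Fin (Fintype.card {k // bb d k = a})) K //
          sT (Fintype.card {k // bb d k = a}) σ X = X ∧ IsUnit X}) =
      ∏ a : Fin (Finset.univ.sup d + 1), Nat.card {X : Matrix (Fin (Finset.univ.filter (fun k : Fin t => d k = a)).card) (Fin (Finset.univ.filter (fun k : Fin t => d k = a)).card) K //
          sT (Finset.univ.filter (fun k : Fin t => d k = a)).card σ X = X ∧ IsUnit X} := by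
    apply Finset.prod_congr rfl
    intro a _
    rw [hca a]
  rw [h7] at hu1
  have hHpos : 0 < ∏ a : Fin (Finset.univ.sup d + 1), Nat.card {X : Matrix (Fin (Finset.univ.filter (fun k : Fin t => d k = a)).card) (Fin (Finset.univ.filter (fun k : Fin t => d k = a)).card) K //
          sT (Finset.univ.filter (fun k : Fin t => d k = a)).card σ X = X ∧ IsUnit X} := by
    apply Finset.prod_pos
    intro a _
    haveI : Nonempty {X : Matrix (Fin (Finset.univ.filter (fun k : Fin t => d k = a)).card) (Fin (Finset.univ.filter (fun k : Fin t => d k = a)).card) K //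
          sT (Finset.univ.filter (fun k : Fin t => d k = a)).card σ X = X ∧ IsUnit X} := ⟨⟨1, st_one, isUnit_one⟩⟩
    exact Nat.card_pos
  have hqpos : 0 < Fintype.card K ^ (∑ a : Fin (Finset.univ.sup d + 1), (Finset.univ.filter (fun k : Fin t => d k = a)).card ^ 2) :=
    pow_pos Fintype.card_pos _
  generalize (∏ a : Fin (Finset.univ.sup d + 1), Nat.card {X : Matrix (Fin (Finset.univ.filter (fun k : Fin t => d k = a)).card) (Fin (Finset.univ.filter (fun k : Fin t => d k = a)).card) K //
          sT (Finset.univ.filter (fun k : Fin t => d k = a)).card σ X = X ∧ IsUnit X}) = H at hu1 hHpos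
  generalize Fintype.card K ^ (∑ a : Fin (Finset.univ.sup d + 1), (Finset.univ.filter (fun k : Fin t => d k = a)).card ^ 2) = B at hu1 hqpos
  generalize Nat.card ↥(Subgroup.centralizer ({u} : Set ↥(Cfsg.GU n K q))) = X at hu1 ⊢
  generalize (∏ a : Fin (Finset.univ.sup d + 1), Nat.card ↥(Cfsg.GU (Finset.univ.filter (fun k : Fin t => d k = a)).card K q)) = Y at hu1 ⊢
  have h8 : (H * B) * (X * c) = (H * B) * (c ^ 2 * Y) := by
    calc (H * B) * (X * c) = H * c * X * B := by ring
      _ = H * Y * (c ^ 2 * B) := hu1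
      _ = _ := by ring
  have h9 := Nat.eq_of_mul_eq_mul_left (Nat.mul_pos hHpos hqpos) h8
  calc X * c ^ 2 = (X * c) * c := by ring
    _ = c ^ 2 * Y * c := by rw [h9]
    _ = c ^ 3 * Y := by ring

end main

end Cfsg.Agent.H17
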